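import Mathlib
import Cfsg.Agent.Lib.H86.OutExtraB
import Cfsg.Agent.Lib.H49.OrthAdj
import Cfsg.Agent.Lib.H48.QuadStd

set_option autoImplicit false

/-! Isometries of an orthogonal sum commuting with a fixed-point-free element of prime order on one summand. -/

namespace H33.CoT

open Cfsg H86.OutExtra Matrix QuadraticMap H49.OrthAdj H48.QuadStd

abbrev I0 (m : ℕ) : Type := (Fin m ⊕ Fin m) ⊕ Fin 2
abbrev I1 (m k : ℕ) : Type := I0 m ⊕ Fin k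

abbrev q0 (m : ℕ) : QuadraticForm (ZMod 2) (I0 m → ZMod 2) := qMinus m (ZMod 2) 1 1

structure WD (k p : ℕ) (qW : (Fin k → ZMod 2) → ZMod 2) (a1 : Matrix (Fin k) (Fin k) (ZMod 2)) (w0 : Fin k → ZMod 2) : Prop where
  iso : ∀ w, qW (a1 *ᵥ w) = qW w
  pw : a1 ^ p = 1
  fpf : ∀ w, a1 *ᵥ w = w → w = 0
  orb : ∀ w, w ≠ 0 → qW w = qW w0 → ∃ i : ℕ, w = (a1 ^ i) *ᵥ w0
  ne : w0 ≠ 0
  span : ∀ w, ∃ f : Fin k → ZMod 2, w = ∑ i, f i • ((a1 ^ (i : ℕ)) *ᵥ w0)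
  zero : qW 0 = 0

structure FD (m k : ℕ) (q1 : QuadraticForm (ZMod 2) (I1 m k → ZMod 2)) (qW : (Fin k → ZMod 2) → ZMod 2) : Prop where
  nd : (polarBilin q1).Nondegenerate
  sum : ∀ x w, q1 (Sum.elim x w) = q0 m x + qW w

variable {m k p : ℕ} {q1 : QuadraticForm (ZMod 2) (I1 m k → ZMod 2)} {qW : (Fin k → ZMod 2) → ZMod 2}
  {a1 : Matrix (Fin k) (Fin k) (ZMod 2)} {w0 : Fin k → ZMod 2}

def extM (m k : ℕ) : Matrix (I0 m) (I0 m) (ZMod 2) →* Matrix (I1 m k) (I1 m k) (ZMod 2) where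
  toFun M := fromBlocks M 0 0 1
  map_one' := fromBlocks_one
  map_mul' M N := by rw [fromBlocks_multiply]; simp

theorem extM_mulVec (M : Matrix (I0 m) (I0 m) (ZMod 2)) (x : I0 m → ZMod 2) (w : Fin k → ZMod 2) :
    extM m k M *ᵥ Sum.elim x w = Sum.elim (M *ᵥ x) w := by
  show fromBlocks M 0 0 1 *ᵥ Sum.elim x w = _
  rw [fromBlocks_mulVec]; simp

theorem eta (v : I1 m k → ZMod 2) : ∃ x w, v = Sum.elim x w :=
  ⟨v ∘ Sum.inl, v ∘ Sum.inr, (Sum.elim_comp_inl_inr v).symm⟩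

noncomputable def extG (F : FD m k q1 qW) : G (q0 m) →* G q1 :=
  ((Units.map (extM m k)).comp (Subgroup.subtype _)).codRestrict _ (by
    intro x
    rw [H17.OrthDet.mem_isometryGroup_iff]
    intro v
    obtain ⟨u, w, rfl⟩ := eta v
    show q1 (extM m k (mt x) *ᵥ Sum.elim u w) = _
    rw [extM_mulVec, F.sum, F.sum, isom x])

theorem extG_mulVec (F : FD m k q1 qW) (x : G (q0 m)) (u : I0 m → ZMod 2) (w : Fin k → ZMod 2) :
    mt (extG F x) *ᵥ Sum.elim u w = Sum.elim (mt x *ᵥ u) w := extM_mulVec _ _ _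

theorem exists_a (F : FD m k q1 qW) (W : WD k p qW a1 w0) (hp : 0 < p) :
    ∃ a : G q1, ∀ x w, mt a *ᵥ Sum.elim x w = Sum.elim x (a1 *ᵥ w) := by
  have h1 : a1 * a1 ^ (p - 1) = 1 := by rw [← pow_succ', Nat.sub_add_cancel hp, W.pw]
  have h2 : a1 ^ (p - 1) * a1 = 1 := by rw [← pow_succ, Nat.sub_add_cancel hp, W.pw]
  let U : GL (I1 m k) (ZMod 2) := ⟨fromBlocks 1 0 0 a1, fromBlocks 1 0 0 (a1 ^ (p - 1)),
    by rw [fromBlocks_multiply]; simp [h1], by rw [fromBlocks_multiply]; simp [h2]⟩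
  have hU : ∀ x w, (U : Matrix (I1 m k) (I1 m k) (ZMod 2)) *ᵥ Sum.elim x w = Sum.elim x (a1 *ᵥ w) := by
    intro x w
    show fromBlocks 1 0 0 a1 *ᵥ Sum.elim x w = _
    rw [fromBlocks_mulVec]; simp
  refine ⟨⟨U, ?_⟩, hU⟩
  rw [H17.OrthDet.mem_isometryGroup_iff]
  intro v
  obtain ⟨x, w, rfl⟩ := eta v
  rw [hU, F.sum, F.sum, W.iso]

theorem polar_sum (F : FD m k q1 qW) (x x' : I0 m → ZMod 2) (w w' : Fin k → ZMod 2) :
    polar q1 (Sum.elim x w) (Sum.elim x' w') = polar (q0 m) x x' + (qW (w + w') - qW w - qW w') := by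
  have : (Sum.elim x w : I1 m k → ZMod 2) + Sum.elim x' w' = Sum.elim (x + x') (w + w') := by
    funext i; rcases i with i | i <;> rfl
  rw [polar, this, F.sum, F.sum, F.sum, polar]; ring

theorem nd0 (F : FD m k q1 qW) (W : WD k p qW a1 w0) : ∀ x : I0 m → ZMod 2, (∀ y, polar (q0 m) x y = 0) → x = 0 := by
  intro x hx
  have h1 : (Sum.elim x 0 : I1 m k → ZMod 2) = 0 := by
    apply H48.QuadSplit.nd_iff.2 F.nd
    intro y
    obtain ⟨u, w, rfl⟩ := eta y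
    rw [polar_sum F, hx, zero_add, W.zero]; simp
  funext i
  exact congrFun h1 (Sum.inl i)

section
variable (F : FD m k q1 qW) (W : WD k p qW a1 w0) {a : G q1} (ha : ∀ x w, mt a *ᵥ Sum.elim x w = Sum.elim x (a1 *ᵥ w))
include F W ha

omit F in
theorem fix_iff (v : I1 m k → ZMod 2) : mt a *ᵥ v = v ↔ v ∘ Sum.inr = 0 := by
  obtain ⟨x, w, rfl⟩ := eta v
  rw [ha]
  constructor
  · intro h
    have h1 : a1 *ᵥ w = w := by
      funext i; exact congrFun h (Sum.inr i)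
    rw [W.fpf w h1]; rfl
  · intro h
    have h1 : w = 0 := h
    rw [h1, mulVec_zero]

omit F in
theorem apply_inl {g : G q1} (hg : g * a = a * g) (x : I0 m → ZMod 2) :
    ∃ x' : I0 m → ZMod 2, mt g *ᵥ Sum.elim x 0 = Sum.elim x' (0 : Fin k → ZMod 2) := by
  obtain ⟨x', w', h⟩ := eta (mt g *ᵥ Sum.elim x 0)
  have h1 : mt a *ᵥ (mt g *ᵥ Sum.elim x 0) = mt g *ᵥ Sum.elim x 0 := by
    have h2 : mt a *ᵥ (mt g *ᵥ Sum.elim x 0) = mt g *ᵥ (mt a *ᵥ Sum.elim x 0) := by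
      rw [mulVec_mulVec, mulVec_mulVec, ← mt_mul, ← mt_mul, hg]
    rw [h2, ha, mulVec_zero]
  have h2 := (fix_iff W ha _).1 h1
  rw [h] at h2
  have h3 : w' = 0 := h2
  exact ⟨x', by rw [h, h3]⟩

theorem apply_inr {g : G q1} (hg : g * a = a * g) :
    ∃ i : ℕ, ∀ w, mt g *ᵥ Sum.elim 0 w = Sum.elim (0 : I0 m → ZMod 2) ((a1 ^ i) *ᵥ w) := by
  have hinv : g⁻¹ * a = a * g⁻¹ := by
    rw [inv_mul_eq_iff_eq_mul, ← mul_assoc, hg, mul_inv_cancel_right]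
  have hpol : ∀ u v : I1 m k → ZMod 2, polar q1 (mt g *ᵥ u) (mt g *ᵥ v) = polar q1 u v := by
    intro u v
    rw [polar, polar, ← mulVec_add, isom g, isom g, isom g]
  have key : ∀ w, ∃ w', mt g *ᵥ Sum.elim 0 w = Sum.elim (0 : I0 m → ZMod 2) w' := by
    intro w
    obtain ⟨x', w', h⟩ := eta (mt g *ᵥ Sum.elim 0 w)
    refine ⟨w', ?_⟩
    rw [h]
    have h0 : x' = 0 := by
      apply nd0 F W
      intro y
      obtain ⟨y', hy'⟩ := apply_inl W ha hinv y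
      have h1 : mt g *ᵥ Sum.elim y' 0 = Sum.elim y 0 := by
        rw [← hy', mulVec_mulVec, ← mt_mul, mul_inv_cancel]; exact one_mulVec _
      have h2 := hpol (Sum.elim 0 w) (Sum.elim y' 0)
      rw [h, h1, polar_sum F, polar_sum F, W.zero] at h2
      simpa using h2
    rw [h0]
  obtain ⟨w', hw'⟩ := key w0
  have hq : qW w' = qW w0 := by
    have h1 := isom g (Sum.elim 0 w0)
    rw [hw', F.sum, F.sum] at h1
    simpa using h1
  have hne : w' ≠ 0 := by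
    intro h0
    rw [h0] at hw'
    have h1 : mt g *ᵥ (Sum.elim 0 w0 : I1 m k → ZMod 2) = 0 := by
      rw [hw']; funext i; rcases i with i | i <;> rfl
    have h2 : mt g⁻¹ *ᵥ (mt g *ᵥ (Sum.elim 0 w0 : I1 m k → ZMod 2)) = Sum.elim (0 : I0 m → ZMod 2) w0 := by
      rw [mulVec_mulVec, ← mt_mul, inv_mul_cancel]; exact one_mulVec _
    rw [h1, mulVec_zero] at h2
    apply W.ne
    funext i
    exact (congrFun h2 (Sum.inr i)).symm
  obtain ⟨i, hi⟩ := W.orb w' hne hq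
  refine ⟨i, ?_⟩
  have hpow : ∀ j : ℕ, mt g *ᵥ Sum.elim (0 : I0 m → ZMod 2) ((a1 ^ j) *ᵥ w0) = Sum.elim (0 : I0 m → ZMod 2) ((a1 ^ i) *ᵥ ((a1 ^ j) *ᵥ w0)) := by
    intro j
    induction j with
    | zero => rw [pow_zero, one_mulVec, hw', hi]
    | succ j ih =>
      have h1 : (Sum.elim 0 ((a1 ^ (j + 1)) *ᵥ w0) : I1 m k → ZMod 2) = mt a *ᵥ Sum.elim 0 ((a1 ^ j) *ᵥ w0) := by
        rw [ha, mulVec_mulVec, ← pow_succ']
      have h2 : ∀ v, mt g *ᵥ (mt a *ᵥ v) = mt a *ᵥ (mt g *ᵥ v) := by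
        intro v
        rw [mulVec_mulVec, mulVec_mulVec, ← mt_mul, ← mt_mul, hg]
      have h3 : a1 * (a1 ^ i * a1 ^ j) = a1 ^ i * a1 ^ (j + 1) := by
        rw [← mul_assoc, ← pow_succ', ← pow_add, ← pow_add]; congr 1; ring
      rw [h1, h2, ih, ha]
      simp only [mulVec_mulVec]
      rw [h3]
  intro w
  obtain ⟨f, hf⟩ := W.span w
  have e1 : ∀ (u : Fin k → Fin k → ZMod 2), (Sum.elim 0 (∑ j, f j • u j) : I1 m k → ZMod 2) = ∑ j, f j • (Sum.elim 0 (u j) : I1 m k → ZMod 2) := by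
    intro u
    funext s
    rcases s with s | s
    · simp [Finset.sum_apply]
    · simp [Finset.sum_apply]
  rw [hf, e1, mulVec_sum, mulVec_sum]
  simp_rw [mulVec_smul]
  rw [e1]
  apply Finset.sum_congr rfl
  intro j _
  rw [hpow j]
end

end H33.CoT
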