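import Mathlib
import Cfsg.Agent.Lib.H94.M24Cls

set_option autoImplicit false

/-! The centralizer in `M24` of an element of order 3 without fixed points has order at most 504. -/

namespace H33.M24C3

open Cfsg H8.GolayCode H8.GolayCount H8.GolayBasic H8.M24Mem H8.M24Chain H8.M24Trans H32.M24Kit H32.M24Ext
  H94.M24Enum
open H94.M24Cls (X0 okX0)

def EN : List (ℕ × ℕ × ℕ × ℕ × List ℕ) := [(2, 3, 4, 0x82402f, [0xbdab49ca307b9ac5a928398a418820, 0xbc12ba18ad946c79b11553dc418820, 0xbb5135bdd63160aa1ea964a2418820]), (3, 4, 2, 0x98081b, [0xbbab0b1a9194caa69d2863d6220c20, 0xbc52d83d65351ccb29153ca6220c20, 0xb95166ca6e7ae27832a951a8220c20]), (4, 2, 3, 0xc12017, [0xbceb173e14359672b128549a311020, 0xbad0e29ad39368c8aaa93be0311020, 0xbd1258c9ab7c26a71d1561ac311020]), (5, 11, 22, 0xa02a23, [0xbd06a8bda69d6443b2087093659420, 0xbc9113ceb4124cc5387023db659420, 0xb9a07509327b68e8910364eb659420]), (6, 9, 10, 0x821253, [0xb8e147ce28931a7116d572c8a49820, 0xba2c2a2c8d9c46e79eb02c98a49820,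 0xbb6af1498359105a3a163ce2a49820]), (7, 18, 21, 0x85028b, [0xbcda472e027a4d1515166507591c20, 0xb890a250665c26c746cd2bd3591c20, 0xb9ace53d33a0c45231a88ae1591c20]), (8, 12, 15, 0x841907, [0xb9db51cd65a488eb46095184f62020, 0xb9123b5247308b1aa9b074d6f62020, 0xb9616a98449acea1b92d8d24f62020]), (9, 10, 6, 0x908607, [0xbb2081ae919bc856bad53c84652420, 0xbc6cd448445d187196b074de652420, 0xb92a36cdec90a2e41e162ae8652420]), (10, 6, 9, 0x80254b, [0xbd2c48cda2921e563ab03ac6932820, 0xb8aac22c6f9b687896167490932820, 0xbbe116491458c4e21ed52cda932820]), (11, 22, 5, 0xc20c83, [0xbd466a094d7c52c93a0824ce5b2c20, 0xba51493e3599dae3107060945b2c20, 0xbb61234ce912aa4a310373e25b2c20]), (12, 15, 8, 0xe0900b, [0xbae042d2c23564e3c52d54c687b020, 0xb892724c72a596a2b9b089aa87b020, 0xbc9a539aab98c5122a09752c87b020]), (13, 17, 20, 0x8ea003, [0xbb87042e4714d85a92c9519f48b420, 0xbb128a8a6e33ce4828762ae548b420, 0xb9ed5819ec5c9ca4152320a748b420]), (14, 19, 16, 0xc84303, [0xbac6c2cacfa24c451db5889109b820,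 0xbbdaa6090695971292a33d1309b820, 0xb9aa55512b121e76446d24ad09b820]), (15, 8, 12, 0x8081b3, [0xb8dab950b531eca13a098cc8c43c20, 0xbd932118e3992ae5c5b0550ac43c20, 0xbd6025cc96a14719292d718ec43c20]), (16, 14, 19, 0x81c843, [0xb94764d1ec12d51411b53c8d374020, 0xbb1a8b48caa3ca74c6a32097374020, 0xbaaa94096591984b1c6d8d1f374020]), (17, 20, 13, 0xb30103, [0xbcacc38aaf342657112352d0da4420, 0xbbd2e62d131564a3947621a0da4420, 0xbcc6771a125a1e462ac928aada4420]), (18, 21, 7, 0xa44413, [0xb8ed332dc97aa0c145a82d087ac820, 0xba5a29d0905b865331168bd47ac820, 0xbc10613d43a1131996cd62dc7ac820]), (19, 16, 14, 0x891423, [0xbd9a67d1481312459ea38c8ae84c20, 0xba46f5899691507345b52514e84c20, 0xba2ab348a9a2ad17906d3898e84c20]), (20, 13, 17, 0x907083, [0xbd533799c85b20591076508f16d020, 0xba072988f033aaa796c922d916d020, 0xbc2cf92d9511d049a923299d16d020]), (21, 7, 18, 0xa800c7, [0xbaac91d26e59891815a863c523d420, 0xbb9b04bc44a4d4c1c5162acd23d420, 0xb910382cca789c54b2cd8d2723d420]),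 (22, 5, 11, 0xd40063, [0xb9d1548a917c9446b07074ccb2d820, 0xbc46daccca150ee4920863e4b2d820, 0xbaa096be4799a2cab90320a8b2d820])]
def H21 : List ℕ := [0xbdab49ca307b9ac5a928398a418820, 0xbc12ba18ad946c79b11553dc418820, 0xbb5135bdd63160aa1ea964a2418820, 0xb8e147ce28931a7116d572c8a49820, 0xba2c2a2c8d9c46e79eb02c98a49820, 0xbb6af1498359105a3a163ce2a49820, 0xbd466a094d7c52c93a0824ce5b2c20, 0xba51493e3599dae3107060945b2c20, 0xbb61234ce912aa4a310373e25b2c20, 0xb8dab950b531eca13a098cc8c43c20, 0xbd932118e3992ae5c5b0550ac43c20, 0xbd6025cc96a14719292d718ec43c20, 0xb8ed332dc97aa0c145a82d087ac820, 0xba5a29d0905b865331168bd47ac820, 0xbc10613d43a1131996cd62dc7ac820, 0xbd9a67d1481312459ea38c8ae84c20, 0xba46f5899691507345b52514e84c20, 0xba2ab348a9a2ad17906d3898e84c20, 0xbd533799c85b20591076508f16d020, 0xba072988f033aaa796c922d916d020, 0xbc2cf92d9511d049a923299d16d020]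

def okE (e : ℕ × ℕ × ℕ × ℕ × List ℕ) : Bool :=
  okEnum 23 0 1 e.1 e.2.1 e.2.2.2.1 (fun _ y => Nat.beq y e.2.2.1) e.2.2.2.2 &&
    (Nat.beq e.2.1 (tab X0 e.1) && Nat.beq e.2.2.1 (tab X0 (tab X0 e.1)))

/-- commuting tables -/
def okCX (c : ℕ) : Bool := (List.range 24).all fun i => Nat.beq (tab c (tab X0 i)) (tab X0 (tab c i))

theorem EN_ok : EN.all okE = true := by decide +kernel
theorem EN_cov : ((List.range 24).all fun b => b == 0 || b == 1 || b == 23 || EN.any fun e => e.1 == b) = true := by decide +kernel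
theorem EN_H : (EN.all fun e => e.2.2.2.2.all fun c => !okCX c || H21.contains c) = true := by decide +kernel

theorem okCX_of {c : ℕ} (hc : okTab c = true) (h : pm c * pm X0 = pm X0 * pm c) : okCX c = true := by
  unfold okCX
  rw [List.all_eq_true]
  intro i hi
  rw [List.mem_range] at hi
  have h1 := congrArg (fun f : Equiv.Perm GolayPt => idx (f (pt i))) h
  simp only [Equiv.Perm.mul_apply, pm_idx hc, pm_idx okX0, idx_pt i hi] at h1
  rw [h1]
  exact Nat.beq_refl _

theorem H1 {g : Equiv.Perm GolayPt} (hg : g ∈ M24) (hc : g * pm X0 = pm X0 * g) (h0 : g (pt 0) = pt 0) : ∃ c ∈ H21, g = pm c := by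
  have hX : ∀ p, g (pm X0 p) = pm X0 (g p) := fun p => congrArg (fun f : Equiv.Perm GolayPt => f p) hc
  have hXp : ∀ i < 24, pm X0 (pt i) = pt (tab X0 i) := fun i hi => pm_pt okX0 i hi
  have t0 : pm X0 (pt 0) = pt 1 := by rw [hXp 0 (by norm_num)]; rfl
  have t1 : pm X0 (pt 1) = pt 23 := by rw [hXp 1 (by norm_num)]; rfl
  have t2 : pm X0 (pt 2) = pt 3 := by rw [hXp 2 (by norm_num)]; rfl
  have t3 : pm X0 (pt 3) = pt 4 := by rw [hXp 3 (by norm_num)]; rfl
  have g1 : g (pt 1) = pt 1 := by rw [← t0, hX, h0]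
  have g23 : g (pt 23) = pt 23 := by rw [← t1, hX, g1]
  obtain ⟨b, hb, hb'⟩ : ∃ b < 24, g (pt 2) = pt b := ⟨idx (g (pt 2)), idx_lt _, (pt_idx _).symm⟩
  have hne : ∀ i : ℕ, i < 24 → i ≠ 2 → g (pt i) = pt i → b ≠ i := by
    intro i hi hi2 hgi hbi
    rw [hbi, ← hgi] at hb'
    have := congrArg idx (g.injective hb')
    rw [idx_pt 2 (by norm_num), idx_pt i hi] at this
    exact hi2 this.symm
  have b0 := hne 0 (by norm_num) (by norm_num) h0
  have b1 := hne 1 (by norm_num) (by norm_num) g1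
  have b23 := hne 23 (by norm_num) (by norm_num) g23
  have h1 := List.all_eq_true.1 EN_cov b (List.mem_range.2 hb)
  simp only [Bool.or_eq_true, beq_iff_eq, List.any_eq_true] at h1
  obtain ⟨e, he, heb⟩ : ∃ e ∈ EN, e.1 = b := by
    rcases h1 with ((h1 | h1) | h1) | h1
    · exact absurd h1 b0
    · exact absurd h1 b1
    · exact absurd h1 b23
    · exact h1
  have h2 := List.all_eq_true.1 EN_ok e he
  unfold okE at h2
  rw [Bool.and_eq_true, Bool.and_eq_true] at h2
  obtain ⟨h2, h3, h4⟩ := h2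
  have h3 := Nat.eq_of_beq_eq_true h3
  have h4 := Nat.eq_of_beq_eq_true h4
  rw [heb] at h3 h4
  have g3 : g (pt 3) = pt e.2.1 := by rw [← t2, hX, hb', hXp b hb, h3]
  have hlt : tab X0 b < 24 := tab_lt okX0 hb
  have g4 : g (pt 4) = pt e.2.2.1 := by rw [← t3, hX, g3, h3, hXp _ hlt, h4]
  have hlt2 : tab X0 (tab X0 b) < 24 := tab_lt okX0 hlt
  obtain ⟨c, hcL, hok, rfl⟩ := enum h2 hg g23 h0 g1 (by rw [hb', heb]) g3 (by
    rw [g4, h4, idx_pt _ hlt2]; exact Nat.beq_refl _)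
  have h5 := List.all_eq_true.1 (List.all_eq_true.1 EN_H e he) c hcL
  rw [okCX_of hok hc, Bool.or_eq_true, List.contains_iff_mem] at h5
  rcases h5 with h5 | h5
  · exact Bool.noConfusion h5
  · exact ⟨c, h5, rfl⟩

/-- the centralizer -/
def C : Subgroup (Equiv.Perm GolayPt) := M24 ⊓ Subgroup.centralizer {pm X0}

theorem mem_C {g : Equiv.Perm GolayPt} : g ∈ C ↔ g ∈ M24 ∧ g * pm X0 = pm X0 * g := by
  rw [C, Subgroup.mem_inf, Subgroup.mem_centralizer_singleton_iff]

theorem card_C : Nat.card C ≤ 504 := by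
  classical
  have h1 : Nat.card (MulAction.orbit C (pt 0)) ≤ 24 := by
    have : Nat.card (MulAction.orbit C (pt 0)) ≤ Nat.card GolayPt :=
      Nat.card_le_card_of_injective (Subtype.val : MulAction.orbit C (pt 0) → GolayPt) Subtype.val_injective
    refine this.trans (le_of_eq ?_)
    rw [Nat.card_eq_fintype_card]
    rfl
  have h2 : Nat.card (MulAction.stabilizer C (pt 0)) ≤ 21 := by
    let F : MulAction.stabilizer C (pt 0) → {g : Equiv.Perm GolayPt // g ∈ ((H21.map pm).toFinset : Finset _)} := fun x =>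
      ⟨x.1.1, by
        rw [List.mem_toFinset, List.mem_map]
        obtain ⟨c, hc, h⟩ := H1 (mem_C.1 x.1.2).1 (mem_C.1 x.1.2).2 x.2
        exact ⟨c, hc, h.symm⟩⟩
    have hF : Function.Injective F := by
      intro x y h
      apply Subtype.ext
      apply Subtype.ext
      have h4 : (F x).1 = (F y).1 := by rw [h]
      exact h4
    have h3 := Nat.card_le_card_of_injective F hF
    refine h3.trans ?_
    rw [Nat.card_eq_fintype_card, Fintype.card_coe]
    exact (List.toFinset_card_le _).trans (by rw [List.length_map]; rfl)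
  have h3 : Nat.card (MulAction.orbit C (pt 0)) * Nat.card (MulAction.stabilizer C (pt 0)) = Nat.card C := by
    rw [← Nat.card_prod]
    exact Nat.card_congr (MulAction.orbitProdStabilizerEquivGroup C (pt 0))
  rw [← h3]
  exact (Nat.mul_le_mul h1 h2).trans (by norm_num)

theorem card_CX : Nat.card {g : Equiv.Perm GolayPt // g ∈ M24 ∧ g * pm X0 = pm X0 * g} ≤ 504 := by
  refine le_trans (le_of_eq ?_) card_C
  apply Nat.card_congr
  exact
    { toFun := fun x => ⟨x.1, mem_C.2 x.2⟩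
      invFun := fun x => ⟨x.1, mem_C.1 x.2⟩
      left_inv := fun x => rfl
      right_inv := fun x => rfl }

end H33.M24C3
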