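import Mathlib
import Cfsg.Agent.Lib.H33.M24C3
import Cfsg.Agent.Lib.H32.M24Five

set_option autoImplicit false

/-! The order of the centralizer in `M24` of an element of order 3 without fixed points is not divisible by 27. -/

namespace H33.M24C3

open Cfsg H8.GolayCode H8.GolayCount H8.GolayBasic H8.M24Mem H8.M24Chain H8.M24Trans H32.M24Kit H32.M24Ext
  H94.M24Enum
open H94.M24Cls (X0 okX0)

def E4 : ℕ := 0x2402b780a8a32d199eadbc9ca49862
def E7 : ℕ := 0x222b35c9d6016177c5a13d18a49862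

theorem okE4 : okTab E4 = true := by decide +kernel
theorem okE7 : okTab E7 = true := by decide +kernel
theorem cE4 : okCX E4 = true := by decide +kernel
theorem cE7 : okCX E7 = true := by decide +kernel

theorem comm_of_okCX {c : ℕ} (hc : okTab c = true) (h : okCX c = true) : pm c * pm X0 = pm X0 * pm c := by
  unfold okCX at h
  rw [List.all_eq_true] at h
  apply Equiv.ext
  intro p
  apply idx_injective
  rw [Equiv.Perm.mul_apply, Equiv.Perm.mul_apply, pm_idx hc, pm_idx okX0, pm_idx okX0, pm_idx hc]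
  exact Nat.eq_of_beq_eq_true (h _ (List.mem_range.2 (idx_lt p)))

theorem ord7 : orderOf (pm E7) = 7 := by
  haveI : Fact (Nat.Prime 7) := ⟨by norm_num⟩
  exact orderOf_eq_prime (H32.M24Five.pw okE7 (by decide +kernel)) (H32.M24Five.ne_one okE7 (by decide +kernel))

theorem ord4 : orderOf (pm E4) = 4 := by
  haveI : Fact (Nat.Prime 2) := ⟨by norm_num⟩
  have h1 : pm E4 ^ 2 ^ (1 + 1) = 1 := H32.M24Five.pw okE4 (by decide +kernel)
  have h2 : ¬ pm E4 ^ 2 ^ 1 = 1 := by
    intro h
    have h3 := congrArg (fun f : Equiv.Perm GolayPt => idx (f (pt 23))) h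
    have h4 : idx ((pm E4 ^ 2 ^ 1) (pt 23)) = 10 := by
      rw [pow_one, pow_two, Equiv.Perm.mul_apply, pm_idx okE4, pm_idx okE4, idx_pt 23 (by norm_num)]
      decide +kernel
    have h5 : idx ((1 : Equiv.Perm GolayPt) (pt 23)) = 23 := idx_pt 23 (by norm_num)
    rw [h4, h5] at h3
    omega
  have := orderOf_eq_prime_pow h2 h1
  exact this

theorem not27 : ¬ 27 ∣ Nat.card C := by
  intro h
  have h7 : 7 ∣ Nat.card C := by
    have := orderOf_dvd_natCard (⟨pm E7, mem_C.2 ⟨pm_mem E7, comm_of_okCX okE7 cE7⟩⟩ : C)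
    rwa [Subgroup.orderOf_mk, ord7] at this
  have h4 : 4 ∣ Nat.card C := by
    have := orderOf_dvd_natCard (⟨pm E4, mem_C.2 ⟨pm_mem E4, comm_of_okCX okE4 cE4⟩⟩ : C)
    rwa [Subgroup.orderOf_mk, ord4] at this
  have h1 : 27 * 28 ∣ Nat.card C := by
    apply Nat.Coprime.mul_dvd_of_dvd_of_dvd (by norm_num) h
    exact Nat.Coprime.mul_dvd_of_dvd_of_dvd (by norm_num : Nat.Coprime 4 7) h4 h7
  have h2 := Nat.le_of_dvd Nat.card_pos h1
  have h3 := card_C
  omega

end H33.M24C3
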