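import Mathlib
import Cfsg.Agent.Lib.H9.CoOrder
import Cfsg.Agent.Lib.H9.Co23
import Cfsg.Agent.Lib.H32.OctadStab
import Cfsg.Agent.Lib.H91.M24Inv
import Cfsg.Agent.Lib.H33.Leech1

set_option autoImplicit false

/-! The sign change on an octad in `Co0`: its conjugates negating a frame vector. -/

namespace H33.Oct

open Cfsg Finset H9.Leech H9.ModTwo H9.LatticeIso H9.LeechGood H9.Trans H9.Cross H9.CoOrder H9.Co23
open H8.GolayCode H8.GolayBasic H8.GolayCount MulAction

/-- matrix entries in the standard frame (scaled by 8) -/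
def mt (g : Co0) (p q : GolayPt) : ℤ := ((g • e8 p : leechLattice) : GolayPt → ℤ) q

theorem eight_x (x : leechLattice) : (8 : ℤ) • x = ∑ p, ((x : GolayPt → ℤ) p) • e8 p := by
  apply Subtype.ext
  funext q
  rw [AddSubgroup.coe_zsmul, AddSubgroup.val_finsetSum, Finset.sum_apply]
  simp only [Pi.smul_apply, smul_eq_mul, AddSubgroup.coe_zsmul, coe_e8]
  rw [Finset.sum_eq_single q]
  · simp [mul_comm]
  · intro b _ hb
    simp [hb.symm]
  · simp

theorem eight_smul_coord (g : Co0) (x : leechLattice) (q : GolayPt) :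
    8 * ((g • x : leechLattice) : GolayPt → ℤ) q = ∑ p, (x : GolayPt → ℤ) p * mt g p q := by
  have h1 : (8 : ℤ) • (g • x) = ∑ p, ((x : GolayPt → ℤ) p) • (g • e8 p) := by
    rw [← co0_zsmul, eight_x]
    have h2 : ∀ y : leechLattice, g • y = co0Equiv g y := fun y => rfl
    rw [h2, map_sum]
    refine Finset.sum_congr rfl fun p _ => ?_
    rw [map_zsmul]
    rfl
  have h3 := congrArg (fun y : leechLattice => (y : GolayPt → ℤ) q) h1
  simp only [AddSubgroup.coe_zsmul, AddSubgroup.val_finsetSum, Finset.sum_apply, Pi.smul_apply, smul_eq_mul] at h3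
  exact h3

/-- (eight times) the trace -/
def tr (g : Co0) : ℤ := ∑ p, mt g p p

theorem tr_mul (g h : Co0) : 8 * tr (g * h) = ∑ p, ∑ q, mt h p q * mt g q p := by
  rw [tr, Finset.mul_sum]
  refine Finset.sum_congr rfl fun p _ => ?_
  rw [mt, mul_smul, eight_smul_coord]
  rfl

theorem tr_comm (g h : Co0) : tr (g * h) = tr (h * g) := by
  have h1 := tr_mul g h
  have h2 := tr_mul h g
  rw [Finset.sum_comm] at h2
  have h3 : ∑ p, ∑ q, mt h p q * mt g q p = ∑ y, ∑ x, mt g x y * mt h y x :=
    Finset.sum_congr rfl fun p _ => Finset.sum_congr rfl fun q _ => mul_comm _ _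
  rw [h3, ← h2] at h1
  linarith

theorem tr_conj (g h : Co0) : tr (g * h * g⁻¹) = tr h := by
  rw [tr_comm, ← mul_assoc, inv_mul_cancel, one_mul]

/-- sign changes -/
def es (C : Finset GolayPt) (hC : C ∈ GS) : Co0 := mono 1 M24.one_mem C hC

theorem es_e8 {C : Finset GolayPt} (hC : C ∈ GS) (p : GolayPt) :
    es C hC • e8 p = if p ∈ C then -e8 p else e8 p := mono_e8 _ _ p

theorem e8_apply (p q : GolayPt) : ((e8 p : leechLattice) : GolayPt → ℤ) q = if q = p then 8 else 0 := by
  rw [coe_e8, Pi.single_apply]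

theorem tr_mono {σ : Equiv.Perm GolayPt} (hσ : σ ∈ M24) {c : Finset GolayPt} (hc : c ∈ GS) :
    tr (mono σ hσ c hc) = ∑ p, if σ p = p then (if p ∈ c then (-8 : ℤ) else 8) else 0 := by
  refine Finset.sum_congr rfl fun p _ => ?_
  rw [mt, mono_e8]
  by_cases h : σ p = p
  · rw [if_pos h, h]
    by_cases hp : p ∈ c
    · rw [if_pos hp, if_pos hp]
      show -((e8 p : leechLattice) : GolayPt → ℤ) p = _
      rw [e8_apply, if_pos rfl]
    · rw [if_neg hp, if_neg hp, e8_apply, if_pos rfl]
  · rw [if_neg h]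
    split_ifs
    · show -((e8 (σ p) : leechLattice) : GolayPt → ℤ) p = _
      rw [e8_apply, if_neg (Ne.symm h), neg_zero]
    · rw [e8_apply, if_neg (Ne.symm h)]

theorem tr_es {c : Finset GolayPt} (hc : c ∈ GS) : tr (es c hc) = 8 * (24 - 2 * (c.card : ℤ)) := by
  rw [es, tr_mono]
  have h1 : ∀ p : GolayPt, (if (1 : Equiv.Perm GolayPt) p = p then (if p ∈ c then (-8 : ℤ) else 8) else 0)
      = 8 - 16 * ind c p := by
    intro p
    have h0 : (1 : Equiv.Perm GolayPt) p = p := rfl
    rw [if_pos h0]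
    by_cases hp : p ∈ c
    · simp [ind, hp]
    · simp [ind, hp]
  rw [Finset.sum_congr rfl fun p _ => h1 p, Finset.sum_sub_distrib, ← Finset.mul_sum, sum_ind,
    Finset.sum_const, Finset.card_univ, card_pt]
  simp
  ring

theorem es_sq {c : Finset GolayPt} (hc : c ∈ GS) : es c hc * es c hc = 1 := by
  have h : ∀ p, (es c hc * es c hc) • e8 p = (1 : Co0) • e8 p := by
    intro p
    rw [mul_smul, es_e8, one_smul]
    split_ifs with h
    · rw [co0_neg, es_e8, if_pos h, neg_neg]
    · rw [es_e8, if_neg h]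
  exact H91.LeechTools.ext_fr (fun i => by
    have : (H91.LeechTools.fr i : leechLattice) = e8 i := by
      apply Subtype.ext; funext q
      rw [H91.LeechTools.coe_fr, e8_apply]
    rw [this]; exact h i)

theorem ext_e8 {g h : Co0} (H : ∀ p, g • e8 p = h • e8 p) : g = h :=
  H91.LeechTools.ext_fr (fun i => by
    have : (H91.LeechTools.fr i : leechLattice) = e8 i := by
      apply Subtype.ext; funext q
      rw [H91.LeechTools.coe_fr, e8_apply]
    rw [this]; exact H i)

theorem es_inv {c : Finset GolayPt} (hc : c ∈ GS) : (es c hc)⁻¹ = es c hc :=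
  inv_eq_of_mul_eq_one_left (es_sq hc)

/-- a conjugate of an octad sign change negating a frame vector is an octad sign change -/
theorem conj_es {O : Finset GolayPt} (hO : O ∈ octads) (g : Co0) (p : GolayPt)
    (h : (g * es O hO.1 * g⁻¹) • e8 p = -e8 p) :
    ∃ O', ∃ hO' : O' ∈ octads, p ∈ O' ∧ g * es O hO.1 * g⁻¹ = es O' hO'.1 := by
  set k := g * es O hO.1 * g⁻¹ with hk
  have hkk : k * k = 1 := by
    rw [hk]
    have := es_sq hO.1
    calc g * es O hO.1 * g⁻¹ * (g * es O hO.1 * g⁻¹) = g * (es O hO.1 * es O hO.1) * g⁻¹ := by group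
      _ = 1 := by rw [this]; group
  have hpres : Pres k := by
    rw [pres_iff p, h]
    exact neg_e8_mem_cross p
  obtain ⟨σ, hσ, c, hc, hm⟩ := mono_of_pres hpres
  have h1 : mono σ hσ c hc • e8 p = -e8 p := by rw [← hm]; exact h
  rw [mono_e8] at h1
  have h2 : σ p = p ∧ p ∈ c := by
    by_cases hc' : σ p ∈ c
    · rw [if_pos hc'] at h1
      have h3 := congrArg (fun x : leechLattice => (x : GolayPt → ℤ) p) h1
      have h4 : -((e8 (σ p) : leechLattice) : GolayPt → ℤ) p = -((e8 p : leechLattice) : GolayPt → ℤ) p := h3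
      rw [e8_apply, e8_apply, if_pos rfl] at h4
      have h5 : p = σ p := by
        by_contra hcon
        rw [if_neg hcon] at h4
        omega
      exact ⟨h5.symm, by rw [h5]; exact hc'⟩
    · rw [if_neg hc'] at h1
      have h3 := congrArg (fun x : leechLattice => (x : GolayPt → ℤ) p) h1
      have h4 : ((e8 (σ p) : leechLattice) : GolayPt → ℤ) p = -((e8 p : leechLattice) : GolayPt → ℤ) p := h3
      rw [e8_apply, e8_apply, if_pos rfl] at h4
      split_ifs at h4 <;> omega
  obtain ⟨hsp, hpc⟩ := h2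
  have htr : tr k = 64 := by
    rw [hk, tr_conj, tr_es]
    have : (O.card : ℤ) = 8 := by rw [hO.2]; rfl
    rw [this]; norm_num
  have hss : ∀ q, σ (σ q) = q := by
    intro q
    have h6 : (k * k) • e8 q = e8 q := by rw [hkk, one_smul]
    rw [mul_smul, hm, mono_e8] at h6
    have h7 := congrArg (fun x : leechLattice => (x : GolayPt → ℤ) (σ (σ q))) h6
    rw [e8_apply] at h7
    by_contra hcon
    rw [if_neg hcon] at h7
    by_cases hq : σ q ∈ c
    · rw [if_pos hq, co0_neg, mono_e8] at h7
      split_ifs at h7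
      · have h8 : -(-((e8 (σ (σ q)) : leechLattice) : GolayPt → ℤ) (σ (σ q))) = 0 := h7
        rw [e8_apply, if_pos rfl] at h8; omega
      · have h8 : -((e8 (σ (σ q)) : leechLattice) : GolayPt → ℤ) (σ (σ q)) = 0 := h7
        rw [e8_apply, if_pos rfl] at h8; omega
    · rw [if_neg hq, mono_e8] at h7
      split_ifs at h7
      · have h8 : -((e8 (σ (σ q)) : leechLattice) : GolayPt → ℤ) (σ (σ q)) = 0 := h7
        rw [e8_apply, if_pos rfl] at h8; omega
      · rw [e8_apply, if_pos rfl] at h7; omega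
  have hs1 : σ = 1 := by
    by_contra hne
    rcases H91.M24Inv.fix_cases hσ hss hne with hF | hF
    · rw [hm, tr_mono] at htr
      have h9 : ∀ q, (if σ q = q then (if q ∈ c then (-8 : ℤ) else 8) else 0) ≤
          (if σ q = q then (if q = p then (-8 : ℤ) else 8) else 0) := by
        intro q
        by_cases hq : σ q = q
        · rw [if_pos hq, if_pos hq]
          by_cases hqp : q = p
          · rw [if_pos hqp, hqp, if_pos hpc]
          · rw [if_neg hqp]; split_ifs <;> omega
        · rw [if_neg hq, if_neg hq]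
      have h10 := Finset.sum_le_sum fun q (_ : q ∈ (Finset.univ : Finset GolayPt)) => h9 q
      rw [htr, ← Finset.sum_filter] at h10
      set F := Finset.univ.filter fun q => σ q = q with hFd
      have hpF : p ∈ F := by rw [hFd, Finset.mem_filter]; exact ⟨Finset.mem_univ _, hsp⟩
      rw [← Finset.add_sum_erase F _ hpF, if_pos rfl] at h10
      have h11 : ∑ x ∈ F.erase p, (if x = p then (-8 : ℤ) else 8) = ∑ x ∈ F.erase p, 8 :=
        Finset.sum_congr rfl fun x hx => if_neg (Finset.ne_of_mem_erase hx)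
      rw [h11, Finset.sum_const, Finset.card_erase_of_mem hpF, hF.2] at h10
      norm_num at h10
    · exact hF p hsp
  subst hs1
  have hes : k = es c hc := hm
  rw [hes, tr_es] at htr
  have hcc : c.card = 8 := by omega
  exact ⟨c, ⟨hc, hcc⟩, hpc, hes⟩

end H33.Oct
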