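import Mathlib
import Cfsg.Agent.Lib.H33.Oct1

set_option autoImplicit false

/-! The centralizer in `Co0` of the sign change on an octad: transitivity and order. -/

namespace H33.Oct

open Cfsg Finset H9.Leech H9.ModTwo H9.LatticeIso H9.LeechGood H9.Trans H9.Cross H9.CoOrder H9.Co23
open H8.GolayCode H8.GolayBasic H8.GolayCount MulAction H32.OctadStab

theorem list5 {O : Finset GolayPt} (hO : O ∈ octads) {p : GolayPt} (hp : p ∈ O) :
    ∃ l : List GolayPt, (p :: l).Nodup ∧ l.length = 4 ∧ ∀ x ∈ l, x ∈ O := by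
  refine ⟨(O.erase p).toList.take 4, ?_, ?_, ?_⟩
  · rw [List.nodup_cons]
    constructor
    · intro h
      have := List.mem_of_mem_take h
      rw [Finset.mem_toList] at this
      exact Finset.notMem_erase _ _ this
    · exact List.Nodup.sublist (List.take_sublist _ _) (Finset.nodup_toList _)
  · rw [List.length_take, Finset.length_toList, Finset.card_erase_of_mem hp, hO.2]; rfl
  · intro x hx
    have := List.mem_of_mem_take hx
    rw [Finset.mem_toList] at this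
    exact Finset.mem_of_mem_erase this

/-- `M24` is transitive on flags (point in octad) -/
theorem flag {O O' : Finset GolayPt} (hO : O ∈ octads) (hO' : O' ∈ octads) {p p' : GolayPt} (hp : p ∈ O)
    (hp' : p' ∈ O') : ∃ τ ∈ M24, τ p' = p ∧ O'.image τ = O := by
  obtain ⟨l, h1, h2, h3⟩ := list5 hO hp
  obtain ⟨l', h1', h2', h3'⟩ := list5 hO' hp'
  obtain ⟨τ, hτ, hm⟩ := H33.Leech1.trans_list (p' :: l') (p :: l) h1' h1 (by simp [h2, h2']) (by simp [h2'])
  rw [List.map_cons, List.cons_eq_cons] at hm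
  refine ⟨τ, hτ, hm.1, ?_⟩
  have hI : O'.image τ ∈ octads := (H32.Octad.image_mem_octads hτ).2 hO'
  refine octad_unique hI hO (u := (p :: l).toFinset) ?_ ?_ ?_
  · rw [List.toFinset_card_of_nodup h1, List.length_cons, h2]
  · intro x hx
    rw [List.mem_toFinset, List.mem_cons] at hx
    rcases hx with rfl | hx
    · rw [← hm.1]; exact Finset.mem_image_of_mem _ hp'
    · rw [← hm.2, List.mem_map] at hx
      obtain ⟨y, hy, rfl⟩ := hx
      exact Finset.mem_image_of_mem _ (h3' y hy)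
  · intro x hx
    rw [List.mem_toFinset, List.mem_cons] at hx
    rcases hx with rfl | hx
    · exact hp
    · exact h3 x hx

theorem perm_es (τ : M24) {C D : Finset GolayPt} (hC : C ∈ GS) (hD : D ∈ GS) (h : C.image τ.1 = D) :
    permHom τ * es C hC = es D hD * permHom τ := by
  apply ext_e8
  intro q
  rw [mul_smul, mul_smul, es_e8, permHom_e8, es_e8]
  have hiff : τ.1 q ∈ D ↔ q ∈ C := by
    rw [← h, Finset.mem_image]
    constructor
    · rintro ⟨x, hx, he⟩
      rwa [τ.1.injective he] at hx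
    · intro hq; exact ⟨q, hq, rfl⟩
  by_cases hq : q ∈ C
  · rw [if_pos hq, if_pos (hiff.2 hq), co0_neg, permHom_e8]
  · rw [if_neg hq, if_neg (fun h' => hq (hiff.1 h')), permHom_e8]

/-- the centralizer -/
def CC {O : Finset GolayPt} (hO : O ∈ octads) : Subgroup Co0 := Subgroup.centralizer {es O hO.1}

theorem mem_CC {O : Finset GolayPt} {hO : O ∈ octads} {g : Co0} : g ∈ CC hO ↔ es O hO.1 * g = g * es O hO.1 := by
  rw [CC, Subgroup.mem_centralizer_singleton_iff]
  exact eq_comm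

theorem trans_T {O : Finset GolayPt} (hO : O ∈ octads) {p : GolayPt} (hp : p ∈ O) {u : leechLattice}
    (hu : sqNorm (u : GolayPt → ℤ) = 64) (hE : es O hO.1 • u = -u) : ∃ k ∈ CC hO, k • u = e8 p := by
  obtain ⟨g, hg⟩ := exists_to_e8 hu p
  have h1 : (g * es O hO.1 * g⁻¹) • e8 p = -e8 p := by
    rw [← hg, mul_smul, mul_smul, inv_smul_smul, hE, co0_neg]
  obtain ⟨O', hO', hp', he⟩ := conj_es hO g p h1
  obtain ⟨τ, hτ, ht, hI⟩ := flag hO hO' hp hp'
  refine ⟨permHom ⟨τ, hτ⟩ * g, ?_, ?_⟩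
  · rw [mem_CC]
    have h2 := perm_es ⟨τ, hτ⟩ hO'.1 hO.1 hI
    rw [← mul_assoc, ← h2, ← he]
    group
  · rw [mul_smul, hg, permHom_e8]
    show e8 (τ p) = e8 p
    rw [ht]

theorem orbit_CC {O : Finset GolayPt} (hO : O ∈ octads) {p : GolayPt} (hp : p ∈ O) :
    orbit (CC hO) (e8 p) = {u : leechLattice | sqNorm (u : GolayPt → ℤ) = 64 ∧ es O hO.1 • u = -u} := by
  ext u
  constructor
  · rintro ⟨k, rfl⟩
    refine ⟨?_, ?_⟩
    · show sqNorm ((k.1 • e8 p : leechLattice) : GolayPt → ℤ) = 64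
      rw [← eight_form_self, co0_form, e8_norm]; rfl
    · show es O hO.1 • (k.1 • e8 p) = -(k.1 • e8 p)
      rw [← mul_smul, mem_CC.1 k.2, mul_smul, es_e8, if_pos hp, co0_neg]
  · rintro ⟨h1, h2⟩
    obtain ⟨k, hk, he⟩ := trans_T hO hp h1 h2
    refine ⟨⟨k⁻¹, inv_mem hk⟩, ?_⟩
    show k⁻¹ • e8 p = u
    rw [← he, inv_smul_smul]

theorem card_orb {H : Subgroup Co0} (x : leechLattice) :
    (orbit H x).ncard * Nat.card (stabilizer H x) = Nat.card H := by
  rw [← Nat.card_coe_set_eq, ← Nat.card_prod]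
  exact Nat.card_congr (orbitProdStabilizerEquivGroup H x)

theorem mono_mem_CC {O : Finset GolayPt} (hO : O ∈ octads) {σ : Equiv.Perm GolayPt} (hσ : σ ∈ M24)
    {c : Finset GolayPt} (hc : c ∈ GS) : mono σ hσ c hc ∈ CC hO ↔ O.image σ = O := by
  rw [mem_CC]
  have hkey : ∀ q, (es O hO.1 * mono σ hσ c hc) • e8 q = (mono σ hσ c hc * es O hO.1) • e8 q ↔
      (σ q ∈ O ↔ q ∈ O) := by
    intro q
    have hne : e8 (σ q) ≠ -e8 (σ q) := by
      intro h
      have := congrArg (fun x : leechLattice => (x : GolayPt → ℤ) (σ q)) h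
      have h2 : ((e8 (σ q) : leechLattice) : GolayPt → ℤ) (σ q) = -((e8 (σ q) : leechLattice) : GolayPt → ℤ) (σ q) := this
      rw [e8_apply, if_pos rfl] at h2
      omega
    rw [mul_smul, mul_smul, es_e8, mono_e8]
    by_cases h1 : σ q ∈ c <;> by_cases h2 : σ q ∈ O <;> by_cases h3 : q ∈ O <;>
      simp [h1, h2, h3, co0_neg, mono_e8, es_e8, hne, Ne.symm hne]
  constructor
  · intro h
    have h2 : ∀ q, σ q ∈ O ↔ q ∈ O := fun q => (hkey q).1 (by rw [h])
    apply Finset.eq_of_subset_of_card_le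
    · intro x hx
      rw [Finset.mem_image] at hx
      obtain ⟨y, hy, rfl⟩ := hx
      exact (h2 y).2 hy
    · rw [H32.Octad.card_image]
  · intro h
    apply ext_e8
    intro q
    rw [hkey]
    constructor
    · intro hq
      rw [← h, Finset.mem_image] at hq
      obtain ⟨y, hy, he⟩ := hq
      rwa [σ.injective he] at hy
    · intro hq
      rw [← h]; exact Finset.mem_image_of_mem _ hq

theorem card_NO {O : Finset GolayPt} (hO : O ∈ octads) :
    Nat.card (crossSub ⊓ CC hO : Subgroup Co0) = 4096 * 322560 := by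
  let f : GS × HO O → (crossSub ⊓ CC hO : Subgroup Co0) := fun x =>
    ⟨mono x.2.1 (mem_HO.1 x.2.2).1 x.1.1 x.1.2, pres_mono _ _, (mono_mem_CC hO _ _).2 (mem_HO.1 x.2.2).2⟩
  have hf : Function.Bijective f := by
    constructor
    · rintro ⟨⟨c, hc⟩, ⟨σ, hσ⟩⟩ ⟨⟨c', hc'⟩, ⟨σ', hσ'⟩⟩ h
      have h1 := congrArg Subtype.val h
      obtain ⟨h2, h3⟩ := mono_inj (hσ := (mem_HO.1 hσ).1) (hσ' := (mem_HO.1 hσ').1) (hc := hc) (hc' := hc') h1
      subst h2 h3
      rfl
    · rintro ⟨g, hg1, hg2⟩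
      obtain ⟨σ, hσ, c, hc, rfl⟩ := mono_of_pres hg1
      exact ⟨(⟨c, hc⟩, ⟨σ, mem_HO.2 ⟨hσ, (mono_mem_CC hO hσ hc).1 hg2⟩⟩), rfl⟩
  rw [← Nat.card_congr (Equiv.ofBijective f hf), Nat.card_prod, GS_card, card_HO hO]

theorem e8_ne_neg (p q : GolayPt) : e8 p ≠ -e8 q := by
  intro h
  have h2 : ((e8 p : leechLattice) : GolayPt → ℤ) p = -((e8 q : leechLattice) : GolayPt → ℤ) p :=
    congrArg (fun x : leechLattice => (x : GolayPt → ℤ) p) h
  rw [e8_apply, e8_apply, if_pos rfl] at h2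
  split_ifs at h2 <;> omega

theorem e8_inj {p q : GolayPt} (h : e8 p = e8 q) : p = q := by
  have h2 : ((e8 p : leechLattice) : GolayPt → ℤ) p = ((e8 q : leechLattice) : GolayPt → ℤ) p :=
    congrArg (fun x : leechLattice => (x : GolayPt → ℤ) p) h
  rw [e8_apply, e8_apply, if_pos rfl] at h2
  split_ifs at h2 with h3
  · exact h3
  · omega

/-- the orbit of the monomial part on a frame vector -/
theorem orbit_NO {O : Finset GolayPt} (hO : O ∈ octads) {p : GolayPt} (hp : p ∈ O) :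
    orbit (crossSub ⊓ CC hO : Subgroup Co0) (e8 p) = (fun q => e8 q) '' (O : Set GolayPt) ∪ (fun q => -e8 q) '' (O : Set GolayPt) := by
  have hfl : ∀ q ∈ O, ∃ τ ∈ M24, τ p = q ∧ O.image τ = O := by
    intro q hq
    obtain ⟨τ, h1, h2, h3⟩ := flag hO hO hq hp
    exact ⟨τ, h1, h2, h3⟩
  have he : ∅ ∈ GS := empty_mem
  ext u
  constructor
  · rintro ⟨⟨k, hk1, hk2⟩, rfl⟩
    obtain ⟨σ, hσ, c, hc, rfl⟩ := mono_of_pres hk1
    have h1 := (mono_mem_CC hO hσ hc).1 hk2
    show mono σ hσ c hc • e8 p ∈ _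
    have h2 : σ p ∈ O := by rw [← h1]; exact Finset.mem_image_of_mem _ hp
    rw [mono_e8]
    split_ifs
    · right; exact ⟨σ p, h2, rfl⟩
    · left; exact ⟨σ p, h2, rfl⟩
  · rintro (⟨q, hq, rfl⟩ | ⟨q, hq, rfl⟩)
    · obtain ⟨τ, h1, h2, h3⟩ := hfl q hq
      refine ⟨⟨mono τ h1 ∅ he, pres_mono _ _, (mono_mem_CC hO _ _).2 h3⟩, ?_⟩
      show mono τ h1 ∅ he • e8 p = e8 q
      rw [mono_e8, if_neg (Finset.notMem_empty _), h2]
    · obtain ⟨τ, h1, h2, h3⟩ := hfl q hq
      refine ⟨⟨mono τ h1 O hO.1, pres_mono _ _, (mono_mem_CC hO _ _).2 h3⟩, ?_⟩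
      show mono τ h1 O hO.1 • e8 p = -e8 q
      rw [mono_e8, h2, if_pos (Finset.mem_coe.1 hq)]

theorem orbit_NO_card {O : Finset GolayPt} (hO : O ∈ octads) {p : GolayPt} (hp : p ∈ O) :
    (orbit (crossSub ⊓ CC hO : Subgroup Co0) (e8 p)).ncard = 16 := by
  rw [orbit_NO hO hp, Set.ncard_union_eq, Set.InjOn.ncard_image, Set.InjOn.ncard_image, Set.ncard_coe_finset, hO.2]
  · intro q _ q' _ h
    have : -e8 q = -e8 q' := h
    exact e8_inj (neg_injective this)
  · intro q _ q' _ h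
    exact e8_inj h
  · rw [Set.disjoint_left]
    rintro x ⟨q, _, rfl⟩ ⟨q', _, h⟩
    exact e8_ne_neg q q' h.symm

theorem card_stabC {O : Finset GolayPt} (hO : O ∈ octads) {p : GolayPt} (hp : p ∈ O) :
    Nat.card (stabilizer (CC hO) (e8 p)) = 82575360 := by
  have h1 := card_orb (H := (crossSub ⊓ CC hO : Subgroup Co0)) (e8 p)
  rw [orbit_NO_card hO hp, card_NO hO] at h1
  have h2 : Nat.card (stabilizer (CC hO) (e8 p)) =
      Nat.card (stabilizer (crossSub ⊓ CC hO : Subgroup Co0) (e8 p)) := by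
    refine Nat.card_congr ⟨fun k => ⟨⟨k.1.1, stab_le p k.2, k.1.2⟩, k.2⟩, fun k => ⟨⟨k.1.1, k.1.2.2⟩, k.2⟩,
      fun k => rfl, fun k => rfl⟩
  rw [h2]
  omega

end H33.Oct
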