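import Mathlib

set_option autoImplicit false

/-! Counting integer vectors with given sum of squares and sum modulo 4. -/

namespace H33.OctCnt

open Finset

def cnt (V : List ℤ) : ℕ → ℤ → ℤ → ℕ
  | 0, N, s => if N = 0 ∧ 4 ∣ s then 1 else 0
  | n + 1, N, s => if N < 0 then 0 else (V.map fun a => cnt V n (N - a ^ 2) (s - a)).sum

def F (V : Finset ℤ) (n : ℕ) (N s : ℤ) : Finset (Fin n → ℤ) :=
  (Fintype.piFinset fun _ : Fin n => V).filter fun y => ∑ i, y i ^ 2 = N ∧ (4 : ℤ) ∣ s - ∑ i, y i

theorem mem_F {V : Finset ℤ} {n : ℕ} {N s : ℤ} {y : Fin n → ℤ} :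
    y ∈ F V n N s ↔ (∀ i, y i ∈ V) ∧ ∑ i, y i ^ 2 = N ∧ (4 : ℤ) ∣ s - ∑ i, y i := by
  rw [F, Finset.mem_filter, Fintype.mem_piFinset]

theorem card_step (V : Finset ℤ) (n : ℕ) (N s : ℤ) :
    (F V (n + 1) N s).card = ∑ a ∈ V, (F V n (N - a ^ 2) (s - a)).card := by
  rw [← Finset.card_sigma]
  refine Finset.card_bij' (fun y _ => (⟨y 0, Fin.tail y⟩ : (_ : ℤ) × (Fin n → ℤ)))
    (fun x _ => (Fin.cons x.1 x.2 : Fin (n + 1) → ℤ)) ?_ ?_ ?_ ?_
  · intro y hy
    rw [mem_F] at hy
    rw [Finset.mem_sigma, mem_F]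
    rw [Fin.sum_univ_succ, Fin.sum_univ_succ] at hy
    refine ⟨hy.1 0, fun i => hy.1 i.succ, ?_, ?_⟩
    · show ∑ i : Fin n, y i.succ ^ 2 = N - y 0 ^ 2
      linarith [hy.2.1]
    · show (4 : ℤ) ∣ s - y 0 - ∑ i : Fin n, y i.succ
      have := hy.2.2
      rwa [← sub_sub] at this
  · rintro ⟨a, y⟩ hx
    rw [Finset.mem_sigma, mem_F] at hx
    rw [mem_F]
    obtain ⟨h1, h2, h3, h4⟩ := hx
    refine ⟨?_, ?_, ?_⟩
    · intro i
      refine Fin.cases ?_ ?_ i
      · exact h1
      · intro j; exact h2 j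
    · rw [Fin.sum_univ_succ]
      simp only [Fin.cons_zero, Fin.cons_succ]
      have h3' : ∑ i, y i ^ 2 = N - a ^ 2 := h3
      rw [h3']; ring
    · rw [Fin.sum_univ_succ]
      simp only [Fin.cons_zero, Fin.cons_succ]
      rw [← sub_sub]; exact h4
  · intro y _
    exact Fin.cons_self_tail y
  · rintro ⟨a, y⟩ _
    simp

theorem card_F (V : List ℤ) (hV : V.Nodup) (n : ℕ) : ∀ N s : ℤ, (F V.toFinset n N s).card = cnt V n N s := by
  induction n with
  | zero =>
    intro N s
    rw [cnt]
    split_ifs with h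
    · rw [Finset.card_eq_one]
      refine ⟨fun i => i.elim0, ?_⟩
      rw [Finset.eq_singleton_iff_unique_mem]
      refine ⟨?_, fun y _ => by funext i; exact i.elim0⟩
      rw [mem_F]
      refine ⟨fun i => i.elim0, ?_, ?_⟩
      · rw [Fin.sum_univ_zero, h.1]
      · rw [Fin.sum_univ_zero, sub_zero]; exact h.2
    · rw [Finset.card_eq_zero, Finset.eq_empty_iff_forall_notMem]
      intro y hy
      rw [mem_F, Fin.sum_univ_zero, Fin.sum_univ_zero, sub_zero] at hy
      exact h ⟨hy.2.1.symm, hy.2.2⟩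
  | succ n ih =>
    intro N s
    rw [cnt]
    split_ifs with h
    · rw [Finset.card_eq_zero, Finset.eq_empty_iff_forall_notMem]
      intro y hy
      rw [mem_F] at hy
      have := Finset.sum_nonneg (fun i (_ : i ∈ (Finset.univ : Finset (Fin (n + 1)))) => sq_nonneg (y i))
      linarith [hy.2.1]
    · rw [card_step, List.sum_toFinset _ hV]
      congr 1
      exact List.map_congr_left fun a _ => ih _ _

theorem c1 : cnt [-4, -2, 0, 2, 4] 8 16 0 = 1136 := by decide +kernel
theorem c2 : cnt [-3, -1, 1, 3] 8 16 0 = 1024 := by decide +kernel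
theorem c3 : cnt [-2, 0, 2] 8 8 0 = 112 := by decide +kernel
theorem c4 : cnt [-1, 1] 8 8 0 = 128 := by decide +kernel

/-- the scaled `E8` lattice vectors of square norm `N` -/
def W (N : ℤ) : Set (Fin 8 → ℤ) :=
  {y | ((∀ i, (2 : ℤ) ∣ y i) ∨ (∀ i, ¬ (2 : ℤ) ∣ y i)) ∧ ∑ i, y i ^ 2 = N ∧ (4 : ℤ) ∣ ∑ i, y i}

theorem sq_le_of {y : Fin 8 → ℤ} {N : ℤ} (h : ∑ i, y i ^ 2 = N) (i : Fin 8) : y i ^ 2 ≤ N := by
  rw [← h]
  exact Finset.single_le_sum (f := fun i => y i ^ 2) (fun j _ => sq_nonneg (y j)) (Finset.mem_univ i)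

theorem W16 : (W 16).ncard = 2160 := by
  have h : W 16 = (F [-4, -2, 0, 2, 4].toFinset 8 16 0 ∪ F [-3, -1, 1, 3].toFinset 8 16 0 : Finset (Fin 8 → ℤ)) := by
    ext y
    rw [Finset.mem_coe, Finset.mem_union, mem_F, mem_F]
    constructor
    · rintro ⟨h1 | h1, h2, h3⟩
      · left
        refine ⟨fun i => ?_, h2, by rw [zero_sub]; exact (dvd_neg).2 h3⟩
        have h4 := sq_le_of h2 i
        obtain ⟨k, hk⟩ := h1 i
        have h5 : -4 ≤ y i := by nlinarith
        have h6 : y i ≤ 4 := by nlinarith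
        simp only [List.mem_toFinset, List.mem_cons, List.mem_nil_iff, or_false]
        omega
      · right
        refine ⟨fun i => ?_, h2, by rw [zero_sub]; exact (dvd_neg).2 h3⟩
        have h4 := sq_le_of h2 i
        have hk := h1 i
        have h5 : -4 ≤ y i := by nlinarith
        have h6 : y i ≤ 4 := by nlinarith
        simp only [List.mem_toFinset, List.mem_cons, List.mem_nil_iff, or_false]
        omega
    · rintro (⟨h1, h2, h3⟩ | ⟨h1, h2, h3⟩)
      · refine ⟨Or.inl fun i => ?_, h2, by rw [zero_sub] at h3; exact (dvd_neg).1 h3⟩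
        have := h1 i
        simp only [List.mem_toFinset, List.mem_cons, List.mem_nil_iff, or_false] at this
        omega
      · refine ⟨Or.inr fun i => ?_, h2, by rw [zero_sub] at h3; exact (dvd_neg).1 h3⟩
        have := h1 i
        simp only [List.mem_toFinset, List.mem_cons, List.mem_nil_iff, or_false] at this
        omega
  rw [h, Set.ncard_coe_finset, Finset.card_union_of_disjoint, card_F _ (by decide), card_F _ (by decide), c1, c2]
  rw [Finset.disjoint_left]
  intro y h1 h2
  rw [mem_F] at h1 h2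
  have h3 := h1.1 0
  have h4 := h2.1 0
  simp only [List.mem_toFinset, List.mem_cons, List.mem_nil_iff, or_false] at h3 h4
  omega

theorem W8 : (W 8).ncard = 240 := by
  have h : W 8 = (F [-2, 0, 2].toFinset 8 8 0 ∪ F [-1, 1].toFinset 8 8 0 : Finset (Fin 8 → ℤ)) := by
    ext y
    rw [Finset.mem_coe, Finset.mem_union, mem_F, mem_F]
    constructor
    · rintro ⟨h1 | h1, h2, h3⟩
      · left
        refine ⟨fun i => ?_, h2, by rw [zero_sub]; exact (dvd_neg).2 h3⟩
        have h4 := sq_le_of h2 i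
        obtain ⟨k, hk⟩ := h1 i
        have h5 : -3 < y i := by nlinarith
        have h6 : y i < 3 := by nlinarith
        simp only [List.mem_toFinset, List.mem_cons, List.mem_nil_iff, or_false]
        omega
      · right
        have hodd : ∀ j, 1 ≤ y j ^ 2 := by
          intro j
          have h0 : y j ≠ 0 := fun h0 => h1 j (by rw [h0]; exact dvd_zero _)
          have := sq_pos_of_ne_zero (a := y j) h0
          omega
        have hone : ∀ j, y j ^ 2 = 1 := by
          intro i
          by_contra hne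
          have hlt : 1 < y i ^ 2 := lt_of_le_of_ne (hodd i) (Ne.symm hne)
          have h7 : ∑ _j : Fin 8, (1 : ℤ) < ∑ j, y j ^ 2 :=
            Finset.sum_lt_sum (fun j _ => hodd j) ⟨i, Finset.mem_univ _, hlt⟩
          rw [h2] at h7
          simp at h7
        refine ⟨fun i => ?_, h2, by rw [zero_sub]; exact (dvd_neg).2 h3⟩
        have h8 : (y i - 1) * (y i + 1) = 0 := by have := hone i; nlinarith
        simp only [List.mem_toFinset, List.mem_cons, List.mem_nil_iff, or_false]
        rcases mul_eq_zero.1 h8 with h9 | h9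
        · right; omega
        · left; omega
    · rintro (⟨h1, h2, h3⟩ | ⟨h1, h2, h3⟩)
      · refine ⟨Or.inl fun i => ?_, h2, by rw [zero_sub] at h3; exact (dvd_neg).1 h3⟩
        have := h1 i
        simp only [List.mem_toFinset, List.mem_cons, List.mem_nil_iff, or_false] at this
        omega
      · refine ⟨Or.inr fun i => ?_, h2, by rw [zero_sub] at h3; exact (dvd_neg).1 h3⟩
        have := h1 i
        simp only [List.mem_toFinset, List.mem_cons, List.mem_nil_iff, or_false] at this
        omega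
  rw [h, Set.ncard_coe_finset, Finset.card_union_of_disjoint, card_F _ (by decide), card_F _ (by decide), c3, c4]
  rw [Finset.disjoint_left]
  intro y h1 h2
  rw [mem_F] at h1 h2
  have h3 := h1.1 0
  have h4 := h2.1 0
  simp only [List.mem_toFinset, List.mem_cons, List.mem_nil_iff, or_false] at h3 h4
  omega

end H33.OctCnt
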