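import Mathlib
import Cfsg.Agent.Lib.H33.Oct2
import Cfsg.Agent.Lib.H33.OctCnt

set_option autoImplicit false

/-! The lattice of Leech vectors supported on an octad (a scaled `E8` lattice). -/

namespace H33.Oct

open Cfsg Finset H9.Leech H9.ModTwo H9.LatticeIso H9.LeechGood H9.Trans H9.Cross H9.CoOrder H9.Co23
open H8.GolayCode H8.GolayBasic H8.GolayCount MulAction H32.OctadStab

theorem coe_es {C : Finset GolayPt} (hC : C ∈ GS) (x : leechLattice) (q : GolayPt) :
    ((es C hC • x : leechLattice) : GolayPt → ℤ) q = if q ∈ C then -(x : GolayPt → ℤ) q else (x : GolayPt → ℤ) q := by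
  rw [es, coe_mono]
  rfl

/-- supported on `O` -/
theorem neg_iff {O : Finset GolayPt} (hO : O ∈ octads) (x : leechLattice) :
    es O hO.1 • x = -x ↔ ∀ q ∉ O, (x : GolayPt → ℤ) q = 0 := by
  constructor
  · intro h q hq
    have h1 : ((es O hO.1 • x : leechLattice) : GolayPt → ℤ) q = -(x : GolayPt → ℤ) q :=
      congrArg (fun y : leechLattice => (y : GolayPt → ℤ) q) h
    rw [coe_es, if_neg hq] at h1
    omega
  · intro h
    apply Subtype.ext
    funext q
    rw [coe_es]
    show _ = -(x : GolayPt → ℤ) q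
    by_cases hq : q ∈ O
    · rw [if_pos hq]
    · rw [if_neg hq, h q hq, neg_zero]

theorem sub_octad {O c : Finset GolayPt} (hO : O ∈ octads) (hc : c ∈ GS) (h : c ⊆ O) : c = ∅ ∨ c = O := by
  rcases weight_cases hc with h0 | h0
  · left; exact Finset.card_eq_zero.1 h0
  · right
    apply Finset.eq_of_subset_of_card_le h
    rw [hO.2]
    omega

section
variable {O : Finset GolayPt} (e : Fin 8 ≃ {q // q ∈ O})

theorem sum_O (f : GolayPt → ℤ) (h : ∀ q ∉ O, f q = 0) : ∑ q, f q = ∑ k, f (e k) := by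
  rw [← Finset.sum_subset (Finset.subset_univ O) (fun q _ hq => h q hq), ← Finset.sum_coe_sort]
  exact (Equiv.sum_comp e (fun q : {q // q ∈ O} => f q)).symm

/-- the vector with coordinates `2 y` on `O` -/
def vO (y : Fin 8 → ℤ) : GolayPt → ℤ := fun q => if h : q ∈ O then 2 * y (e.symm ⟨q, h⟩) else 0

theorem vO_apply (y : Fin 8 → ℤ) (k : Fin 8) : vO e y (e k) = 2 * y k := by
  rw [vO, dif_pos (e k).2]
  congr 2
  exact e.symm_apply_apply k

theorem vO_off (y : Fin 8 → ℤ) {q : GolayPt} (h : q ∉ O) : vO e y q = 0 := by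
  rw [vO, dif_neg h]

theorem vO_ext {x : GolayPt → ℤ} {y : Fin 8 → ℤ} (h1 : ∀ k, x (e k) = 2 * y k) (h2 : ∀ q ∉ O, x q = 0) :
    x = vO e y := by
  funext q
  by_cases hq : q ∈ O
  · have := h1 (e.symm ⟨q, hq⟩)
    rw [e.apply_symm_apply] at this
    rw [vO, dif_pos hq]
    exact this
  · rw [vO_off e y hq, h2 q hq]

/-- the condition defining the lattice -/
def OkE (y : Fin 8 → ℤ) : Prop := ((∀ i, (2 : ℤ) ∣ y i) ∨ (∀ i, ¬ (2 : ℤ) ∣ y i)) ∧ (4 : ℤ) ∣ ∑ i, y i

theorem ind_image_card : ∑ k, ind O (e k) = 8 := by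
  have : ∀ k, ind O (e k : GolayPt) = 1 := fun k => by simp [ind, (e k).2]
  simp [this]

theorem vO_mem (hO : O ∈ octads) {y : Fin 8 → ℤ} (h : OkE y) : vO e y ∈ leechLattice := by
  obtain ⟨h1, h2⟩ := h
  have key : ∀ (w : Fin 8 → ℤ) (c : Finset GolayPt), c ∈ GS → (∀ k, y k = ind c (e k) + 2 * w k) →
      (∀ q ∉ O, ind c q = 0) → (∃ m, ∑ k, w k = 2 * m) → vO e y ∈ leechLattice := by
    intro w c hc hy hoff hw
    have hR : Rep (vO e y) 0 c (fun q => if h : q ∈ O then w (e.symm ⟨q, h⟩) else 0) := by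
      refine ⟨hc, ?_, ?_⟩
      · intro q
        by_cases hq : q ∈ O
        · rw [vO, dif_pos hq, dif_pos hq, hy, e.apply_symm_apply]
          ring
        · rw [vO_off e y hq, dif_neg hq, hoff q hq]; ring
      · obtain ⟨m, hm⟩ := hw
        refine ⟨m, ?_⟩
        rw [zero_add, ← hm, sum_O e _ (fun q hq => dif_neg hq)]
        refine Finset.sum_congr rfl fun k _ => ?_
        rw [dif_pos (e k).2]
        congr 1
        exact e.symm_apply_apply k
    exact hR.mem_leech
  rcases h1 with h1 | h1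
  · choose w hw using h1
    refine key w ∅ empty_mem (fun k => by rw [hw k]; simp [ind]) (fun q _ => by simp [ind]) ?_
    simp only [hw, ← Finset.mul_sum] at h2
    obtain ⟨m, hm⟩ := h2
    exact ⟨m, by linarith⟩
  · have h3 : ∀ k, ∃ w, y k = 1 + 2 * w := fun k => ⟨(y k - 1) / 2, by have := h1 k; omega⟩
    choose w hw using h3
    refine key w O hO.1 (fun k => by rw [hw k]; simp [ind, (e k).2]) (fun q hq => by simp [ind, hq]) ?_
    simp only [hw, Finset.sum_add_distrib, ← Finset.mul_sum] at h2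
    obtain ⟨m, hm⟩ := h2
    simp at hm
    exact ⟨m - 2, by linarith⟩

theorem exists_y (hO : O ∈ octads) {x : leechLattice} (h : ∀ q ∉ O, (x : GolayPt → ℤ) q = 0) :
    ∃ y : Fin 8 → ℤ, OkE y ∧ (x : GolayPt → ℤ) = vO e y := by
  have hoff : ∃ q, q ∉ O := by
    by_contra hcon
    push Not at hcon
    have : (Finset.univ : Finset GolayPt) = O := by ext q; simp [hcon q]
    have h8 := hO.2
    rw [← this, Finset.card_univ, card_pt] at h8
    omega
  rcases exists_rep x.2 with ⟨c, w, hR⟩ | ⟨c, w, hR⟩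
  · have hc : c ⊆ O := by
      intro q hq
      by_contra hqO
      have h1 := hR.eq q
      rw [h q hqO] at h1
      have : ind c q = 1 := by simp [ind, hq]
      rw [this] at h1
      omega
    have hw : ∀ q ∉ O, w q = 0 := by
      intro q hq
      have h1 := hR.eq q
      have h2 : ind c q = 0 := by
        have : q ∉ c := fun h' => hq (hc h')
        simp [ind, this]
      rw [h q hq, h2] at h1
      omega
    obtain ⟨m, hm⟩ := hR.par
    rw [zero_add, sum_O e w hw] at hm
    rcases sub_octad hO hR.mem hc with rfl | rfl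
    · refine ⟨fun k => 2 * w (e k), ⟨Or.inl fun k => Dvd.intro _ rfl, ?_⟩, vO_ext e (fun k => ?_) h⟩
      · rw [← Finset.mul_sum, hm]; exact ⟨m, by ring⟩
      · rw [hR.eq]; simp [ind]; ring
    · refine ⟨fun k => 1 + 2 * w (e k), ⟨Or.inr fun k => by show ¬ (2 : ℤ) ∣ 1 + 2 * w (e k); omega, ?_⟩, vO_ext e (fun k => ?_) h⟩
      · rw [Finset.sum_add_distrib, ← Finset.mul_sum, hm]
        simp
        exact ⟨2 + m, by ring⟩
      · rw [hR.eq]; simp [ind, (e k).2]; ring
  · obtain ⟨q, hq⟩ := hoff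
    have h1 := hR.eq q
    rw [h q hq] at h1
    omega

theorem dot_vO (y y' : Fin 8 → ℤ) : dotInt (vO e y) (vO e y') = 4 * ∑ k, y k * y' k := by
  rw [dotInt, sum_O e _ (fun q hq => by rw [vO_off e y hq, zero_mul]), Finset.mul_sum]
  refine Finset.sum_congr rfl fun k _ => ?_
  rw [vO_apply, vO_apply]; ring

theorem norm_vO (y : Fin 8 → ℤ) : sqNorm (vO e y) = 4 * ∑ k, y k ^ 2 := by
  rw [sqNorm, sum_O e _ (fun q hq => by rw [vO_off e y hq]; norm_num), Finset.mul_sum]
  refine Finset.sum_congr rfl fun k _ => ?_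
  rw [vO_apply]; ring

theorem vO_inj {y y' : Fin 8 → ℤ} (h : vO e y = vO e y') : y = y' := by
  funext k
  have := congrFun h (e k)
  rw [vO_apply, vO_apply] at this
  omega

include e in
theorem ncard_MO (hO : O ∈ octads) (N : ℤ) :
    {u : leechLattice | sqNorm (u : GolayPt → ℤ) = 4 * N ∧ es O hO.1 • u = -u}.ncard = (H33.OctCnt.W N).ncard := by
  have h : (fun u : leechLattice => (u : GolayPt → ℤ)) '' {u : leechLattice | sqNorm (u : GolayPt → ℤ) = 4 * N ∧ es O hO.1 • u = -u}
      = vO e '' H33.OctCnt.W N := by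
    ext x
    constructor
    · rintro ⟨u, ⟨h1, h2⟩, rfl⟩
      obtain ⟨y, hy, he⟩ := exists_y e hO ((neg_iff hO u).1 h2)
      refine ⟨y, ⟨hy.1, ?_, hy.2⟩, he.symm⟩
      rw [he, norm_vO] at h1
      linarith
    · rintro ⟨y, ⟨h1, h2, h3⟩, rfl⟩
      refine ⟨⟨vO e y, vO_mem e hO ⟨h1, h3⟩⟩, ⟨?_, ?_⟩, rfl⟩
      · show sqNorm (vO e y) = _
        rw [norm_vO, h2]
      · rw [neg_iff hO]
        intro q hq
        exact vO_off e y hq
  rw [← Set.ncard_image_of_injective _ (Subtype.val_injective : Function.Injective (fun u : leechLattice => (u : GolayPt → ℤ))), h,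
    Set.ncard_image_of_injective _ (fun a b hab => vO_inj e hab)]
end

theorem exists_e {O : Finset GolayPt} (hO : O ∈ octads) : Nonempty (Fin 8 ≃ {q // q ∈ O}) := by
  have h := Fintype.card_coe O
  rw [hO.2] at h
  exact ⟨(Fintype.equivFinOfCardEq h).symm⟩

theorem card_CC {O : Finset GolayPt} (hO : O ∈ octads) : Nat.card (CC hO) = 178362777600 := by
  obtain ⟨e⟩ := exists_e hO
  have hne : O.Nonempty := by rw [← Finset.card_pos, hO.2]; norm_num
  obtain ⟨p, hp⟩ := hne
  have h := card_orb (H := CC hO) (e8 p)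
  rw [orbit_CC hO hp, card_stabC hO hp] at h
  have h2 := ncard_MO e hO 16
  rw [H33.OctCnt.W16] at h2
  have h3 : (4 : ℤ) * 16 = 64 := by norm_num
  rw [h3] at h2
  rw [h2] at h
  rw [← h]

end H33.Oct
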