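import Mathlib
import Cfsg.Agent.S5615
import Cfsg.Agent.Lib.H33.Oct3
import Cfsg.Agent.Lib.H9.OctadStab

set_option autoImplicit false

/-! The pointwise stabilizer of the frame vectors of an octad. -/

namespace H33.Oct

open Cfsg Finset H9.Leech H9.ModTwo H9.LatticeIso H9.LeechGood H9.Trans H9.Cross H9.CoOrder H9.Co23
open H8.GolayCode H8.GolayBasic H8.GolayCount MulAction H32.OctadStab H32.Octad H32.M24Kit
open scoped Pointwise

/-- the pointwise stabilizer of the frame vectors of an octad -/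
def KO (O : Finset GolayPt) : Subgroup Co0 where
  carrier := {g | ∀ p ∈ O, g • e8 p = e8 p}
  mul_mem' := by
    intro a b ha hb p hp
    rw [mul_smul, hb p hp, ha p hp]
  one_mem' := fun p _ => one_smul _ _
  inv_mem' := by
    intro a ha p hp
    rw [inv_smul_eq_iff, ha p hp]

theorem mem_KO {O : Finset GolayPt} {g : Co0} : g ∈ KO O ↔ ∀ p ∈ O, g • e8 p = e8 p := Iff.rfl

theorem mono_mem_KO {O : Finset GolayPt} {σ : Equiv.Perm GolayPt} (hσ : σ ∈ M24)
    {c : Finset GolayPt} (hc : c ∈ GS) : mono σ hσ c hc ∈ KO O ↔ σ ∈ EO O ∧ ∀ p ∈ c, p ∉ O := by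
  rw [mem_KO]
  constructor
  · intro h
    have h1 : ∀ p ∈ O, σ p = p ∧ p ∉ c := by
      intro p hp
      have h2 := h p hp
      rw [mono_e8] at h2
      split_ifs at h2 with h3
      · exact absurd h2.symm (e8_ne_neg _ _)
      · have h4 := e8_inj h2
        rw [h4] at h3
        exact ⟨h4, h3⟩
    exact ⟨mem_EO.2 ⟨hσ, fun p hp => (h1 p hp).1⟩, fun p hp hO => (h1 p hO).2 hp⟩
  · rintro ⟨h1, h2⟩ p hp
    rw [mono_e8, (mem_EO.1 h1).2 p hp, if_neg (fun h3 => h2 p h3 hp)]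

theorem KO_exists {O : Finset GolayPt} (hO : O ∈ octads) {g : Co0} (hg : g ∈ KO O) :
    ∃ σ, ∃ hσ : σ ∈ M24, ∃ c, ∃ hc : c ∈ GS, g = mono σ hσ c hc ∧ σ ∈ EO O ∧ ∀ p ∈ c, p ∉ O := by
  obtain ⟨p, hp⟩ := octad_nonempty hO
  obtain ⟨σ, hσ, c, hc, rfl⟩ := mono_of_pres (stab_le p (mem_stabilizer_iff.2 (hg p hp)))
  exact ⟨σ, hσ, c, hc, rfl, (mono_mem_KO hσ hc).1 hg⟩

/-- the number of codewords off an octad -/
theorem ncard_off {O : Finset GolayPt} (hO : O ∈ octads) : {c | c ∈ GS ∧ ∀ p ∈ c, p ∉ O}.ncard = 32 := by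
  obtain ⟨g, hg, h⟩ := H8.M24Trans.octad_trans hO o0_mem
  have h2 : cntB (fun n => Nat.beq (pop (o0 &&& n)) 0) basisL 0 = 32 := by decide +kernel
  rw [← h2, ← ncard_GS, ncard_transport g (fun c => c ∈ GS ∧ ∀ p ∈ c, p ∉ O) (fun c => c ∈ GS ∧ (fs o0 ∩ c).card = 0)]
  · congr 1
    ext s
    simp only [Set.mem_setOf_eq]
    have h2 : (fs o0 ∩ s).card = pop (o0 &&& msk s) := by
      rw [card_eq_pop, msk_inter, msk_fs (by norm_num [o0])]
    rw [h2, Nat.beq_eq]
  · intro s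
    rw [image_mem_GS hg, ← h, ← image_inter, card_image, Finset.card_eq_zero, Finset.eq_empty_iff_forall_notMem]
    simp only [Finset.mem_inter, not_and]
    constructor
    · rintro ⟨h1, h2⟩; exact ⟨h1, fun p hp h3 => h2 p h3 hp⟩
    · rintro ⟨h1, h2⟩; exact ⟨h1, fun p hp h3 => h2 p h3 hp⟩

theorem card_KO {O : Finset GolayPt} (hO : O ∈ octads) : Nat.card (KO O) = 512 := by
  let f : EO O × {c // c ∈ {c | c ∈ GS ∧ ∀ p ∈ c, p ∉ O}} → KO O := fun x =>
    ⟨mono x.1.1 (mem_EO.1 x.1.2).1 x.2.1 x.2.2.1, (mono_mem_KO _ _).2 ⟨x.1.2, x.2.2.2⟩⟩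
  have hf : Function.Bijective f := by
    constructor
    · rintro ⟨⟨σ, hσ⟩, ⟨c, hc⟩⟩ ⟨⟨σ', hσ'⟩, ⟨c', hc'⟩⟩ h
      have h1 := congrArg Subtype.val h
      obtain ⟨h2, h3⟩ := mono_inj (hσ := (mem_EO.1 hσ).1) (hσ' := (mem_EO.1 hσ').1) (hc := hc.1) (hc' := hc'.1) h1
      subst h2 h3
      rfl
    · rintro ⟨g, hg⟩
      obtain ⟨σ, hσ, c, hc, rfl, h1, h2⟩ := KO_exists hO hg
      exact ⟨(⟨σ, h1⟩, ⟨c, hc, h2⟩), rfl⟩
  rw [← Nat.card_congr (Equiv.ofBijective f hf), Nat.card_prod, card_EO hO, Nat.card_coe_set_eq, ncard_off hO]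

/-- codewords off an octad separate the points -/
theorem sep {O : Finset GolayPt} (hO : O ∈ octads) {q q' : GolayPt} (hq : q ∉ O) (hq' : q' ∉ O) (hne : q ≠ q') :
    ∃ c ∈ octads, (∀ p ∈ c, p ∉ O) ∧ q ∈ c ∧ q' ∉ c := by
  obtain ⟨g, hg, h⟩ := H8.M24Trans.octad_trans hO o0_mem
  have hoff : ∀ r, r ∈ O ↔ g r ∈ fs o0 := by
    intro r
    rw [← h, Finset.mem_image]
    constructor
    · intro hr; exact ⟨r, hr, rfl⟩
    · rintro ⟨x, hx, he⟩
      rwa [g.injective he] at hx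
  obtain ⟨k, hk, h1, h1'⟩ := E_std (fun h' => hq ((hoff q).2 h'))
  -- f = k⁻¹ g maps O to fs o0, q to pt 4
  set f := k⁻¹ * g with hf
  have hfM : f ∈ M24 := M24.mul_mem (M24.inv_mem hk) hg
  have hfq : f q = pt 4 := by
    rw [hf, Equiv.Perm.mul_apply, Equiv.Perm.inv_eq_iff_eq, h1']
  have hkk : ∀ r, r ∈ fs o0 ↔ k r ∈ fs o0 := by
    intro r
    constructor
    · intro hr; rw [h1 r hr]; exact hr
    · intro hr
      have h2 := h1 _ hr
      rw [k.injective h2] at hr
      exact hr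
  have hfO : ∀ r, r ∈ O ↔ f r ∈ fs o0 := by
    intro r
    rw [hkk, hf, Equiv.Perm.mul_apply, show k (k⁻¹ (g r)) = g r from k.apply_symm_apply _]
    exact hoff r
  have hne' : f q' ≠ pt 4 := by
    rw [← hfq]
    intro h'
    exact hne (f.injective h').symm
  have hL : ∀ i < 24, Nat.testBit o0 i = false → i ≠ 4 → ∃ n ∈ Cfsg.Agent.S5615.TA, n.testBit 4 = true ∧ n.testBit i = false := by
    decide +kernel
  have hT : ∀ n ∈ Cfsg.Agent.S5615.TA, n < 2 ^ 24 ∧ cw (n % 4096) = n ∧ pop n = 8 ∧ o0 &&& n = 0 := by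
    decide +kernel
  have hid : idx (f q') ≠ 4 := by
    intro h'
    apply hne'
    rw [← h', pt_idx]
  have hb : Nat.testBit o0 (idx (f q')) = false := by
    have := (hfO q').not.1 hq'
    rw [mem_fs] at this
    simpa using this
  obtain ⟨n, hn, hn4, hni⟩ := hL _ (idx_lt _) hb hid
  obtain ⟨n1, n2, n3, n4⟩ := hT n hn
  have hfs : fs n ∈ octads := ⟨fs_mem_GS n1 n2, by rw [card_fs n1, n3]⟩
  have him : ∀ r, r ∈ (fs n).image ⇑(f⁻¹) ↔ f r ∈ fs n := by
    intro r
    rw [Finset.mem_image]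
    constructor
    · rintro ⟨x, hx, rfl⟩
      rwa [show f (f⁻¹ x) = x from f.apply_symm_apply _]
    · intro hr
      exact ⟨f r, hr, f.symm_apply_apply _⟩
  refine ⟨(fs n).image ⇑(f⁻¹), (image_mem_octads (M24.inv_mem hfM)).2 hfs, ?_, ?_, ?_⟩
  · intro p hp hpO
    rw [him] at hp
    have h2 : f p ∈ fs o0 ∩ fs n := Finset.mem_inter.2 ⟨(hfO p).1 hpO, hp⟩
    rw [fs_inter, n4, mem_fs] at h2
    simp at h2
  · rw [him, hfq, mem_fs, show idx (pt 4) = 4 by decide +kernel]
    exact hn4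
  · rw [him, mem_fs, hni]
    simp

/-- a translation maps a codeword off the octad to itself or its complement -/
theorem EO_move {O : Finset GolayPt} (hO : O ∈ octads) {σ : Equiv.Perm GolayPt} (hσ : σ ∈ EO O) {c : Finset GolayPt}
    (hc : c ∈ GS) (hcO : ∀ p ∈ c, p ∉ O) : (∀ p, σ p ∈ c ↔ p ∈ c) ∨ (∀ p, p ∉ O → (σ p ∈ c ↔ p ∉ c)) := by
  have hσM := (mem_EO.1 hσ).1
  have hcO' : c ⊆ Oᶜ := fun p hp => Finset.mem_compl.2 (hcO p hp)
  have hoff : ∀ p, σ p ∈ O ↔ p ∈ O := by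
    intro p
    have := (mem_HO.1 (EO_le_HO O hσ)).2
    constructor
    · intro h
      rw [← this, Finset.mem_image] at h
      obtain ⟨y, hy, he⟩ := h
      rwa [σ.injective he] at hy
    · intro h
      rw [← this]; exact Finset.mem_image_of_mem _ h
  have hO16 : (Oᶜ).card = 16 := by
    rw [Finset.card_compl, card_pt, hO.2]
  have himg : ∀ p, σ p ∈ c.image σ ↔ p ∈ c := by
    intro p
    rw [Finset.mem_image]
    constructor
    · rintro ⟨x, hx, he⟩
      rwa [← σ.injective he]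
    · intro hp; exact ⟨p, hp, rfl⟩
  rcases weight_cases hc with h0 | h8 | h12 | h16 | h24
  · rw [Finset.card_eq_zero] at h0
    subst h0
    left; intro p; simp
  · have hdis : Disjoint O c := by
      rw [Finset.disjoint_left]
      intro p hp hpc
      exact hcO p hpc hp
    have hT : trio O c ∈ Cfsg.Agent.S5615.TO O := ⟨trio_mem hO ⟨hc, h8⟩ hdis, by rw [trio]; simp⟩
    have h1 := Cfsg.Agent.S5615.E_fix hO hσ hT
    have h2 : c.image σ ∈ trio O c := by
      rw [← h1]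
      exact Finset.smul_mem_smul_finset (a := σ) (by rw [trio]; simp)
    rw [trio] at h2
    simp only [Finset.mem_insert, Finset.mem_singleton] at h2
    rcases h2 with h2 | h2 | h2
    · exfalso
      obtain ⟨p, hp⟩ := octad_nonempty ⟨hc, h8⟩
      have h3 := (himg p).2 hp
      rw [h2, hoff] at h3
      exact hcO p hp h3
    · left
      intro p
      rw [← himg p, h2]
    · right
      intro p hp
      rw [← himg p, h2, Finset.mem_compl, Finset.mem_union, not_not]
      exact ⟨Or.inr, fun h => h.resolve_left (fun h' => hp ((hoff p).1 h'))⟩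
  · exfalso
    have h3 : symmDiff O c ∈ GS := symmDiff_mem hO.1 hc
    have h4 : (symmDiff O c).card = 20 := by
      have hd : Disjoint O c := by
        rw [Finset.disjoint_left]
        intro p hp hpc
        exact hcO p hpc hp
      have : symmDiff O c = O ∪ c := by
        rw [hd.symmDiff_eq_sup]; rfl
      rw [this, Finset.card_union_of_disjoint hd, hO.2, h12]
    rcases weight_cases h3 with h | h | h | h | h <;> omega
  · left
    have : c = Oᶜ := Finset.eq_of_subset_of_card_le hcO' (by omega)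
    intro p
    rw [this, Finset.mem_compl, Finset.mem_compl, hoff]
  · exfalso
    have := Finset.card_le_card hcO'
    omega

/-- the central involution -/
theorem compl_mem {O : Finset GolayPt} (hO : O ∈ octads) : Oᶜ ∈ GS := by
  have h := symmDiff_mem hO.1 univ_mem
  have : symmDiff O (Finset.univ : Finset GolayPt) = Oᶜ := by
    ext p; simp [Finset.mem_symmDiff]
  rwa [this] at h

/-- the central involution of `KO` -/
def zO {O : Finset GolayPt} (hO : O ∈ octads) : Co0 := es Oᶜ (compl_mem hO)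

theorem zO_e8 {O : Finset GolayPt} (hO : O ∈ octads) (p : GolayPt) :
    zO hO • e8 p = if p ∈ O then e8 p else -e8 p := by
  rw [zO, es_e8]
  by_cases h : p ∈ O <;> simp [h]

theorem zO_mem {O : Finset GolayPt} (hO : O ∈ octads) : zO hO ∈ KO O := by
  intro p hp
  rw [zO_e8, if_pos hp]

theorem zO_ne {O : Finset GolayPt} (hO : O ∈ octads) : zO hO ≠ 1 := by
  intro h
  obtain ⟨p, hp⟩ : ∃ p, p ∉ O := by
    by_contra hcon
    push Not at hcon
    have : (Finset.univ : Finset GolayPt) = O := by ext q; simp [hcon q]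
    have h8 := hO.2
    rw [← this, Finset.card_univ, card_pt] at h8
    omega
  have h1 := zO_e8 hO p
  rw [h, one_smul, if_neg hp] at h1
  exact e8_ne_neg _ _ h1

theorem zO_sq {O : Finset GolayPt} (hO : O ∈ octads) : zO hO * zO hO = 1 := es_sq _

/-- squares in `KO` -/
theorem KO_sq {O : Finset GolayPt} (hO : O ∈ octads) {g : Co0} (hg : g ∈ KO O) : g * g = 1 ∨ g * g = zO hO := by
  obtain ⟨σ, hσ, c, hc, rfl, h1, h2⟩ := KO_exists hO hg
  have hs : ∀ q, σ (σ q) = q := fun q => Equiv.congr_fun (H9.OctadStab.exp_two hσ hO (mem_EO.1 h1).2) q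
  have key : ∀ q, (mono σ hσ c hc * mono σ hσ c hc) • e8 q = if (σ q ∈ c ↔ q ∈ c) then e8 q else -e8 q := by
    intro q
    rw [mul_smul, mono_e8]
    by_cases h3 : σ q ∈ c <;> by_cases h4 : q ∈ c <;> simp [h3, h4, co0_neg, mono_e8, hs]
  rcases EO_move hO h1 hc h2 with h | h
  · left
    apply ext_e8
    intro q
    rw [key, if_pos (h q), one_smul]
  · right
    apply ext_e8
    intro q
    rw [key, zO_e8]
    by_cases hq : q ∈ O
    · rw [if_pos hq, if_pos]
      rw [(mem_EO.1 h1).2 q hq]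
    · rw [if_neg hq, if_neg]
      rw [h q hq]
      tauto

/-- the center of `KO` -/
theorem KO_center {O : Finset GolayPt} (hO : O ∈ octads) {g : Co0} (hg : g ∈ KO O) (hc : ∀ h ∈ KO O, g * h = h * g) :
    g = 1 ∨ g = zO hO := by
  obtain ⟨σ, hσ, c, hc', rfl, h1, h2⟩ := KO_exists hO hg
  have hpm : ∀ q, mono σ hσ c hc' • e8 q = e8 (σ q) ∨ mono σ hσ c hc' • e8 q = -e8 (σ q) := by
    intro q
    rw [mono_e8]
    split_ifs
    · right; rfl
    · left; rfl
  have hoffσ : ∀ p, σ p ∈ O → p ∈ O := by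
    intro p h
    have := (mem_HO.1 (EO_le_HO O h1)).2
    rw [← this, Finset.mem_image] at h
    obtain ⟨y, hy, he⟩ := h
    rwa [← σ.injective he]
  have hσ1 : ∀ q, σ q = q := by
    intro q
    by_cases hq : q ∈ O
    · exact (mem_EO.1 h1).2 q hq
    · by_contra hne
      obtain ⟨d, hd, hdO, hqd, hqd'⟩ := sep hO hq (fun h => hq (hoffσ q h)) (Ne.symm hne)
      have h3 := congrArg (fun x : Co0 => x • e8 q) (hc (es d hd.1) (fun p hp => by rw [es_e8, if_neg (fun h => hdO p h hp)]))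
      simp only [mul_smul, es_e8, if_pos hqd, co0_neg] at h3
      rcases hpm q with h4 | h4
      · rw [h4, es_e8, if_neg hqd'] at h3
        exact e8_ne_neg _ _ h3.symm
      · rw [h4, co0_neg, es_e8, if_neg hqd', neg_neg] at h3
        exact e8_ne_neg _ _ h3
  by_cases hce : c = ∅
  · left
    subst hce
    apply ext_e8
    intro q
    rw [mono_e8, if_neg (Finset.notMem_empty _), hσ1, one_smul]
  · right
    obtain ⟨q, hq⟩ := Finset.nonempty_iff_ne_empty.2 hce
    have hall : ∀ q', q' ∉ O → q' ∈ c := by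
      intro q' hq'
      by_contra hn
      obtain ⟨τ, hτ, t1, t2⟩ := E_trans hO (h2 q hq) hq'
      have h3 := congrArg (fun x : Co0 => x • e8 q) (hc (mono τ hτ ∅ empty_mem)
        ((mono_mem_KO hτ empty_mem).2 ⟨mem_EO.2 ⟨hτ, t1⟩, fun p hp => absurd hp (Finset.notMem_empty p)⟩))
      simp only [mul_smul, mono_e8, hσ1, if_neg (Finset.notMem_empty _), t2, if_neg hn, if_pos hq, co0_neg] at h3
      exact e8_ne_neg _ _ h3
    apply ext_e8
    intro p
    rw [zO_e8, mono_e8, hσ1]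
    by_cases hp : p ∈ O
    · rw [if_pos hp, if_neg (fun h => h2 p h hp)]
    · rw [if_neg hp, if_pos (hall p hp)]

end H33.Oct
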