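import Mathlib

set_option autoImplicit false

/-! A symplectic representation modulo 2 from an integral form. -/

namespace H33.SympRep

open Finset Matrix

variable {L : Type*} [AddCommGroup L] {G : Type*} [Group G] {l : Type*} [Fintype l] [DecidableEq l]

/-- the data -/
structure Dat (f : G → L →+ L) (B : L →+ L →+ ℤ) (v : L) (X : l ⊕ l → L) : Prop where
  one : ∀ x, f 1 x = x
  mul : ∀ g h x, f (g * h) x = f g (f h x)
  symm : ∀ x y, B x y = B y x
  inv : ∀ g x y, B (f g x) (f g y) = B x y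
  fix : ∀ g, f g v = v
  gram : ∀ a b, ((B (X a) (X b) : ℤ) : ZMod 2) = if b = a.swap then 1 else 0
  perp : ∀ a, ((B (X a) v : ℤ) : ZMod 2) = 0
  rad : ∀ y, ((B v y : ℤ) : ZMod 2) = 0 → (∀ a, ((B (X a) y : ℤ) : ZMod 2) = 0) → ∃ z, y = z + z ∨ y = v + (z + z)

variable {f : G → L →+ L} {B : L →+ L →+ ℤ} {v : L} {X : l ⊕ l → L}

namespace Dat

theorem two (n : ℤ) : ((n + n : ℤ) : ZMod 2) = 0 := by
  push_cast
  exact CharTwo.add_self_eq_zero _

theorem expand (D : Dat f B v X) {x y : L} (hy : ((B v y : ℤ) : ZMod 2) = 0) (hx : ((B x v : ℤ) : ZMod 2) = 0) :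
    ((B x y : ℤ) : ZMod 2) = ∑ b, ((B (X b.swap) y : ℤ) : ZMod 2) * ((B x (X b) : ℤ) : ZMod 2) := by
  set y' := y - ∑ b, (B (X b.swap) y) • X b with hy'
  have h1 : ∀ u : L, ((B u y' : ℤ) : ZMod 2) = ((B u y : ℤ) : ZMod 2) -
      ∑ b, ((B (X b.swap) y : ℤ) : ZMod 2) * ((B u (X b) : ℤ) : ZMod 2) := by
    intro u
    rw [hy', map_sub, map_sum]
    simp only [map_zsmul, smul_eq_mul]
    push_cast
    rfl
  have hv : ((B v y' : ℤ) : ZMod 2) = 0 := by
    rw [h1, hy, Finset.sum_eq_zero, sub_zero]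
    intro b _
    rw [D.symm v (X b), D.perp, mul_zero]
  have hX : ∀ a, ((B (X a) y' : ℤ) : ZMod 2) = 0 := by
    intro a
    rw [h1, Finset.sum_eq_single a.swap]
    · rw [D.gram, if_pos rfl, mul_one, Sum.swap_swap, sub_self]
    · intro b _ hb
      rw [D.gram, if_neg hb, mul_zero]
    · intro h; exact absurd (Finset.mem_univ _) h
  have h2 : ((B x y' : ℤ) : ZMod 2) = 0 := by
    obtain ⟨z, hz | hz⟩ := D.rad y' hv hX
    · rw [hz, map_add]; exact two _
    · rw [hz, map_add, map_add]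
      push_cast
      rw [hx, zero_add]
      exact CharTwo.add_self_eq_zero _
  rw [h1] at h2
  exact sub_eq_zero.1 h2

/-- the matrix -/
def M (f : G → L →+ L) (B : L →+ L →+ ℤ) (X : l ⊕ l → L) (g : G) : Matrix (l ⊕ l) (l ⊕ l) (ZMod 2) :=
  fun a b => ((B (X a.swap) (f g (X b)) : ℤ) : ZMod 2)

theorem perp' (D : Dat f B v X) (g : G) (a : l ⊕ l) : ((B v (f g (X a)) : ℤ) : ZMod 2) = 0 := by
  rw [← D.fix g, D.inv, D.symm, D.perp]

theorem M_one (D : Dat f B v X) : M f B X (1 : G) = 1 := by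
  ext a b
  rw [M, D.one, D.gram, Matrix.one_apply, Sum.swap_swap]
  simp only [eq_comm]

theorem adj (D : Dat f B v X) (g : G) (x y : L) : B (f g⁻¹ x) y = B x (f g y) := by
  rw [← D.inv g (f g⁻¹ x) y, ← D.mul, mul_inv_cancel, D.one]

theorem M_mul (D : Dat f B v X) (g h : G) : M f B X (g * h) = M f B X g * M f B X h := by
  ext a c
  rw [Matrix.mul_apply]
  have h1 : M f B X (g * h) a c = ((B (f g⁻¹ (X a.swap)) (f h (X c)) : ℤ) : ZMod 2) := by
    rw [M, D.mul, D.adj]
  rw [h1, D.expand (D.perp' h c) (by rw [D.symm]; exact D.perp' _ _)]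
  refine Finset.sum_congr rfl fun b _ => ?_
  rw [D.adj, mul_comm]
  rfl

theorem M_symp (D : Dat f B v X) (g : G) : M f B X g ∈ Matrix.symplecticGroup l (ZMod 2) := by
  rw [SymplecticGroup.mem_iff']
  ext b c
  have h1 : ((B (f g (X b)) (f g (X c)) : ℤ) : ZMod 2) = if c = b.swap then 1 else 0 := by rw [D.inv, D.gram]
  rw [D.expand (D.perp' g c) (by rw [D.symm]; exact D.perp' _ _)] at h1
  have hJ : ∀ a b : l ⊕ l, (Matrix.J l (ZMod 2)) a b = if b = a.swap then 1 else 0 := by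
    intro a b
    rcases a with i | i <;> rcases b with j | j <;>
      simp [Matrix.J, Matrix.one_apply, eq_comm]
  rw [hJ, ← h1, Matrix.mul_apply]
  refine Finset.sum_congr rfl fun a _ => ?_
  rw [Matrix.mul_apply, Finset.sum_eq_single a.swap, Matrix.transpose_apply, hJ, if_pos (Sum.swap_swap a).symm,
    mul_one, mul_comm]
  · show ((B (X a.swap) (f g (X c)) : ℤ) : ZMod 2) * ((B (X a.swap.swap) (f g (X b)) : ℤ) : ZMod 2) = _
    rw [Sum.swap_swap, D.symm (f g (X b))]
  · intro d _ hd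
    rw [hJ, if_neg, mul_zero]
    intro h
    apply hd
    rw [h, Sum.swap_swap]
  · intro h; exact absurd (Finset.mem_univ _) h

/-- the representation -/
def rho (D : Dat f B v X) : G →* Matrix.symplecticGroup l (ZMod 2) where
  toFun g := ⟨M f B X g, D.M_symp g⟩
  map_one' := Subtype.ext D.M_one
  map_mul' g h := Subtype.ext (D.M_mul g h)

theorem ker (D : Dat f B v X) {g : G} (hg : g ∈ D.rho.ker) {y : L} (hy : ((B v y : ℤ) : ZMod 2) = 0) :
    ∃ z, f g y = y + (z + z) ∨ f g y = y + v + (z + z) := by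
  have hM : M f B X g = 1 := congrArg Subtype.val (MonoidHom.mem_ker.1 hg)
  have h1 : ∀ a, ((B (X a) (f g y - y) : ℤ) : ZMod 2) = 0 := by
    intro a
    rw [map_sub]
    push_cast
    rw [← D.adj, D.expand hy (by rw [D.symm]; exact D.perp' _ _), Finset.sum_eq_single a.swap]
    · rw [D.adj]
      have h2 : M f B X g a.swap a.swap = 1 := by rw [hM, Matrix.one_apply, if_pos rfl]
      rw [M, Sum.swap_swap] at h2
      rw [h2, Sum.swap_swap, mul_one, sub_self]
    · intro b _ hb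
      rw [D.adj]
      have h2 : M f B X g a.swap b = 0 := by rw [hM, Matrix.one_apply, if_neg (Ne.symm hb)]
      rw [M, Sum.swap_swap] at h2
      rw [h2, mul_zero]
    · intro h; exact absurd (Finset.mem_univ _) h
  have h2 : ((B v (f g y - y) : ℤ) : ZMod 2) = 0 := by
    rw [map_sub]
    push_cast
    rw [hy, sub_zero]
    nth_rewrite 1 [← D.fix g]
    rw [D.inv, hy]
  obtain ⟨z, hz | hz⟩ := D.rad _ h2 h1
  · exact ⟨z, Or.inl (by rw [← hz]; abel)⟩
  · exact ⟨z, Or.inr (by rw [add_assoc, ← hz]; abel)⟩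

end Dat

end H33.SympRep
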