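import Mathlib
import Cfsg.Agent.Lib.H33.Oct4
import Cfsg.Agent.Lib.H33.SympRep

set_option autoImplicit false

/-! The lattice of an octad. -/

namespace H33.Oct

open Cfsg Finset H9.Leech H9.ModTwo H9.LatticeIso H9.LeechGood H9.Trans H9.Cross H9.CoOrder H9.Co23
open H8.GolayCode H8.GolayBasic H8.GolayCount MulAction H32.OctadStab H32.Octad H32.M24Kit

/-- the lattice of an octad -/
def LO {O : Finset GolayPt} (hO : O ∈ octads) : AddSubgroup leechLattice where
  carrier := {x | es O hO.1 • x = -x}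
  add_mem' := by
    intro a b ha hb
    show es O hO.1 • (a + b) = -(a + b)
    rw [co0_add, show es O hO.1 • a = -a from ha, show es O hO.1 • b = -b from hb, neg_add]
  zero_mem' := by show es O hO.1 • 0 = -0; rw [co0_zero, neg_zero]
  neg_mem' := by
    intro a ha
    show es O hO.1 • (-a) = -(-a)
    rw [co0_neg, show es O hO.1 • a = -a from ha]

theorem OkE_dot {y y' : Fin 8 → ℤ} (h : OkE y) (h' : OkE y') : (4 : ℤ) ∣ ∑ k, y k * y' k := by
  have key : ∀ {y y' : Fin 8 → ℤ}, (∀ i, (2 : ℤ) ∣ y i) → (4 : ℤ) ∣ ∑ i, y i → OkE y' → (4 : ℤ) ∣ ∑ k, y k * y' k := by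
    intro y y' h1 h2 h'
    choose a ha using h1
    simp only [ha, ← Finset.mul_sum] at h2
    simp only [ha, mul_assoc, ← Finset.mul_sum]
    obtain ⟨m, hm⟩ := h2
    rcases h'.1 with h3 | h3
    · choose b hb using h3
      simp only [hb]
      refine ⟨∑ k, a k * b k, ?_⟩
      rw [Finset.mul_sum, Finset.mul_sum]
      refine Finset.sum_congr rfl fun k _ => by ring
    · have h4 : ∀ k, ∃ w, y' k = 1 + 2 * w := fun k => ⟨(y' k - 1) / 2, by have := h3 k; omega⟩
      choose w hw using h4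
      simp only [hw]
      refine ⟨m + ∑ k, a k * w k, ?_⟩
      have : ∑ k, a k * (1 + 2 * w k) = ∑ k, a k + 2 * ∑ k, a k * w k := by
        rw [Finset.mul_sum, ← Finset.sum_add_distrib]
        refine Finset.sum_congr rfl fun k _ => by ring
      rw [this]
      linarith
  rcases h.1 with h1 | h1
  · exact key h1 h.2 h'
  · rcases h'.1 with h2 | h2
    · have := key h2 h'.2 h
      simpa only [mul_comm] using this
    · have h3 : ∀ k, ∃ w, y k = 1 + 2 * w := fun k => ⟨(y k - 1) / 2, by have := h1 k; omega⟩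
      have h4 : ∀ k, ∃ w, y' k = 1 + 2 * w := fun k => ⟨(y' k - 1) / 2, by have := h2 k; omega⟩
      choose w hw using h3
      choose w' hw' using h4
      have e1 := h.2
      have e2 := h'.2
      simp only [hw, hw', Finset.sum_add_distrib, ← Finset.mul_sum] at e1 e2 ⊢
      simp at e1 e2
      have : ∑ k, (1 + 2 * w k) * (1 + 2 * w' k) = 8 + 2 * ∑ k, w k + 2 * ∑ k, w' k + 4 * ∑ k, w k * w' k := by
        rw [show (8 : ℤ) = ∑ _k : Fin 8, 1 by simp, Finset.mul_sum, Finset.mul_sum, Finset.mul_sum,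
          ← Finset.sum_add_distrib, ← Finset.sum_add_distrib, ← Finset.sum_add_distrib]
        refine Finset.sum_congr rfl fun k _ => by ring
      rw [this]
      omega

theorem OkE_norm {y : Fin 8 → ℤ} (h : OkE y) : (8 : ℤ) ∣ ∑ k, y k ^ 2 := by
  rcases h.1 with h1 | h1
  · choose a ha using h1
    have h2 := h.2
    simp only [ha, ← Finset.mul_sum] at h2
    have h3 : ∀ k, ∃ b, a k ^ 2 = a k + 2 * b := fun k => ⟨(a k ^ 2 - a k) / 2, by
      have : Even (a k * (a k - 1)) := Int.even_mul_pred_self _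
      obtain ⟨r, hr⟩ := this
      have : a k ^ 2 - a k = 2 * r := by rw [← two_mul] at hr; rw [← hr]; ring
      omega⟩
    choose b hb using h3
    have : ∑ k, y k ^ 2 = 4 * ∑ k, a k + 8 * ∑ k, b k := by
      rw [Finset.mul_sum, Finset.mul_sum, ← Finset.sum_add_distrib]
      refine Finset.sum_congr rfl fun k _ => ?_
      rw [ha, mul_pow, hb]; ring
    rw [this]
    omega
  · have h3 : ∀ k, ∃ b, y k ^ 2 = 1 + 8 * b := fun k => by
      obtain ⟨w, hw⟩ : ∃ w, y k = 1 + 2 * w := ⟨(y k - 1) / 2, by have := h1 k; omega⟩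
      obtain ⟨r, hr⟩ := Int.even_mul_succ_self w
      refine ⟨r, ?_⟩
      rw [← two_mul] at hr
      rw [hw]
      linear_combination 4 * hr
    choose b hb using h3
    have : ∑ k, y k ^ 2 = 8 + 8 * ∑ k, b k := by
      rw [show (8 : ℤ) + 8 * ∑ k, b k = ∑ _k : Fin 8, 1 + 8 * ∑ k, b k by simp, Finset.mul_sum, ← Finset.sum_add_distrib]
      refine Finset.sum_congr rfl fun k _ => hb k
    rw [this]
    omega

section
variable {O : Finset GolayPt} (e : Fin 8 ≃ {q // q ∈ O}) (hO : O ∈ octads)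

/-- the element with given coordinates -/
def mkL (y : Fin 8 → ℤ) (h : OkE y) : LO hO :=
  ⟨⟨vO e y, vO_mem e hO h⟩, (neg_iff hO _).2 fun _ hq => vO_off e y hq⟩

theorem exists_mkL (x : LO hO) : ∃ y, ∃ h : OkE y, x = mkL e hO y h := by
  obtain ⟨y, hy, he⟩ := exists_y e hO ((neg_iff hO x.1).1 x.2)
  exact ⟨y, hy, Subtype.ext (Subtype.ext he)⟩

theorem form_mkL {y y' : Fin 8 → ℤ} (h : OkE y) (h' : OkE y') :
    2 * form (mkL e hO y h).1 (mkL e hO y' h').1 = ∑ k, y k * y' k := by
  have h1 := eight_form (mkL e hO y h).1 (mkL e hO y' h').1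
  have h2 : dotInt ((mkL e hO y h).1 : GolayPt → ℤ) ((mkL e hO y' h').1 : GolayPt → ℤ) = 4 * ∑ k, y k * y' k :=
    dot_vO e y y'
  omega

include e in
theorem two_dvd_form' (x y : LO hO) : (2 : ℤ) ∣ form x.1 y.1 := by
  obtain ⟨a, ha, rfl⟩ := exists_mkL e hO x
  obtain ⟨b, hb, rfl⟩ := exists_mkL e hO y
  have h1 := form_mkL e hO ha hb
  have h2 := OkE_dot ha hb
  omega
end

theorem two_dvd_form {O : Finset GolayPt} (hO : O ∈ octads) (x y : LO hO) : (2 : ℤ) ∣ form x.1 y.1 := by
  obtain ⟨e⟩ := exists_e hO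
  exact two_dvd_form' e hO x y

/-- the even unimodular form on the lattice of an octad -/
def BO {O : Finset GolayPt} (hO : O ∈ octads) : LO hO →+ LO hO →+ ℤ :=
  AddMonoidHom.mk' (fun x => AddMonoidHom.mk' (fun y => form x.1 y.1 / 2) (by
    intro y z
    show form x.1 (y.1 + z.1) / 2 = _
    rw [map_add, Int.add_ediv_of_dvd_left (two_dvd_form hO x y)])) (by
    intro x y
    ext z
    show form (x.1 + y.1) z.1 / 2 = form x.1 z.1 / 2 + form y.1 z.1 / 2
    rw [map_add, AddMonoidHom.add_apply, Int.add_ediv_of_dvd_left (two_dvd_form hO x z)])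

theorem two_BO {O : Finset GolayPt} (hO : O ∈ octads) (x y : LO hO) : 2 * BO hO x y = form x.1 y.1 :=
  Int.mul_ediv_cancel' (two_dvd_form hO x y)

section
variable {O : Finset GolayPt} (e : Fin 8 ≃ {q // q ∈ O}) (hO : O ∈ octads)

theorem BO_mkL {y y' : Fin 8 → ℤ} (h : OkE y) (h' : OkE y') :
    4 * BO hO (mkL e hO y h) (mkL e hO y' h') = ∑ k, y k * y' k := by
  rw [← form_mkL e hO h h', ← two_BO]; ring

theorem BO_mkL' {y y' : Fin 8 → ℤ} (h : OkE y) (h' : OkE y') :
    BO hO (mkL e hO y h) (mkL e hO y' h') = (∑ k, y k * y' k) / 4 := by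
  rw [← BO_mkL e hO h h']; omega

include e in
theorem BO_self' (x : LO hO) : 0 ≤ BO hO x x ∧ (2 : ℤ) ∣ BO hO x x ∧ (BO hO x x = 0 → x = 0) := by
  obtain ⟨a, ha, rfl⟩ := exists_mkL e hO x
  have h1 := BO_mkL e hO ha ha
  have h2 := OkE_norm ha
  have h3 : ∑ k, a k * a k = ∑ k, a k ^ 2 := Finset.sum_congr rfl fun k _ => by ring
  rw [h3] at h1
  have h4 : 0 ≤ ∑ k, a k ^ 2 := Finset.sum_nonneg fun k _ => sq_nonneg _
  refine ⟨by omega, by omega, fun h0 => ?_⟩
  rw [h0] at h1
  have h5 : ∀ k, a k = 0 := by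
    intro k
    have := (Finset.sum_eq_zero_iff_of_nonneg (fun k _ => sq_nonneg (a k))).1 h1.symm k (Finset.mem_univ _)
    exact pow_eq_zero_iff (two_ne_zero) |>.1 this
  apply Subtype.ext; apply Subtype.ext
  funext q
  show vO e a q = 0
  by_cases hq : q ∈ O
  · rw [vO, dif_pos hq, h5]; rfl
  · exact vO_off e a hq
end

theorem BO_nonneg {O : Finset GolayPt} (hO : O ∈ octads) (x : LO hO) : 0 ≤ BO hO x x := by
  obtain ⟨e⟩ := exists_e hO
  exact (BO_self' e hO x).1

theorem BO_even {O : Finset GolayPt} (hO : O ∈ octads) (x : LO hO) : (2 : ℤ) ∣ BO hO x x := by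
  obtain ⟨e⟩ := exists_e hO
  exact (BO_self' e hO x).2.1

theorem BO_zero {O : Finset GolayPt} (hO : O ∈ octads) {x : LO hO} (h : BO hO x x = 0) : x = 0 := by
  obtain ⟨e⟩ := exists_e hO
  exact (BO_self' e hO x).2.2 h

theorem form_symm (x y : leechLattice) : form x y = form y x := by
  have h1 := eight_form x y
  have h2 := eight_form y x
  have : dotInt (x : GolayPt → ℤ) (y : GolayPt → ℤ) = dotInt (y : GolayPt → ℤ) (x : GolayPt → ℤ) :=
    Finset.sum_congr rfl fun k _ => mul_comm _ _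
  omega

theorem BO_symm {O : Finset GolayPt} (hO : O ∈ octads) (x y : LO hO) : BO hO x y = BO hO y x := by
  have h1 := two_BO hO x y
  have h2 := two_BO hO y x
  have h3 := form_symm x.1 y.1
  omega

/-- the action -/
def fO {O : Finset GolayPt} (hO : O ∈ octads) {G : Type*} [Group G] (φ : G →* Co0) (hφ : ∀ g, φ g ∈ CC hO) (g : G) :
    LO hO →+ LO hO :=
  AddMonoidHom.mk' (fun x => ⟨φ g • x.1, by
    show es O hO.1 • (φ g • x.1) = -(φ g • x.1)
    rw [← mul_smul, mem_CC.1 (hφ g), mul_smul, show es O hO.1 • x.1 = -x.1 from x.2, co0_neg]⟩) (by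
    intro x y
    apply Subtype.ext
    exact co0_add _ _ _)

theorem fO_coe {O : Finset GolayPt} (hO : O ∈ octads) {G : Type*} [Group G] (φ : G →* Co0) (hφ : ∀ g, φ g ∈ CC hO)
    (g : G) (x : LO hO) : (fO hO φ hφ g x).1 = φ g • x.1 := rfl

theorem fO_inv {O : Finset GolayPt} (hO : O ∈ octads) {G : Type*} [Group G] (φ : G →* Co0) (hφ : ∀ g, φ g ∈ CC hO)
    (g : G) (x y : LO hO) : BO hO (fO hO φ hφ g x) (fO hO φ hφ g y) = BO hO x y := by
  have h1 := two_BO hO (fO hO φ hφ g x) (fO hO φ hφ g y)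
  rw [fO_coe, fO_coe, co0_form, ← two_BO] at h1
  omega

/-- roots congruent modulo two -/
theorem root_pm {O : Finset GolayPt} (hO : O ∈ octads) {x u : LO hO} (hx : BO hO x x = 2) (hu : BO hO u u = 2)
    (h : ∃ z, u = x + (z + z)) : u = x ∨ u = -x := by
  obtain ⟨z, hz⟩ := h
  have hs := BO_symm hO x z
  have h1 : BO hO u u = BO hO x x + 4 * BO hO x z + 4 * BO hO z z := by
    rw [hz]
    simp only [map_add, AddMonoidHom.add_apply]
    rw [← hs]; ring
  have h2 : BO hO (z + x) (z + x) = BO hO z z + 2 * BO hO x z + BO hO x x := by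
    simp only [map_add, AddMonoidHom.add_apply]
    rw [← hs]; ring
  have n1 := BO_nonneg hO z
  have n2 := BO_nonneg hO (z + x)
  have e1 := BO_even hO z
  have e2 := BO_even hO (z + x)
  have h3 : BO hO z z = 0 ∨ BO hO (z + x) (z + x) = 0 := by omega
  rcases h3 with h3 | h3
  · left
    have := BO_zero hO h3
    rw [hz, this, add_zero, add_zero]
  · right
    have := BO_zero hO h3
    have h4 : z = -x := eq_neg_of_add_eq_zero_left this
    rw [hz, h4]; abel

/-- the odd case is impossible -/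
theorem root_odd {O : Finset GolayPt} (hO : O ∈ octads) {x u v : LO hO} (hx : BO hO x x = 2) (hu : BO hO u u = 2)
    (hv : BO hO v v = 2) (hxv : BO hO x v = 0) (huv : BO hO u v = 0) (h : ∃ z, u = x + v + (z + z)) : False := by
  obtain ⟨z, hz⟩ := h
  have hs := BO_symm hO x z
  have hs2 := BO_symm hO v z
  have hs3 := BO_symm hO x v
  have h1 : BO hO u u = BO hO x x + 4 * BO hO x z + 4 * BO hO z z + BO hO v v + 2 * BO hO x v + 4 * BO hO v z := by
    rw [hz]
    simp only [map_add, AddMonoidHom.add_apply]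
    rw [← hs, ← hs2, ← hs3]; ring
  have h2 : BO hO (z + x) (z + x) = BO hO z z + 2 * BO hO x z + BO hO x x := by
    simp only [map_add, AddMonoidHom.add_apply]
    rw [← hs]; ring
  have h4 : BO hO u v = BO hO x v + BO hO v v + 2 * BO hO v z := by
    rw [hz]
    simp only [map_add, AddMonoidHom.add_apply]
    rw [hs2]; ring
  have e1 := BO_even hO z
  have e2 := BO_even hO (z + x)
  omega

end H33.Oct
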