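import Mathlib
import Cfsg.Agent.Lib.H33.Oct5

set_option autoImplicit false

/-! Frame vectors and roots of the lattice of an octad. -/

namespace H33.Oct

open Cfsg Finset H9.Leech H9.ModTwo H9.LatticeIso H9.LeechGood H9.Trans H9.Cross H9.CoOrder H9.Co23
open H8.GolayCode H8.GolayBasic H8.GolayCount MulAction H32.OctadStab H32.Octad H32.M24Kit

theorem exists_e01 {X : Type*} [DecidableEq X] (e : Fin 8 ≃ X) {a b : X} (hab : a ≠ b) : ∃ e' : Fin 8 ≃ X, e' 0 = a ∧ e' 1 = b := by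
  set i := e.symm a with hi
  set j := (Equiv.swap 0 i).symm (e.symm b) with hj
  have hij : j ≠ 0 := by
    intro h
    rw [Equiv.symm_apply_eq, Equiv.swap_apply_left, hi] at h
    exact hab (e.symm.injective h).symm
  refine ⟨(Equiv.swap 1 j).trans ((Equiv.swap 0 i).trans e), ?_, ?_⟩
  · rw [Equiv.trans_apply, Equiv.trans_apply, Equiv.swap_apply_of_ne_of_ne (by decide) hij.symm, Equiv.swap_apply_left, hi,
      Equiv.apply_symm_apply]
  · rw [Equiv.trans_apply, Equiv.trans_apply, Equiv.swap_apply_left, hj, Equiv.apply_symm_apply, Equiv.apply_symm_apply]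

/-- an octad with an enumeration starting at the two special points -/
theorem exists_O : ∃ O : Finset GolayPt, ∃ _ : O ∈ octads, ∃ e : Fin 8 ≃ {q // q ∈ O}, (e 0 : GolayPt) = none ∧
    (e 1 : GolayPt) = some 0 := by
  have h1 := o0_mem
  obtain ⟨a, ha, b, hb, hab⟩ := Finset.one_lt_card.1 (show 1 < (fs o0).card by rw [h1.2]; norm_num)
  obtain ⟨σ, hσ, hm⟩ := H33.Leech1.trans_list [a, b] [none, some 0] (by simpa using hab) (by simp) rfl (by simp)
  simp only [List.map_cons, List.map_nil, List.cons.injEq, and_true] at hm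
  have hO : (fs o0).image σ ∈ octads := (image_mem_octads hσ).2 h1
  have n1 : none ∈ (fs o0).image σ := by rw [← hm.1]; exact Finset.mem_image_of_mem _ ha
  have n2 : some 0 ∈ (fs o0).image σ := by rw [← hm.2]; exact Finset.mem_image_of_mem _ hb
  obtain ⟨e⟩ := exists_e hO
  obtain ⟨e', e1, e2⟩ := exists_e01 e (a := ⟨none, n1⟩) (b := ⟨some 0, n2⟩) (by simp [Subtype.ext_iff])
  exact ⟨_, hO, e', by rw [e1], by rw [e2]⟩

section
variable {O : Finset GolayPt} (e : Fin 8 ≃ {q // q ∈ O}) (hO : O ∈ octads)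

/-- sum of two frame vectors, halved, in coordinates -/
def yp (k l : Fin 8) : Fin 8 → ℤ := fun i => (if i = k then 2 else 0) + (if i = l then 2 else 0)
/-- difference of two frame vectors, halved, in coordinates -/
def ym (k l : Fin 8) : Fin 8 → ℤ := fun i => (if i = k then 2 else 0) - (if i = l then 2 else 0)

theorem ok_yp (k l : Fin 8) : OkE (yp k l) := by
  refine ⟨Or.inl fun i => ?_, ?_⟩
  · unfold yp; split_ifs <;> norm_num
  · unfold yp; rw [Finset.sum_add_distrib]; simp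

theorem ok_ym (k l : Fin 8) : OkE (ym k l) := by
  refine ⟨Or.inl fun i => ?_, ?_⟩
  · unfold ym; split_ifs <;> norm_num
  · unfold ym; rw [Finset.sum_sub_distrib]; simp

theorem val_mkL (y : Fin 8 → ℤ) (h : OkE y) (q : GolayPt) : ((mkL e hO y h).1 : GolayPt → ℤ) q = vO e y q := rfl

theorem e_inj {k l : Fin 8} (h : (e k : GolayPt) = e l) : k = l := e.injective (Subtype.ext h)

theorem ext_O {x y : leechLattice} (hx : ∀ q ∉ O, (x : GolayPt → ℤ) q = 0) (hy : ∀ q ∉ O, (y : GolayPt → ℤ) q = 0)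
    (h : ∀ k, (x : GolayPt → ℤ) (e k) = (y : GolayPt → ℤ) (e k)) : x = y := by
  apply Subtype.ext
  funext q
  by_cases hq : q ∈ O
  · have := h (e.symm ⟨q, hq⟩)
    rwa [e.apply_symm_apply] at this
  · rw [hx q hq, hy q hq]

theorem two_yp (k l : Fin 8) : (mkL e hO (yp k l) (ok_yp k l)).1 + (mkL e hO (yp k l) (ok_yp k l)).1 = e8 (e k) + e8 (e l) := by
  apply Subtype.ext
  funext q
  show vO e (yp k l) q + vO e (yp k l) q = ((e8 (e k) : leechLattice) : GolayPt → ℤ) q + ((e8 (e l) : leechLattice) : GolayPt → ℤ) q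
  rw [e8_apply, e8_apply]
  by_cases hq : q ∈ O
  · obtain ⟨i, hi⟩ : ∃ i, q = (e i : GolayPt) := ⟨e.symm ⟨q, hq⟩, by rw [e.apply_symm_apply]⟩
    subst hi
    rw [vO_apply, yp]
    have h1 : ((e i : GolayPt) = e k) = (i = k) := propext ⟨fun h => e_inj e h, fun h => by rw [h]⟩
    have h2 : ((e i : GolayPt) = e l) = (i = l) := propext ⟨fun h => e_inj e h, fun h => by rw [h]⟩
    simp only [h1, h2]
    split_ifs <;> norm_num
  · rw [vO_off e _ hq, if_neg (fun h => hq (by rw [h]; exact (e k).2)), if_neg (fun h => hq (by rw [h]; exact (e l).2))]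

theorem two_ym (k l : Fin 8) : (mkL e hO (ym k l) (ok_ym k l)).1 + (mkL e hO (ym k l) (ok_ym k l)).1 = e8 (e k) - e8 (e l) := by
  apply Subtype.ext
  funext q
  show vO e (ym k l) q + vO e (ym k l) q = ((e8 (e k) : leechLattice) : GolayPt → ℤ) q - ((e8 (e l) : leechLattice) : GolayPt → ℤ) q
  rw [e8_apply, e8_apply]
  by_cases hq : q ∈ O
  · obtain ⟨i, hi⟩ : ∃ i, q = (e i : GolayPt) := ⟨e.symm ⟨q, hq⟩, by rw [e.apply_symm_apply]⟩
    subst hi
    rw [vO_apply, ym]
    have h1 : ((e i : GolayPt) = e k) = (i = k) := propext ⟨fun h => e_inj e h, fun h => by rw [h]⟩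
    have h2 : ((e i : GolayPt) = e l) = (i = l) := propext ⟨fun h => e_inj e h, fun h => by rw [h]⟩
    simp only [h1, h2]
    split_ifs <;> norm_num
  · rw [vO_off e _ hq, if_neg (fun h => hq (by rw [h]; exact (e k).2)), if_neg (fun h => hq (by rw [h]; exact (e l).2))]
    norm_num

theorem sum_yp {k l : Fin 8} (hkl : k ≠ l) : ∑ i, yp k l i * yp k l i = 8 := by
  have : ∀ i, yp k l i * yp k l i = (if i = k then 4 else 0) + (if i = l then 4 else 0) := by
    intro i
    unfold yp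
    by_cases h1 : i = k
    · have h2 : i ≠ l := by rw [h1]; exact hkl
      simp [h1, hkl]
    · by_cases h2 : i = l <;> simp [h1, h2, hkl.symm]
  rw [Finset.sum_congr rfl fun i _ => this i, Finset.sum_add_distrib]; simp

theorem sum_ym {k l : Fin 8} (hkl : k ≠ l) : ∑ i, ym k l i * ym k l i = 8 := by
  have : ∀ i, ym k l i * ym k l i = (if i = k then 4 else 0) + (if i = l then 4 else 0) := by
    intro i
    unfold ym
    by_cases h1 : i = k
    · have h2 : i ≠ l := by rw [h1]; exact hkl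
      simp [h1, hkl]
    · by_cases h2 : i = l <;> simp [h1, h2, hkl.symm]
  rw [Finset.sum_congr rfl fun i _ => this i, Finset.sum_add_distrib]; simp

theorem BO_yp {k l : Fin 8} (hkl : k ≠ l) : BO hO (mkL e hO (yp k l) (ok_yp k l)) (mkL e hO (yp k l) (ok_yp k l)) = 2 := by
  rw [BO_mkL', sum_yp hkl]; norm_num

theorem BO_ym {k l : Fin 8} (hkl : k ≠ l) : BO hO (mkL e hO (ym k l) (ok_ym k l)) (mkL e hO (ym k l) (ok_ym k l)) = 2 := by
  rw [BO_mkL', sum_ym hkl]; norm_num

theorem dbl_inj {x y : leechLattice} (h : x + x = y + y) : x = y := by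
  apply Subtype.ext
  funext q
  have : (x : GolayPt → ℤ) q + (x : GolayPt → ℤ) q = (y : GolayPt → ℤ) q + (y : GolayPt → ℤ) q :=
    congrArg (fun z : leechLattice => (z : GolayPt → ℤ) q) h
  omega

/-- images of a pair of frame vectors -/
theorem pair_cases {k l : Fin 8} {g : Co0} 
    (h1 : g • (mkL e hO (yp k l) (ok_yp k l)).1 = (mkL e hO (yp k l) (ok_yp k l)).1 ∨
      g • (mkL e hO (yp k l) (ok_yp k l)).1 = -(mkL e hO (yp k l) (ok_yp k l)).1)
    (h2 : g • (mkL e hO (ym k l) (ok_ym k l)).1 = (mkL e hO (ym k l) (ok_ym k l)).1 ∨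
      g • (mkL e hO (ym k l) (ok_ym k l)).1 = -(mkL e hO (ym k l) (ok_ym k l)).1) :
    (g • e8 (e k) = e8 (e k) ∧ g • e8 (e l) = e8 (e l)) ∨ (g • e8 (e k) = e8 (e l) ∧ g • e8 (e l) = e8 (e k)) ∨
    (g • e8 (e k) = -e8 (e k) ∧ g • e8 (e l) = -e8 (e l)) ∨ (g • e8 (e k) = -e8 (e l) ∧ g • e8 (e l) = -e8 (e k)) := by
  have p1 := two_yp e hO k l
  have p2 := two_ym e hO k l
  have q1 : g • e8 (e k) + g • e8 (e l) = e8 (e k) + e8 (e l) ∨ g • e8 (e k) + g • e8 (e l) = -(e8 (e k) + e8 (e l)) := by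
    rw [← co0_add, ← p1, co0_add]
    rcases h1 with h1 | h1 <;> rw [h1]
    · left; rfl
    · right; rw [neg_add]
  have q2 : g • e8 (e k) - g • e8 (e l) = e8 (e k) - e8 (e l) ∨ g • e8 (e k) - g • e8 (e l) = -(e8 (e k) - e8 (e l)) := by
    rw [← co0_sub, ← p2, co0_add]
    rcases h2 with h2 | h2 <;> rw [h2]
    · left; rfl
    · right; rw [neg_add]
  have s1 : g • e8 (e k) + g • e8 (e k) = (g • e8 (e k) + g • e8 (e l)) + (g • e8 (e k) - g • e8 (e l)) := by abel
  have s2 : g • e8 (e l) + g • e8 (e l) = (g • e8 (e k) + g • e8 (e l)) - (g • e8 (e k) - g • e8 (e l)) := by abel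
  rcases q1 with q1 | q1 <;> rcases q2 with q2 | q2 <;> rw [q1, q2] at s1 s2
  · left
    exact ⟨dbl_inj (by rw [s1]; abel), dbl_inj (by rw [s2]; abel)⟩
  · right; left
    exact ⟨dbl_inj (by rw [s1]; abel), dbl_inj (by rw [s2]; abel)⟩
  · right; right; right
    exact ⟨dbl_inj (by rw [s1]; abel), dbl_inj (by rw [s2]; abel)⟩
  · right; right; left
    exact ⟨dbl_inj (by rw [s1]; abel), dbl_inj (by rw [s2]; abel)⟩

/-- combination of three pairs -/
theorem triple {S : Finset (Fin 8)} {g : Co0}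
    (H : ∀ k ∈ S, ∀ l ∈ S, k ≠ l → (g • e8 (e k) = e8 (e k) ∧ g • e8 (e l) = e8 (e l)) ∨
      (g • e8 (e k) = e8 (e l) ∧ g • e8 (e l) = e8 (e k)) ∨
      (g • e8 (e k) = -e8 (e k) ∧ g • e8 (e l) = -e8 (e l)) ∨ (g • e8 (e k) = -e8 (e l) ∧ g • e8 (e l) = -e8 (e k)))
    (hS : 3 ≤ S.card) : (∀ k ∈ S, g • e8 (e k) = e8 (e k)) ∨ (∀ k ∈ S, g • e8 (e k) = -e8 (e k)) := by
  have hne : ∀ {a b : Fin 8}, a ≠ b → (e a : GolayPt) ≠ e b := fun hab h => hab (e_inj e h)
  have h1 : ∀ k ∈ S, ∀ l ∈ S, k ≠ l → (g • e8 (e k) = e8 (e k) ∧ g • e8 (e l) = e8 (e l)) ∨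
      (g • e8 (e k) = -e8 (e k) ∧ g • e8 (e l) = -e8 (e l)) := by
    intro k hk l hl hkl
    obtain ⟨m, hm, hmk⟩ : ∃ m ∈ S, m ≠ k ∧ m ≠ l := by
      by_contra hcon
      push Not at hcon
      have : S ⊆ {k, l} := by
        intro m hm
        rw [Finset.mem_insert, Finset.mem_singleton]
        by_cases h : m = k
        · exact Or.inl h
        · exact Or.inr (hcon m hm h)
      have := Finset.card_le_card this
      have := Finset.card_le_two (a := k) (b := l)
      omega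
    rcases H k hk l hl hkl with h | h | h | h
    · exact Or.inl h
    · exfalso
      rcases H k hk m hm hmk.1.symm with h' | h' | h' | h' <;> rw [h.1] at h'
      · exact hne hkl (e8_inj h'.1).symm
      · exact hne hmk.2 (e8_inj h'.1).symm
      · exact e8_ne_neg _ _ h'.1
      · exact e8_ne_neg _ _ h'.1
    · exact Or.inr h
    · exfalso
      rcases H k hk m hm hmk.1.symm with h' | h' | h' | h' <;> rw [h.1] at h'
      · exact e8_ne_neg _ _ h'.1.symm
      · exact e8_ne_neg _ _ h'.1.symm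
      · exact hne hkl (e8_inj (neg_injective h'.1)).symm
      · exact hne hmk.2 (e8_inj (neg_injective h'.1)).symm
  obtain ⟨k₀, hk₀, l₀, hl₀, hkl₀⟩ := Finset.one_lt_card.1 (show 1 < S.card by omega)
  rcases h1 k₀ hk₀ l₀ hl₀ hkl₀ with h | h
  · left
    intro k hk
    by_cases hkk : k = k₀
    · rw [hkk]; exact h.1
    · rcases h1 k hk k₀ hk₀ hkk with h' | h'
      · exact h'.1
      · exact absurd (h.1.symm.trans h'.2) (e8_ne_neg _ _)
  · right
    intro k hk
    by_cases hkk : k = k₀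
    · rw [hkk]; exact h.1
    · rcases h1 k hk k₀ hk₀ hkk with h' | h'
      · exact absurd (h'.2.symm.trans h.1) (e8_ne_neg _ _)
      · exact h'.1
end

end H33.Oct
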