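import Mathlib
import Cfsg.Agent.Lib.H33.Oct6

set_option autoImplicit false

/-! The symplectic representation of the centralizer in `Co2` of an octad involution. -/

namespace H33.Oct

open Cfsg Finset H9.Leech H9.ModTwo H9.LatticeIso H9.LeechGood H9.Trans H9.Cross H9.CoOrder H9.Co23
open H8.GolayCode H8.GolayBasic H8.GolayCount MulAction H32.OctadStab H32.Octad H32.M24Kit H33.SympRep

instance : DecidablePred OkE := fun y => by unfold OkE; infer_instance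

/-- a symplectic basis -/
def YS : Fin 3 ⊕ Fin 3 → Fin 8 → ℤ :=
  Sum.elim ![![0, 0, 2, 2, 0, 0, 0, 0], ![0, 0, 0, 0, 0, 2, 2, 0], ![4, 0, 0, 0, 0, 0, 0, 0]]
    ![![0, 0, 0, 2, 2, 0, 0, 0], ![0, 0, 0, 0, 0, 0, 2, 2], ![1, -1, 1, -1, 1, -1, 1, -1]]

theorem ok_YS : ∀ a, OkE (YS a) := by decide

theorem gram_YS : ∀ a b, (∑ k, YS a k * YS b k) / 4 % 2 = if b = a.swap then 1 else 0 := by decide

theorem perp_YS : ∀ a, (∑ k, YS a k * yp 0 1 k) / 4 % 2 = 0 := by decide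

theorem cast_two {n m : ℤ} (h : n % 2 = m) : (n : ZMod 2) = (m : ZMod 2) := by
  rw [← h, ZMod.intCast_eq_intCast_iff, Int.ModEq, Nat.cast_ofNat, Int.emod_emod_of_dvd _ (by norm_num)]

theorem dvd_of_cast {n : ℤ} (h : (n : ZMod 2) = 0) : (2 : ℤ) ∣ n := by
  exact_mod_cast (ZMod.intCast_zmod_eq_zero_iff_dvd n 2).1 h

theorem ok_iff (w : Fin 8 → ℤ) : OkE w ↔ ((∀ i, (2 : ℤ) ∣ w i) ∨ (∀ i, ¬ (2 : ℤ) ∣ w i)) ∧
    (4 : ℤ) ∣ w 0 + w 1 + w 2 + w 3 + w 4 + w 5 + w 6 + w 7 := by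
  rw [OkE, Fin.sum_univ_eight]

/-- the arithmetic of the radical -/
theorem arith_rad {a0 a1 a2 a3 a4 a5 a6 a7 : ℤ} (f0 : (2 : ℤ) ∣ a0 - a1) (f1 : (2 : ℤ) ∣ a2 - a3) (f2 : (2 : ℤ) ∣ a3 - a4)
    (f3 : (2 : ℤ) ∣ a5 - a6) (f4 : (2 : ℤ) ∣ a6 - a7) (f5 : (4 : ℤ) ∣ a0 - a1 + a2 - a3 + a4 - a5 + a6 - a7) :
    ∃ b1 b3 b4 b5 b6 b7 : ℤ, a1 = a0 + 2 * b1 ∧ a3 = a2 + 2 * b3 ∧ a4 = a2 + 2 * b4 ∧ a5 = a2 + 2 * b5 ∧
      a6 = a2 + 2 * b6 ∧ a7 = a2 + 2 * b7 ∧ (2 : ℤ) ∣ b1 + b3 + b4 + b5 + b6 + b7 := by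
  refine ⟨(a1 - a0) / 2, (a3 - a2) / 2, (a4 - a2) / 2, (a5 - a2) / 2, (a6 - a2) / 2, (a7 - a2) / 2, ?_⟩
  have h5 : (2 : ℤ) ∣ a2 - a5 := by omega
  have h4 : (2 : ℤ) ∣ a2 - a4 := by omega
  have h6 : (2 : ℤ) ∣ a2 - a6 := by omega
  have h7 : (2 : ℤ) ∣ a2 - a7 := by omega
  refine ⟨by omega, by omega, by omega, by omega, by omega, by omega, ?_⟩
  obtain ⟨c1, hc1⟩ := f0
  obtain ⟨c3, hc3⟩ := f1
  obtain ⟨c4, hc4⟩ := h4
  obtain ⟨c5, hc5⟩ := h5
  obtain ⟨c6, hc6⟩ := h6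
  obtain ⟨c7, hc7⟩ := h7
  have e1 : (a1 - a0) / 2 = -c1 := by omega
  have e3 : (a3 - a2) / 2 = -c3 := by omega
  have e4 : (a4 - a2) / 2 = -c4 := by omega
  have e5 : (a5 - a2) / 2 = -c5 := by omega
  have e6 : (a6 - a2) / 2 = -c6 := by omega
  have e7 : (a7 - a2) / 2 = -c7 := by omega
  rw [e1, e3, e4, e5, e6, e7]
  have e8 : a0 - a1 + a2 - a3 + a4 - a5 + a6 - a7 = 2 * c1 + 2 * c3 - 2 * c4 + 2 * c5 - 2 * c6 + 2 * c7 := by linarith
  rw [e8] at f5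
  omega

theorem rad_YS {w : Fin 8 → ℤ} (hw : OkE w) (h0 : (8 : ℤ) ∣ ∑ k, yp 0 1 k * w k) (h : ∀ a, (8 : ℤ) ∣ ∑ k, YS a k * w k) :
    ∃ z, OkE z ∧ ((∀ k, w k = 2 * z k) ∨ (∀ k, w k = yp 0 1 k + 2 * z k)) := by
  have e1 := h (.inl 0)
  have e2 := h (.inl 1)
  have e3 := h (.inl 2)
  have e4 := h (.inr 0)
  have e5 := h (.inr 1)
  have e6 := h (.inr 2)
  rw [Fin.sum_univ_eight] at e1 e2 e3 e4 e5 e6 h0
  simp [YS, yp] at e1 e2 e3 e4 e5 e6 h0
  rw [ok_iff] at hw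
  obtain ⟨hpar, hs⟩ := hw
  have hev : ∀ i, (2 : ℤ) ∣ w i := by
    rcases hpar with hpar | hpar
    · exact hpar
    · exfalso
      have := hpar 0
      omega
  choose a ha using hev
  simp only [ha] at h0 e1 e2 e3 e4 e5 e6 hs
  clear hpar h
  obtain ⟨b1, b3, b4, b5, b6, b7, h1, h3, h4, h5, h6, h7, hb⟩ := arith_rad (a0 := a 0) (a1 := a 1) (a2 := a 2) (a3 := a 3)
    (a4 := a 4) (a5 := a 5) (a6 := a 6) (a7 := a 7) (by clear e1 e2 e3 e4 e5 e6 hs; omega) (by clear h0 e2 e3 e4 e5 e6 hs; omega)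
    (by clear h0 e1 e2 e3 e5 e6 hs; omega) (by clear h0 e1 e3 e4 e5 e6 hs; omega) (by clear h0 e1 e2 e3 e4 e6 hs; omega)
    (by clear h0 e1 e2 e3 e4 e5 hs; omega)
  clear h0 e1 e2 e3 e4 e5 e6 hs
  by_cases hc : (2 : ℤ) ∣ a 0 - a 2
  · obtain ⟨b0, hb0⟩ := hc
    have h0 : a 0 = a 2 + 2 * b0 := by omega
    refine ⟨a, ?_, Or.inl ha⟩
    rw [ok_iff, h1, h3, h4, h5, h6, h7, h0]
    constructor
    · have hall : ∀ i, ∃ b, a i = a 2 + 2 * b := by
        intro i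
        fin_cases i
        · exact ⟨b0, h0⟩
        · exact ⟨b0 + b1, by show a 1 = _; rw [h1, h0]; ring⟩
        · exact ⟨0, by show a 2 = _; ring⟩
        · exact ⟨b3, h3⟩
        · exact ⟨b4, h4⟩
        · exact ⟨b5, h5⟩
        · exact ⟨b6, h6⟩
        · exact ⟨b7, h7⟩
      by_cases h2 : (2 : ℤ) ∣ a 2
      · left
        intro i
        obtain ⟨b, hb'⟩ := hall i
        omega
      · right
        intro i
        obtain ⟨b, hb'⟩ := hall i
        omega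
    · obtain ⟨c, hc⟩ := hb
      refine ⟨2 * a 2 + b0 + c, ?_⟩
      linear_combination 2 * hc
  · obtain ⟨b0, hb0⟩ : ∃ b0, a 0 - 1 = a 2 + 2 * b0 := ⟨(a 0 - 1 - a 2) / 2, by omega⟩
    have hk0 : yp 0 1 0 = 2 := by decide
    have hk1 : yp 0 1 1 = 2 := by decide
    have hkk : ∀ i : Fin 8, i ≠ 0 → i ≠ 1 → yp 0 1 i = 0 := by decide
    refine ⟨fun k => a k - yp 0 1 k / 2, ?_, Or.inr ?_⟩
    · rw [ok_iff]
      have hall : ∀ i, ∃ b, a i - yp 0 1 i / 2 = a 2 + 2 * b := by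
        intro i
        fin_cases i
        · exact ⟨b0, by show a 0 - yp 0 1 0 / 2 = _; rw [hk0]; exact hb0⟩
        · exact ⟨b0 + b1, by show a 1 - yp 0 1 1 / 2 = _; rw [hk1, h1]; norm_num; linarith⟩
        · exact ⟨0, by show a 2 - yp 0 1 2 / 2 = _; rw [hkk 2 (by decide) (by decide)]; norm_num⟩
        · exact ⟨b3, by show a 3 - yp 0 1 3 / 2 = _; rw [hkk 3 (by decide) (by decide), h3]; norm_num⟩
        · exact ⟨b4, by show a 4 - yp 0 1 4 / 2 = _; rw [hkk 4 (by decide) (by decide), h4]; norm_num⟩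
        · exact ⟨b5, by show a 5 - yp 0 1 5 / 2 = _; rw [hkk 5 (by decide) (by decide), h5]; norm_num⟩
        · exact ⟨b6, by show a 6 - yp 0 1 6 / 2 = _; rw [hkk 6 (by decide) (by decide), h6]; norm_num⟩
        · exact ⟨b7, by show a 7 - yp 0 1 7 / 2 = _; rw [hkk 7 (by decide) (by decide), h7]; norm_num⟩
      constructor
      · by_cases h2 : (2 : ℤ) ∣ a 2
        · left
          intro i
          obtain ⟨b, hb'⟩ := hall i
          show (2 : ℤ) ∣ a i - yp 0 1 i / 2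
          omega
        · right
          intro i
          obtain ⟨b, hb'⟩ := hall i
          show ¬ (2 : ℤ) ∣ a i - yp 0 1 i / 2
          omega
      · simp only [hk0, hk1, hkk 2 (by decide) (by decide), hkk 3 (by decide) (by decide), hkk 4 (by decide) (by decide),
          hkk 5 (by decide) (by decide), hkk 6 (by decide) (by decide), hkk 7 (by decide) (by decide)]
        rw [h1, h3, h4, h5, h6, h7]
        obtain ⟨c, hc⟩ := hb
        refine ⟨2 * a 2 + b0 + c, ?_⟩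
        norm_num
        linear_combination 2 * hc + 2 * hb0
    · intro k
      rw [ha]
      have : yp 0 1 k / 2 * 2 = yp 0 1 k := by revert k; decide
      linear_combination this

section
variable {O : Finset GolayPt} (e : Fin 8 ≃ {q // q ∈ O}) (hO : O ∈ octads)

theorem mkL_ext {y y' : Fin 8 → ℤ} (h : OkE y) (h' : OkE y') (hy : y = y') : mkL e hO y h = mkL e hO y' h' := by
  subst hy; rfl

theorem mkL_add {y y' : Fin 8 → ℤ} (h : OkE y) (h' : OkE y') (h'' : OkE (y + y')) :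
    mkL e hO y h + mkL e hO y' h' = mkL e hO (y + y') h'' := by
  apply Subtype.ext; apply Subtype.ext
  funext q
  show vO e y q + vO e y' q = vO e (y + y') q
  by_cases hq : q ∈ O
  · rw [vO, vO, vO, dif_pos hq, dif_pos hq, dif_pos hq, Pi.add_apply]; ring
  · rw [vO_off e y hq, vO_off e y' hq, vO_off e _ hq]; rfl

theorem OkE_add {y y' : Fin 8 → ℤ} (h : OkE y) (h' : OkE y') : OkE (y + y') := by
  obtain ⟨h1, h2⟩ := h
  obtain ⟨h1', h2'⟩ := h'
  refine ⟨?_, ?_⟩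
  · rcases h1 with h1 | h1 <;> rcases h1' with h1' | h1'
    · left; intro i; have := h1 i; have := h1' i; rw [Pi.add_apply]; omega
    · right; intro i; have := h1 i; have := h1' i; rw [Pi.add_apply]; omega
    · right; intro i; have := h1 i; have := h1' i; rw [Pi.add_apply]; omega
    · left; intro i; have := h1 i; have := h1' i; rw [Pi.add_apply]; omega
  · simp only [Pi.add_apply, Finset.sum_add_distrib]
    omega

theorem mkL_two {w z : Fin 8 → ℤ} (hw : OkE w) (hz : OkE z) (h : ∀ k, w k = 2 * z k) :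
    mkL e hO w hw = mkL e hO z hz + mkL e hO z hz := by
  rw [mkL_add e hO hz hz (OkE_add hz hz)]
  exact mkL_ext e hO _ _ (funext fun k => by rw [h, Pi.add_apply]; ring)

theorem mkL_vtwo {w z v : Fin 8 → ℤ} (hw : OkE w) (hz : OkE z) (hv : OkE v) (h : ∀ k, w k = v k + 2 * z k) :
    mkL e hO w hw = mkL e hO v hv + (mkL e hO z hz + mkL e hO z hz) := by
  rw [mkL_add e hO hz hz (OkE_add hz hz), mkL_add e hO hv _ (OkE_add hv (OkE_add hz hz))]
  exact mkL_ext e hO _ _ (funext fun k => by rw [h, Pi.add_apply, Pi.add_apply]; ring)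

/-- the fixed root -/
def vR : LO hO := mkL e hO (yp 0 1) (ok_yp 0 1)

/-- the symplectic basis -/
def XS (a : Fin 3 ⊕ Fin 3) : LO hO := mkL e hO (YS a) (ok_YS a)

/-- the symplectic representation -/
theorem datS {G : Type*} [Group G] (φ : G →* Co0) (hφ : ∀ g, φ g ∈ CC hO) (hv : ∀ g, φ g • (vR e hO).1 = (vR e hO).1) :
    Dat (fO hO φ hφ) (BO hO) (vR e hO) (XS e hO) := by
  refine ⟨?_, ?_, ?_, ?_, ?_, ?_, ?_, ?_⟩
  · intro x
    apply Subtype.ext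
    rw [fO_coe, map_one, one_smul]
  · intro g h x
    apply Subtype.ext
    rw [fO_coe, fO_coe, fO_coe, map_mul, mul_smul]
  · exact BO_symm hO
  · exact fO_inv hO φ hφ
  · intro g
    apply Subtype.ext
    rw [fO_coe, hv]
  · intro a b
    rw [XS, XS, BO_mkL', cast_two (gram_YS a b)]
    push_cast
    split_ifs <;> simp
  · intro a
    rw [XS, vR, BO_mkL', cast_two (perp_YS a)]
    simp
  · intro y h1 h2
    obtain ⟨w, hw, rfl⟩ := exists_mkL e hO y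
    have h3 : (8 : ℤ) ∣ ∑ k, yp 0 1 k * w k := by
      have := dvd_of_cast h1
      rw [← BO_mkL e hO (ok_yp 0 1) hw]
      have h4 : BO hO (mkL e hO (yp 0 1) (ok_yp 0 1)) (mkL e hO w hw) = BO hO (vR e hO) (mkL e hO w hw) := rfl
      omega
    have h4 : ∀ a, (8 : ℤ) ∣ ∑ k, YS a k * w k := by
      intro a
      have := dvd_of_cast (h2 a)
      rw [← BO_mkL e hO (ok_YS a) hw]
      have h4 : BO hO (mkL e hO (YS a) (ok_YS a)) (mkL e hO w hw) = BO hO (XS e hO a) (mkL e hO w hw) := rfl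
      omega
    obtain ⟨z, hz, h5 | h5⟩ := rad_YS hw h3 h4
    · exact ⟨mkL e hO z hz, Or.inl (mkL_two e hO hw hz h5)⟩
    · exact ⟨mkL e hO z hz, Or.inr (mkL_vtwo e hO hw hz _ h5)⟩

/-- the kernel acts as `±1` on roots orthogonal to the fixed root -/
theorem ker_root {G : Type*} [Group G] (φ : G →* Co0) (hφ : ∀ g, φ g ∈ CC hO)
    (hv : ∀ g, φ g • (vR e hO).1 = (vR e hO).1) {g : G} (hg : g ∈ (datS e hO φ hφ hv).rho.ker) {x : LO hO}
    (hx : BO hO x x = 2) (hxv : BO hO x (vR e hO) = 0) : φ g • x.1 = x.1 ∨ φ g • x.1 = -x.1 := by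
  have h1 : ((BO hO (vR e hO) x : ℤ) : ZMod 2) = 0 := by rw [BO_symm, hxv]; rfl
  have hvv : BO hO (vR e hO) (vR e hO) = 2 := BO_yp e hO (by decide)
  have hu : BO hO (fO hO φ hφ g x) (fO hO φ hφ g x) = 2 := by rw [fO_inv, hx]
  have huv : BO hO (fO hO φ hφ g x) (vR e hO) = 0 := by
    have h2 : vR e hO = fO hO φ hφ g (vR e hO) := by
      apply Subtype.ext
      rw [fO_coe, hv]
    rw [h2, fO_inv, hxv]
  obtain ⟨z, hz | hz⟩ := (datS e hO φ hφ hv).ker hg h1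
  · rcases root_pm hO hx hu ⟨z, hz⟩ with h | h
    · left; rw [← fO_coe hO φ hφ, h]
    · right; rw [← fO_coe hO φ hφ, h]; rfl
  · exact (root_odd hO hx hu hvv hxv huv ⟨z, hz⟩).elim
end

end H33.Oct
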