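import Mathlib
import Cfsg.Agent.Lib.H33.Oct7
import Cfsg.Agent.Lib.H3.Extraspecial
import Cfsg.Agent.Lib.H56.Heis
import Cfsg.Agent.Lib.H1.Cores
import Cfsg.Agent.Lib.H6.SympSimple
import Cfsg.Agent.Lib.H6.SympCard
import Cfsg.Agent.Lib.H6.SympPerfect

set_option autoImplicit false

/-! The kernel of the symplectic representation and the structure of the centralizer. -/

namespace H33.Oct

open Cfsg Finset H9.Leech H9.ModTwo H9.LatticeIso H9.LeechGood H9.Trans H9.Cross H9.CoOrder H9.Co23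
open H8.GolayCode H8.GolayBasic H8.GolayCount MulAction H32.OctadStab H32.Octad H32.M24Kit H33.SympRep

theorem yp_perp : ∀ k l : Fin 8, 2 ≤ k → 2 ≤ l → ∑ i, yp k l i * yp 0 1 i = 0 := by decide
theorem ym_perp : ∀ k l : Fin 8, 2 ≤ k → 2 ≤ l → ∑ i, ym k l i * yp 0 1 i = 0 := by decide
theorem ym01_perp : ∑ i, ym 0 1 i * yp 0 1 i = 0 := by decide

section
variable {O : Finset GolayPt} (e : Fin 8 ≃ {q // q ∈ O}) (hO : O ∈ octads)

/-- the kernel of the representation -/
theorem ker_KO {G : Type*} [Group G] (φ : G →* Co0) (hφ : ∀ g, φ g ∈ CC hO)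
    (hv : ∀ g, φ g • (vR e hO).1 = (vR e hO).1) {g : G} (hg : g ∈ (datS e hO φ hφ hv).rho.ker) : φ g ∈ KO O := by
  have hroot := fun {x : LO hO} (hx : BO hO x x = 2) (hxv : BO hO x (vR e hO) = 0) => ker_root e hO φ hφ hv hg hx hxv
  set S : Finset (Fin 8) := Finset.univ.filter (2 ≤ ·) with hS
  have hSc : S.card = 6 := by rw [hS]; decide
  have hpair : ∀ k l : Fin 8, k ≠ l → ∑ i, yp k l i * yp 0 1 i = 0 → ∑ i, ym k l i * yp 0 1 i = 0 →
      (φ g • e8 (e k) = e8 (e k) ∧ φ g • e8 (e l) = e8 (e l)) ∨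
      (φ g • e8 (e k) = e8 (e l) ∧ φ g • e8 (e l) = e8 (e k)) ∨
      (φ g • e8 (e k) = -e8 (e k) ∧ φ g • e8 (e l) = -e8 (e l)) ∨ (φ g • e8 (e k) = -e8 (e l) ∧ φ g • e8 (e l) = -e8 (e k)) := by
    intro k l hkl h1 h2
    apply pair_cases e hO
    · exact hroot (BO_yp e hO hkl) (by rw [vR, BO_mkL', h1]; norm_num)
    · exact hroot (BO_ym e hO hkl) (by rw [vR, BO_mkL', h2]; norm_num)
  have h1 : (∀ k ∈ S, φ g • e8 (e k) = e8 (e k)) ∨ (∀ k ∈ S, φ g • e8 (e k) = -e8 (e k)) := by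
    refine triple e (fun k hk l hl hkl => hpair k l hkl ?_ ?_) (by omega)
    · exact yp_perp k l (Finset.mem_filter.1 hk).2 (Finset.mem_filter.1 hl).2
    · exact ym_perp k l (Finset.mem_filter.1 hk).2 (Finset.mem_filter.1 hl).2
  have hsum : φ g • e8 (e 0) + φ g • e8 (e 1) = e8 (e 0) + e8 (e 1) := by
    have h2 := two_yp e hO 0 1
    have h3 : φ g • (mkL e hO (yp 0 1) (ok_yp 0 1)).1 = (mkL e hO (yp 0 1) (ok_yp 0 1)).1 := hv g
    rw [← co0_add, ← h2, co0_add, h3]
  have hne : ∀ {a b : Fin 8}, a ≠ b → (e a : GolayPt) ≠ e b := fun hab h => hab (e_inj e h)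
  have h01 : (φ g • e8 (e 0) = e8 (e 0) ∧ φ g • e8 (e 1) = e8 (e 1)) ∨ (φ g • e8 (e 0) = e8 (e 1) ∧ φ g • e8 (e 1) = e8 (e 0)) := by
    have hm := hroot (BO_ym e hO (show (0 : Fin 8) ≠ 1 by decide)) (by rw [vR, BO_mkL', ym01_perp]; norm_num)
    have hp : φ g • (mkL e hO (yp 0 1) (ok_yp 0 1)).1 = (mkL e hO (yp 0 1) (ok_yp 0 1)).1 := hv g
    rcases pair_cases e hO (Or.inl hp) hm with h | h | h | h
    · exact Or.inl h
    · exact Or.inr h
    · exfalso
      rw [h.1, h.2] at hsum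
      have h3 := congrArg (fun x : leechLattice => (x : GolayPt → ℤ) (e 0)) hsum
      have h4 : -((e8 (e 0) : leechLattice) : GolayPt → ℤ) (e 0) + -((e8 (e 1) : leechLattice) : GolayPt → ℤ) (e 0) =
        ((e8 (e 0) : leechLattice) : GolayPt → ℤ) (e 0) + ((e8 (e 1) : leechLattice) : GolayPt → ℤ) (e 0) := h3
      rw [e8_apply, e8_apply, if_pos rfl, if_neg (hne (by decide))] at h4
      omega
    · exfalso
      rw [h.1, h.2] at hsum
      have h3 := congrArg (fun x : leechLattice => (x : GolayPt → ℤ) (e 0)) hsum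
      have h4 : -((e8 (e 1) : leechLattice) : GolayPt → ℤ) (e 0) + -((e8 (e 0) : leechLattice) : GolayPt → ℤ) (e 0) =
        ((e8 (e 0) : leechLattice) : GolayPt → ℤ) (e 0) + ((e8 (e 1) : leechLattice) : GolayPt → ℤ) (e 0) := h3
      rw [e8_apply, e8_apply, if_pos rfl, if_neg (hne (by decide))] at h4
      omega
  -- the element is monomial
  have hmono : ∃ σ, ∃ hσ : σ ∈ M24, ∃ c, ∃ hc : c ∈ GS, φ g = mono σ hσ c hc := by
    have h2S : (2 : Fin 8) ∈ S := by rw [hS]; decide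
    have hpres : Pres (φ g) := by
      rw [pres_iff (e 2)]
      rcases h1 with h | h
      · rw [h 2 h2S]; exact e8_mem_cross _
      · rw [h 2 h2S]; exact neg_e8_mem_cross _
    exact mono_of_pres hpres
  obtain ⟨σ, hσ, c, hc, hgm⟩ := hmono
  have hpm : ∀ k ∈ S, σ (e k) = e k := by
    intro k hk
    rcases h1 with h | h <;>
    · have h2 := h k hk
      rw [hgm, mono_e8] at h2
      split_ifs at h2
      · first | exact e8_inj (neg_injective h2) | exact absurd h2.symm (e8_ne_neg _ _)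
      · first | exact e8_inj h2 | exact absurd h2 (e8_ne_neg _ _)
  have hσ0 : σ (e 0) = e 0 := by
    refine H9.OctadStab.no_swap hσ hO (S := S.image (fun k => (e k : GolayPt))) ?_ ?_ ?_ (t := (e 1 : GolayPt)) (hne (by decide))
      (e 0).2 (e 1).2 ?_
    · intro x hx
      rw [Finset.mem_image] at hx
      obtain ⟨k, -, rfl⟩ := hx
      exact (e k).2
    · rw [Finset.card_image_of_injective _ (fun a b h => e_inj e h), hSc]
    · intro z hz
      rw [Finset.mem_image] at hz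
      obtain ⟨k, hk, rfl⟩ := hz
      exact hpm k hk
    · intro z
      constructor
      · intro hz
        obtain ⟨k, hk⟩ : ∃ k, z = (e k : GolayPt) := ⟨e.symm ⟨z, hz⟩, by rw [e.apply_symm_apply]⟩
        subst hk
        by_cases h0 : k = 0
        · right; left; rw [h0]
        by_cases h1 : k = 1
        · right; right; rw [h1]
        left
        refine Finset.mem_image_of_mem _ (Finset.mem_filter.2 ⟨Finset.mem_univ _, ?_⟩)
        exact (by decide : ∀ k : Fin 8, ¬ k = 0 → ¬ k = 1 → 2 ≤ k) k h0 h1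
      · rintro (hz | rfl | rfl)
        · rw [Finset.mem_image] at hz
          obtain ⟨k, -, rfl⟩ := hz
          exact (e k).2
        · exact (e 0).2
        · exact (e 1).2
  have h00 : φ g • e8 (e 0) = e8 (e 0) ∧ φ g • e8 (e 1) = e8 (e 1) := by
    rcases h01 with h | h
    · exact h
    · exfalso
      have h2 := h.1
      rw [hgm, mono_e8, hσ0] at h2
      split_ifs at h2
      · exact e8_ne_neg _ _ h2.symm
      · exact hne (by decide) (e8_inj h2)
  have hcase : ∀ k : Fin 8, k = 0 ∨ k = 1 ∨ k ∈ S := by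
    intro k
    rw [hS, Finset.mem_filter]
    revert k; decide
  rcases h1 with h | h
  · intro q hq
    obtain ⟨k, hk⟩ : ∃ k, q = (e k : GolayPt) := ⟨e.symm ⟨q, hq⟩, by rw [e.apply_symm_apply]⟩
    subst hk
    rcases hcase k with rfl | rfl | hk
    · exact h00.1
    · exact h00.2
    · exact h k hk
  · exfalso
    -- the alternating root
    have hx := hroot (x := XS e hO (.inr 2)) (by rw [XS, BO_mkL']; decide) (by rw [XS, vR, BO_mkL']; decide)
    have h4 : ∀ x : LO hO, (8 : ℤ) • x.1 = ∑ k, ((x.1 : GolayPt → ℤ) (e k)) • e8 (e k) := by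
      intro x
      rw [eight_x]
      have hoff := (neg_iff hO x.1).1 x.2
      have : ∀ q : GolayPt, q ∉ O → ((x.1 : GolayPt → ℤ) q) • e8 q = 0 := fun q hq => by rw [hoff q hq, zero_smul]
      rw [← Finset.sum_subset (Finset.subset_univ O) (fun q _ hq => this q hq), ← Finset.sum_coe_sort]
      exact (Equiv.sum_comp e (fun q : {q // q ∈ O} => ((x.1 : GolayPt → ℤ) q) • e8 (q : GolayPt))).symm
    have h5 : φ g • ((8 : ℤ) • (XS e hO (.inr 2)).1) = ∑ k, (((XS e hO (.inr 2)).1 : GolayPt → ℤ) (e k)) • (if k = 0 ∨ k = 1 then e8 (e k) else -e8 (e k)) := by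
      rw [h4]
      have : φ g • (∑ k, (((XS e hO (.inr 2)).1 : GolayPt → ℤ) (e k)) • e8 (e k)) =
        co0Equiv (φ g) (∑ k, (((XS e hO (.inr 2)).1 : GolayPt → ℤ) (e k)) • e8 (e k)) := rfl
      rw [this, map_sum]
      refine Finset.sum_congr rfl fun k _ => ?_
      refine (co0_zsmul (φ g) _ _).trans ?_
      congr 1
      rcases hcase k with rfl | rfl | hk
      · rw [h00.1]; rfl
      · rw [h00.2]; rfl
      · rw [h k hk, if_neg]
        rw [hS, Finset.mem_filter] at hk
        exact (by decide : ∀ k : Fin 8, 2 ≤ k → ¬ (k = 0 ∨ k = 1)) k hk.2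
    have h6 : ∀ j : Fin 8, ((φ g • ((8 : ℤ) • (XS e hO (.inr 2)).1) : leechLattice) : GolayPt → ℤ) (e j) =
        ((XS e hO (.inr 2)).1 : GolayPt → ℤ) (e j) * (if j = 0 ∨ j = 1 then 8 else -8) := by
      intro j
      rw [h5]
      have hco : ∀ (f : Fin 8 → leechLattice) (q : GolayPt), ((∑ k, f k : leechLattice) : GolayPt → ℤ) q = ∑ k, (f k : GolayPt → ℤ) q := by
        intro f q
        have : ((∑ k, f k : leechLattice) : GolayPt → ℤ) = ∑ k, (f k : GolayPt → ℤ) :=
          map_sum (AddSubgroup.subtype leechLattice) f Finset.univ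
        rw [this, Finset.sum_apply]
      rw [hco, Finset.sum_eq_single j]
      · show ((XS e hO (.inr 2)).1 : GolayPt → ℤ) (e j) * ((if j = 0 ∨ j = 1 then e8 (e j) else -e8 (e j) : leechLattice) : GolayPt → ℤ) (e j) = _
        split_ifs
        · rw [e8_apply, if_pos rfl]
        · show _ * -((e8 (e j) : leechLattice) : GolayPt → ℤ) (e j) = _
          rw [e8_apply, if_pos rfl]
      · intro k _ hkj
        show ((XS e hO (.inr 2)).1 : GolayPt → ℤ) (e k) * ((if k = 0 ∨ k = 1 then e8 (e k) else -e8 (e k) : leechLattice) : GolayPt → ℤ) (e j) = 0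
        have h0 : ((e8 (e k) : leechLattice) : GolayPt → ℤ) (e j) = 0 := by
          rw [e8_apply, if_neg (hne (Ne.symm hkj))]
        split_ifs
        · rw [h0, mul_zero]
        · show _ * -((e8 (e k) : leechLattice) : GolayPt → ℤ) (e j) = _
          rw [h0, neg_zero, mul_zero]
      · intro hj; exact absurd (Finset.mem_univ _) hj
    have v0 : ((XS e hO (.inr 2)).1 : GolayPt → ℤ) (e 0) = 2 := vO_apply e _ 0
    have v2 : ((XS e hO (.inr 2)).1 : GolayPt → ℤ) (e 2) = 2 := vO_apply e _ 2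
    rw [co0_zsmul] at h6
    rcases hx with hx | hx <;> rw [hx] at h6
    · have h7 : (8 : ℤ) * ((XS e hO (.inr 2)).1 : GolayPt → ℤ) (e 2) = ((XS e hO (.inr 2)).1 : GolayPt → ℤ) (e 2) * (if (2 : Fin 8) = 0 ∨ (2 : Fin 8) = 1 then 8 else -8) := h6 2
      rw [v2, if_neg (by decide)] at h7
      omega
    · have h7 : (8 : ℤ) * -((XS e hO (.inr 2)).1 : GolayPt → ℤ) (e 0) = ((XS e hO (.inr 2)).1 : GolayPt → ℤ) (e 0) * (if (0 : Fin 8) = 0 ∨ (0 : Fin 8) = 1 then 8 else -8) := h6 0
      rw [v0, if_pos (by decide)] at h7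
      omega
end

end H33.Oct
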