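import Mathlib
import Cfsg.Agent.Lib.H33.Oct8

set_option autoImplicit false

/-! The normal extraspecial subgroup; general lemmas on cores. -/

namespace H33.Oct

open Cfsg Finset H9.Leech H9.ModTwo H9.LatticeIso H9.LeechGood H9.Trans H9.Cross H9.CoOrder H9.Co23
open H8.GolayCode H8.GolayBasic H8.GolayCount MulAction H32.OctadStab H32.Octad H32.M24Kit H33.SympRep
open scoped commutatorElement

theorem extra_of {Q : Type*} [Group Q] [Finite Q] (z : Q) (hz1 : z ≠ 1) (hzc : ∀ h, z * h = h * z)
    (hsq : ∀ g, g * g = 1 ∨ g * g = z)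
    (hc : ∀ g, (∀ h, g * h = h * g) → g = 1 ∨ g = z) (hn : 2 < Nat.card Q) : Cfsg.IsExtraspecial 2 Q := by
  have hZ : ∀ g, g ∈ Subgroup.center Q ↔ g = 1 ∨ g = z := by
    intro g
    constructor
    · intro h
      exact hc g (fun h' => (Subgroup.mem_center_iff.1 h h').symm)
    · rintro (rfl | rfl)
      · exact one_mem _
      · exact Subgroup.mem_center_iff.2 fun h => (hzc h).symm
  have : Fact (Nat.Prime 2) := ⟨Nat.prime_two⟩
  have hcard : Nat.card (Subgroup.center Q) = 2 := by
    have h1 : ((Subgroup.center Q : Subgroup Q) : Set Q) = {1, z} := by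
      ext g
      rw [SetLike.mem_coe, hZ]; rfl
    have h2 : Nat.card (Subgroup.center Q) = ((Subgroup.center Q : Subgroup Q) : Set Q).ncard := rfl
    rw [h2, h1, Set.ncard_pair (Ne.symm hz1)]
  have hsqZ : ∀ g, g * g ∈ Subgroup.center Q := fun g => (hZ _).2 (hsq g)
  apply H3.Extraspecial.isExtraspecial_of _ hcard
  · by_contra hcon
    push Not at hcon
    have h1 : ∀ g : Q, g ∈ Subgroup.center Q := by
      intro g
      rw [Subgroup.mem_center_iff]
      intro h
      exact commutatorElement_eq_one_iff_mul_comm.1 (hcon h g)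
    have h2 : Subgroup.center Q = ⊤ := by
      rw [eq_top_iff]; intro g _; exact h1 g
    rw [h2, Subgroup.card_top] at hcard
    omega
  · rw [commutator_def, Subgroup.commutator_le]
    intro a _ b _
    have h1 : ⁅a, b⁆ = (a * b) * (a * b) * (b⁻¹ * (a * a)⁻¹ * b⁻¹⁻¹) * (b * b)⁻¹ := by
      rw [commutatorElement_def]; group
    rw [h1]
    refine Subgroup.mul_mem _ (Subgroup.mul_mem _ (hsqZ _) ?_) (Subgroup.inv_mem _ (hsqZ _))
    exact Subgroup.Normal.conj_mem inferInstance _ (Subgroup.inv_mem _ (hsqZ _)) _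

theorem zO_comm {O : Finset GolayPt} (hO : O ∈ octads) {g : Co0} (hg : g ∈ KO O) : zO hO * g = g * zO hO := by
  obtain ⟨σ, hσ, c, hc, rfl, h1, h2⟩ := KO_exists hO hg
  apply ext_e8
  intro q
  have hoff : σ q ∈ O ↔ q ∈ O := by
    have := (mem_HO.1 (EO_le_HO O h1)).2
    constructor
    · intro h
      rw [← this, Finset.mem_image] at h
      obtain ⟨y, hy, he⟩ := h
      rwa [← σ.injective he]
    · intro h
      rw [← this]; exact Finset.mem_image_of_mem _ h
  rw [mul_smul, mul_smul, zO_e8, mono_e8]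
  by_cases h3 : q ∈ O
  · have h4 := hoff.2 h3
    rw [if_pos h3, mono_e8]
    split_ifs
    · rw [co0_neg, zO_e8, if_pos h4]
    · rw [zO_e8, if_pos h4]
  · have h4 := hoff.not.2 h3
    rw [if_neg h3, co0_neg, mono_e8]
    split_ifs
    · rw [co0_neg, zO_e8, if_neg h4]
    · rw [zO_e8, if_neg h4]

theorem KO_extra {O : Finset GolayPt} (hO : O ∈ octads) : Cfsg.IsExtraspecial 2 (KO O) := by
  have hfin : Finite (KO O) := Nat.finite_of_card_ne_zero (by rw [card_KO hO]; norm_num)
  refine extra_of ⟨zO hO, zO_mem hO⟩ ?_ ?_ ?_ ?_ (by rw [card_KO hO]; norm_num)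
  · intro h; exact zO_ne hO (congrArg Subtype.val h)
  · rintro ⟨g, hg⟩; exact Subtype.ext (zO_comm hO hg)
  · rintro ⟨g, hg⟩
    rcases KO_sq hO hg with h | h
    · left; exact Subtype.ext h
    · right; exact Subtype.ext h
  · rintro ⟨g, hg⟩ h
    rcases KO_center hO hg (fun k hk => congrArg Subtype.val (h ⟨k, hk⟩)) with h | h
    · left; exact Subtype.ext h
    · right; exact Subtype.ext h

theorem core_eq_ker {G S : Type*} [Group G] [Finite G] [Group S] {p : ℕ} [hp : Fact p.Prime] (ρ : G →* S)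
    (hs : Function.Surjective ρ) (hk : IsPGroup p ρ.ker) (hS : IsSimpleGroup S) (hn : ¬ IsPGroup p S) :
    pCore p G = ρ.ker := by
  apply le_antisymm
  · have h1 : IsPGroup p (pCore p G) := H1.Cores.isPGroup_pCore p
    have hN : (pCore p G).Normal := by infer_instance
    have h2 : ((pCore p G).map ρ).Normal := hN.map ρ hs
    rcases hS.eq_bot_or_eq_top_of_normal _ h2 with h3 | h3
    · intro g hg
      have : ρ g ∈ (pCore p G).map ρ := ⟨g, hg, rfl⟩
      rw [h3, Subgroup.mem_bot] at this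
      exact this
    · exfalso
      apply hn
      have h4 : IsPGroup p ((pCore p G).map ρ) := h1.map ρ
      rw [h3] at h4
      exact h4.of_equiv Subgroup.topEquiv
  · exact H1.Cores.le_pCore inferInstance hk

instance : Nonempty (Fin 3) := ⟨0⟩

theorem card_Sp6 : Nat.card (Matrix.symplecticGroup (Fin 3) (ZMod 2)) = 1451520 := by
  rw [H6.SympCard.card_symplecticGroup]
  simp [Finset.prod_range_succ]

theorem center_Sp6 : Subgroup.center (Matrix.symplecticGroup (Fin 3) (ZMod 2)) = ⊥ := by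
  have h := H6.SympPerfect.card_center (l := Fin 3) (F := ZMod 2)
  rw [ZMod.card] at h
  exact Subgroup.card_eq_one.1 (by rw [h]; norm_num)

theorem simple_Sp6 : IsSimpleGroup (Matrix.symplecticGroup (Fin 3) (ZMod 2)) := by
  have h := H6.SympSimple.isSimpleGroup (l := Fin 3) (F := ZMod 2) (by simp) (H6.SympPerfect.commutator_eq_top (Or.inl (by simp)))
  have e : (Matrix.symplecticGroup (Fin 3) (ZMod 2) ⧸ Subgroup.center (Matrix.symplecticGroup (Fin 3) (ZMod 2))) ≃*
      Matrix.symplecticGroup (Fin 3) (ZMod 2) :=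
    (QuotientGroup.quotientMulEquivOfEq center_Sp6).trans QuotientGroup.quotientBot
  exact e.symm.isSimpleGroup

theorem not_two_Sp6 : ¬ IsPGroup 2 (Matrix.symplecticGroup (Fin 3) (ZMod 2)) := by
  intro h
  have : Fact (Nat.Prime 2) := ⟨Nat.prime_two⟩
  obtain ⟨n, hn⟩ := IsPGroup.iff_card.1 h
  rw [card_Sp6] at hn
  have h3 : 3 ∣ 2 ^ n := by rw [← hn]; norm_num
  have := Nat.Prime.dvd_of_dvd_pow Nat.prime_three h3
  omega

/-- the sign change on the octad and its complement -/
theorem es_eq {O : Finset GolayPt} (hO : O ∈ octads) (x : leechLattice) : es O hO.1 • x = -(zO hO • x) := by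
  apply Subtype.ext
  funext q
  show ((es O hO.1 • x : leechLattice) : GolayPt → ℤ) q = -((zO hO • x : leechLattice) : GolayPt → ℤ) q
  rw [zO, coe_es, coe_es]
  by_cases h : q ∈ O <;> simp [h]

theorem ext_all {g h : Co0} (H : ∀ x : leechLattice, g • x = h • x) : g = h := ext_e8 fun p => H _

theorem mem_CC_iff {O : Finset GolayPt} (hO : O ∈ octads) {g : Co0} : g ∈ CC hO ↔ zO hO * g = g * zO hO := by
  rw [mem_CC]
  constructor
  · intro h
    apply ext_all
    intro x
    have h1 := congrArg (fun k : Co0 => k • x) h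
    simp only [mul_smul] at h1
    rw [es_eq hO, es_eq hO, co0_neg] at h1
    rw [mul_smul, mul_smul]
    exact neg_injective h1
  · intro h
    apply ext_all
    intro x
    have h1 := congrArg (fun k : Co0 => k • x) h
    simp only [mul_smul] at h1
    rw [mul_smul, mul_smul, es_eq hO, es_eq hO, co0_neg, h1]

theorem KO_le_CC {O : Finset GolayPt} (hO : O ∈ octads) : KO O ≤ CC hO := fun _ hg =>
  (mem_CC_iff hO).2 (zO_comm hO hg)

/-- elements of `KO` act trivially on the lattice of the octad -/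
theorem KO_fix {O : Finset GolayPt} (hO : O ∈ octads) {g : Co0} (hg : g ∈ KO O) (x : LO hO) : g • x.1 = x.1 := by
  have h1 : (8 : ℤ) • x.1 = ∑ q, ((x.1 : GolayPt → ℤ) q) • e8 q := eight_x x.1
  have hoff := (neg_iff hO x.1).1 x.2
  have h2 : g • ((8 : ℤ) • x.1) = (8 : ℤ) • x.1 := by
    rw [h1]
    show co0Equiv g (∑ q, ((x.1 : GolayPt → ℤ) q) • e8 q) = _
    rw [map_sum]
    refine Finset.sum_congr rfl fun q _ => ?_
    by_cases hq : q ∈ O
    · refine (co0_zsmul g _ _).trans ?_
      rw [hg q hq]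
    · rw [hoff q hq, zero_smul]
      exact co0_zero g
  rw [co0_zsmul] at h2
  apply Subtype.ext
  funext q
  have h3 : (8 : ℤ) * ((g • x.1 : leechLattice) : GolayPt → ℤ) q = 8 * (x.1 : GolayPt → ℤ) q :=
    congrArg (fun z : leechLattice => (z : GolayPt → ℤ) q) h2
  omega

end H33.Oct
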