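import Mathlib
import Cfsg.Agent.Lib.H91.MonCross
import Cfsg.Agent.Lib.H91.MonConj
import Cfsg.Agent.Lib.H91.LeechFacts
import Cfsg.Agent.Lib.H1.Coprime
import Cfsg.Agent.Lib.H33.Oct9

set_option autoImplicit false

/-! Centralizers of elements of odd prime order in a group of Monster type. -/

namespace H33.MonRed

open Cfsg H91.MonData H91.MonType H91.LargePair H91.LeechTools H91.InvForm

/-- the fixed lattice -/
def Fx (γ : Co0) : AddSubgroup leechLattice where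
  carrier := {v | γ • v = v}
  add_mem' := by
    intro a b ha hb
    show γ • (a + b) = a + b
    rw [smul_add, show γ • a = a from ha, show γ • b = b from hb]
  zero_mem' := smul_zero γ
  neg_mem' := by
    intro a ha
    show γ • (-a) = -a
    rw [smul_neg, show γ • a = a from ha]

theorem mem_Fx {γ : Co0} {v : leechLattice} : v ∈ Fx γ ↔ γ • v = v := Iff.rfl

/-- the data in `Co0` -/
structure CoD (γ : Co0) (p : ℕ) {S A : Type} [Group S] [AddCommGroup A]
    (Φ : Subgroup.centralizer ({γ} : Set Co0) →* S) (κ : Fx γ →+ A) : Prop where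
  prime : p.Prime
  odd : Odd p
  pow : γ ^ p = 1
  ne : γ ≠ 1
  surj : Function.Surjective Φ
  ker : ∀ δ, Φ δ = 1 ↔ ∃ k : ℕ, δ.1 = γ ^ k ∨ δ.1 = neg * γ ^ k
  ksurj : Function.Surjective κ
  kker : ∀ v, κ v = 0 ↔ ∃ u : leechLattice, v.1 = u + u
  faith : ∀ δ : Subgroup.centralizer ({γ} : Set Co0), (∀ v ∈ Fx γ, ∃ u : leechLattice, δ.1 • v = v + (u + u)) → Φ δ = 1

theorem neg_pow_odd {n : ℕ} (hn : Odd n) : neg ^ n = neg := by
  obtain ⟨k, rfl⟩ := hn
  rw [pow_succ, pow_mul, sq, neg_mul_neg, one_pow, one_mul]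

theorem neg_mul_pow (g : Co0) (n : ℕ) : (neg * g) ^ n = neg ^ n * g ^ n := by
  apply Commute.mul_pow
  exact neg_central g

theorem R_eq {G : Type*} [Group G] {z : G} {Q : Subgroup G} {Lab : leechLattice → G → Prop} {R : G → Co0 → Prop}
    {q : leechLattice → ZMod 2} {b : leechLattice → leechLattice → ZMod 2} (M : MonData z Q Lab R q b)
    {c : G} {γ δ : Co0} (h1 : R c γ) (h2 : R c δ) : δ = γ ∨ δ = neg * γ := by
  have h3 := M.R_mul h2 (M.R_inv h1)
  rw [mul_inv_cancel] at h3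
  rcases (M.R_Q h3).1 Q.one_mem with h4 | h4
  · left; exact mul_inv_eq_one.1 h4
  · right; exact mul_inv_eq_iff_eq_mul.1 h4

theorem R_pow {G : Type*} [Group G] {z : G} {Q : Subgroup G} {Lab : leechLattice → G → Prop} {R : G → Co0 → Prop}
    {q : leechLattice → ZMod 2} {b : leechLattice → leechLattice → ZMod 2} (M : MonData z Q Lab R q b)
    {c : G} {γ : Co0} (h1 : R c γ) (n : ℕ) : R (c ^ n) (γ ^ n) := by
  induction n with
  | zero => rw [pow_zero, pow_zero]; exact M.R_one Q.one_mem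
  | succ n ih => rw [pow_succ, pow_succ]; exact M.R_mul ih h1

section
variable {G : Type*} [Group G] [Finite G] {z : G} {Q : Subgroup G} {Lab : leechLattice → G → Prop} {R : G → Co0 → Prop}
  {q : leechLattice → ZMod 2} {b : leechLattice → leechLattice → ZMod 2}

/-- an element of odd order has a representative of odd order -/
theorem exists_gamma (M : MonData z Q Lab R q b) {c : G} {p : ℕ} (hp : Odd p) (hc : c ^ p = 1) (hcz : c * z = z * c) :
    ∃ γ, R c γ ∧ γ ^ p = 1 := by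
  obtain ⟨γ, hγ⟩ := M.R_ex' hcz
  have h1 := R_pow M hγ p
  rw [hc] at h1
  rcases (M.R_Q h1).1 Q.one_mem with h2 | h2
  · exact ⟨γ, hγ, h2⟩
  · refine ⟨neg * γ, M.R_neg hγ, ?_⟩
    rw [neg_mul_pow, neg_pow_odd hp, h2, neg_mul_neg]

theorem not_mem_Q (M : MonData z Q Lab R q b) {c : G} {p : ℕ} (hp : p.Prime) (hodd : Odd p) (hc : c ^ p = 1) (hc1 : c ≠ 1) : c ∉ Q := by
  intro h
  have h4 : (c * c) * (c * c) = 1 := by
    rcases M.pack.sq c h with h2 | h2
    · rw [h2, mul_one]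
    · rw [h2, M.pack.zz]
  have h5 : c ^ 4 = 1 := by rw [← h4]; simp only [pow_succ, pow_zero, one_mul, mul_assoc]
  have h6 : orderOf c ∣ p := orderOf_dvd_of_pow_eq_one hc
  have h7 : orderOf c ∣ 4 := orderOf_dvd_of_pow_eq_one h5
  have h8 : orderOf c ∣ 1 := by
    have hcop : Nat.Coprime p 4 := by
      rw [show 4 = 2 ^ 2 by norm_num]
      exact Nat.Coprime.pow_right 2 (Nat.coprime_two_right.2 hodd)
    rw [← hcop]
    exact Nat.dvd_gcd h6 h7
  rw [Nat.dvd_one, orderOf_eq_one_iff] at h8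
  exact hc1 h8

theorem gamma_ne (M : MonData z Q Lab R q b) {c : G} {γ : Co0} {p : ℕ} (hp : p.Prime) (hodd : Odd p) (hc : c ^ p = 1) (hc1 : c ≠ 1)
    (hγ : R c γ) : γ ≠ 1 := by
  intro h
  exact not_mem_Q M hp hodd hc hc1 ((M.R_Q hγ).2 (Or.inl h))

/-- elements commuting with `c` have representatives commuting with `γ` -/
theorem comm_gamma (M : MonData z Q Lab R q b) {c x : G} {γ δ : Co0} {p : ℕ} (hodd : Odd p) (hγp : γ ^ p = 1)
    (hγ : R c γ) (hx : x * c = c * x) (hδ : R x δ) : δ * γ = γ * δ := by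
  have h1 : R (x * c * x⁻¹) (δ * γ * δ⁻¹) := M.R_mul (M.R_mul hδ hγ) (M.R_inv hδ)
  rw [hx, mul_inv_cancel_right] at h1
  rcases R_eq M hγ h1 with h2 | h2
  · exact mul_inv_eq_iff_eq_mul.1 h2
  · exfalso
    have h3 : (δ * γ * δ⁻¹) ^ p = 1 := by rw [conj_pow, hγp]; group
    rw [h2, neg_mul_pow, neg_pow_odd hodd, hγp, mul_one] at h3
    exact neg_ne_one h3

/-- lifting commuting elements -/
theorem lift_comm (M : MonData z Q Lab R q b) {c : G} {γ δ : Co0} {p : ℕ} (hp : p.Prime) (hodd : Odd p) (hc : c ^ p = 1)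
    (hγ : R c γ) (h : δ * γ = γ * δ) : ∃ x, R x δ ∧ x * c = c * x := by
  obtain ⟨d, hd⟩ := M.R_ex δ
  have hcz := M.R_comm hγ
  have hnorm : Subgroup.zpowers c ≤ Subgroup.normalizer (Q : Set G) := by
    rw [Subgroup.zpowers_le, Subgroup.mem_normalizer_iff]
    intro h
    constructor
    · intro hh; exact M.pack.N c hcz h hh
    · intro hh
      have hc' : c⁻¹ * z = z * c⁻¹ := by
        rw [inv_mul_eq_iff_eq_mul, ← mul_assoc, hcz, mul_inv_cancel_right]
      have := M.pack.N c⁻¹ hc' _ hh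
      have e : c⁻¹ * (c * h * c⁻¹) * c⁻¹⁻¹ = h := by group
      rwa [e] at this
  have hcop : (Nat.card (Subgroup.zpowers c)).Coprime (Nat.card Q) := by
    rw [Nat.card_zpowers, M.card]
    apply Nat.Coprime.pow_right
    rw [Nat.coprime_two_right]
    exact Odd.of_dvd_nat hodd (orderOf_dvd_of_pow_eq_one hc)
  obtain ⟨x, hx1, hx2⟩ := H1.Coprime.exists_fixed_in_coset (Subgroup.zpowers c) Q hnorm hcop
    (Or.inl inferInstance) d (by
      intro a ha
      obtain ⟨k, rfl⟩ := Subgroup.mem_zpowers_iff.1 ha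
      have hγk : R (c ^ k) (γ ^ k) := by
        rcases Int.eq_nat_or_neg k with ⟨n, rfl | rfl⟩
        · rw [zpow_natCast, zpow_natCast]; exact R_pow M hγ n
        · rw [zpow_neg, zpow_neg, zpow_natCast, zpow_natCast]; exact M.R_inv (R_pow M hγ n)
      have h1 := M.R_mul (M.R_mul (M.R_mul (M.R_inv hd) hγk) hd) (M.R_inv hγk)
      refine (M.R_Q h1).2 (Or.inl ?_)
      have h2 : Commute δ (γ ^ k) := Commute.zpow_right h k
      rw [mul_assoc δ⁻¹, ← h2.eq]; group)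
  refine ⟨x, ?_, ?_⟩
  · have h3 : x = d * (d⁻¹ * x) := by group
    rw [h3]
    have := M.R_mul hd (M.R_one hx2)
    rwa [mul_one] at this
  · have h4 := Subgroup.mem_centralizer_iff.1 hx1 c (Subgroup.mem_zpowers c)
    exact h4.symm

/-- the joint centralizer -/
def DD (z c : G) : Subgroup G := Subgroup.centralizer {z, c}

omit [Finite G] in
theorem mem_DD {z c x : G} : x ∈ DD z c ↔ x * z = z * x ∧ x * c = c * x := by
  rw [DD, Subgroup.mem_centralizer_iff]
  constructor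
  · intro h; exact ⟨(h z (by simp)).symm, (h c (by simp)).symm⟩
  · rintro ⟨h1, h2⟩ y hy
    rcases hy with rfl | hy
    · exact h1.symm
    · rw [Set.mem_singleton_iff] at hy; subst hy; exact h2.symm

variable {S A : Type} [Group S] [AddCommGroup A] {γ : Co0} {p : ℕ}
  {Φ : Subgroup.centralizer ({γ} : Set Co0) →* S} {κ : Fx γ →+ A}

theorem Phi_neg (D : CoD γ p Φ κ) (δ : Subgroup.centralizer ({γ} : Set Co0)) (h : neg * δ.1 ∈ Subgroup.centralizer ({γ} : Set Co0)) :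
    Φ ⟨neg * δ.1, h⟩ = Φ δ := by
  have hn : neg ∈ Subgroup.centralizer ({γ} : Set Co0) := by
    rw [Subgroup.mem_centralizer_singleton_iff]; exact neg_central γ
  have h1 : (⟨neg * δ.1, h⟩ : Subgroup.centralizer ({γ} : Set Co0)) = ⟨neg, hn⟩ * δ := rfl
  rw [h1, map_mul, (D.ker ⟨neg, hn⟩).2 ⟨0, Or.inr (by rw [pow_zero, mul_one])⟩, one_mul]

/-- the homomorphism from the centralizer -/
theorem exists_rho (M : MonData z Q Lab R q b) (D : CoD γ p Φ κ) {c : G} (hγ : R c γ) :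
    ∃ ρ : DD z c →* S, ∀ (x : DD z c) (δ : Subgroup.centralizer ({γ} : Set Co0)), R x.1 δ.1 → ρ x = Φ δ := by
  have hex : ∀ x : DD z c, ∃ δ : Subgroup.centralizer ({γ} : Set Co0), R x.1 δ.1 := by
    intro x
    obtain ⟨δ, hδ⟩ := M.R_ex' (mem_DD.1 x.2).1
    exact ⟨⟨δ, Subgroup.mem_centralizer_singleton_iff.2 (comm_gamma M D.odd D.pow hγ (mem_DD.1 x.2).2 hδ)⟩, hδ⟩
  choose f hf using hex
  have huniq : ∀ (x : DD z c) (δ : Subgroup.centralizer ({γ} : Set Co0)), R x.1 δ.1 → Φ (f x) = Φ δ := by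
    intro x δ hδ
    rcases R_eq M hδ (hf x) with h | h
    · congr 1; exact Subtype.ext h
    · have h2 : f x = ⟨neg * δ.1, by rw [← h]; exact (f x).2⟩ := Subtype.ext h
      rw [h2, Phi_neg D]
  refine ⟨MonoidHom.mk' (fun x => Φ (f x)) ?_, huniq⟩
  intro x y
  show Φ (f (x * y)) = Φ (f x) * Φ (f y)
  rw [← map_mul]
  exact huniq (x * y) (f x * f y) (M.R_mul (hf x) (hf y))

theorem rho_surj (M : MonData z Q Lab R q b) (D : CoD γ p Φ κ) {c : G} (hc : c ^ p = 1) (hγ : R c γ) {ρ : DD z c →* S}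
    (hρ : ∀ (x : DD z c) (δ : Subgroup.centralizer ({γ} : Set Co0)), R x.1 δ.1 → ρ x = Φ δ) : Function.Surjective ρ := by
  intro s
  obtain ⟨δ, rfl⟩ := D.surj s
  obtain ⟨x, hx, hxc⟩ := lift_comm M D.prime D.odd hc hγ (Subgroup.mem_centralizer_singleton_iff.1 δ.2)
  exact ⟨⟨x, mem_DD.2 ⟨M.R_comm hx, hxc⟩⟩, hρ _ δ hx⟩

/-- the kernel -/
theorem rho_ker (M : MonData z Q Lab R q b) (D : CoD γ p Φ κ) {c : G} (hc : c ^ p = 1) (hγ : R c γ) {ρ : DD z c →* S}
    (hρ : ∀ (x : DD z c) (δ : Subgroup.centralizer ({γ} : Set Co0)), R x.1 δ.1 → ρ x = Φ δ) (x : DD z c) :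
    ρ x = 1 ↔ ∃ k : ℕ, x.1 * c ^ k ∈ Q := by
  obtain ⟨δ, hδ⟩ := M.R_ex' (mem_DD.1 x.2).1
  have hδc := comm_gamma M D.odd D.pow hγ (mem_DD.1 x.2).2 hδ
  rw [hρ x ⟨δ, Subgroup.mem_centralizer_singleton_iff.2 hδc⟩ hδ, D.ker]
  have hp1 : 1 ≤ p := D.prime.one_lt.le
  constructor
  · rintro ⟨k, hk⟩
    refine ⟨(p - 1) * k, ?_⟩
    have h1 := M.R_mul hδ (R_pow M hγ ((p - 1) * k))
    have h2 : γ ^ k * γ ^ ((p - 1) * k) = 1 := by
      rw [← pow_add, show k + (p - 1) * k = p * k by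
        obtain ⟨m, rfl⟩ : ∃ m, p = m + 1 := ⟨p - 1, by omega⟩
        rw [Nat.add_sub_cancel]; ring, pow_mul, D.pow, one_pow]
    rcases hk with hk | hk
    · refine (M.R_Q h1).2 (Or.inl ?_)
      rw [show δ = γ ^ k from hk, h2]
    · refine (M.R_Q h1).2 (Or.inr ?_)
      rw [show δ = neg * γ ^ k from hk, mul_assoc, h2, mul_one]
  · rintro ⟨k, hk⟩
    have h1 := M.R_mul hδ (R_pow M hγ k)
    refine ⟨(p - 1) * k, ?_⟩
    have h2 : γ ^ k * γ ^ ((p - 1) * k) = 1 := by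
      rw [← pow_add, show k + (p - 1) * k = p * k by
        obtain ⟨m, rfl⟩ : ∃ m, p = m + 1 := ⟨p - 1, by omega⟩
        rw [Nat.add_sub_cancel]; ring, pow_mul, D.pow, one_pow]
    have h3 : γ ^ ((p - 1) * k) = (γ ^ k)⁻¹ := by rw [eq_inv_iff_mul_eq_one, ← pow_add, add_comm, pow_add, h2]
    rcases (M.R_Q h1).1 hk with h4 | h4
    · left
      show δ = _
      rw [h3, eq_inv_iff_mul_eq_one, h4]
    · right
      show δ = _
      rw [h3, eq_mul_inv_iff_mul_eq, h4]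
end

end H33.MonRed
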