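import Mathlib
import Cfsg.Agent.Lib.H33.MonRed
import Cfsg.Agent.Lib.H9.CoMat2
import Cfsg.Agent.Lib.H94.M24Enum

set_option autoImplicit false

/-! Centralizers of permutations in `Co0`: tools. -/

namespace H33.MonCo

open Cfsg H8.GolayCode H8.GolayCount H8.GolayBasic H9.Leech H9.LeechGood H9.Trans H9.Cross H9.CoOrder H9.CoMat
open H33.MonRed H91.LeechTools H40.PermCode
open H32.M24Kit (okTab pm pm_mem pm_idx pm_pt fs)

/-- equality test -/
theorem ext8 {g h : Co0} (H : ∀ k < 24, g • e8 (pt k) = h • e8 (pt k)) : g = h := by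
  have H' : ∀ q : GolayPt, g • e8 q = h • e8 q := by
    intro q
    have := H (idx q) (idx_lt q)
    rwa [pt_idx] at this
  apply Subtype.ext
  ext x : 1
  have h1 : co0Equiv g ((8 : ℤ) • x) = co0Equiv h ((8 : ℤ) • x) := by
    rw [H9.CoMat.eight_smul, map_sum, map_sum]
    apply Finset.sum_congr rfl
    intro q _
    rw [map_zsmul, map_zsmul]
    exact congrArg _ (H' q)
  rw [map_zsmul, map_zsmul] at h1
  apply Subtype.ext
  funext p
  have h2 := congrArg (fun y : leechLattice => (y : GolayPt → ℤ) p) h1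
  have h3 : (8 : ℤ) * ((g • x : leechLattice) : GolayPt → ℤ) p = 8 * ((h • x : leechLattice) : GolayPt → ℤ) p := h2
  exact (mul_right_inj' (by norm_num)).mp h3

/-- the permutation element -/
noncomputable def gm (t : ℕ) : Co0 := mono (pm t) (pm_mem t) ∅ empty_mem

theorem gm_e8 (t : ℕ) (p : GolayPt) : gm t • e8 p = e8 (pm t p) := by
  rw [gm, mono_e8, if_neg (Finset.notMem_empty _)]

theorem coe_gm (t : ℕ) (x : leechLattice) : ((gm t • x : leechLattice) : GolayPt → ℤ) = (x : GolayPt → ℤ) ∘ (pm t).symm := by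
  rw [gm, coe_mono, signed_empty]

theorem gm_at {t : ℕ} (x : leechLattice) (p : GolayPt) : ((gm t • x : leechLattice) : GolayPt → ℤ) (pm t p) = (x : GolayPt → ℤ) p := by
  rw [coe_gm, Function.comp_apply, Equiv.symm_apply_apply]

theorem mem_Fx_gm {t : ℕ} {x : leechLattice} : x ∈ Fx (gm t) ↔ ∀ p, (x : GolayPt → ℤ) (pm t p) = (x : GolayPt → ℤ) p := by
  rw [mem_Fx]
  constructor
  · intro h p
    conv_lhs => rw [← h]
    exact gm_at x p
  · intro h
    apply Subtype.ext
    funext q
    obtain ⟨p, rfl⟩ := (pm t).surjective q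
    rw [gm_at, h]

abbrev tb (c i : ℕ) : ℕ := H8.M24Mem.tab c i

/-- commuting test -/
noncomputable def commOK (t : ℕ) (B : List ℕ) : Bool :=
  allN (fun k => allN (fun j => Nat.beq (dg (row B (tb t k)) (tb t j)) (dg (row B k) j)) 24) 24

theorem comm_of {t : ℕ} {B : List ℕ} (ht : okTab t = true) {g : Co0} (hg : RepC g B) (h : commOK t B = true) :
    g * gm t = gm t * g := by
  rw [commOK, allN_iff] at h
  apply ext8
  intro k hk
  rw [mul_smul, mul_smul, gm_e8, pm_pt ht k hk]
  apply Subtype.ext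
  have htk : tb t k < 24 := H94.M24Enum.tab_lt ht hk
  rw [hg _ htk]
  funext q
  obtain ⟨p, rfl⟩ := (pm t).surjective q
  rw [gm_at, hg k hk]
  have h1 := h k hk
  rw [allN_iff] at h1
  have h2 := h1 (idx p) (idx_lt p)
  rw [Nat.beq_eq] at h2
  unfold vec
  rw [pm_idx ht, h2]

/-- inverting test -/
noncomputable def invOK (t : ℕ) (B : List ℕ) : Bool :=
  allN (fun k => allN (fun j => Nat.beq (dg (row B (tb t k)) j) (dg (row B k) (tb t j))) 24) 24

theorem inv_of {t : ℕ} {B : List ℕ} (ht : okTab t = true) {g : Co0} (hg : RepC g B) (h : invOK t B = true) :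
    gm t * (g * gm t) = g := by
  rw [invOK, allN_iff] at h
  apply ext8
  intro k hk
  rw [mul_smul, mul_smul, gm_e8, pm_pt ht k hk]
  apply Subtype.ext
  have htk : tb t k < 24 := H94.M24Enum.tab_lt ht hk
  funext q
  obtain ⟨p, rfl⟩ := (pm t).surjective q
  rw [gm_at, hg _ htk, hg k hk]
  have h1 := h k hk
  rw [allN_iff] at h1
  have h2 := h1 (idx p) (idx_lt p)
  rw [Nat.beq_eq] at h2
  unfold vec
  rw [pm_idx ht, h2]

/-- image of a packed vector -/
theorem img_of {g : Co0} {B : List ℕ} (hg : RepC g B) (hB : wfM B = true) {x : leechLattice} {v w : ℕ}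
    (hx : (x : GolayPt → ℤ) = vec v) (hv : wfr v = true) (hw : wfr w = true) (h : rowOK v B w = true) :
    ((g • x : leechLattice) : GolayPt → ℤ) = vec w := by
  funext p
  have h1 := hg.apply x p
  rw [hx, row_vec hv hw hB h] at h1
  exact (mul_right_inj' (by norm_num)).mp h1

section
variable {γ : Co0} {A : Type} [AddCommGroup A]

abbrev CC (γ : Co0) : Subgroup Co0 := Subgroup.centralizer ({γ} : Set Co0)

theorem mem_CC {γ g : Co0} : g ∈ CC γ ↔ g * γ = γ * g := Subgroup.mem_centralizer_singleton_iff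

/-- the action on the fixed lattice -/
def sm (σ : CC γ) (v : Fx γ) : Fx γ := ⟨σ.1 • v.1, by
  rw [mem_Fx, ← mul_smul, ← mem_CC.1 σ.2, mul_smul, mem_Fx.1 v.2]⟩

theorem sm_add (σ : CC γ) (v w : Fx γ) : sm σ (v + w) = sm σ v + sm σ w := Subtype.ext (co0_add σ.1 v.1 w.1)
theorem sm_mul (σ τ : CC γ) (v : Fx γ) : sm (σ * τ) v = sm σ (sm τ v) := Subtype.ext (mul_smul σ.1 τ.1 v.1)
theorem sm_one (v : Fx γ) : sm (1 : CC γ) v = v := Subtype.ext (one_smul _ v.1)

/-- the action on the quotient -/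
theorem exists_act (κ : Fx γ →+ A) (hs : Function.Surjective κ) (hk : ∀ v, κ v = 0 ↔ ∃ u : leechLattice, v.1 = u + u) :
    ∃ act : CC γ →* Equiv.Perm A, (∀ σ v, act σ (κ v) = κ (sm σ v)) ∧ ∀ σ a b, act σ (a + b) = act σ a + act σ b := by
  choose f hf using hs
  have hw : ∀ (σ : CC γ) (v w : Fx γ), κ v = κ w → κ (sm σ v) = κ (sm σ w) := by
    intro σ v w h
    have h1 : κ (v - w) = 0 := by rw [map_sub, h, sub_self]
    obtain ⟨u, hu⟩ := (hk _).1 h1
    have h2 : κ (sm σ (v - w)) = 0 := (hk _).2 ⟨σ.1 • u, by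
      show σ.1 • (v - w).1 = _
      rw [hu, co0_add]⟩
    have h3 : sm σ v = sm σ (v - w) + sm σ w := by rw [← sm_add, sub_add_cancel]
    rw [h3, map_add, h2, zero_add]
  have key : ∀ (σ : CC γ) (v : Fx γ), κ (sm σ (f (κ v))) = κ (sm σ v) := fun σ v => hw σ _ _ (hf _)
  let act : CC γ →* Equiv.Perm A :=
    { toFun := fun σ =>
        { toFun := fun a => κ (sm σ (f a))
          invFun := fun a => κ (sm σ⁻¹ (f a))
          left_inv := by
            intro a
            show κ (sm σ⁻¹ (f (κ (sm σ (f a))))) = a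
            rw [key, ← sm_mul, inv_mul_cancel, sm_one, hf]
          right_inv := by
            intro a
            show κ (sm σ (f (κ (sm σ⁻¹ (f a))))) = a
            rw [key, ← sm_mul, mul_inv_cancel, sm_one, hf] }
      map_one' := by
        ext a
        show κ (sm 1 (f a)) = a
        rw [sm_one, hf]
      map_mul' := by
        intro σ τ
        ext a
        show κ (sm (σ * τ) (f a)) = κ (sm σ (f (κ (sm τ (f a)))))
        rw [key, sm_mul] }
  refine ⟨act, key, ?_⟩
  intro σ a b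
  obtain ⟨v, rfl⟩ : ∃ v, κ v = a := ⟨f a, hf a⟩
  obtain ⟨w, rfl⟩ : ∃ w, κ w = b := ⟨f b, hf b⟩
  rw [← map_add]
  show κ (sm σ (f (κ (v + w)))) = κ (sm σ (f (κ v))) + κ (sm σ (f (κ w)))
  rw [key, key, key, sm_add, map_add]

/-- type 4 -/
def Four (v : leechLattice) : Prop := ∃ w u : leechLattice, sqNorm (w : GolayPt → ℤ) = 64 ∧ v = w + (u + u)
/-- type 2 -/
def Two (v : leechLattice) : Prop := ∃ w u : leechLattice, sqNorm (w : GolayPt → ℤ) = 32 ∧ v = w + (u + u)
/-- type 3 -/
def Three (v : leechLattice) : Prop := ∃ w u : leechLattice, sqNorm (w : GolayPt → ℤ) = 48 ∧ v = w + (u + u)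

theorem Four.smul {v : leechLattice} (h : Four v) (g : Co0) : Four (g • v) := by
  obtain ⟨w, u, h1, rfl⟩ := h
  exact ⟨g • w, g • u, by rw [H9.Trans.norm_smul, h1], by rw [co0_add, co0_add]⟩

theorem form_of {v : leechLattice} {n : ℤ} (h : sqNorm (v : GolayPt → ℤ) = 8 * n) : form v v = n := by
  have := eight_form_self v
  omega

/-- two short vectors in the same class -/
theorem same_norm {v w v' : leechLattice} {m n : ℤ} (hv : sqNorm (v : GolayPt → ℤ) = 8 * m) (hw : sqNorm (w : GolayPt → ℤ) = 8 * n)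
    (hm : m ≤ 8) (hn : n ≤ 8) (h : v = w + (v' + v')) : m = n := by
  have h1 := form_of hv
  have h2 := form_of hw
  have h3 : v - w = 2 • v' := by rw [h, two_smul]; abel
  rcases H9.ModTwo.trichotomy good (by rw [h1]; exact hm) (by rw [h2]; exact hn) h3 with h4 | h4 | h4
  · rw [h4, h2] at h1; exact h1.symm
  · rw [h4] at h1
    simp only [map_neg, AddMonoidHom.neg_apply, neg_neg] at h1
    rw [h2] at h1; exact h1.symm
  · rw [← h1, ← h2, h4.1, h4.2.1]

theorem Four.not_two {v : leechLattice} (h : Four v) (h' : Two v) : False := by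
  obtain ⟨w, u, h1, h2⟩ := h
  obtain ⟨w', u', h3, h4⟩ := h'
  have h5 : w = w' + ((u' - u) + (u' - u)) := by
    have : w + (u + u) = w' + (u' + u') := by rw [← h2, ← h4]
    rw [eq_comm, ← sub_eq_zero] at this
    rw [eq_comm, ← sub_eq_zero, ← this]; abel
  have := same_norm (m := 8) (n := 4) (by rw [h1]; norm_num) (by rw [h3]; norm_num) (by norm_num) (by norm_num) h5
  omega

theorem Four.not_three {v : leechLattice} (h : Four v) (h' : Three v) : False := by
  obtain ⟨w, u, h1, h2⟩ := h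
  obtain ⟨w', u', h3, h4⟩ := h'
  have h5 : w = w' + ((u' - u) + (u' - u)) := by
    have : w + (u + u) = w' + (u' + u') := by rw [← h2, ← h4]
    rw [eq_comm, ← sub_eq_zero] at this
    rw [eq_comm, ← sub_eq_zero, ← this]; abel
  have := same_norm (m := 8) (n := 6) (by rw [h1]; norm_num) (by rw [h3]; norm_num) (by norm_num) (by norm_num) h5
  omega

theorem Four.not_double {v u : leechLattice} (h : Four v) (h' : v = u + u) : False := by
  obtain ⟨w, u', h1, h2⟩ := h
  have h5 : w = 0 + ((u - u') + (u - u')) := by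
    have : w = (u + u) - (u' + u') := by rw [eq_sub_iff_add_eq, ← h2, ← h']
    rw [this]; abel
  have h0 : sqNorm ((0 : leechLattice) : GolayPt → ℤ) = 8 * 0 := by
    rw [mul_zero, sqNorm_eq_zero]; rfl
  have := same_norm (m := 8) (n := 0) (by rw [h1]; norm_num) h0 (by norm_num) (by norm_num) h5
  omega

theorem four_e8 (p : GolayPt) : Four (e8 p) := by
  refine ⟨e8 p, 0, ?_, by rw [add_zero, add_zero]⟩
  have := eight_form_self (e8 p)
  rw [e8_norm] at this
  omega
end

end H33.MonCo
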