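import Mathlib
import Cfsg.Agent.Lib.H33.MonCo

set_option autoImplicit false

/-! Centralizers of permutations in `Co0`: order. -/

namespace H33.MonCo

open Cfsg H8.GolayCode H8.GolayCount H8.GolayBasic H9.Leech H9.LeechGood H9.Trans H9.Cross H9.CoOrder H9.CoMat
open H33.MonRed H91.LeechTools H40.PermCode
open H32.M24Kit (okTab pm pm_mem pm_idx pm_pt fs)

/-- monomial elements commuting with a permutation -/
theorem mono_comm {t : ℕ} {π : Equiv.Perm GolayPt} {hπ : π ∈ M24} {c : Finset GolayPt} {hc : c ∈ GS}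
    (h : mono π hπ c hc * gm t = gm t * mono π hπ c hc) : π * pm t = pm t * π ∧ c.image (pm t) = c := by
  have key : ∀ q, π (pm t q) = pm t (π q) ∧ (pm t (π q) ∈ c ↔ π q ∈ c) := by
    intro q
    have h1 : (mono π hπ c hc * gm t) • e8 q = (gm t * mono π hπ c hc) • e8 q := by rw [h]
    rw [mul_smul, mul_smul, gm_e8, mono_e8, mono_e8] at h1
    have hne : ∀ p p' : GolayPt, e8 p = e8 p' → p = p' := by
      intro p p' h
      have := congrArg (fun x : leechLattice => (x : GolayPt → ℤ) p) h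
      simp only [coe_e8, Pi.single_eq_same] at this
      by_contra hpp
      rw [Pi.single_eq_of_ne hpp] at this
      norm_num at this
    have hne2 : ∀ p p' : GolayPt, e8 p ≠ -e8 p' := by
      intro p p' h
      have := congrArg (fun x : leechLattice => (x : GolayPt → ℤ) p) h
      simp only [coe_e8, Pi.single_eq_same, AddSubgroup.coe_neg, Pi.neg_apply] at this
      by_cases hpp : p = p'
      · subst hpp; rw [Pi.single_eq_same] at this; norm_num at this
      · rw [Pi.single_eq_of_ne hpp] at this; norm_num at this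
    split_ifs at h1 with h2 h3 h3
    · rw [co0_neg, gm_e8, neg_inj] at h1
      have := hne _ _ h1
      exact ⟨this, by rw [← this]; exact ⟨fun _ => h3, fun _ => h2⟩⟩
    · rw [gm_e8] at h1
      exact absurd h1.symm (hne2 _ _)
    · rw [co0_neg, gm_e8] at h1
      exact absurd h1 (hne2 _ _)
    · rw [gm_e8] at h1
      have := hne _ _ h1
      exact ⟨this, by rw [← this]; exact ⟨fun h => absurd h h2, fun h => absurd h h3⟩⟩
  refine ⟨Equiv.ext fun q => (key q).1, ?_⟩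
  ext x
  rw [Finset.mem_image]
  constructor
  · rintro ⟨y, hy, rfl⟩
    obtain ⟨q, rfl⟩ := π.surjective y
    exact (key q).2.2 hy
  · intro hx
    obtain ⟨y, rfl⟩ := (pm t).surjective x
    obtain ⟨q, rfl⟩ := π.surjective y
    exact ⟨π q, (key q).2.1 hx, rfl⟩

/-- the stabiliser of the cross -/
theorem card_stab_le {t n m : ℕ}
    (hC : Nat.card {g : Equiv.Perm GolayPt // g ∈ M24 ∧ g * pm t = pm t * g} ≤ n)
    (hG : Nat.card {c : Finset GolayPt // c ∈ GS ∧ c.image (pm t) = c} ≤ m) :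
    Nat.card {σ : CC (gm t) // Pres σ.1} ≤ n * m := by
  have hex : ∀ σ : {σ : CC (gm t) // Pres σ.1}, ∃ (x : {g : Equiv.Perm GolayPt // g ∈ M24 ∧ g * pm t = pm t * g})
      (y : {c : Finset GolayPt // c ∈ GS ∧ c.image (pm t) = c}), σ.1.1 = mono x.1 x.2.1 y.1 y.2.1 := by
    intro σ
    obtain ⟨π, hπ, c, hc, h⟩ := mono_of_pres σ.2
    have h1 := mem_CC.1 σ.1.2
    rw [h] at h1
    obtain ⟨h2, h3⟩ := mono_comm h1
    exact ⟨⟨π, hπ, h2⟩, ⟨c, hc, h3⟩, h⟩
  choose f g hfg using hex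
  have hinj : Function.Injective (fun σ => (f σ, g σ)) := by
    intro σ τ h
    have h1 : f σ = f τ := congrArg Prod.fst h
    have h2 : g σ = g τ := congrArg Prod.snd h
    apply Subtype.ext
    apply Subtype.ext
    rw [hfg σ, hfg τ]
    congr 1
    · rw [h1]
    · rw [h2]
  calc Nat.card {σ : CC (gm t) // Pres σ.1} ≤ Nat.card ({g : Equiv.Perm GolayPt // g ∈ M24 ∧ g * pm t = pm t * g} × {c : Finset GolayPt // c ∈ GS ∧ c.image (pm t) = c}) :=
        Nat.card_le_card_of_injective _ hinj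
    _ = _ * _ := Nat.card_prod _ _
    _ ≤ n * m := Nat.mul_le_mul hC hG

/-- invariant code words -/
theorem card_inv_le {t : ℕ} {l : List ℕ}
    (h : ∀ c ∈ GS, c.image (pm t) = c → ∃ n ∈ l, c = fs n) :
    Nat.card {c : Finset GolayPt // c ∈ GS ∧ c.image (pm t) = c} ≤ l.length := by
  classical
  have h1 : ∀ c : {c : Finset GolayPt // c ∈ GS ∧ c.image (pm t) = c}, ∃ i : Fin l.length, c.1 = fs l[i] := by
    intro c
    obtain ⟨n, hn, hc⟩ := h c.1 c.2.1 c.2.2
    obtain ⟨i, hi, rfl⟩ := List.getElem_of_mem hn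
    exact ⟨⟨i, hi⟩, hc⟩
  choose f hf using h1
  have hinj : Function.Injective f := by
    intro c d h
    apply Subtype.ext
    rw [hf c, hf d, h]
  calc _ ≤ Nat.card (Fin l.length) := Nat.card_le_card_of_injective _ hinj
    _ = l.length := by rw [Nat.card_eq_fintype_card, Fintype.card_fin]

section
variable {γ : Co0} {A : Type} [AddCommGroup A]

/-- orbit-stabiliser -/
theorem card_le {κ : Fx γ →+ A} (hk : ∀ v, κ v = 0 ↔ ∃ u : leechLattice, v.1 = u + u)
    {act : CC γ →* Equiv.Perm A} (hact : ∀ σ v, act σ (κ v) = κ (sm σ v)) {v0 : Fx γ} {p : GolayPt}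
    (hv0 : ∃ u : leechLattice, v0.1 = e8 p + (u + u)) {T : Set A} (hTf : T.Finite) (hT : ∀ σ, act σ (κ v0) ∈ T) :
    Nat.card (CC γ) ≤ T.ncard * Nat.card {σ : CC γ // Pres σ.1} := by
  let _ : MulAction (CC γ) A := MulAction.compHom A act
  have hsm : ∀ (σ : CC γ) (a : A), σ • a = act σ a := fun _ _ => rfl
  have h1 := Nat.card_congr (MulAction.orbitProdStabilizerEquivGroup (CC γ) (κ v0))
  rw [Nat.card_prod] at h1
  rw [← h1]
  apply Nat.mul_le_mul
  · rw [Nat.card_coe_set_eq]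
    apply Set.ncard_le_ncard _ hTf
    rintro a ⟨σ, rfl⟩
    exact hT σ
  · have hst : ∀ σ : MulAction.stabilizer (CC γ) (κ v0), Pres σ.1.1 := by
      intro σ
      have h2 : act σ.1 (κ v0) = κ v0 := σ.2
      rw [hact] at h2
      have h3 : κ (sm σ.1 v0 - v0) = 0 := by rw [map_sub, h2, sub_self]
      obtain ⟨u, hu⟩ := (hk _).1 h3
      obtain ⟨w, hw⟩ := hv0
      rw [pres_iff' p]
      have h4 : σ.1.1 • v0.1 - v0.1 = u + u := hu
      rw [hw, co0_add, co0_add] at h4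
      refine ⟨u - σ.1.1 • w + w, ?_⟩
      rw [two_smul]
      have h5 : σ.1.1 • e8 p - e8 p = (u + u) - (σ.1.1 • w + σ.1.1 • w) + (w + w) := by
        rw [← h4]; abel
      rw [h5]; abel
    have : Finite {σ : CC γ // Pres σ.1} := inferInstance
    exact Nat.card_le_card_of_injective (fun σ => (⟨σ.1, hst σ⟩ : {σ : CC γ // Pres σ.1})) (fun σ τ h =>
      Subtype.ext (congrArg (fun x : {σ : CC γ // Pres σ.1} => x.1) h))

theorem neg_mem_CC {γ g : Co0} (h : g ∈ CC γ) : neg * g ∈ CC γ := by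
  rw [mem_CC] at h ⊢
  rw [mul_assoc, h, ← mul_assoc, neg_central, mul_assoc]

theorem pow_mem_CC (γ : Co0) (k : ℕ) : γ ^ k ∈ CC γ := by
  rw [mem_CC]
  exact (Commute.pow_self γ k).eq

/-- the kernel is determined by its order -/
theorem ker_exact {S : Type*} [Group S] {p r : ℕ} (hp : p.Prime) (hodd : Odd p) (hγ : γ ^ p = 1) (hγ1 : γ ≠ 1)
    (Φ : CC γ →* S) (hK : ∀ k, Φ ⟨γ ^ k, pow_mem_CC γ k⟩ = 1)
    (hN : Φ ⟨neg * γ ^ 0, neg_mem_CC (pow_mem_CC γ 0)⟩ = 1) (hr0 : 0 < r) (hr : r ≤ Nat.card Φ.range)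
    (hc : Nat.card (CC γ) ≤ r * (2 * p)) :
    (∀ δ, Φ δ = 1 ↔ ∃ k : ℕ, δ.1 = γ ^ k ∨ δ.1 = neg * γ ^ k) ∧ Nat.card Φ.range = r := by
  have hK' : ∀ k, Φ ⟨neg * γ ^ k, neg_mem_CC (pow_mem_CC γ k)⟩ = 1 := by
    intro k
    have : (⟨neg * γ ^ k, neg_mem_CC (pow_mem_CC γ k)⟩ : CC γ) =
        ⟨neg * γ ^ 0, neg_mem_CC (pow_mem_CC γ 0)⟩ * ⟨γ ^ k, pow_mem_CC γ k⟩ := by
      apply Subtype.ext
      show neg * γ ^ k = neg * γ ^ 0 * γ ^ k
      rw [pow_zero, mul_one]
    rw [this, map_mul, hN, hK, one_mul]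
  have horder : orderOf γ = p := by
    have hp' : Fact p.Prime := ⟨hp⟩
    exact orderOf_eq_prime hγ hγ1
  let f : Fin p × Bool → Φ.ker := fun x => if x.2 then ⟨⟨γ ^ x.1.1, pow_mem_CC γ _⟩, hK _⟩ else
    ⟨⟨neg * γ ^ x.1.1, neg_mem_CC (pow_mem_CC γ _)⟩, hK' _⟩
  have hpw : ∀ i j : Fin p, γ ^ i.1 = γ ^ j.1 → i = j := by
    intro i j h
    rw [pow_inj_mod, horder, Nat.mod_eq_of_lt i.2, Nat.mod_eq_of_lt j.2] at h
    exact Fin.ext h
  have hnp : ∀ i j : Fin p, γ ^ i.1 ≠ neg * γ ^ j.1 := by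
    intro i j h
    have h1 : (γ ^ i.1) ^ p = 1 := by rw [← pow_mul, mul_comm, pow_mul, hγ, one_pow]
    rw [h, neg_mul_pow, neg_pow_odd hodd, ← pow_mul, mul_comm, pow_mul, hγ, one_pow, mul_one] at h1
    exact neg_ne_one h1
  have hf : Function.Injective f := by
    rintro ⟨i, a⟩ ⟨j, b⟩ h
    have h1 := congrArg (fun x : Φ.ker => x.1.1) h
    cases a <;> cases b
    · have h2 : neg * γ ^ i.1 = neg * γ ^ j.1 := h1
      rw [mul_right_inj] at h2
      rw [hpw i j h2]
    · have h2 : neg * γ ^ i.1 = γ ^ j.1 := h1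
      exact absurd h2.symm (hnp j i)
    · have h2 : γ ^ i.1 = neg * γ ^ j.1 := h1
      exact absurd h2 (hnp i j)
    · have h2 : γ ^ i.1 = γ ^ j.1 := h1
      rw [hpw i j h2]
  have hfin : Finite Φ.ker := inferInstance
  have hcf : Nat.card (Fin p × Bool) = 2 * p := by
    rw [Nat.card_prod, Nat.card_eq_fintype_card, Fintype.card_fin, Nat.card_eq_fintype_card, Fintype.card_bool, mul_comm]
  have h1 : 2 * p ≤ Nat.card Φ.ker := by
    rw [← hcf]
    exact Nat.card_le_card_of_injective f hf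
  have h2 := Φ.ker.card_mul_index
  rw [Subgroup.index_ker] at h2
  have h3 : Nat.card Φ.ker * Nat.card Φ.range ≤ r * (2 * p) := by rw [h2]; exact hc
  have hp0 : 0 < p := hp.pos
  have h4 : Nat.card Φ.ker = 2 * p := by
    apply le_antisymm _ h1
    have : Nat.card Φ.ker * r ≤ r * (2 * p) := le_trans (Nat.mul_le_mul_left _ hr) h3
    rw [mul_comm] at this
    exact Nat.le_of_mul_le_mul_left this hr0
  have h5 : Nat.card Φ.range = r := by
    apply le_antisymm _ hr
    rw [h4, mul_comm] at h3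
    exact Nat.le_of_mul_le_mul_right h3 (by omega)
  refine ⟨?_, h5⟩
  have hb : Function.Bijective f := hf.bijective_of_nat_card_le (by rw [hcf, h4])
  intro δ
  constructor
  · intro h
    obtain ⟨⟨i, a⟩, hx⟩ := hb.2 ⟨δ, h⟩
    have h6 := congrArg (fun x : Φ.ker => x.1.1) hx
    refine ⟨i.1, ?_⟩
    cases a
    · right; exact h6.symm
    · left; exact h6.symm
  · rintro ⟨k, h | h⟩
    · rw [show δ = ⟨γ ^ k, pow_mem_CC γ k⟩ from Subtype.ext h]; exact hK k
    · rw [show δ = ⟨neg * γ ^ k, neg_mem_CC (pow_mem_CC γ k)⟩ from Subtype.ext h]; exact hK' k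
end

end H33.MonCo
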