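import Mathlib
import Cfsg.Agent.Lib.H33.MonCo2

set_option autoImplicit false

/-! Centralizers of permutations in `Co0`: coordinates on the fixed lattice. -/

namespace H33.MonCo

open Cfsg H8.GolayCode H8.GolayCount H8.GolayBasic H9.Leech H9.LeechGood H9.Trans H9.Cross H9.CoOrder H9.CoMat
open H33.MonRed H91.LeechTools H40.PermCode
open H32.M24Kit (okTab pm pm_mem pm_idx pm_pt fs)

theorem double_inj {u w : leechLattice} (h : u + u = w + w) : u = w := by
  apply Subtype.ext
  funext p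
  have := congrArg (fun x : leechLattice => (x : GolayPt → ℤ) p) h
  have h2 : (u : GolayPt → ℤ) p + (u : GolayPt → ℤ) p = (w : GolayPt → ℤ) p + (w : GolayPt → ℤ) p := this
  omega

/-- coordinates on the fixed lattice modulo 2 -/
theorem exists_kappa {γ : Co0} {n : ℕ} (b : Fin n → leechLattice) (φ : Fin n → leechLattice →+ ℤ) (D : Fin n → ℤ)
    (hD : ∀ j, D j ≠ 0) (hφ : ∀ j k, φ j (b k) = if j = k then D j else 0) (hb : ∀ j, b j ∈ Fx γ)
    (hspan : ∀ v ∈ Fx γ, ∃ r : Fin n → ℤ, v = ∑ j, r j • b j) :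
    ∃ κ : Fx γ →+ (Fin n → ZMod 2), Function.Surjective κ ∧ (∀ v, κ v = 0 ↔ ∃ u : leechLattice, v.1 = u + u) ∧
      ∀ (v : Fx γ) j, κ v j = ((φ j v.1 / D j : ℤ) : ZMod 2) := by
  have hv : ∀ (r : Fin n → ℤ) (j : Fin n), φ j (∑ k, r k • b k) = r j * D j := by
    intro r j
    rw [map_sum]
    simp only [map_zsmul, hφ, smul_eq_mul, mul_ite, mul_zero, Finset.sum_ite_eq, Finset.mem_univ, if_true]
  have hv' : ∀ (r : Fin n → ℤ) (j : Fin n), φ j (∑ k, r k • b k) / D j = r j := by
    intro r j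
    rw [hv, Int.mul_ediv_cancel _ (hD j)]
  let κ : Fx γ →+ (Fin n → ZMod 2) :=
    { toFun := fun v j => ((φ j v.1 / D j : ℤ) : ZMod 2)
      map_zero' := by
        funext j
        show ((φ j 0 / D j : ℤ) : ZMod 2) = 0
        rw [map_zero, Int.zero_ediv, Int.cast_zero]
      map_add' := by
        intro v w
        funext j
        show ((φ j (v.1 + w.1) / D j : ℤ) : ZMod 2) = ((φ j v.1 / D j : ℤ) : ZMod 2) + ((φ j w.1 / D j : ℤ) : ZMod 2)
        obtain ⟨r, hr⟩ := hspan v.1 v.2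
        obtain ⟨s, hs⟩ := hspan w.1 w.2
        rw [map_add, hr, hs, hv, hv, ← add_mul, Int.mul_ediv_cancel _ (hD j), Int.mul_ediv_cancel _ (hD j),
          Int.mul_ediv_cancel _ (hD j)]
        push_cast; rfl }
  have hmem : ∀ r : Fin n → ℤ, ∑ k, r k • b k ∈ Fx γ := fun r =>
    (Fx γ).sum_mem fun k _ => (Fx γ).zsmul_mem (hb k) _
  refine ⟨κ, ?_, ?_, fun _ _ => rfl⟩
  · intro a
    refine ⟨⟨∑ k, ((a k).val : ℤ) • b k, hmem _⟩, ?_⟩
    funext j
    show ((φ j (∑ k, ((a k).val : ℤ) • b k) / D j : ℤ) : ZMod 2) = a j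
    rw [hv']
    push_cast
    exact ZMod.natCast_zmod_val (a j)
  · intro v
    constructor
    · intro h
      obtain ⟨r, hr⟩ := hspan v.1 v.2
      have h1 : ∀ j, (2 : ℤ) ∣ r j := by
        intro j
        have h2 : ((φ j v.1 / D j : ℤ) : ZMod 2) = 0 := congrFun h j
        rw [hr, hv'] at h2
        exact (ZMod.intCast_zmod_eq_zero_iff_dvd (r j) 2).1 h2
      choose s hs using h1
      refine ⟨∑ k, s k • b k, ?_⟩
      rw [hr, ← Finset.sum_add_distrib]
      apply Finset.sum_congr rfl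
      intro k _
      rw [hs k, two_mul, add_smul]
    · rintro ⟨u, hu⟩
      have h1 : u ∈ Fx γ := by
        rw [mem_Fx]
        apply double_inj
        rw [← co0_add, ← hu]
        exact mem_Fx.1 v.2
      obtain ⟨r, hr⟩ := hspan u h1
      funext j
      show ((φ j v.1 / D j : ℤ) : ZMod 2) = 0
      have h2 : v.1 = ∑ k, (2 * r k) • b k := by
        rw [hu, hr, ← Finset.sum_add_distrib]
        apply Finset.sum_congr rfl
        intro k _
        rw [two_mul, add_smul]
      rw [h2, hv']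
      push_cast
      have : (2 : ZMod 2) = 0 := rfl
      rw [this, zero_mul]

/-- sum of a list of products -/
def lsum (l : List ℤ) (f : ℕ → ℤ) : ℕ → ℤ
  | 0 => 0
  | k + 1 => lsum l f k + l.getD k 0 * f k

theorem lsum_eq (l : List ℤ) (f : ℕ → ℤ) (n : ℕ) : lsum l f n = ∑ i ∈ Finset.range n, l.getD i 0 * f i := by
  induction n with
  | zero => rfl
  | succ n ih => rw [lsum, Finset.sum_range_succ, ih]

theorem lsum_congr {l : List ℤ} {f g : ℕ → ℤ} {n : ℕ} (h : ∀ i < n, f i = g i) : lsum l f n = lsum l g n := by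
  rw [lsum_eq, lsum_eq]
  exact Finset.sum_congr rfl fun i hi => by rw [h i (Finset.mem_range.1 hi)]

/-- a functional -/
def phi (l : List ℤ) : leechLattice →+ ℤ where
  toFun v := lsum l (fun i => (v : GolayPt → ℤ) (pt i)) 24
  map_zero' := by
    rw [lsum_eq]
    apply Finset.sum_eq_zero
    intro i _
    show l.getD i 0 * 0 = 0
    rw [mul_zero]
  map_add' v w := by
    rw [lsum_eq, lsum_eq, lsum_eq, ← Finset.sum_add_distrib]
    apply Finset.sum_congr rfl
    intro i _
    rw [← mul_add]; rfl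

theorem phi_vec (l : List ℤ) {v : leechLattice} {d : ℕ} (h : (v : GolayPt → ℤ) = vec d) :
    phi l v = lsum l (fun i => (dg d i : ℤ) - 8) 24 := by
  show lsum l (fun i => (v : GolayPt → ℤ) (pt i)) 24 = _
  apply lsum_congr
  intro i hi
  rw [h, vec_pt d hi]

/-- norm of a packed vector -/
def nsq (d : ℕ) : ℕ → ℤ
  | 0 => 0
  | k + 1 => nsq d k + ((dg d k : ℤ) - 8) * ((dg d k : ℤ) - 8)

theorem nsq_eq {v : leechLattice} {d : ℕ} (h : (v : GolayPt → ℤ) = vec d) : sqNorm (v : GolayPt → ℤ) = nsq d 24 := by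
  have h1 : ∀ n, nsq d n = ∑ i ∈ Finset.range n, ((dg d i : ℤ) - 8) * ((dg d i : ℤ) - 8) := by
    intro n
    induction n with
    | zero => rfl
    | succ n ih => rw [nsq, Finset.sum_range_succ, ih]
  rw [h1, sqNorm, H9.CoMat.sum_pt]
  apply Finset.sum_congr rfl
  intro i hi
  rw [h, vec_pt d (Finset.mem_range.1 hi), sq]

open Classical in
/-- a packed vector as a lattice element -/
noncomputable def lv (d : ℕ) : leechLattice := if h : vec d ∈ leechLattice then ⟨vec d, h⟩ else 0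

theorem coe_lv {d : ℕ} (h : inLat d = true) : ((lv d : leechLattice) : GolayPt → ℤ) = vec d := by
  unfold lv
  rw [dif_pos (inLat_spec h)]

/-- fixed test -/
noncomputable def fxOK (t d : ℕ) : Bool := allN (fun j => Nat.beq (dg d (tb t j)) (dg d j)) 24

theorem lv_fx {t d : ℕ} (ht : okTab t = true) (h : inLat d = true) (h' : fxOK t d = true) : lv d ∈ Fx (gm t) := by
  rw [mem_Fx_gm, coe_lv h]
  intro p
  rw [fxOK, allN_iff] at h'
  have := h' (idx p) (idx_lt p)
  rw [Nat.beq_eq] at this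
  unfold vec
  rw [pm_idx ht, this]

theorem fx_pt {t : ℕ} (ht : okTab t = true) {v : leechLattice} (h : v ∈ Fx (gm t)) {i j : ℕ} (hi : i < 24) (hj : tb t i = j) :
    (v : GolayPt → ℤ) (pt j) = (v : GolayPt → ℤ) (pt i) := by
  have := mem_Fx_gm.1 h (pt i)
  rwa [pm_pt ht i hi, show H8.M24Mem.tab t i = j from hj] at this

end H33.MonCo
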