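import Mathlib
import Cfsg.Agent.Lib.H33.MonCo3

set_option autoImplicit false

/-! Centralizers of permutations in `Co0`: the action on the fixed lattice modulo 2 by bit masks. -/

namespace H33.MonCo

open Cfsg H8.GolayCode H8.GolayCount H8.GolayBasic H9.Leech H9.LeechGood H9.Trans H9.Cross H9.CoOrder H9.CoMat
open H33.MonRed H91.LeechTools H40.PermCode
open H32.M24Kit (okTab pm pm_mem pm_idx pm_pt fs)

/-- vectors from masks -/
def bv (n m : ℕ) : Fin n → ZMod 2 := fun j => if m.testBit j then 1 else 0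

theorem bv_zero (n : ℕ) : bv n 0 = 0 := by
  funext j
  show (if (0 : ℕ).testBit j then (1 : ZMod 2) else 0) = 0
  rw [Nat.zero_testBit]; rfl

theorem bv_xor (n a b : ℕ) : bv n (a ^^^ b) = bv n a + bv n b := by
  funext j
  show (if (a ^^^ b).testBit j then (1 : ZMod 2) else 0) = (if a.testBit j then 1 else 0) + (if b.testBit j then 1 else 0)
  rw [Nat.testBit_xor]
  cases a.testBit j <;> cases b.testBit j <;> decide

theorem bv_inj {n a b : ℕ} (ha : a < 2 ^ n) (hb : b < 2 ^ n) (h : bv n a = bv n b) : a = b := by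
  apply Nat.eq_of_testBit_eq
  intro i
  by_cases hi : i < n
  · have h1 := congrFun h ⟨i, hi⟩
    have h2 : (if a.testBit i then (1 : ZMod 2) else 0) = if b.testBit i then 1 else 0 := h1
    cases h3 : a.testBit i <;> cases h4 : b.testBit i <;> rw [h3, h4] at h2
    · exact absurd h2 (by decide)
    · exact absurd h2 (by decide)
  · have hle : 2 ^ n ≤ 2 ^ i := Nat.pow_le_pow_right (by norm_num) (by omega)
    rw [Nat.testBit_lt_two_pow (lt_of_lt_of_le ha hle), Nat.testBit_lt_two_pow (lt_of_lt_of_le hb hle)]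

theorem bv_surj {n : ℕ} (a : Fin n → ZMod 2) : ∃ m < 2 ^ n, bv n m = a := by
  have hinj : Function.Injective (fun m : Fin (2 ^ n) => bv n m.1) := fun m m' h => Fin.ext (bv_inj m.2 m'.2 h)
  have hcard : Fintype.card (Fin (2 ^ n)) = Fintype.card (Fin n → ZMod 2) := by
    rw [Fintype.card_fin, Fintype.card_fun, ZMod.card, Fintype.card_fin]
  obtain ⟨m, hm⟩ := ((Fintype.bijective_iff_injective_and_card _).2 ⟨hinj, hcard⟩).2 a
  exact ⟨m.1, m.2, hm⟩

/-- linear maps by images of bits -/
def lin : List ℕ → ℕ → ℕ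
  | [], _ => 0
  | a :: l, m => (bif m.testBit 0 then a else 0) ^^^ lin l (m / 2)

theorem lin_spec {n : ℕ} {f : (Fin n → ZMod 2) → (Fin n → ZMod 2)} (hf : ∀ a b, f (a + b) = f a + f b) (l : List ℕ) :
    ∀ k, (∀ j < l.length, f (bv n (2 ^ (k + j))) = bv n (l.getD j 0)) → ∀ m < 2 ^ l.length, f (bv n (m * 2 ^ k)) = bv n (lin l m) := by
  have hf0 : f 0 = 0 := by
    have := hf 0 0
    rw [add_zero] at this
    exact (left_eq_add.1 this)
  induction l with
  | nil =>
    intro k _ m hm
    have : m = 0 := by simpa using hm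
    subst this
    rw [zero_mul, lin, bv_zero, hf0]
  | cons a l ih =>
    intro k h m hm
    rw [lin, bv_xor]
    have h1 := ih (k + 1) (fun j hj => by
      have := h (j + 1) (by rw [List.length_cons]; omega)
      rw [show k + 1 + j = k + (j + 1) by ring, this]
      rfl) (m / 2) (by rw [List.length_cons, pow_succ] at hm; omega)
    rw [← h1]
    have h2 : m * 2 ^ k = ((bif m.testBit 0 then 1 else 0) * 2 ^ k) ^^^ (m / 2 * 2 ^ (k + 1)) := by
      have h3 : (bif m.testBit 0 then 1 else 0) = m % 2 := by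
        rw [Nat.testBit_zero]
        rcases Nat.mod_two_eq_zero_or_one m with h | h <;> rw [h] <;> rfl
      rw [h3]
      have h4 : m = m % 2 + 2 * (m / 2) := (Nat.mod_add_div m 2).symm
      have h5 : m * 2 ^ k = (m % 2) * 2 ^ k + m / 2 * 2 ^ (k + 1) := by
        conv_lhs => rw [h4]
        ring
      rw [h5]
      apply Nat.eq_of_testBit_eq
      intro i
      have h6 : (m % 2) * 2 ^ k < 2 ^ (k + 1) := by
        rw [pow_succ, mul_comm]
        apply Nat.mul_lt_mul_of_pos_left (Nat.mod_lt _ (by norm_num)) (by positivity)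
      rw [Nat.testBit_xor, add_comm, mul_comm (m / 2), Nat.testBit_two_pow_mul_add _ h6]
      rw [mul_comm (2 ^ (k + 1)), Nat.testBit_mul_two_pow (m / 2) i (k + 1)]
      by_cases hi : i < k + 1
      · rw [if_pos hi]
        have : decide (k + 1 ≤ i) = false := by simpa using hi
        rw [this, Bool.false_and, Bool.xor_false]
      · rw [if_neg hi]
        have : decide (k + 1 ≤ i) = true := by simpa using hi
        rw [this, Bool.true_and, Nat.testBit_lt_two_pow (lt_of_lt_of_le h6 (Nat.pow_le_pow_right (by norm_num) (by omega))),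
          Bool.false_xor]
    rw [h2, bv_xor, hf]
    congr 1
    have h0 := h 0 (by rw [List.length_cons]; omega)
    cases hb : m.testBit 0
    · simp only [cond_false]
      rw [zero_mul, bv_zero, hf0]
    · simp only [cond_true]
      rw [one_mul]
      exact h0

/-- the mask of a packed vector -/
def kmask : List (List ℤ × ℤ) → ℕ → ℕ
  | [], _ => 0
  | (l, D) :: t, d => (lsum l (fun i => (dg d i : ℤ) - 8) 24 / D % 2).toNat + 2 * kmask t d

theorem kmask_lt (cs : List (List ℤ × ℤ)) (d : ℕ) : kmask cs d < 2 ^ cs.length := by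
  induction cs with
  | nil => simp [kmask]
  | cons c cs ih =>
    obtain ⟨l, D⟩ := c
    rw [kmask, List.length_cons, pow_succ]
    have : (lsum l (fun i => (dg d i : ℤ) - 8) 24 / D % 2).toNat < 2 := by omega
    omega

theorem kmask_bit (cs : List (List ℤ × ℤ)) (d : ℕ) : ∀ j < cs.length,
    (kmask cs d).testBit j = decide (lsum (cs.getD j ([], 1)).1 (fun i => (dg d i : ℤ) - 8) 24 / (cs.getD j ([], 1)).2 % 2 = 1) := by
  induction cs with
  | nil => intro j hj; simp at hj
  | cons c cs ih =>
    obtain ⟨l, D⟩ := c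
    intro j hj
    rw [kmask]
    have h2 : (lsum l (fun i => (dg d i : ℤ) - 8) 24 / D % 2).toNat < 2 := by omega
    cases j with
    | zero =>
      rw [Nat.testBit_zero]
      show decide (_ % 2 = 1) = decide (lsum l (fun i => (dg d i : ℤ) - 8) 24 / D % 2 = 1)
      congr 1
      apply propext
      omega
    | succ j =>
      rw [Nat.testBit_succ]
      have : ((lsum l (fun i => (dg d i : ℤ) - 8) 24 / D % 2).toNat + 2 * kmask cs d) / 2 = kmask cs d := by omega
      rw [this, ih j (by rw [List.length_cons] at hj; omega)]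
      rfl

/-- a coordinate system -/
structure Crd (t n : ℕ) (cs : List (List ℤ × ℤ)) (bs : List ℕ) (κ : Fx (gm t) →+ (Fin n → ZMod 2)) : Prop where
  lc : cs.length = n
  lb : bs.length = n
  surj : Function.Surjective κ
  ker : ∀ v, κ v = 0 ↔ ∃ u : leechLattice, v.1 = u + u
  val : ∀ (v : Fx (gm t)) (d : ℕ), (v.1 : GolayPt → ℤ) = vec d → κ v = bv n (kmask cs d)
  bas : ∀ j < n, inLat (bs.getD j 0) = true ∧ wfr (bs.getD j 0) = true ∧ fxOK t (bs.getD j 0) = true ∧ kmask cs (bs.getD j 0) = 2 ^ j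

/-- test for the action -/
noncomputable def actOK (cs : List (List ℤ × ℤ)) (B : List ℕ) : List ℕ → List ℕ → Bool
  | b :: bs, m :: ms => (wfr (img b B) && (rowOK b B (img b B) && Nat.beq (kmask cs (img b B)) m)) && actOK cs B bs ms
  | [], [] => true
  | _, _ => false

theorem actOK_spec {cs : List (List ℤ × ℤ)} {B : List ℕ} : ∀ (bs ms : List ℕ), actOK cs B bs ms = true →
    bs.length = ms.length ∧ ∀ j < bs.length, wfr (img (bs.getD j 0) B) = true ∧ rowOK (bs.getD j 0) B (img (bs.getD j 0) B) = true ∧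
      kmask cs (img (bs.getD j 0) B) = ms.getD j 0 := by
  intro bs
  induction bs with
  | nil =>
    intro ms h
    cases ms with
    | nil => exact ⟨rfl, fun j hj => by simp at hj⟩
    | cons m ms => exact absurd h (by simp [actOK])
  | cons b bs ih =>
    intro ms h
    cases ms with
    | nil => exact absurd h (by simp [actOK])
    | cons m ms =>
      rw [actOK, Bool.and_eq_true] at h
      obtain ⟨h1, h2⟩ := ih ms h.2
      refine ⟨by simp [h1], ?_⟩
      intro j hj
      cases j with
      | zero =>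
        have h3 := h.1
        rw [Bool.and_eq_true, Bool.and_eq_true, Nat.beq_eq] at h3
        exact h3
      | succ j => exact h2 j (by simpa using hj)

/-- full test for a generator -/
noncomputable def genChk (t : ℕ) (cs : List (List ℤ × ℤ)) (bs B B' ms : List ℕ) : Bool :=
  okM B B' && (commOK t B && actOK cs B bs ms)

theorem wfM_of {B B' : List ℕ} (h : okM B B' = true) : wfM B = true := by
  simp only [okM, Bool.and_eq_true] at h
  exact h.1

theorem gen_spec {t n : ℕ} {cs : List (List ℤ × ℤ)} {bs : List ℕ} {κ : Fx (gm t) →+ (Fin n → ZMod 2)} (ht : okTab t = true)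
    (C : Crd t n cs bs κ) {act : CC (gm t) →* Equiv.Perm (Fin n → ZMod 2)} (hact : ∀ σ v, act σ (κ v) = κ (sm σ v))
    (hadd : ∀ σ a b, act σ (a + b) = act σ a + act σ b) {B B' ms : List ℕ} (h : genChk t cs bs B B' ms = true) :
    ∃ σ : CC (gm t), RepC σ.1 B ∧ ∀ m < 2 ^ n, act σ (bv n m) = bv n (lin ms m) := by
  simp only [genChk, Bool.and_eq_true] at h
  obtain ⟨h1, h2, h3⟩ := h
  obtain ⟨g, hg, -⟩ := exists_of_okM h1
  have hB := wfM_of h1
  refine ⟨⟨g, mem_CC.2 (comm_of ht hg h2)⟩, hg, ?_⟩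
  obtain ⟨h4, h5⟩ := actOK_spec bs ms h3
  have h6 := lin_spec (n := n) (f := act ⟨g, mem_CC.2 (comm_of ht hg h2)⟩) (hadd _) ms 0 (by
    intro j hj
    rw [← h4, C.lb] at hj
    obtain ⟨b1, b2, b3, b4⟩ := C.bas j hj
    obtain ⟨h7, h8, h9⟩ := h5 j (by rw [C.lb]; exact hj)
    have hv := coe_lv b1
    have hfx : lv (bs.getD j 0) ∈ Fx (gm t) := lv_fx ht b1 b3
    have h10 := C.val ⟨_, hfx⟩ _ hv
    rw [b4] at h10
    rw [zero_add, ← h10, hact]
    have h11 := img_of hg hB hv b2 h7 h8
    rw [C.val (sm ⟨g, mem_CC.2 (comm_of ht hg h2)⟩ ⟨_, hfx⟩) (img (bs.getD j 0) B) h11, h9])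
  intro m hm
  have h7 := h6 m (by rw [← h4, C.lb]; exact hm)
  rwa [pow_zero, mul_one] at h7

end H33.MonCo
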