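import Mathlib
import Cfsg.Agent.Lib.H33.MonCo4
import Cfsg.Agent.Lib.H94.M24Fast

set_option autoImplicit false

/-! Centralizers of permutations in `Co0`: structure of the fixed lattice. -/

namespace H33.MonCo

open Cfsg H8.GolayCode H8.GolayCount H8.GolayBasic H9.Leech H9.LeechGood H9.Trans H9.Cross H9.CoOrder H9.CoMat
open H33.MonRed H91.LeechTools H40.PermCode
open H32.M24Kit (okTab pm pm_mem pm_idx pm_pt fs msk fs_msk msk_lt allGS)
open H94.M24Fast (okW actF okW_spec)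

theorem okW_tab {t W : ℕ} (h : okW t W = true) : okTab t = true := (okW_spec h).1

/-- invariant code words -/
theorem inv_list {t W : ℕ} (hW : okW t W = true) (l : List ℕ)
    (cert : allB (fun n => cond (Nat.beq (actF W n) n) (l.any (Nat.beq n)) true) basisL 0 = true) :
    ∀ c ∈ GS, c.image (pm t) = c → ∃ n ∈ l, c = fs n := by
  intro c hc h
  have h1 := allGS cert hc
  have h3 : actF W (msk c) = msk c := by
    apply H32.M24Kit.fs_inj (H94.M24Fast.actF_lt hW (msk_lt c)) (msk_lt c)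
    rw [← H94.M24Fast.okW_image hW (msk_lt c), fs_msk, h]
  rw [h3, show Nat.beq (msk c) (msk c) = true by simp, cond_true, List.any_eq_true] at h1
  obtain ⟨n, hn, h4⟩ := h1
  rw [Nat.beq_eq] at h4
  exact ⟨n, hn, by rw [← h4, fs_msk]⟩

/-- the standard form of fixed vectors -/
theorem fx_rep {t : ℕ} {v : leechLattice} (hv : v ∈ Fx (gm t)) : ∃ (m : ℤ) (c : Finset GolayPt) (y : GolayPt → ℤ),
    (m = 0 ∨ m = 1) ∧ Rep (v : GolayPt → ℤ) m c y ∧ c.image (pm t) = c ∧ ∀ p, y (pm t p) = y p := by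
  obtain ⟨m, c, y, hm, hR⟩ : ∃ (m : ℤ) (c : Finset GolayPt) (y : GolayPt → ℤ), (m = 0 ∨ m = 1) ∧ Rep (v : GolayPt → ℤ) m c y := by
    rcases exists_rep v.2 with ⟨c, y, h⟩ | ⟨c, y, h⟩
    · exact ⟨0, c, y, Or.inl rfl, h⟩
    · exact ⟨1, c, y, Or.inr rfl, h⟩
  have key : ∀ p, (pm t p ∈ c ↔ p ∈ c) ∧ y (pm t p) = y p := by
    intro p
    have h1 := mem_Fx_gm.1 hv p
    rw [hR.eq, hR.eq] at h1
    unfold ind at h1
    by_cases h2 : pm t p ∈ c <;> by_cases h3 : p ∈ c <;> simp only [h2, h3, if_true, if_false] at h1 ⊢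
    · exact ⟨trivial, by omega⟩
    · exfalso; omega
    · exfalso; omega
    · exact ⟨trivial, by omega⟩
  refine ⟨m, c, y, hm, hR, ?_, fun p => (key p).2⟩
  ext q
  rw [Finset.mem_image]
  constructor
  · rintro ⟨p, hp, rfl⟩
    exact (key p).1.2 hp
  · intro hq
    obtain ⟨p, rfl⟩ := (pm t).surjective q
    exact ⟨p, (key p).1.1 hq, rfl⟩

/-- values on orbits -/
theorem const_on {t : ℕ} (ht : okTab t = true) {y : GolayPt → ℤ} (hy : ∀ p, y (pm t p) = y p) (r : ℕ) (hr : r < 24) (k : ℕ) :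
    y (pt ((tb t)^[k] r)) = y (pt r) ∧ (tb t)^[k] r < 24 := by
  induction k with
  | zero => exact ⟨rfl, hr⟩
  | succ k ih =>
    rw [Function.iterate_succ_apply']
    refine ⟨?_, H94.M24Enum.tab_lt ht ih.2⟩
    rw [← ih.1, ← hy (pt ((tb t)^[k] r)), pm_pt ht _ ih.2]

/-- fixed vectors are determined by the values on representatives -/
theorem ext_fx {t : ℕ} (ht : okTab t = true) {v w : leechLattice} (hv : v ∈ Fx (gm t)) (hw : w ∈ Fx (gm t)) (reps : List ℕ) (p : ℕ)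
    (hr : ∀ i < 24, ∃ r ∈ reps, r < 24 ∧ ∃ k < p, (tb t)^[k] r = i)
    (h : ∀ r ∈ reps, (v : GolayPt → ℤ) (pt r) = (w : GolayPt → ℤ) (pt r)) : v = w := by
  apply Subtype.ext
  funext q
  obtain ⟨r, hr1, hr2, k, -, hk⟩ := hr (idx q) (idx_lt q)
  have h1 := (const_on ht (mem_Fx_gm.1 hv) r hr2 k).1
  have h2 := (const_on ht (mem_Fx_gm.1 hw) r hr2 k).1
  rw [hk, pt_idx] at h1 h2
  rw [h1, h2, h r hr1]

/-- coordinate systems -/
theorem exists_crd {t n : ℕ} (ht : okTab t = true) {cs : List (List ℤ × ℤ)} {bs : List ℕ} (hc : cs.length = n) (hb : bs.length = n)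
    (hbas : ∀ j < n, inLat (bs.getD j 0) = true ∧ wfr (bs.getD j 0) = true ∧ fxOK t (bs.getD j 0) = true ∧ kmask cs (bs.getD j 0) = 2 ^ j)
    (hD : ∀ j : Fin n, (cs.getD j ([], 1)).2 ≠ 0)
    (hφ : ∀ j k : Fin n, lsum (cs.getD j ([], 1)).1 (fun i => (dg (bs.getD k 0) i : ℤ) - 8) 24 = if j = k then (cs.getD j ([], 1)).2 else 0)
    (hspan : ∀ v ∈ Fx (gm t), ∃ r : Fin n → ℤ, v = ∑ j, r j • lv (bs.getD j 0)) :
    ∃ κ : Fx (gm t) →+ (Fin n → ZMod 2), Crd t n cs bs κ := by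
  obtain ⟨κ, h1, h2, h3⟩ := exists_kappa (fun j : Fin n => lv (bs.getD j 0)) (fun j => phi (cs.getD j ([], 1)).1)
    (fun j => (cs.getD j ([], 1)).2) hD (by
      intro j k
      rw [phi_vec _ (coe_lv (hbas k k.2).1)]
      exact hφ j k) (fun j => lv_fx ht (hbas j j.2).1 (hbas j j.2).2.2.1) hspan
  refine ⟨κ, hc, hb, h1, h2, ?_, hbas⟩
  intro v d hd
  funext j
  rw [h3, phi_vec _ hd]
  show _ = if (kmask cs d).testBit j then (1 : ZMod 2) else 0
  rw [kmask_bit cs d j (by rw [hc]; exact j.2)]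
  have hmod : ∀ z : ℤ, (z : ZMod 2) = if decide (z % 2 = 1) = true then 1 else 0 := by
    intro z
    rw [← ZMod.intCast_mod z 2]
    rcases Int.emod_two_eq_zero_or_one z with h | h
    · rw [show ((2 : ℕ) : ℤ) = 2 from rfl, h]; rfl
    · rw [show ((2 : ℕ) : ℤ) = 2 from rfl, h]; rfl
  exact hmod _

end H33.MonCo
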