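import Mathlib
import Cfsg.Agent.Lib.H33.MonCo5

set_option autoImplicit false

/-! Centralizers of permutations in `Co0`: classes of short vectors, special linear groups. -/

namespace H33.MonCo

open Cfsg H8.GolayCode H8.GolayCount H8.GolayBasic H9.Leech H9.LeechGood H9.Trans H9.Cross H9.CoOrder H9.CoMat
open H33.MonRed H91.LeechTools H40.PermCode
open H32.M24Kit (okTab pm pm_mem pm_idx pm_pt fs)

section
variable {t n : ℕ} {cs : List (List ℤ × ℤ)} {bs : List ℕ} {κ : Fx (gm t) →+ (Fin n → ZMod 2)}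

/-- test for short vectors -/
noncomputable def shOK (t : ℕ) (p : ℤ → Bool) (sh : List ℕ) : Bool :=
  sh.all fun d => inLat d && (fxOK t d && p (nsq d 24))

theorem Crd.congr (C : Crd t n cs bs κ) {v w : Fx (gm t)} (h : κ v = κ w) : ∃ u : leechLattice, v.1 = w.1 + (u + u) := by
  have h1 : κ (v - w) = 0 := by rw [map_sub, h, sub_self]
  obtain ⟨u, hu⟩ := (C.ker _).1 h1
  have h2 : v.1 - w.1 = u + u := hu
  exact ⟨u, by rw [← h2]; abel⟩

theorem Crd.short (C : Crd t n cs bs κ) (ht : okTab t = true) {p : ℤ → Bool} {sh : List ℕ} (h : shOK t p sh = true) {m : ℕ}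
    (hm : m ∈ sh.map (kmask cs)) : ∃ w : Fx (gm t), κ w = bv n m ∧ p (sqNorm (w.1 : GolayPt → ℤ)) = true := by
  obtain ⟨d, hd, rfl⟩ := List.mem_map.1 hm
  rw [shOK, List.all_eq_true] at h
  have h1 := h d hd
  rw [Bool.and_eq_true, Bool.and_eq_true] at h1
  refine ⟨⟨lv d, lv_fx ht h1.1 h1.2.1⟩, C.val _ _ (coe_lv h1.1), ?_⟩
  rw [nsq_eq (coe_lv h1.1)]
  exact h1.2.2

theorem Crd.four_mask (C : Crd t n cs bs κ) (ht : okTab t = true) {sh : List ℕ}
    (h : shOK t (fun z => decide (z = 32) || decide (z = 48)) sh = true) {v : Fx (gm t)} (hv : Four v.1) :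
    ∃ m < 2 ^ n, κ v = bv n m ∧ m ≠ 0 ∧ m ∉ sh.map (kmask cs) := by
  obtain ⟨m, hm, he⟩ := bv_surj (κ v)
  refine ⟨m, hm, he.symm, ?_, ?_⟩
  · rintro rfl
    rw [bv_zero] at he
    obtain ⟨u, hu⟩ := (C.ker v).1 he.symm
    exact hv.not_double hu
  · intro hmem
    obtain ⟨w, hw, hp⟩ := C.short ht h hmem
    obtain ⟨u, hu⟩ := C.congr (he.symm.trans hw.symm)
    rw [Bool.or_eq_true, decide_eq_true_eq, decide_eq_true_eq] at hp
    rcases hp with hp | hp
    · exact hv.not_two ⟨w.1, u, hp, hu⟩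
    · exact hv.not_three ⟨w.1, u, hp, hu⟩

theorem Crd.four_of (C : Crd t n cs bs κ) (ht : okTab t = true) {sh : List ℕ}
    (h : shOK t (fun z => decide (z = 64)) sh = true) {v : Fx (gm t)} {m : ℕ} (hm : m ∈ sh.map (kmask cs)) (hv : κ v = bv n m) :
    Four v.1 := by
  obtain ⟨w, hw, hp⟩ := C.short ht h hm
  obtain ⟨u, hu⟩ := C.congr (hv.trans hw.symm)
  rw [decide_eq_true_eq] at hp
  exact ⟨w.1, u, hp, hu⟩

/-- the image under an element preserving the fixed lattice -/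
theorem Crd.img_lin (C : Crd t n cs bs κ) (ht : okTab t = true) {g : Co0} (hF : ∀ v ∈ Fx (gm t), g • v ∈ Fx (gm t)) {B ms : List ℕ}
    (hg : RepC g B) (hB : wfM B = true) (h3 : actOK cs B bs ms = true) (v : Fx (gm t)) {m : ℕ} (hm : m < 2 ^ n) (hv : κ v = bv n m) :
    κ ⟨g • v.1, hF v.1 v.2⟩ = bv n (lin ms m) := by
  choose f hf using C.surj
  have hw : ∀ v w : Fx (gm t), κ v = κ w → κ ⟨g • v.1, hF v.1 v.2⟩ = κ ⟨g • w.1, hF w.1 w.2⟩ := by
    intro v w h
    obtain ⟨u, hu⟩ := C.congr h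
    rw [← sub_eq_zero, ← map_sub]
    refine (C.ker _).2 ⟨g • u, ?_⟩
    show g • v.1 - g • w.1 = _
    rw [hu, co0_add, co0_add]; abel
  let F : (Fin n → ZMod 2) → (Fin n → ZMod 2) := fun a => κ ⟨g • (f a).1, hF _ (f a).2⟩
  have hF1 : ∀ v : Fx (gm t), F (κ v) = κ ⟨g • v.1, hF v.1 v.2⟩ := fun v => hw _ _ (hf _)
  have hadd : ∀ a b, F (a + b) = F a + F b := by
    intro a b
    rw [← hf a, ← hf b, ← map_add, hF1, hF1, hF1, ← map_add]
    congr 1
    exact Subtype.ext (co0_add g _ _)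
  obtain ⟨h4, h5⟩ := actOK_spec bs ms h3
  have h6 := lin_spec hadd ms 0 (by
    intro j hj
    rw [← h4, C.lb] at hj
    obtain ⟨b1, b2, b3, b4⟩ := C.bas j hj
    obtain ⟨h7, h8, h9⟩ := h5 j (by rw [C.lb]; exact hj)
    have hv := coe_lv b1
    have hfx : lv (bs.getD j 0) ∈ Fx (gm t) := lv_fx ht b1 b3
    have h10 := C.val ⟨_, hfx⟩ _ hv
    rw [b4] at h10
    rw [zero_add, ← h10, hF1, C.val _ (img (bs.getD j 0) B) (img_of hg hB hv b2 h7 h8), h9])
  have h7 := h6 m (by rw [← h4, C.lb]; exact hm)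
  rw [pow_zero, mul_one, ← hv, hF1] at h7
  exact h7
end

/-- a representation on a three-dimensional subspace -/
theorem exists_SL {G : Type*} [Group G] {n : ℕ} (act : G →* Equiv.Perm (Fin n → ZMod 2))
    (hadd : ∀ σ a b, act σ (a + b) = act σ a + act σ b) (w : Fin 3 → (Fin n → ZMod 2)) (ix : Fin 3 → Fin n)
    (hw : ∀ i j, w j (ix i) = if i = j then 1 else 0)
    (hspan : ∀ σ j, act σ (w j) = ∑ k, act σ (w j) (ix k) • w k) :
    ∃ Φ : G →* Matrix.SpecialLinearGroup (Fin 3) (ZMod 2), ∀ σ i j, (Φ σ).1 i j = act σ (w j) (ix i) := by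
  have hzero : ∀ σ, act σ 0 = 0 := by
    intro σ
    have := hadd σ 0 0
    rw [add_zero] at this
    exact left_eq_add.1 this
  have hsm : ∀ σ (c : ZMod 2) a, act σ (c • a) = c • act σ a := by
    intro σ c a
    have hc : c = 0 ∨ c = 1 := by revert c; decide
    rcases hc with rfl | rfl
    · rw [zero_smul, zero_smul, hzero]
    · rw [one_smul, one_smul]
  have hsum : ∀ σ (c : Fin 3 → ZMod 2), act σ (∑ k, c k • w k) = ∑ k, c k • act σ (w k) := by
    intro σ c
    rw [Fin.sum_univ_three, Fin.sum_univ_three, hadd, hadd, hsm, hsm, hsm]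
  let M : G → Matrix (Fin 3) (Fin 3) (ZMod 2) := fun σ => Matrix.of fun i j => act σ (w j) (ix i)
  have hmul : ∀ σ τ, M (σ * τ) = M σ * M τ := by
    intro σ τ
    ext i j
    rw [Matrix.mul_apply]
    show act (σ * τ) (w j) (ix i) = ∑ k, act σ (w k) (ix i) * act τ (w j) (ix k)
    rw [map_mul, Equiv.Perm.mul_apply, hspan τ j, hsum, Finset.sum_apply]
    apply Finset.sum_congr rfl
    intro k _
    rw [Pi.smul_apply, smul_eq_mul, ← hspan τ j, mul_comm]
  have hone : M 1 = 1 := by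
    ext i j
    show act 1 (w j) (ix i) = (1 : Matrix (Fin 3) (Fin 3) (ZMod 2)) i j
    rw [map_one, Equiv.Perm.one_apply, hw, Matrix.one_apply]
  have hdet : ∀ σ, (M σ).det = 1 := by
    intro σ
    have h1 : (M σ).det * (M σ⁻¹).det = 1 := by
      rw [← Matrix.det_mul, ← hmul, mul_inv_cancel, hone, Matrix.det_one]
    have h2 : ∀ a b : ZMod 2, a * b = 1 → a = 1 := by decide
    exact h2 _ _ h1
  refine ⟨MonoidHom.mk' (fun σ => ⟨M σ, hdet σ⟩) (fun σ τ => Subtype.ext (hmul σ τ)), fun σ i j => rfl⟩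

/-- surjectivity onto the special linear group -/
theorem surj_SL {G : Type*} [Group G] (Φ : G →* Matrix.SpecialLinearGroup (Fin 3) (ZMod 2))
    (h : ∀ i j, i ≠ j → ∃ σ, (Φ σ).1 = Matrix.transvection i j (1 : ZMod 2)) : Function.Surjective Φ := by
  have key : ∀ M : Matrix (Fin 3) (Fin 3) (ZMod 2), M.det ≠ 0 → ∃ σ, (Φ σ).1 = M := by
    intro M hM
    apply Matrix.diagonal_transvection_induction_of_det_ne_zero (fun M => ∃ σ, (Φ σ).1 = M) M hM
    · intro D hD
      have h1 : ∀ i, D i = 1 := by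
        intro i
        rw [Matrix.det_diagonal, Finset.prod_ne_zero_iff] at hD
        have h2 : ∀ a : ZMod 2, a ≠ 0 → a = 1 := by decide
        exact h2 _ (hD i (Finset.mem_univ i))
      refine ⟨1, ?_⟩
      rw [map_one]
      have : D = fun _ => 1 := funext h1
      rw [this, Matrix.diagonal_one]; rfl
    · intro t
      obtain ⟨i, j, hij, c⟩ := t
      have hc : c = 0 ∨ c = 1 := by revert c; decide
      rcases hc with rfl | rfl
      · refine ⟨1, ?_⟩
        rw [map_one]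
        show (1 : Matrix (Fin 3) (Fin 3) (ZMod 2)) = Matrix.transvection i j 0
        rw [Matrix.transvection_zero]
      · exact h i j hij
    · rintro A B _ _ ⟨σ, hσ⟩ ⟨τ, hτ⟩
      refine ⟨σ * τ, ?_⟩
      rw [map_mul]
      show (Φ σ).1 * (Φ τ).1 = _
      rw [hσ, hτ]
  intro M
  obtain ⟨σ, hσ⟩ := key M.1 (by rw [M.2]; exact one_ne_zero)
  exact ⟨σ, Subtype.ext hσ⟩

end H33.MonCo
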