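import Mathlib
import Cfsg.Agent.Lib.H33.MonCo6

set_option autoImplicit false

/-! Groups acting on blocks. -/

namespace H33.MonCo

/-- the action on blocks -/
theorem exists_blk {G V ι : Type*} [Group G] (act : G →* Equiv.Perm V) (B : ι → Set V) (hinj : Function.Injective B)
    (h : ∀ σ i, ∃ j, act σ '' B i = B j) : ∃ Φ : G →* Equiv.Perm ι, ∀ σ i, act σ '' B i = B (Φ σ i) := by
  choose f hf using h
  have hmul : ∀ σ τ i, f (σ * τ) i = f σ (f τ i) := by
    intro σ τ i
    apply hinj
    rw [← hf, ← hf, ← hf, map_mul]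
    exact (Set.image_image (act σ) (act τ) (B i)).symm
  have hone : ∀ i, f 1 i = i := by
    intro i
    apply hinj
    rw [← hf, map_one]
    exact Set.image_id _
  refine ⟨{ toFun := fun σ => ⟨f σ, f σ⁻¹, fun i => by rw [← hmul, inv_mul_cancel, hone], fun i => by rw [← hmul, mul_inv_cancel, hone]⟩
            map_one' := Equiv.ext hone
            map_mul' := fun σ τ => Equiv.ext (hmul σ τ) }, hf⟩

/-- the alternating group is generated by the products of `(0 1)` with transpositions -/
theorem alt_le {n : ℕ} (H : Subgroup (Equiv.Perm (Fin n))) (a b : Fin n)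
    (h0 : ∀ x, x ≠ a → Equiv.swap a b * Equiv.swap a x ∈ H) :
    alternatingGroup (Fin n) ≤ H := by
  have key : ∀ x y, x ≠ y → Equiv.swap a b * Equiv.swap x y ∈ H := by
    intro x y hxy
    by_cases hxa : x = a
    · rw [hxa]; exact h0 y (fun h => hxy (hxa.trans h.symm))
    by_cases hya : y = a
    · rw [hya, Equiv.swap_comm x a]; exact h0 x hxa
    -- (a b)(x y) = [(a b)(a x)] [(a b)(a y)]⁻¹ [(a b)(a x)]
    have e : Equiv.swap a b * Equiv.swap x y = (Equiv.swap a b * Equiv.swap a x) * (Equiv.swap a b * Equiv.swap a y)⁻¹ *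
        (Equiv.swap a b * Equiv.swap a x) := by
      have h2 : Equiv.swap a x * Equiv.swap a y * Equiv.swap a x = Equiv.swap x y := by
        have h3 := Equiv.swap_mul_swap_mul_swap (x := y) (y := a) (z := x) hya (Ne.symm hxy)
        -- swap y a * swap x y * swap y a = ...
        ext z
        simp only [Equiv.Perm.mul_apply, Equiv.swap_apply_def]
        split_ifs <;> simp_all
      rw [mul_inv_rev, Equiv.swap_inv, Equiv.swap_inv]
      calc Equiv.swap a b * Equiv.swap x y = Equiv.swap a b * (Equiv.swap a x * Equiv.swap a y * Equiv.swap a x) := by rw [h2]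
        _ = Equiv.swap a b * Equiv.swap a x * (Equiv.swap a y * (Equiv.swap a b * Equiv.swap a b)) * Equiv.swap a x := by
            rw [Equiv.swap_mul_self, mul_one]; group
        _ = _ := by group
    rw [e]
    exact H.mul_mem (H.mul_mem (h0 x hxa) (H.inv_mem (h0 y hya))) (h0 x hxa)
  have key2 : ∀ x y z w, x ≠ y → z ≠ w → Equiv.swap x y * Equiv.swap z w ∈ H := by
    intro x y z w hxy hzw
    have e : Equiv.swap x y * Equiv.swap z w = (Equiv.swap a b * Equiv.swap x y)⁻¹ * (Equiv.swap a b * Equiv.swap z w) := by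
      rw [mul_inv_rev, Equiv.swap_inv, Equiv.swap_inv]
      calc Equiv.swap x y * Equiv.swap z w = Equiv.swap x y * (Equiv.swap a b * Equiv.swap a b) * Equiv.swap z w := by
            rw [Equiv.swap_mul_self, mul_one]
        _ = _ := by group
    rw [e]
    exact H.mul_mem (H.inv_mem (key x y hxy)) (key z w hzw)
  have key3 : ∀ (m : ℕ) (l : List (Equiv.Perm (Fin n))), l.length = 2 * m → (∀ g ∈ l, g.IsSwap) → l.prod ∈ H := by
    intro m
    induction m with
    | zero =>
      intro l hl _
      have : l = [] := List.length_eq_zero_iff.1 (by omega)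
      rw [this, List.prod_nil]; exact H.one_mem
    | succ m ih =>
      intro l hl hs
      match l, hl, hs with
      | [], hl, _ => simp at hl
      | [_], hl, _ => simp at hl; omega
      | g :: g' :: t, hl, hs =>
        rw [List.prod_cons, List.prod_cons, ← mul_assoc]
        refine H.mul_mem ?_ (ih t (by simp at hl; omega) fun g hg => hs g (by simp [hg]))
        obtain ⟨x, y, hxy, rfl⟩ := hs g (by simp)
        obtain ⟨z, w, hzw, rfl⟩ := hs g' (by simp)
        exact key2 x y z w hxy hzw
  intro σ hσ
  obtain ⟨⟨l, hl1, hl2⟩, -⟩ := Trunc.exists_rep (Equiv.Perm.truncSwapFactors σ)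
  rw [← hl1] at hσ ⊢
  obtain ⟨m, hm⟩ := (Equiv.Perm.prod_list_swap_mem_alternatingGroup_iff_even_length hl2).1 hσ
  exact key3 m l (by omega) hl2

end H33.MonCo
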