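import Mathlib
import Cfsg.Agent.Lib.H33.MonP7

set_option autoImplicit false

/-! The centralizer of an element of order 7 of `Co0`: coordinates. -/

namespace H33.MonCo

open Cfsg H8.GolayCode H8.GolayCount H8.GolayBasic H9.Leech H9.LeechGood H9.Trans H9.Cross H9.CoOrder H9.CoMat
open H33.MonRed H33.MonCo H91.LeechTools H40.PermCode
open H32.M24Kit (okTab pm pm_mem pm_idx pm_pt fs)

/-- value of a combination -/
theorem sum_at {n : ℕ} {bs : List ℕ} (hb : ∀ j < n, inLat (bs.getD j 0) = true) (r : Fin n → ℤ) {i : ℕ} (hi : i < 24) :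
    ((∑ j : Fin n, r j • lv (bs.getD j 0) : leechLattice) : GolayPt → ℤ) (pt i) =
      ∑ j : Fin n, r j * ((dg (bs.getD j 0) i : ℤ) - 8) := by
  rw [AddSubgroup.val_finsetSum, Finset.sum_apply]
  apply Finset.sum_congr rfl
  intro j _
  rw [AddSubgroup.coe_zsmul, Pi.smul_apply, smul_eq_mul, coe_lv (hb j j.2), vec_pt _ hi]

theorem sum_mem_fx {t n : ℕ} (ht : okTab t = true) {bs : List ℕ} (hb : ∀ j < n, inLat (bs.getD j 0) = true ∧ fxOK t (bs.getD j 0) = true)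
    (r : Fin n → ℤ) : (∑ j : Fin n, r j • lv (bs.getD j 0) : leechLattice) ∈ Fx (gm t) :=
  (Fx (gm t)).sum_mem fun j _ => (Fx (gm t)).zsmul_mem (lv_fx ht (hb j.1 j.2).1 (hb j.1 j.2).2) _

theorem ind_fs (n i : ℕ) (hi : i < 24) : ind (fs n) (pt i) = if n.testBit i then 1 else 0 := by
  unfold ind
  have : pt i ∈ fs n ↔ n.testBit i = true := H94.M24Seven.tbit hi
  by_cases h : n.testBit i = true
  · rw [if_pos (this.2 h), if_pos h]
  · rw [if_neg (fun h' => h (this.1 h')), if_neg h]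

end H33.MonCo

namespace H33.MonP7

open Cfsg H8.GolayCode H8.GolayCount H8.GolayBasic H9.Leech H9.LeechGood H9.Trans H9.Cross H9.CoOrder H9.CoMat
open H33.MonRed H33.MonCo H91.LeechTools H40.PermCode
open H32.M24Kit (okTab pm pm_mem pm_idx pm_pt fs)
open H94.M24Seven (Z WZ okWZ okZ)

def repL : List ℕ := [0, 0, 0, 0, 4, 0, 6, 7, 6, 9, 6, 6, 7, 6, 0, 7, 7, 0, 7, 6, 6, 7, 7, 23]

theorem hrepL : ∀ i < 24, repL.getD i 0 < 24 ∧ ∃ k < 7, (tb Z)^[k] (repL.getD i 0) = i := by decide +kernel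

theorem words_blk : ∀ n ∈ words, n.testBit 23 = n.testBit 0 ∧ n.testBit 9 = n.testBit 7 ∧ n.testBit 4 = n.testBit 6 := by
  decide +kernel

theorem span7 : ∀ v ∈ Fx (gm Z), ∃ r : Fin 6 → ℤ, v = ∑ j : Fin 6, r j • lv (bs.getD j 0) := by
  intro v hv
  obtain ⟨m, c, y, hm, hR, hc, hy⟩ := fx_rep hv
  obtain ⟨n, hn, rfl⟩ := inv_list okWZ words inv_cert c hR.mem hc
  obtain ⟨w1, w2, w3⟩ := words_blk n hn
  have hrep : ∀ i < 24, y (pt i) = y (pt (repL.getD i 0)) := by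
    intro i hi
    obtain ⟨h1, k, -, h2⟩ := hrepL i hi
    have := (const_on okZ hy (repL.getD i 0) h1 k).1
    rwa [h2] at this
  obtain ⟨k, hk⟩ := hR.par
  rw [H9.CoMat.sum_pt, Finset.sum_congr rfl fun i hi => hrep i (Finset.mem_range.1 hi)] at hk
  simp only [Finset.sum_range_succ, Finset.sum_range_zero, repL, List.getD_cons_zero, List.getD_cons_succ] at hk
  have e23 := hR.eq (pt 23)
  have e9 := hR.eq (pt 9)
  have e4 := hR.eq (pt 4)
  have e0 := hR.eq (pt 0)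
  have e7 := hR.eq (pt 7)
  have e6 := hR.eq (pt 6)
  rw [ind_fs _ _ (by norm_num)] at e23 e9 e4 e0 e7 e6
  rw [w1] at e23
  rw [w2] at e9
  rw [w3] at e4
  set Y23 := y (pt 23)
  set Y9 := y (pt 9)
  set Y4 := y (pt 4)
  set Y0 := y (pt 0)
  set Y7 := y (pt 7)
  set Y6 := y (pt 6)
  set i0 : ℤ := if n.testBit 0 = true then 1 else 0
  set i7 : ℤ := if n.testBit 7 = true then 1 else 0
  set i6 : ℤ := if n.testBit 6 = true then 1 else 0
  refine ⟨![i0 + 2 * Y0 - k + 4 * (Y0 + Y7 + Y6), (i7 - i0) + 2 * (Y7 - Y0), (i6 - i0) + 2 * (Y6 - Y0), Y23 - Y0, Y9 - Y7, Y4 - Y6], ?_⟩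
  have hbl : ∀ j < 6, inLat (bs.getD j 0) = true := fun j hj => (hbas j hj).1
  apply ext_fx okZ hv (sum_mem_fx okZ (fun j hj => ⟨(hbas j hj).1, (hbas j hj).2.2.1⟩) _) reps 7 hreps
  intro r hr
  have hr24 : r < 24 := by
    have : ∀ r ∈ reps, r < 24 := by decide
    exact this r hr
  rw [sum_at hbl _ hr24, Finset.sum_congr rfl fun j _ => by rw [bvals r hr j]]
  rw [reps] at hr
  simp only [List.mem_cons, List.not_mem_nil, or_false] at hr
  rcases hr with rfl | rfl | rfl | rfl | rfl | rfl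
  · rw [e0]; simp [Fin.sum_univ_succ]; linarith
  · rw [e7]; simp [Fin.sum_univ_succ]; linarith
  · rw [e6]; simp [Fin.sum_univ_succ]; linarith
  · rw [e23]; simp [Fin.sum_univ_succ]; linarith
  · rw [e9]; simp [Fin.sum_univ_succ]; linarith
  · rw [e4]; simp [Fin.sum_univ_succ]; linarith

theorem exists_crd7 : ∃ κ : Fx (gm Z) →+ (Fin 6 → ZMod 2), Crd Z 6 cs bs κ :=
  exists_crd okZ rfl rfl hbas hD hphi span7

end H33.MonP7
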