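import Mathlib
import Cfsg.Agent.Lib.H33.MonP3
import Cfsg.Agent.Lib.H33.MonP7b

set_option autoImplicit false

/-! The centralizer of an element of order 3 of `Co0`: coordinates. -/

namespace H33.MonP3

open Cfsg H8.GolayCode H8.GolayCount H8.GolayBasic H9.Leech H9.LeechGood H9.Trans H9.Cross H9.CoOrder H9.CoMat
open H33.MonRed H33.MonCo H91.LeechTools H40.PermCode
open H32.M24Kit (okTab pm pm_mem pm_idx pm_pt fs)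
open H94.M24Cls (X0 okX0)
open H94.M24Fix (WX0 okWX0)

def ib (n r : ℕ) : ℤ := if n.testBit r then 1 else 0

theorem words_blk : ∀ n ∈ words, (ib n 7 - ib n 0 - ib n 2 + ib n 5) % 2 = 0 ∧
    (ib n 8 - ib n 0 - ib n 5 + ib n 6) % 2 = 0 ∧
    (ib n 13 - ib n 2 - ib n 5 + ib n 6) % 2 = 0 ∧
    (ib n 14 - ib n 0 - ib n 2 + ib n 6) % 2 = 0 ∧
    (ib n 0 + ib n 2 + ib n 5 + ib n 6 + ib n 7 + ib n 8 + ib n 13 + ib n 14) % 4 = 0 := by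
  decide +kernel

/-- the arithmetic of the coordinates -/
theorem arith3 (m i0 i1 i2 i3 i4 i5 i6 i7 Y0 Y1 Y2 Y3 Y4 Y5 Y6 Y7 x0 x1 x2 x3 x4 x5 x6 x7 k : ℤ)
    (w4 : (i4 - i0 - i1 + i2) % 2 = 0) (w5 : (i5 - i0 - i2 + i3) % 2 = 0)
    (w6 : (i6 - i1 - i2 + i3) % 2 = 0) (w7 : (i7 - i0 - i1 + i3) % 2 = 0)
    (w : (i0 + i1 + i2 + i3 + i4 + i5 + i6 + i7) % 4 = 0)
    (e0 : x0 = m + 2 * i0 + 4 * Y0) (e1 : x1 = m + 2 * i1 + 4 * Y1) (e2 : x2 = m + 2 * i2 + 4 * Y2)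
    (e3 : x3 = m + 2 * i3 + 4 * Y3) (e4 : x4 = m + 2 * i4 + 4 * Y4) (e5 : x5 = m + 2 * i5 + 4 * Y5)
    (e6 : x6 = m + 2 * i6 + 4 * Y6) (e7 : x7 = m + 2 * i7 + 4 * Y7)
    (hk : 3 * (Y0 + Y1 + Y2 + Y3 + Y4 + Y5 + Y6 + Y7) = m + 2 * k) :
    ∃ s d1 d2 d3 t4 t5 t6 t7 : ℤ, x0 = 2 * s + (d2 - d3) + (t4 + t5 + t6 + t7) ∧ x1 = x0 + 2 * d1 ∧ x2 = x0 + 2 * d2 ∧
      x3 = x0 + 2 * d3 ∧ x4 = x0 + x1 - x2 + 4 * t4 ∧ x5 = x0 + x2 - x3 + 4 * t5 ∧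
      x6 = x1 + x2 - x3 + 4 * t6 ∧ x7 = x0 + x1 - x3 + 4 * t7 := by
  obtain ⟨u4, hu4⟩ := Int.dvd_of_emod_eq_zero w4
  obtain ⟨u5, hu5⟩ := Int.dvd_of_emod_eq_zero w5
  obtain ⟨u6, hu6⟩ := Int.dvd_of_emod_eq_zero w6
  obtain ⟨u7, hu7⟩ := Int.dvd_of_emod_eq_zero w7
  obtain ⟨q, hq⟩ := Int.dvd_of_emod_eq_zero w
  clear w4 w5 w6 w7 w
  refine ⟨-k + 2 * i0 + i1 - q + 5 * Y0 + 3 * Y1 + Y2 + Y3 + Y4 + Y5 + Y6 + Y7,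
    (i1 - i0) + 2 * (Y1 - Y0), (i2 - i0) + 2 * (Y2 - Y0), (i3 - i0) + 2 * (Y3 - Y0),
    u4 + Y4 - Y0 - Y1 + Y2, u5 + Y5 - Y0 - Y2 + Y3, u6 + Y6 - Y1 - Y2 + Y3, u7 + Y7 - Y0 - Y1 + Y3, ?_, ?_, ?_, ?_, ?_, ?_, ?_, ?_⟩ <;>
  linarith

theorem fin3 (x0 x1 x2 x3 x4 x5 x6 x7 s d1 d2 d3 t4 t5 t6 t7 : ℤ) (hs : x0 = 2 * s + (d2 - d3) + (t4 + t5 + t6 + t7))
    (h1 : x1 = x0 + 2 * d1) (h2 : x2 = x0 + 2 * d2) (h3 : x3 = x0 + 2 * d3) (h4 : x4 = x0 + x1 - x2 + 4 * t4)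
    (h5 : x5 = x0 + x2 - x3 + 4 * t5) (h6 : x6 = x1 + x2 - x3 + 4 * t6) (h7 : x7 = x0 + x1 - x3 + 4 * t7) (f : Fin 8 → ℤ)
    (hf : f = ![s, d1, d2, d3, t4, t5, t6, t7]) :
    ∀ i < 8, [x0, x1, x2, x3, x4, x5, x6, x7].getD i 0 = ∑ j : Fin 8, f j * (tbl.getD i []).getD j 0 := by
  have g0 : f 0 = s := by rw [hf]; rfl
  have g1 : f 1 = d1 := by rw [hf]; rfl
  have g2 : f 2 = d2 := by rw [hf]; rfl
  have g3 : f 3 = d3 := by rw [hf]; rfl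
  have g4 : f 4 = t4 := by rw [hf]; rfl
  have g5 : f 5 = t5 := by rw [hf]; rfl
  have g6 : f 6 = t6 := by rw [hf]; rfl
  have g7 : f 7 = t7 := by rw [hf]; rfl
  clear hf
  intro i hi
  rw [Fin.sum_univ_eight, g0, g1, g2, g3, g4, g5, g6, g7]
  interval_cases i
  · show x0 = _ * 2 + _ * 0 + _ * 1 + _ * (-1) + _ * 1 + _ * 1 + _ * 1 + _ * 1
    linarith
  · show x1 = _ * 2 + _ * 2 + _ * 1 + _ * (-1) + _ * 1 + _ * 1 + _ * 1 + _ * 1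
    linarith
  · show x2 = _ * 2 + _ * 0 + _ * 3 + _ * (-1) + _ * 1 + _ * 1 + _ * 1 + _ * 1
    linarith
  · show x3 = _ * 2 + _ * 0 + _ * 1 + _ * 1 + _ * 1 + _ * 1 + _ * 1 + _ * 1
    linarith
  · show x4 = _ * 2 + _ * 2 + _ * (-1) + _ * (-1) + _ * 5 + _ * 1 + _ * 1 + _ * 1
    linarith
  · show x5 = _ * 2 + _ * 0 + _ * 3 + _ * (-3) + _ * 1 + _ * 5 + _ * 1 + _ * 1
    linarith
  · show x6 = _ * 2 + _ * 2 + _ * 3 + _ * (-3) + _ * 1 + _ * 1 + _ * 5 + _ * 1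
    linarith
  · show x7 = _ * 2 + _ * 2 + _ * 1 + _ * (-3) + _ * 1 + _ * 1 + _ * 1 + _ * 5
    linarith

theorem span3 : ∀ v ∈ Fx (gm X0), ∃ r : Fin 8 → ℤ, v = ∑ j : Fin 8, r j • lv (bs.getD j 0) := by
  intro v hv
  obtain ⟨m, c, y, hm, hR, hc, hy⟩ := fx_rep hv
  obtain ⟨n, hn, rfl⟩ := inv_list okWX0 words inv_cert c hR.mem hc
  obtain ⟨w1, w2, w3, w4, w5⟩ := words_blk n hn
  have hrep : ∀ i < 24, y (pt i) = y (pt (repL.getD i 0)) := by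
    intro i hi
    obtain ⟨h1, k, -, h2⟩ := hrepL i hi
    have := (const_on okX0 hy (repL.getD i 0) h1 k).1
    rwa [h2] at this
  obtain ⟨k, hk⟩ := hR.par
  rw [H9.CoMat.sum_pt, Finset.sum_congr rfl fun i hi => hrep i (Finset.mem_range.1 hi)] at hk
  simp only [Finset.sum_range_succ, Finset.sum_range_zero, repL, List.getD_cons_zero, List.getD_cons_succ] at hk
  have ei : ∀ r < 24, (v : GolayPt → ℤ) (pt r) = m + 2 * ib n r + 4 * y (pt r) := by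
    intro r hr
    rw [hR.eq, ind_fs _ _ hr]; rfl
  obtain ⟨s, d1, d2, d3, t4, t5, t6, t7, hs, h1, h2, h3, h4, h5, h6, h7⟩ :=
    arith3 m (ib n 0) (ib n 2) (ib n 5) (ib n 6) (ib n 7) (ib n 8) (ib n 13) (ib n 14) (y (pt 0)) (y (pt 2)) (y (pt 5))
      (y (pt 6)) (y (pt 7)) (y (pt 8)) (y (pt 13)) (y (pt 14)) _ _ _ _ _ _ _ _ k w1 w2 w3 w4 w5
      (ei 0 (by norm_num)) (ei 2 (by norm_num)) (ei 5 (by norm_num)) (ei 6 (by norm_num)) (ei 7 (by norm_num))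
      (ei 8 (by norm_num)) (ei 13 (by norm_num)) (ei 14 (by norm_num)) (by linarith)
  obtain ⟨f, hf⟩ : ∃ f : Fin 8 → ℤ, f = ![s, d1, d2, d3, t4, t5, t6, t7] := ⟨_, rfl⟩
  have hfin := fin3 _ _ _ _ _ _ _ _ s d1 d2 d3 t4 t5 t6 t7 hs h1 h2 h3 h4 h5 h6 h7 f hf
  refine ⟨f, ?_⟩
  have hbl : ∀ j < 8, inLat (bs.getD j 0) = true := fun j hj => (hbas j hj).1
  apply ext_fx okX0 hv (sum_mem_fx okX0 (fun j hj => ⟨(hbas j hj).1, (hbas j hj).2.2.1⟩) _) reps 3 hreps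
  intro r hr
  obtain ⟨i, hi8, rfl⟩ : ∃ i < 8, reps.getD i 0 = r := by
    have : ∀ r ∈ reps, ∃ i < 8, reps.getD i 0 = r := by decide
    exact this _ hr
  have hr24 : reps.getD i 0 < 24 := by
    have : ∀ i < 8, reps.getD i 0 < 24 := by decide
    exact this _ hi8
  have hxi : ∀ i < 8, (v : GolayPt → ℤ) (pt (reps.getD i 0)) =
      [(v : GolayPt → ℤ) (pt 0), (v : GolayPt → ℤ) (pt 2), (v : GolayPt → ℤ) (pt 5), (v : GolayPt → ℤ) (pt 6),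
        (v : GolayPt → ℤ) (pt 7), (v : GolayPt → ℤ) (pt 8), (v : GolayPt → ℤ) (pt 13), (v : GolayPt → ℤ) (pt 14)].getD i 0 := by
    intro i hi
    interval_cases i <;> rfl
  have e2 : ∑ j : Fin 8, f j * ((dg (bs.getD j 0) (reps.getD i 0) : ℤ) - 8) = ∑ j : Fin 8, f j * (tbl.getD i []).getD j 0 :=
    Finset.sum_congr rfl fun j _ => by rw [bvals i hi8 j]
  rw [sum_at hbl _ hr24, e2, hxi i hi8]
  exact hfin i hi8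

theorem exists_crd3 : ∃ κ : Fx (gm X0) →+ (Fin 8 → ZMod 2), Crd X0 8 cs bs κ :=
  exists_crd okX0 rfl rfl hbas hD hphi span3

end H33.MonP3
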