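import Mathlib
import Cfsg.Agent.Lib.H33.MonP5
import Cfsg.Agent.Lib.H33.MonP7b

set_option autoImplicit false

/-! The centralizer of an element of order 5 of `Co0`: coordinates. -/

namespace H33.MonP5

open Cfsg H8.GolayCode H8.GolayCount H8.GolayBasic H9.Leech H9.LeechGood H9.Trans H9.Cross H9.CoOrder H9.CoMat
open H33.MonRed H33.MonCo H91.LeechTools H40.PermCode
open H32.M24Kit (okTab pm pm_mem pm_idx pm_pt fs)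
open H32.M24Five (X5 okX5)

def ib (n r : ℕ) : ℤ := if n.testBit r then 1 else 0

theorem words_blk : ∀ n ∈ words, (ib n 7 - ib n 0 - (ib n 0 + ib n 2 + ib n 3 + ib n 4)) % 2 = 0 ∧
    (ib n 17 - ib n 2 - (ib n 0 + ib n 2 + ib n 3 + ib n 4)) % 2 = 0 ∧
    (ib n 21 - ib n 3 - (ib n 0 + ib n 2 + ib n 3 + ib n 4)) % 2 = 0 ∧
    (ib n 16 - ib n 4 - (ib n 0 + ib n 2 + ib n 3 + ib n 4)) % 2 = 0 ∧
    (ib n 7 + ib n 17 + ib n 21 + ib n 16 + (ib n 0 + ib n 2 + ib n 3 + ib n 4)) % 4 = 0 := by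
  decide +kernel

/-- the arithmetic of the coordinates -/
theorem arith5 (m i0 i2 i3 i4 i7 i17 i21 i16 Y0 Y2 Y3 Y4 Y7 Y17 Y21 Y16 x0 x2 x3 x4 y1 y2 y3 y4 k : ℤ)
    (w1 : (i7 - i0 - (i0 + i2 + i3 + i4)) % 2 = 0) (w2 : (i17 - i2 - (i0 + i2 + i3 + i4)) % 2 = 0)
    (w3 : (i21 - i3 - (i0 + i2 + i3 + i4)) % 2 = 0) (w4 : (i16 - i4 - (i0 + i2 + i3 + i4)) % 2 = 0)
    (w5 : (i7 + i17 + i21 + i16 + (i0 + i2 + i3 + i4)) % 4 = 0)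
    (e0 : x0 = m + 2 * i0 + 4 * Y0) (e2 : x2 = m + 2 * i2 + 4 * Y2) (e3 : x3 = m + 2 * i3 + 4 * Y3)
    (e4 : x4 = m + 2 * i4 + 4 * Y4) (e7 : y1 = m + 2 * i7 + 4 * Y7) (e17 : y2 = m + 2 * i17 + 4 * Y17)
    (e21 : y3 = m + 2 * i21 + 4 * Y21) (e16 : y4 = m + 2 * i16 + 4 * Y16)
    (hk : 5 * (Y0 + Y2 + Y3 + Y4) + (Y7 + Y17 + Y21 + Y16) = m + 2 * k) :
    ∃ d2 d3 d4 t1 t2 t3 t4 s : ℤ, x2 = x0 + 2 * d2 ∧ x3 = x0 + 2 * d3 ∧ x4 = x0 + 2 * d4 ∧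
      y1 = x0 + (x0 + x2 + x3 + x4) + 4 * t1 ∧ y2 = x2 + (x0 + x2 + x3 + x4) + 4 * t2 ∧
      y3 = x3 + (x0 + x2 + x3 + x4) + 4 * t3 ∧ y4 = x4 + (x0 + x2 + x3 + x4) + 4 * t4 ∧
      x0 = 2 * s + (d2 + d3 + d4) + (t1 + t2 + t3 + t4) := by
  obtain ⟨u1, hu1⟩ := Int.dvd_of_emod_eq_zero w1
  obtain ⟨u2, hu2⟩ := Int.dvd_of_emod_eq_zero w2
  obtain ⟨u3, hu3⟩ := Int.dvd_of_emod_eq_zero w3
  obtain ⟨u4, hu4⟩ := Int.dvd_of_emod_eq_zero w4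
  obtain ⟨q, hq⟩ := Int.dvd_of_emod_eq_zero w5
  clear w1 w2 w3 w4 w5
  refine ⟨(i2 - i0) + 2 * (Y2 - Y0), (i3 - i0) + 2 * (Y3 - Y0), (i4 - i0) + 2 * (Y4 - Y0),
    u1 + Y7 - Y0 - m - (Y0 + Y2 + Y3 + Y4), u2 + Y17 - Y2 - m - (Y0 + Y2 + Y3 + Y4),
    u3 + Y21 - Y3 - m - (Y0 + Y2 + Y3 + Y4), u4 + Y16 - Y4 - m - (Y0 + Y2 + Y3 + Y4),
    2 * m + 4 * (Y0 + Y2 + Y3 + Y4) - k + 3 * i0 + 6 * Y0 - q + (i0 + i2 + i3 + i4), ?_, ?_, ?_, ?_, ?_, ?_, ?_, ?_⟩ <;>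
  linarith

theorem fin5 (x0 x2 x3 x4 y1 y2 y3 y4 d2 d3 d4 t1 t2 t3 t4 s : ℤ) (hd2 : x2 = x0 + 2 * d2) (hd3 : x3 = x0 + 2 * d3)
    (hd4 : x4 = x0 + 2 * d4) (ht1 : y1 = x0 + (x0 + x2 + x3 + x4) + 4 * t1) (ht2 : y2 = x2 + (x0 + x2 + x3 + x4) + 4 * t2)
    (ht3 : y3 = x3 + (x0 + x2 + x3 + x4) + 4 * t3) (ht4 : y4 = x4 + (x0 + x2 + x3 + x4) + 4 * t4)
    (hs : x0 = 2 * s + (d2 + d3 + d4) + (t1 + t2 + t3 + t4)) (f : Fin 8 → ℤ)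
    (hf : f = ![-d2, -2 * s - d2 - 2 * d3 - d4 - t1 - t2 - t3 - t4, -2 * s - d2 - d3 - 2 * d4 - t1 - t2 - t3 - t4, s + d4 + t4,
    -s - d2 - d4 - t1 - t2 - t4, d2 + t2, s + d2 + d3 + d4 + t1 + t2 + t3 + t4, -2 * s - d2 - d3 - d4 - t1 - t2 - t3 - t4]) :
    ∀ i < 8, [x0, x2, x3, x4, y1, y2, y3, y4].getD i 0 = ∑ j : Fin 8, f j * (tbl.getD i []).getD j 0 := by
  have h0 : f 0 = -d2 := by rw [hf]; rfl
  have h1 : f 1 = -2 * s - d2 - 2 * d3 - d4 - t1 - t2 - t3 - t4 := by rw [hf]; rfl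
  have h2 : f 2 = -2 * s - d2 - d3 - 2 * d4 - t1 - t2 - t3 - t4 := by rw [hf]; rfl
  have h3 : f 3 = s + d4 + t4 := by rw [hf]; rfl
  have h4 : f 4 = -s - d2 - d4 - t1 - t2 - t4 := by rw [hf]; rfl
  have h5 : f 5 = d2 + t2 := by rw [hf]; rfl
  have h6 : f 6 = s + d2 + d3 + d4 + t1 + t2 + t3 + t4 := by rw [hf]; rfl
  have h7 : f 7 = -2 * s - d2 - d3 - d4 - t1 - t2 - t3 - t4 := by rw [hf]; rfl
  clear hf
  intro i hi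
  rw [Fin.sum_univ_eight, h0, h1, h2, h3, h4, h5, h6, h7]
  interval_cases i
  · show x0 = _ * 0 + _ * 0 + _ * 0 + _ * 0 + _ * 0 + _ * 0 + _ * 0 + _ * (-1)
    omega
  · show x2 = _ * (-2) + _ * 0 + _ * 0 + _ * 0 + _ * 0 + _ * 0 + _ * 0 + _ * (-1)
    omega
  · show x3 = _ * 0 + _ * (-2) + _ * 0 + _ * 0 + _ * 0 + _ * 0 + _ * 0 + _ * 1
    omega
  · show x4 = _ * 0 + _ * 0 + _ * (-2) + _ * 0 + _ * 0 + _ * 0 + _ * 0 + _ * 1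
    omega
  · show y1 = _ * (-2) + _ * (-2) + _ * (-2) + _ * (-4) + _ * (-4) + _ * (-4) + _ * 0 + _ * (-1)
    omega
  · show y2 = _ * 0 + _ * (-2) + _ * (-2) + _ * 0 + _ * 0 + _ * 4 + _ * 0 + _ * (-1)
    omega
  · show y3 = _ * (-2) + _ * 0 + _ * (-2) + _ * 0 + _ * 4 + _ * 0 + _ * 4 + _ * (-3)
    omega
  · show y4 = _ * (-2) + _ * (-2) + _ * 0 + _ * 4 + _ * 0 + _ * 0 + _ * 4 + _ * 1
    omega

theorem span5 : ∀ v ∈ Fx (gm X5), ∃ r : Fin 8 → ℤ, v = ∑ j : Fin 8, r j • lv (bs.getD j 0) := by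
  intro v hv
  obtain ⟨m, c, y, hm, hR, hc, hy⟩ := fx_rep hv
  obtain ⟨n, hn, rfl⟩ := inv_list okWX5 words inv_cert c hR.mem hc
  obtain ⟨w1, w2, w3, w4, w5⟩ := words_blk n hn
  have hrep : ∀ i < 24, y (pt i) = y (pt (repL.getD i 0)) := by
    intro i hi
    obtain ⟨h1, k, -, h2⟩ := hrepL i hi
    have := (const_on okX5 hy (repL.getD i 0) h1 k).1
    rwa [h2] at this
  obtain ⟨k, hk⟩ := hR.par
  rw [H9.CoMat.sum_pt, Finset.sum_congr rfl fun i hi => hrep i (Finset.mem_range.1 hi)] at hk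
  simp only [Finset.sum_range_succ, Finset.sum_range_zero, repL, List.getD_cons_zero, List.getD_cons_succ] at hk
  have ei : ∀ r < 24, (v : GolayPt → ℤ) (pt r) = m + 2 * ib n r + 4 * y (pt r) := by
    intro r hr
    rw [hR.eq, ind_fs _ _ hr]; rfl
  obtain ⟨d2, d3, d4, t1, t2, t3, t4, s, hd2, hd3, hd4, ht1, ht2, ht3, ht4, hs⟩ :=
    arith5 m (ib n 0) (ib n 2) (ib n 3) (ib n 4) (ib n 7) (ib n 17) (ib n 21) (ib n 16) (y (pt 0)) (y (pt 2)) (y (pt 3))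
      (y (pt 4)) (y (pt 7)) (y (pt 17)) (y (pt 21)) (y (pt 16)) _ _ _ _ _ _ _ _ k w1 w2 w3 w4 w5
      (ei 0 (by norm_num)) (ei 2 (by norm_num)) (ei 3 (by norm_num)) (ei 4 (by norm_num)) (ei 7 (by norm_num))
      (ei 17 (by norm_num)) (ei 21 (by norm_num)) (ei 16 (by norm_num)) (by linarith)
  obtain ⟨f, hf⟩ : ∃ f : Fin 8 → ℤ, f = ![-d2, -2 * s - d2 - 2 * d3 - d4 - t1 - t2 - t3 - t4, -2 * s - d2 - d3 - 2 * d4 - t1 - t2 - t3 - t4, s + d4 + t4,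
    -s - d2 - d4 - t1 - t2 - t4, d2 + t2, s + d2 + d3 + d4 + t1 + t2 + t3 + t4, -2 * s - d2 - d3 - d4 - t1 - t2 - t3 - t4] := ⟨_, rfl⟩
  have hfin := fin5 _ _ _ _ _ _ _ _ d2 d3 d4 t1 t2 t3 t4 s hd2 hd3 hd4 ht1 ht2 ht3 ht4 hs f hf
  refine ⟨f, ?_⟩
  have hbl : ∀ j < 8, inLat (bs.getD j 0) = true := fun j hj => (hbas j hj).1
  apply ext_fx okX5 hv (sum_mem_fx okX5 (fun j hj => ⟨(hbas j hj).1, (hbas j hj).2.2.1⟩) _) reps 5 hreps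
  intro r hr
  obtain ⟨i, hi8, rfl⟩ : ∃ i < 8, reps.getD i 0 = r := by
    have : ∀ r ∈ reps, ∃ i < 8, reps.getD i 0 = r := by decide
    exact this _ hr
  have hr24 : reps.getD i 0 < 24 := by
    have : ∀ i < 8, reps.getD i 0 < 24 := by decide
    exact this _ hi8
  have hxi : ∀ i < 8, (v : GolayPt → ℤ) (pt (reps.getD i 0)) =
      [(v : GolayPt → ℤ) (pt 0), (v : GolayPt → ℤ) (pt 2), (v : GolayPt → ℤ) (pt 3), (v : GolayPt → ℤ) (pt 4),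
        (v : GolayPt → ℤ) (pt 7), (v : GolayPt → ℤ) (pt 17), (v : GolayPt → ℤ) (pt 21), (v : GolayPt → ℤ) (pt 16)].getD i 0 := by
    intro i hi
    interval_cases i <;> rfl
  have e2 : ∑ j : Fin 8, f j * ((dg (bs.getD j 0) (reps.getD i 0) : ℤ) - 8) = ∑ j : Fin 8, f j * (tbl.getD i []).getD j 0 :=
    Finset.sum_congr rfl fun j _ => by rw [bvals i hi8 j]
  rw [sum_at hbl _ hr24, e2, hxi i hi8]
  exact hfin i hi8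

theorem exists_crd5 : ∃ κ : Fx (gm X5) →+ (Fin 8 → ZMod 2), Crd X5 8 cs bs κ :=
  exists_crd okX5 rfl rfl hbas hD hphi span5

end H33.MonP5
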