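import Mathlib
import Cfsg.Agent.Lib.H6.SLCard
import Cfsg.Agent.Lib.H6.SLGen
import Cfsg.Agent.Lib.H6.SmallIsoD
import Cfsg.Agent.Lib.H1.Cores

set_option autoImplicit false

/-! The group `SL(3,2)`. -/

namespace H33.SL32

open Cfsg

abbrev S3 : Type := Matrix.SpecialLinearGroup (Fin 3) (ZMod 2)

theorem card_S3 : Nat.card S3 = 168 := by
  have : Fact (Nat.Prime 2) := ⟨Nat.prime_two⟩
  have h := H6.SLCard.card_sl (F := ZMod 2) (n := 3) (by norm_num)
  rw [ZMod.card, Fin.prod_univ_three] at h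
  norm_num at h
  rw [Nat.card_eq_fintype_card]
  exact h

theorem pcore : pCore 2 S3 = ⊥ := by
  have hp : Fact (Nat.Prime 2) := ⟨Nat.prime_two⟩
  have hs : IsSimpleGroup (Matrix.ProjectiveSpecialLinearGroup (Fin 3) (ZMod 2)) :=
    H6.SLGen.psl_isSimpleGroup (by simp)
  have hN : (pCore 2 S3).Normal := inferInstance
  let q : S3 →* Matrix.ProjectiveSpecialLinearGroup (Fin 3) (ZMod 2) := QuotientGroup.mk' _
  have hq : Function.Surjective q := QuotientGroup.mk'_surjective _
  have hker : q.ker = ⊥ := by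
    rw [QuotientGroup.ker_mk']
    exact H6.SmallIsoD.center_trivial
  have hinj : Function.Injective q := (MonoidHom.ker_eq_bot_iff q).1 hker
  rcases (hN.map q hq).eq_bot_or_eq_top with h | h
  · exact (Subgroup.map_eq_bot_iff_of_injective _ hinj).1 h
  · exfalso
    have h1 : pCore 2 S3 = ⊤ := by
      rw [eq_top_iff]
      intro x _
      have : q x ∈ (pCore 2 S3).map q := by rw [h]; trivial
      obtain ⟨y, hy, hxy⟩ := this
      rwa [← hinj hxy]
    have h2 : IsPGroup 2 (pCore 2 S3) := H1.Cores.isPGroup_pCore 2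
    obtain ⟨k, hk⟩ := IsPGroup.iff_card.1 h2
    rw [h1, Subgroup.card_top, card_S3] at hk
    have h3 : 3 ∣ 2 ^ k := by rw [← hk]; norm_num
    have := Nat.prime_three.dvd_of_dvd_pow h3
    omega

end H33.SL32
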