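import Mathlib
import Cfsg.Agent.Lib.H33.MonP7b
import Cfsg.Agent.Lib.H33.MonCo6
import Cfsg.Agent.Lib.H33.SL32

set_option autoImplicit false

/-! The centralizer of an element of order 7 of `Co0`. -/

namespace H33.MonP7

open Cfsg H8.GolayCode H8.GolayCount H8.GolayBasic H9.Leech H9.LeechGood H9.Trans H9.Cross H9.CoOrder H9.CoMat
open H33.MonRed H33.MonCo H91.LeechTools H40.PermCode
open H32.M24Kit (okTab pm pm_mem pm_idx pm_pt fs)
open H94.M24Seven (Z WZ okWZ okZ)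

theorem card_CZ : Nat.card {g : Equiv.Perm GolayPt // g ∈ M24 ∧ g * pm Z = pm Z * g} = 42 := by
  rw [← H94.M24Seven.card_C]
  apply Nat.card_congr
  exact
    { toFun := fun x => ⟨⟨x.1, x.2.1⟩, H94.M24Seven.mem_C.2 x.2.2⟩
      invFun := fun x => ⟨x.1.1, x.1.2, H94.M24Seven.mem_C.1 x.2⟩
      left_inv := fun x => rfl
      right_inv := fun x => rfl }

theorem card_wd : Nat.card {c : Finset GolayPt // c ∈ GS ∧ c.image (pm Z) = c} ≤ 8 :=
  card_inv_le (l := words) (inv_list okWZ words inv_cert)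

theorem card_st : Nat.card {σ : CC (gm Z) // Pres σ.1} ≤ 42 * 8 :=
  card_stab_le (by rw [card_CZ]) card_wd

theorem gm7 : gm Z ^ 7 = 1 := by
  apply ext8
  intro k _
  have h : ∀ n q, (gm Z) ^ n • e8 q = e8 ((pm Z ^ n) q) := by
    intro n
    induction n with
    | zero => intro q; rw [pow_zero, one_smul, pow_zero, Equiv.Perm.one_apply]
    | succ n ih => intro q; rw [pow_succ, mul_smul, gm_e8, ih, pow_succ, Equiv.Perm.mul_apply]
  rw [h, H94.M24Seven.Z7, one_smul, Equiv.Perm.one_apply]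

theorem gm_ne : gm Z ≠ 1 := by
  intro h
  apply H94.M24Seven.Z_ne
  ext q : 1
  have h1 : gm Z • e8 q = e8 q := by rw [h, one_smul]
  rw [gm_e8] at h1
  have := congrArg (fun x : leechLattice => (x : GolayPt → ℤ) q) h1
  simp only [coe_e8, Pi.single_eq_same] at this
  by_contra hpp
  rw [Equiv.Perm.one_apply] at hpp
  rw [Pi.single_eq_of_ne (Ne.symm hpp)] at this
  norm_num at this

/-- the classes of norm 64 -/
def T4 : List ℕ := [1, 3, 5, 6, 28, 29, 42, 43, 54, 55, 57, 58, 60, 63]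
def W1 : List ℕ := [1, 28, 29, 42, 43, 54, 55]
def W2 : List ℕ := [3, 5, 6, 57, 58, 60, 63]
def shm : List ℕ := sh.map (kmask cs)

theorem shOK1 : shOK Z (fun z => decide (z = 32) || decide (z = 48)) sh = true := by decide +kernel
theorem shOK4 : shOK Z (fun z => decide (z = 64)) fr4 = true := by decide +kernel
theorem sh_cls : ∀ m < 64, m = 0 ∨ m ∈ sh.map (kmask cs) ∨ m ∈ T4 := by decide +kernel
theorem fr_cls : ∀ m ∈ T4, m ∈ fr4.map (kmask cs) := by decide +kernel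
theorem T4_lt : ∀ m ∈ T4, m < 64 := by decide
theorem T4_cases : ∀ m ∈ T4, m ∈ W1 ∨ m ∈ W2 := by decide
theorem W1_T4 : ∀ m ∈ W1, m ∈ T4 := by decide

variable {κ : Fx (gm Z) →+ (Fin 6 → ZMod 2)}

theorem four_iff (C : Crd Z 6 cs bs κ) (v : Fx (gm Z)) : Four v.1 ↔ ∃ m ∈ T4, κ v = bv 6 m := by
  constructor
  · intro h
    obtain ⟨m, hm, h1, h2, h3⟩ := C.four_mask okZ shOK1 h
    rcases sh_cls m hm with h4 | h4 | h4
    · exact absurd h4 h2
    · exact absurd h4 h3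
    · exact ⟨m, h4, h1⟩
  · rintro ⟨m, hm, h⟩
    exact C.four_of okZ shOK4 (fr_cls m hm) h

/-- the frame vector -/
noncomputable def v0 : Fx (gm Z) := ⟨e8 (pt 23), by
  rw [mem_Fx, gm_e8, pm_pt okZ 23 (by norm_num)]
  congr 1⟩

theorem kv0 (C : Crd Z 6 cs bs κ) : κ v0 = bv 6 1 := by
  have h : (v0.1 : GolayPt → ℤ) = vec (row idM 23) := by
    rw [vec_idM (by norm_num)]
    exact coe_e8 (pt 23)
  rw [C.val v0 _ h, show kmask cs (row idM 23) = 1 by decide +kernel]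

/-- the inverting element -/
theorem exists_D (C : Crd Z 6 cs bs κ) : ∃ D : Co0, gm Z * (D * gm Z) = D ∧ ∃ hF : ∀ v ∈ Fx (gm Z), D • v ∈ Fx (gm Z),
    ∀ v : Fx (gm Z), ∀ m < 64, κ v = bv 6 m → κ ⟨D • v.1, hF v.1 v.2⟩ = bv 6 (lin [60, 33, 11, 31, 46, 59] m) := by
  obtain ⟨D, hD, -⟩ := exists_of_okM chkD
  have h1 := inv_of okZ hD chkDi
  have hF : ∀ v ∈ Fx (gm Z), D • v ∈ Fx (gm Z) := by
    intro v hv
    rw [mem_Fx]
    conv_rhs => rw [← h1, mul_smul, mul_smul, mem_Fx.1 hv]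
  exact ⟨D, h1, hF, fun v m hm hv => C.img_lin okZ hF hD (wfM_of chkD) (by decide +kernel) v hm hv⟩

/-- nothing fixing the frame inverts -/
theorem no_inv {g : Co0} (hg : Pres g) (h : gm Z * (g * gm Z) = g) : False := by
  obtain ⟨π, hπ, c, hc, rfl⟩ := mono_of_pres hg
  apply H94.M24Seven.no_inv hπ
  rw [← mul_right_inj (pm Z), mul_inv_cancel_left]
  ext q : 1
  have h1 : (gm Z * (mono π hπ c hc * gm Z)) • e8 q = mono π hπ c hc • e8 q := by rw [h]
  rw [mul_smul, mul_smul, gm_e8, mono_e8, mono_e8] at h1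
  have hne : ∀ p p' : GolayPt, e8 p = e8 p' → p = p' := by
    intro p p' h
    have := congrArg (fun x : leechLattice => (x : GolayPt → ℤ) p) h
    simp only [coe_e8, Pi.single_eq_same] at this
    by_contra hpp
    rw [Pi.single_eq_of_ne hpp] at this
    norm_num at this
  have hne2 : ∀ p p' : GolayPt, e8 p ≠ -e8 p' := by
    intro p p' h
    have := congrArg (fun x : leechLattice => (x : GolayPt → ℤ) p) h
    simp only [coe_e8, Pi.single_eq_same, AddSubgroup.coe_neg, Pi.neg_apply] at this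
    by_cases hpp : p = p'
    · subst hpp; rw [Pi.single_eq_same] at this; norm_num at this
    · rw [Pi.single_eq_of_ne hpp] at this; norm_num at this
  split_ifs at h1
  · rw [co0_neg, gm_e8, neg_inj] at h1
    exact hne _ _ h1
  · rw [co0_neg, gm_e8] at h1
    exact absurd h1.symm (hne2 _ _)
  · rw [gm_e8] at h1
    exact absurd h1 (hne2 _ _)
  · rw [gm_e8] at h1
    exact hne _ _ h1

section
variable (C : Crd Z 6 cs bs κ) {act : CC (gm Z) →* Equiv.Perm (Fin 6 → ZMod 2)} (hact : ∀ σ v, act σ (κ v) = κ (sm σ v))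
  (hadd : ∀ σ a b, act σ (a + b) = act σ a + act σ b)
include C hact hadd

/-- transitivity on the first subspace -/
theorem trans1 : ∀ m ∈ W1, ∃ σ, act σ (bv 6 1) = bv 6 m := by
  obtain ⟨a10, -, h10⟩ := gen_spec okZ C hact hadd chk10
  obtain ⟨a20, -, h20⟩ := gen_spec okZ C hact hadd chk20
  obtain ⟨a01, -, h01⟩ := gen_spec okZ C hact hadd chk01
  obtain ⟨a02, -, h02⟩ := gen_spec okZ C hact hadd chk02
  obtain ⟨a21, -, h21⟩ := gen_spec okZ C hact hadd chk21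
  have step : ∀ (τ : CC (gm Z)) (ms : List ℕ), (∀ m < 2 ^ 6, act τ (bv 6 m) = bv 6 (lin ms m)) → ∀ m m' : ℕ, m < 64 →
      lin ms m = m' → (∃ σ, act σ (bv 6 1) = bv 6 m) → ∃ σ, act σ (bv 6 1) = bv 6 m' := by
    rintro τ ms h m m' hm rfl ⟨σ, hσ⟩
    exact ⟨τ * σ, by rw [map_mul, Equiv.Perm.mul_apply, hσ, h m hm]⟩
  have e1 : ∃ σ, act σ (bv 6 1) = bv 6 1 := ⟨1, by rw [map_one]; rfl⟩
  have e29 := step a10 _ h10 1 29 (by norm_num) (by decide +kernel) e1
  have e43 := step a20 _ h20 1 43 (by norm_num) (by decide +kernel) e1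
  have e28 := step a01 _ h01 29 28 (by norm_num) (by decide +kernel) e29
  have e42 := step a02 _ h02 43 42 (by norm_num) (by decide +kernel) e43
  have e55 := step a21 _ h21 29 55 (by norm_num) (by decide +kernel) e29
  have e54 := step a21 _ h21 28 54 (by norm_num) (by decide +kernel) e28
  intro m hm
  rw [W1] at hm
  simp only [List.mem_cons, List.not_mem_nil, or_false] at hm
  rcases hm with rfl | rfl | rfl | rfl | rfl | rfl | rfl <;> assumption

/-- the centralizer preserves the first subspace -/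
theorem pres1 : ∀ σ, ∃ m ∈ W1, act σ (bv 6 1) = bv 6 m := by
  intro σ
  have h1 : act σ (bv 6 1) = κ (sm σ v0) := by rw [← kv0 C, hact]
  have h2 : Four (sm σ v0).1 := (four_e8 (pt 23)).smul σ.1
  obtain ⟨m, hm, h3⟩ := (four_iff C _).1 h2
  rcases T4_cases m hm with h4 | h4
  · exact ⟨m, h4, by rw [h1, h3]⟩
  exfalso
  obtain ⟨D, hD, hF, hDm⟩ := exists_D C
  have h5 : ∀ m ∈ W2, ∃ w ∈ W1, lin [60, 33, 11, 31, 46, 59] w = m := by decide +kernel
  obtain ⟨w, hw, hwm⟩ := h5 m h4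
  obtain ⟨τ, hτ⟩ := trans1 C hact hadd w hw
  have h6 : κ (sm τ v0) = bv 6 w := by rw [← hact, kv0 C, hτ]
  have h7 := hDm (sm τ v0) w (T4_lt w (W1_T4 w hw)) h6
  rw [hwm, ← h3] at h7
  obtain ⟨u, hu⟩ := C.congr h7
  have hu' : D • (τ.1 • e8 (pt 23)) = σ.1 • e8 (pt 23) + (u + u) := hu
  refine no_inv (g := σ.1⁻¹ * (D * τ.1)) ?_ ?_
  · rw [pres_iff' (pt 23)]
    refine ⟨σ.1⁻¹ • u, ?_⟩
    rw [mul_smul, mul_smul, hu', co0_add, inv_smul_smul, add_sub_cancel_left, co0_add, two_smul]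
  · have h8 : gm Z * σ.1⁻¹ = σ.1⁻¹ * gm Z := ((show Commute σ.1 (gm Z) from mem_CC.1 σ.2).inv_left.eq).symm
    have h9 := mem_CC.1 τ.2
    calc gm Z * (σ.1⁻¹ * (D * τ.1) * gm Z) = (gm Z * σ.1⁻¹) * D * (τ.1 * gm Z) := by group
      _ = (σ.1⁻¹ * gm Z) * D * (gm Z * τ.1) := by rw [h8, h9]
      _ = σ.1⁻¹ * (gm Z * (D * gm Z)) * τ.1 := by group
      _ = σ.1⁻¹ * (D * τ.1) := by rw [hD]; group

theorem pres1' : ∀ σ, ∀ w ∈ W1, ∃ m ∈ W1, act σ (bv 6 w) = bv 6 m := by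
  intro σ w hw
  obtain ⟨τ, hτ⟩ := trans1 C hact hadd w hw
  obtain ⟨m, hm, h⟩ := pres1 C hact hadd (σ * τ)
  exact ⟨m, hm, by rw [← hτ, ← Equiv.Perm.mul_apply, ← map_mul, h]⟩

theorem card_CC : Nat.card (CC (gm Z)) ≤ 168 * (2 * 7) := by
  have h1 : ({a | ∃ m ∈ W1, a = bv 6 m} : Set (Fin 6 → ZMod 2)) = ((W1.map (bv 6)).toFinset : Set _) := by
    ext a
    simp only [Set.mem_ofPred_eq, List.coe_toFinset, List.mem_map]
    constructor
    · rintro ⟨m, hm, rfl⟩; exact ⟨m, hm, rfl⟩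
    · rintro ⟨m, hm, rfl⟩; exact ⟨m, hm, rfl⟩
  have h2 := card_le C.ker hact (v0 := v0) (p := pt 23) ⟨0, by rw [add_zero, add_zero]; rfl⟩
    (T := {a | ∃ m ∈ W1, a = bv 6 m}) (Set.toFinite _) (by
      intro σ
      rw [kv0 C]
      exact pres1 C hact hadd σ)
  have h3 : ({a | ∃ m ∈ W1, a = bv 6 m} : Set (Fin 6 → ZMod 2)).ncard ≤ 7 := by
    rw [h1, Set.ncard_coe_finset]
    exact (List.toFinset_card_le _).trans (by rw [List.length_map]; rfl)
  calc Nat.card (CC (gm Z)) ≤ _ := h2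
    _ ≤ 7 * (42 * 8) := Nat.mul_le_mul h3 card_st
    _ = _ := by norm_num
end

end H33.MonP7
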