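import Mathlib
import Cfsg.Agent.Lib.H33.MonP7c

set_option autoImplicit false

/-! The centralizer of an element of order 7 of `Co0`: the main theorem. -/

namespace H33.MonCo

open Cfsg H8.GolayCode H8.GolayCount H8.GolayBasic H9.Leech H9.LeechGood H9.Trans H9.Cross H9.CoOrder H9.CoMat
open H33.MonRed H91.LeechTools H40.PermCode

section
variable {γ : Co0} {n : ℕ} {κ : Fx γ →+ (Fin n → ZMod 2)}

theorem act_triv (hs : Function.Surjective κ) (hk : ∀ v, κ v = 0 ↔ ∃ u : leechLattice, v.1 = u + u) {act : CC γ →* Equiv.Perm (Fin n → ZMod 2)}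
    (hact : ∀ σ v, act σ (κ v) = κ (sm σ v)) {σ : CC γ} (h : ∀ v ∈ Fx γ, ∃ u : leechLattice, σ.1 • v = v + (u + u)) : act σ = 1 := by
  ext a : 1
  obtain ⟨v, rfl⟩ := hs a
  rw [hact, Equiv.Perm.one_apply, ← sub_eq_zero, ← map_sub, hk]
  obtain ⟨u, hu⟩ := h v.1 v.2
  refine ⟨u, ?_⟩
  show σ.1 • v.1 - v.1 = u + u
  rw [hu, add_sub_cancel_left]

theorem pow_triv (γ : Co0) (k : ℕ) : ∀ v ∈ Fx γ, ∃ u : leechLattice, (γ ^ k) • v = v + (u + u) := by
  intro v hv
  refine ⟨0, ?_⟩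
  rw [add_zero, add_zero]
  induction k with
  | zero => rw [pow_zero, one_smul]
  | succ k ih => rw [pow_succ, mul_smul, mem_Fx.1 hv, ih]

theorem neg_triv (γ : Co0) : ∀ v ∈ Fx γ, ∃ u : leechLattice, (neg * γ ^ 0) • v = v + (u + u) := by
  intro v _
  refine ⟨-v, ?_⟩
  rw [pow_zero, mul_one, neg_smul]
  abel
end

end H33.MonCo

namespace H33.MonP7

open Cfsg H8.GolayCode H8.GolayCount H8.GolayBasic H9.Leech H9.LeechGood H9.Trans H9.Cross H9.CoOrder H9.CoMat
open H33.MonRed H33.MonCo H91.LeechTools H40.PermCode H33.SL32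
open H32.M24Kit (okTab pm pm_mem pm_idx pm_pt fs)
open H94.M24Seven (Z WZ okWZ okZ)

def w3 : Fin 3 → (Fin 6 → ZMod 2) := ![bv 6 1, bv 6 28, bv 6 42]
def wn : Fin 3 → ℕ := ![1, 28, 42]
def ix3 : Fin 3 → Fin 6 := ![0, 2, 1]

theorem w3_eq (j : Fin 3) : w3 j = bv 6 (wn j) := by
  fin_cases j <;> rfl

theorem wn_mem (j : Fin 3) : wn j ∈ W1 := by revert j; decide
theorem wn_lt (j : Fin 3) : wn j < 2 ^ 6 := by revert j; decide

theorem hw3 : ∀ i j, w3 j (ix3 i) = if i = j then 1 else 0 := by decide +kernel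

theorem hsp3 : ∀ m ∈ W1, bv 6 m = ∑ k, bv 6 m (ix3 k) • w3 k := by decide +kernel

theorem tr10 : ∀ a b : Fin 3, bv 6 (lin m10 (wn b)) (ix3 a) = (if a = b then 1 else 0) + (if (1 : Fin 3) = a ∧ (0 : Fin 3) = b then 1 else 0) := by decide +kernel
theorem tr20 : ∀ a b : Fin 3, bv 6 (lin m20 (wn b)) (ix3 a) = (if a = b then 1 else 0) + (if (2 : Fin 3) = a ∧ (0 : Fin 3) = b then 1 else 0) := by decide +kernel
theorem tr01 : ∀ a b : Fin 3, bv 6 (lin m01 (wn b)) (ix3 a) = (if a = b then 1 else 0) + (if (0 : Fin 3) = a ∧ (1 : Fin 3) = b then 1 else 0) := by decide +kernel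
theorem tr02 : ∀ a b : Fin 3, bv 6 (lin m02 (wn b)) (ix3 a) = (if a = b then 1 else 0) + (if (0 : Fin 3) = a ∧ (2 : Fin 3) = b then 1 else 0) := by decide +kernel
theorem tr12 : ∀ a b : Fin 3, bv 6 (lin m12 (wn b)) (ix3 a) = (if a = b then 1 else 0) + (if (1 : Fin 3) = a ∧ (2 : Fin 3) = b then 1 else 0) := by decide +kernel
theorem tr21 : ∀ a b : Fin 3, bv 6 (lin m21 (wn b)) (ix3 a) = (if a = b then 1 else 0) + (if (2 : Fin 3) = a ∧ (1 : Fin 3) = b then 1 else 0) := by decide +kernel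

theorem main7 : ∃ (Φ : CC (gm Z) →* S3) (κ : Fx (gm Z) →+ (Fin 6 → ZMod 2)), CoD (gm Z) 7 Φ κ ∧
    ∀ v : Fx (gm Z), Four v.1 ↔ ∃ m ∈ T4, κ v = bv 6 m := by
  obtain ⟨κ, C⟩ := exists_crd7
  obtain ⟨act, hact, hadd⟩ := exists_act κ C.surj C.ker
  obtain ⟨Φ, hΦ⟩ := exists_SL act hadd w3 ix3 hw3 (by
    intro σ j
    obtain ⟨m, hm, h⟩ := pres1' C hact hadd σ (wn j) (wn_mem j)
    rw [w3_eq, h]
    exact hsp3 m hm)
  have htriv : ∀ σ, act σ = 1 → Φ σ = 1 := by
    intro σ h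
    apply Subtype.ext
    ext i j
    rw [hΦ, h, Equiv.Perm.one_apply, hw3]
    exact (Matrix.one_apply).symm
  have hsurj : Function.Surjective Φ := by
    apply surj_SL
    have mk : ∀ {B B' ms : List ℕ} (i j : Fin 3), genChk Z cs bs B B' ms = true →
        (∀ a b : Fin 3, bv 6 (lin ms (wn b)) (ix3 a) = (if a = b then 1 else 0) + (if i = a ∧ j = b then 1 else 0)) →
        ∃ σ, (Φ σ).1 = Matrix.transvection i j (1 : ZMod 2) := by
      intro B B' ms i j hc ht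
      obtain ⟨σ, -, h⟩ := gen_spec okZ C hact hadd hc
      refine ⟨σ, ?_⟩
      ext a b
      rw [hΦ, w3_eq, h _ (wn_lt b), ht, Matrix.transvection, Matrix.add_apply, Matrix.one_apply, Matrix.single_apply]
    intro i j hij
    fin_cases i <;> fin_cases j
    · exact absurd rfl hij
    · exact mk 0 1 chk01 tr01
    · exact mk 0 2 chk02 tr02
    · exact mk 1 0 chk10 tr10
    · exact absurd rfl hij
    · exact mk 1 2 chk12 tr12
    · exact mk 2 0 chk20 tr20
    · exact mk 2 1 chk21 tr21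
    · exact absurd rfl hij
  have hr : Nat.card Φ.range = 168 := by
    rw [MonoidHom.range_eq_top.2 hsurj, Subgroup.card_top, card_S3]
  have hfin : Finite S3 := inferInstance
  obtain ⟨hker, -⟩ := ker_exact (r := 168) (p := 7) (by norm_num) (by decide) gm7 gm_ne Φ
    (fun k => htriv _ (act_triv C.surj C.ker hact (pow_triv _ k)))
    (htriv _ (act_triv C.surj C.ker hact (neg_triv _))) (by norm_num) (le_of_eq hr.symm) (card_CC C hact hadd)
  refine ⟨Φ, κ, ⟨by norm_num, by decide, gm7, gm_ne, hsurj, hker, C.surj, C.ker, ?_⟩, four_iff C⟩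
  intro δ h
  exact htriv _ (act_triv C.surj C.ker hact h)

end H33.MonP7
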