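import Mathlib
import Cfsg.Agent.Lib.H33.MonP5b
import Cfsg.Agent.Lib.H33.MonCo7
import Cfsg.Agent.Lib.H33.MonP7d

set_option autoImplicit false

/-! The centralizer of an element of order 5 of `Co0`: the blocks. -/

namespace H33.MonCo

/-- the set of a mask -/
def MS (n M : ℕ) : Set (Fin n → ZMod 2) := {a | ∃ z < 2 ^ n, M.testBit z = true ∧ a = bv n z}

theorem mem_MS {n M z : ℕ} (hz : z < 2 ^ n) : bv n z ∈ MS n M ↔ M.testBit z = true := by
  constructor
  · rintro ⟨w, hw, h1, h2⟩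
    rw [bv_inj hz hw h2]; exact h1
  · intro h
    exact ⟨z, hz, h, rfl⟩

end H33.MonCo

namespace H33.MonP5

open Cfsg H8.GolayCode H8.GolayCount H8.GolayBasic H9.Leech H9.LeechGood H9.Trans H9.Cross H9.CoOrder H9.CoMat
open H33.MonRed H33.MonCo H91.LeechTools H40.PermCode
open H32.M24Kit (okTab pm pm_mem pm_idx pm_pt fs)
open H32.M24Five (X5 okX5)

theorem card_CX : Nat.card {g : Equiv.Perm GolayPt // g ∈ M24 ∧ g * pm X5 = pm X5 * g} = 60 := by
  rw [← (H32.M24Five.d5 (x := ⟨pm X5, pm_mem X5⟩) (by rw [Subgroup.orderOf_mk]; exact H32.M24Five.ordX)).2.2]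
  apply Nat.card_congr
  exact
    { toFun := fun x => ⟨⟨x.1, x.2.1⟩, by
        rw [Subgroup.mem_centralizer_singleton_iff]; exact Subtype.ext x.2.2⟩
      invFun := fun x => ⟨x.1.1, x.1.2, congrArg Subtype.val (Subgroup.mem_centralizer_singleton_iff.1 x.2)⟩
      left_inv := fun x => rfl
      right_inv := fun x => rfl }

theorem card_wd : Nat.card {c : Finset GolayPt // c ∈ GS ∧ c.image (pm X5) = c} ≤ 16 :=
  card_inv_le (l := words) (inv_list okWX5 words inv_cert)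

theorem card_st : Nat.card {σ : CC (gm X5) // Pres σ.1} ≤ 60 * 16 :=
  card_stab_le (by rw [card_CX]) card_wd

theorem pX5 : pm X5 ^ 5 = 1 := by rw [← H32.M24Five.ordX]; exact pow_orderOf_eq_one _

theorem pX_ne : pm X5 ≠ 1 := by
  intro h
  have := H32.M24Five.ordX
  rw [h, orderOf_one] at this
  omega

theorem gm5 : gm X5 ^ 5 = 1 := by
  apply ext8
  intro k _
  have h : ∀ n q, (gm X5) ^ n • e8 q = e8 ((pm X5 ^ n) q) := by
    intro n
    induction n with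
    | zero => intro q; rw [pow_zero, one_smul, pow_zero, Equiv.Perm.one_apply]
    | succ n ih => intro q; rw [pow_succ, mul_smul, gm_e8, ih, pow_succ, Equiv.Perm.mul_apply]
  rw [h, pX5, one_smul, Equiv.Perm.one_apply]

theorem gm_ne : gm X5 ≠ 1 := by
  intro h
  apply pX_ne
  ext q : 1
  have h1 : gm X5 • e8 q = e8 q := by rw [h, one_smul]
  rw [gm_e8] at h1
  have := congrArg (fun x : leechLattice => (x : GolayPt → ℤ) q) h1
  simp only [coe_e8, Pi.single_eq_same] at this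
  by_contra hpp
  rw [Equiv.Perm.one_apply] at hpp
  rw [Pi.single_eq_of_ne (Ne.symm hpp)] at this
  norm_num at this

theorem T4_lt : ∀ m ∈ T4, m < 256 := by decide

variable {κ : Fx (gm X5) →+ (Fin 8 → ZMod 2)}

theorem four_iff (C : Crd X5 8 cs bs κ) (v : Fx (gm X5)) : Four v.1 ↔ ∃ m ∈ T4, κ v = bv 8 m := by
  constructor
  · intro h
    obtain ⟨m, hm, h1, h2, h3⟩ := C.four_mask okX5 shOK1 h
    rw [shm_eq] at h3
    rcases sh_cls m hm with h4 | h4 | h4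
    · exact absurd h4 h2
    · exact absurd h4 h3
    · exact ⟨m, h4, h1⟩
  · rintro ⟨m, hm, h⟩
    exact C.four_of okX5 shOK4 (by rw [fr_eq]; exact hm) h

/-- the set `{0} ∪ T4` -/
abbrev QQ : Set (Fin 8 → ZMod 2) := MS 8 TM

theorem mem_QQ {a : Fin 8 → ZMod 2} : a ∈ QQ ↔ a = 0 ∨ ∃ m ∈ T4, a = bv 8 m := by
  constructor
  · rintro ⟨z, hz, h1, rfl⟩
    rw [TM_spec z hz, Bool.or_eq_true, beq_iff_eq, List.contains_iff_mem] at h1
    rcases h1 with rfl | h1
    · left; exact bv_zero 8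
    · right; exact ⟨z, h1, rfl⟩
  · rintro (rfl | ⟨m, hm, rfl⟩)
    · rw [← bv_zero 8, mem_MS (by norm_num), TM_spec 0 (by norm_num)]; rfl
    · rw [mem_MS (T4_lt m hm), TM_spec m (T4_lt m hm), Bool.or_eq_true, List.contains_iff_mem]
      exact Or.inr hm

/-- the sets of common neighbours -/
def SS (x y : Fin 8 → ZMod 2) : Set (Fin 8 → ZMod 2) := {a | a ∈ QQ ∧ a + x ∈ QQ ∧ a + y ∈ QQ}

theorem ZL_lt : (ZL.all fun p => Nat.blt p.1 256) = true := by decide +kernel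

theorem SS_mask {p q : ℕ × ℕ} (hp : p ∈ ZL) (hq : q ∈ ZL) : SS (bv 8 p.1) (bv 8 q.1) = MS 8 (TM &&& p.2 &&& q.2) := by
  have key : ∀ p ∈ ZL, ∀ z < 256, p.2.testBit z = TM.testBit (z ^^^ p.1) := by
    intro p hp z hz
    have h1 := List.all_eq_true.1 SH_spec p hp
    have h2 := List.all_eq_true.1 h1 z (List.mem_range.2 hz)
    exact beq_iff_eq.1 h2
  have hlt : ∀ p ∈ ZL, p.1 < 256 := by
    intro p hp
    have h1 := List.all_eq_true.1 ZL_lt p hp
    exact Nat.blt_eq ▸ h1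
  ext a
  constructor
  · rintro ⟨h1, h2, h3⟩
    obtain ⟨z, hz, hz1, rfl⟩ := h1
    rw [← bv_xor, mem_MS (Nat.xor_lt_two_pow (n := 8) hz (hlt p hp)), ← key p hp z hz] at h2
    rw [← bv_xor, mem_MS (Nat.xor_lt_two_pow (n := 8) hz (hlt q hq)), ← key q hq z hz] at h3
    rw [mem_MS hz, Nat.testBit_and, Nat.testBit_and, hz1, h2, h3]; rfl
  · rintro ⟨z, hz, h1, rfl⟩
    rw [Nat.testBit_and, Nat.testBit_and, Bool.and_eq_true, Bool.and_eq_true] at h1
    obtain ⟨⟨h1, h2⟩, h3⟩ := h1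
    refine ⟨(mem_MS hz).2 h1, ?_, ?_⟩
    · rw [← bv_xor, mem_MS (Nat.xor_lt_two_pow (n := 8) hz (hlt p hp)), ← key p hp z hz]; exact h2
    · rw [← bv_xor, mem_MS (Nat.xor_lt_two_pow (n := 8) hz (hlt q hq)), ← key q hq z hz]; exact h3

/-- the blocks -/
def bk : Fin 5 ⊕ Fin 5 → ℕ := Sum.elim (fun i => i.1) (fun i => 5 + i.1)

def BB (x : Fin 5 ⊕ Fin 5) : Set (Fin 8 → ZMod 2) := MS 8 (BM.getD (bk x) 0)

theorem bk_inj : ∀ x y, bk x = bk y → x = y := by decide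
theorem bk_lt : ∀ x, bk x < 10 := by decide
theorem BM_nn : ((List.range 10).all fun i => (List.range 10).all fun j => i == j || (List.range 256).any fun z =>
    (BM.getD i 0).testBit z && !(BM.getD j 0).testBit z) = true := by decide +kernel
theorem blk_cl' : (BM.all fun M => (List.range 256).all fun p => !M.testBit p || (List.range 256).all fun q =>
    !M.testBit q || TM.testBit (p ^^^ q)) = true := by decide +kernel
theorem BM_mem : ∀ x, BM.getD (bk x) 0 ∈ BM := by decide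
theorem mem_BM : ∀ M ∈ BM, ∃ x, BM.getD (bk x) 0 = M := by decide

theorem BB_sub {x y : Fin 5 ⊕ Fin 5} (h : BB x ⊆ BB y) : x = y := by
  by_contra hne
  have h1 := List.all_eq_true.1 (List.all_eq_true.1 BM_nn (bk x) (List.mem_range.2 (bk_lt x))) (bk y) (List.mem_range.2 (bk_lt y))
  rw [Bool.or_eq_true] at h1
  rcases h1 with h1 | h1
  · exact hne (bk_inj x y (beq_iff_eq.1 h1))
  · obtain ⟨z, hz, h2⟩ := List.any_eq_true.1 h1
    rw [Bool.and_eq_true, Bool.not_eq_true'] at h2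
    have hz' : z < 2 ^ 8 := List.mem_range.1 hz
    have h3 := h ((mem_MS hz').2 h2.1)
    have h4 := (mem_MS hz').1 h3
    rw [h2.2] at h4
    exact Bool.noConfusion h4

theorem BB_inj : Function.Injective BB := fun _ _ h => BB_sub (le_of_eq h)

theorem T4_ZL : ∀ m ∈ T4, ∃ p ∈ ZL, p.1 = m := by decide +kernel

theorem ZL_T4 : (ZL.all fun p => T4.contains p.1 && !(p.1 == 0)) = true := by decide +kernel

section
variable (C : Crd X5 8 cs bs κ) {act : CC (gm X5) →* Equiv.Perm (Fin 8 → ZMod 2)} (hact : ∀ σ v, act σ (κ v) = κ (sm σ v))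
  (hadd : ∀ σ a b, act σ (a + b) = act σ a + act σ b)
include C hact hadd

omit C hact in
theorem act_zero (σ : CC (gm X5)) : act σ 0 = 0 := by
  have := hadd σ 0 0
  rw [add_zero] at this
  exact left_eq_add.1 this

theorem act_QQ1 (σ : CC (gm X5)) {a : Fin 8 → ZMod 2} (h : a ∈ QQ) : act σ a ∈ QQ := by
  rcases mem_QQ.1 h with rfl | ⟨m, hm, rfl⟩
  · rw [act_zero hadd]; exact h
  · obtain ⟨v, hv⟩ := C.surj (bv 8 m)
    have h1 : Four v.1 := (four_iff C v).2 ⟨m, hm, hv⟩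
    have h2 : Four (sm σ v).1 := h1.smul σ.1
    obtain ⟨m', hm', h3⟩ := (four_iff C _).1 h2
    rw [mem_QQ]
    right
    exact ⟨m', hm', by rw [← hv, hact, h3]⟩

theorem act_QQ (σ : CC (gm X5)) (a : Fin 8 → ZMod 2) : act σ a ∈ QQ ↔ a ∈ QQ := by
  constructor
  · intro h
    have h1 := act_QQ1 C hact hadd σ⁻¹ h
    have h2 : act σ⁻¹ (act σ a) = a := by
      rw [← Equiv.Perm.mul_apply, ← map_mul, inv_mul_cancel, map_one]; rfl
    rw [h2] at h1
    exact h1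
  · exact act_QQ1 C hact hadd σ

theorem img_SS (σ : CC (gm X5)) (x y : Fin 8 → ZMod 2) : act σ '' SS x y = SS (act σ x) (act σ y) := by
  ext a
  rw [Equiv.image_eq_preimage_symm]
  obtain ⟨b, rfl⟩ := (act σ).surjective a
  rw [Set.mem_preimage, Equiv.symm_apply_apply]
  show (_ ∧ _ ∧ _) ↔ (_ ∧ _ ∧ _)
  rw [← hadd, ← hadd, act_QQ C hact hadd, act_QQ C hact hadd, act_QQ C hact hadd]

theorem act_bv (σ : CC (gm X5)) {p : ℕ × ℕ} (hp1 : p.1 ∈ T4) (hp0 : p.1 ≠ 0) : ∃ q ∈ ZL, act σ (bv 8 p.1) = bv 8 q.1 := by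
  have h1 : bv 8 p.1 ∈ QQ := mem_QQ.2 (Or.inr ⟨p.1, hp1, rfl⟩)
  rcases mem_QQ.1 ((act_QQ C hact hadd σ _).2 h1) with h2 | ⟨m, hm, h2⟩
  · exfalso
    have h3 : act σ (bv 8 p.1) = act σ 0 := by rw [h2, act_zero hadd]
    have h4 := (act σ).injective h3
    rw [← bv_zero 8] at h4
    exact hp0 (bv_inj (n := 8) (T4_lt _ hp1) (by norm_num) h4)
  · obtain ⟨q, hq, rfl⟩ := T4_ZL m hm
    exact ⟨q, hq, h2⟩

theorem act_blk (σ : CC (gm X5)) (x : Fin 5 ⊕ Fin 5) : ∃ y, act σ '' BB x = BB y := by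
  have hZ : ∀ p ∈ ZL, p.1 ∈ T4 ∧ p.1 ≠ 0 := by
    intro p hp
    have h1 := List.all_eq_true.1 ZL_T4 p hp
    rw [Bool.and_eq_true, List.contains_iff_mem] at h1
    refine ⟨h1.1, ?_⟩
    have h2 := h1.2
    intro h0
    rw [h0] at h2
    exact Bool.noConfusion h2
  have h1 := List.all_eq_true.1 blk_ex _ (BM_mem x)
  obtain ⟨p, hp, h2⟩ := List.any_eq_true.1 h1
  obtain ⟨q, hq, h3⟩ := List.any_eq_true.1 h2
  rw [Bool.and_eq_true, beq_iff_eq] at h3
  obtain ⟨h3, h4⟩ := h3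
  have h5 : BB x = SS (bv 8 p.1) (bv 8 q.1) := by
    rw [SS_mask hp hq, ← h4]; rfl
  obtain ⟨p', hp', e1⟩ := act_bv C hact hadd σ (hZ p hp).1 (hZ p hp).2
  obtain ⟨q', hq', e2⟩ := act_bv C hact hadd σ (hZ q hq).1 (hZ q hq).2
  have hlt : ∀ p ∈ ZL, p.1 < 2 ^ 8 := fun p hp => T4_lt _ (hZ p hp).1
  have h6 : act σ '' BB x = MS 8 (TM &&& p'.2 &&& q'.2) := by
    rw [h5, img_SS C hact hadd, e1, e2, SS_mask hp' hq']
  have h7 : TM.testBit (p'.1 ^^^ q'.1) = true := by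
    rw [← mem_MS (Nat.xor_lt_two_pow (hlt p' hp') (hlt q' hq')), bv_xor, ← e1, ← e2, ← hadd]
    show _ ∈ QQ
    rw [act_QQ C hact hadd, ← bv_xor, mem_MS (Nat.xor_lt_two_pow (hlt p hp) (hlt q hq))]
    exact h3
  have h8 := List.all_eq_true.1 (List.all_eq_true.1 pairs p' hp') q' hq'
  rw [Bool.or_eq_true, Bool.or_eq_true, Bool.not_eq_true', h7] at h8
  rcases h8 with h8 | h8 | h8
  · exact Bool.noConfusion h8
  · obtain ⟨y, hy⟩ := mem_BM _ (List.contains_iff_mem.1 h8)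
    exact ⟨y, by rw [h6, BB, hy]⟩
  · exfalso
    obtain ⟨u, hu, h9⟩ := List.any_eq_true.1 h8
    rw [Bool.and_eq_true] at h9
    obtain ⟨w, hw, h10⟩ := List.any_eq_true.1 h9.2
    rw [Bool.and_eq_true, Bool.not_eq_true'] at h10
    have hu' : u < 2 ^ 8 := List.mem_range.1 hu
    have hw' : w < 2 ^ 8 := List.mem_range.1 hw
    have h11 : bv 8 u ∈ act σ '' BB x := by rw [h6, mem_MS hu']; exact h9.1
    have h12 : bv 8 w ∈ act σ '' BB x := by rw [h6, mem_MS hw']; exact h10.1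
    obtain ⟨a, ⟨a', ha1, ha2, rfl⟩, ha⟩ := h11
    obtain ⟨b, ⟨b', hb1, hb2, rfl⟩, hb⟩ := h12
    have h13 := List.all_eq_true.1 blk_cl' _ (BM_mem x)
    have h14 := List.all_eq_true.1 h13 a' (List.mem_range.2 ha1)
    rw [ha2, Bool.or_eq_true] at h14
    rcases h14 with h14 | h14
    · exact Bool.noConfusion h14
    have h15 := List.all_eq_true.1 h14 b' (List.mem_range.2 hb1)
    rw [hb2, Bool.or_eq_true] at h15
    rcases h15 with h15 | h15
    · exact Bool.noConfusion h15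
    have h16 : bv 8 a' + bv 8 b' ∈ QQ := by
      rw [← bv_xor, mem_MS (Nat.xor_lt_two_pow ha1 hb1)]; exact h15
    rw [← act_QQ C hact hadd σ, hadd, ha, hb, ← bv_xor, mem_MS (Nat.xor_lt_two_pow hu' hw'), h10.2] at h16
    exact Bool.noConfusion h16
end

end H33.MonP5
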