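import Mathlib
import Cfsg.Agent.Lib.H33.MonP3b
import Cfsg.Agent.Lib.H33.MonP5c
import Cfsg.Agent.Lib.H33.M24C3

set_option autoImplicit false

/-! The centralizer of an element of order 3 of `Co0`: the blocks. -/

namespace H33.MonP3

open Cfsg H8.GolayCode H8.GolayCount H8.GolayBasic H9.Leech H9.LeechGood H9.Trans H9.Cross H9.CoOrder H9.CoMat
open H33.MonRed H33.MonCo H91.LeechTools H40.PermCode
open H32.M24Kit (okTab pm pm_mem pm_idx pm_pt fs)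
open H94.M24Cls (X0 okX0)
open H94.M24Fix (WX0 okWX0)

theorem card_wd : Nat.card {c : Finset GolayPt // c ∈ GS ∧ c.image (pm X0) = c} ≤ 16 :=
  card_inv_le (l := words) (inv_list okWX0 words inv_cert)

theorem card_st : Nat.card {σ : CC (gm X0) // Pres σ.1} ≤ 504 * 16 :=
  card_stab_le M24C3.card_CX card_wd

theorem gm_pow_e8 (t n : ℕ) (q : GolayPt) : (gm t) ^ n • e8 q = e8 ((pm t ^ n) q) := by
  induction n generalizing q with
  | zero => rw [pow_zero, one_smul, pow_zero, Equiv.Perm.one_apply]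
  | succ n ih => rw [pow_succ, mul_smul, gm_e8, ih, pow_succ, Equiv.Perm.mul_apply]

theorem pX3 : pm X0 ^ 3 = 1 := H32.M24Five.pw okX0 (by decide +kernel)
theorem pX_ne : pm X0 ≠ 1 := H32.M24Five.ne_one okX0 (by decide +kernel)

theorem gm3 : gm X0 ^ 3 = 1 := by
  apply ext8
  intro k _
  rw [gm_pow_e8, pX3, one_smul, Equiv.Perm.one_apply]

theorem gm_ne : gm X0 ≠ 1 := by
  intro h
  apply pX_ne
  ext q : 1
  have h1 : gm X0 • e8 q = e8 q := by rw [h, one_smul]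
  rw [gm_e8] at h1
  have := congrArg (fun x : leechLattice => (x : GolayPt → ℤ) q) h1
  simp only [coe_e8, Pi.single_eq_same] at this
  by_contra hpp
  rw [Equiv.Perm.one_apply] at hpp
  rw [Pi.single_eq_of_ne (Ne.symm hpp)] at this
  norm_num at this

/-- all coordinates are divisible by 4 -/
def D4 (v : leechLattice) : Prop := ∀ p, (4 : ℤ) ∣ (v : GolayPt → ℤ) p

theorem D4.smul {v : leechLattice} (h : D4 v) {g : Co0} (hg : Pres g) : D4 (g • v) := by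
  obtain ⟨σ, hσ, c, hc, rfl⟩ := mono_of_pres hg
  intro p
  rw [coe_mono]
  unfold signedPerm
  split_ifs
  · exact (dvd_neg).2 (h _)
  · exact h _

/-- the distinguished block -/
def M0 : ℕ := 0x3000000000003000000030003000000000003000300000003000000000003
theorem M0_eq : BM.getD 2 0 = M0 := by decide +kernel

theorem M0_add : ((List.range 256).all fun p => !M0.testBit p || (List.range 256).all fun q => !M0.testBit q || M0.testBit (p ^^^ q)) = true := by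
  decide +kernel

theorem two_eq (a : Fin 8 → ZMod 2) : -a = a := by
  funext i
  have : ∀ x : ZMod 2, -x = x := by decide
  exact this _

/-- the distinguished block is a subgroup -/
def K0 : AddSubgroup (Fin 8 → ZMod 2) where
  carrier := MS 8 M0
  zero_mem' := ⟨0, by norm_num, by decide +kernel, (bv_zero 8).symm⟩
  add_mem' := by
    rintro _ _ ⟨a, ha1, ha2, rfl⟩ ⟨b, hb1, hb2, rfl⟩
    rw [← bv_xor, mem_MS (Nat.xor_lt_two_pow ha1 hb1)]
    have h14 := List.all_eq_true.1 M0_add a (List.mem_range.2 ha1)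
    rw [ha2, Bool.or_eq_true] at h14
    rcases h14 with h14 | h14
    · exact Bool.noConfusion h14
    have h15 := List.all_eq_true.1 h14 b (List.mem_range.2 hb1)
    rw [hb2, Bool.or_eq_true] at h15
    rcases h15 with h15 | h15
    · exact Bool.noConfusion h15
    · exact h15
  neg_mem' := by
    intro a ha
    rw [two_eq]; exact ha

def tb2 : List (List ℤ) := [[4, 4, 4, 4, 4, 4, 4, 8], [4, 0, 0, 0, 0, 0, 0, 0], [0, 4, 0, 0, 0, 0, 0, 0], [0, 0, 4, 0, 0, 0, 0, 0],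
  [0, 0, 0, 4, 0, 0, 0, 0], [0, 0, 0, 0, 4, 0, 0, 0], [0, 0, 0, 0, 0, 4, 0, 0], [0, 0, 0, 0, 0, 0, 4, 0]]

theorem gvals : ∀ i < 8, ∀ j : Fin 8, ((dg (ga.getD j 0) (reps.getD i 0) : ℤ) - 8) = (tb2.getD i []).getD j 0 := by decide +kernel

theorem ga_ok' : ∀ j < 8, inLat (ga.getD j 0) = true ∧ fxOK X0 (ga.getD j 0) = true ∧ kmask cs (ga.getD j 0) < 256 ∧
    M0.testBit (kmask cs (ga.getD j 0)) = true := by decide +kernel

theorem fin4 (x0 x1 x2 x3 x4 x5 x6 x7 z0 z1 z2 z3 z4 z5 z6 z7 k : ℤ) (h0 : x0 = 4 * z0) (h1 : x1 = 4 * z1) (h2 : x2 = 4 * z2)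
    (h3 : x3 = 4 * z3) (h4 : x4 = 4 * z4) (h5 : x5 = 4 * z5) (h6 : x6 = 4 * z6) (h7 : x7 = 4 * z7)
    (hk : z0 = z1 + z2 + z3 + z4 + z5 + z6 + z7 + 2 * k) (f : Fin 8 → ℤ)
    (hf : f = ![z1, z2, z3, z4, z5, z6, z7, k]) :
    ∀ i < 8, [x0, x1, x2, x3, x4, x5, x6, x7].getD i 0 = ∑ j : Fin 8, f j * (tb2.getD i []).getD j 0 := by
  have g0 : f 0 = z1 := by rw [hf]; rfl
  have g1 : f 1 = z2 := by rw [hf]; rfl
  have g2 : f 2 = z3 := by rw [hf]; rfl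
  have g3 : f 3 = z4 := by rw [hf]; rfl
  have g4 : f 4 = z5 := by rw [hf]; rfl
  have g5 : f 5 = z6 := by rw [hf]; rfl
  have g6 : f 6 = z7 := by rw [hf]; rfl
  have g7 : f 7 = k := by rw [hf]; rfl
  clear hf
  intro i hi
  rw [Fin.sum_univ_eight, g0, g1, g2, g3, g4, g5, g6, g7]
  interval_cases i
  · show x0 = _ * 4 + _ * 4 + _ * 4 + _ * 4 + _ * 4 + _ * 4 + _ * 4 + _ * 8
    linarith
  · show x1 = _ * 4 + _ * 0 + _ * 0 + _ * 0 + _ * 0 + _ * 0 + _ * 0 + _ * 0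
    linarith
  · show x2 = _ * 0 + _ * 4 + _ * 0 + _ * 0 + _ * 0 + _ * 0 + _ * 0 + _ * 0
    linarith
  · show x3 = _ * 0 + _ * 0 + _ * 4 + _ * 0 + _ * 0 + _ * 0 + _ * 0 + _ * 0
    linarith
  · show x4 = _ * 0 + _ * 0 + _ * 0 + _ * 4 + _ * 0 + _ * 0 + _ * 0 + _ * 0
    linarith
  · show x5 = _ * 0 + _ * 0 + _ * 0 + _ * 0 + _ * 4 + _ * 0 + _ * 0 + _ * 0
    linarith
  · show x6 = _ * 0 + _ * 0 + _ * 0 + _ * 0 + _ * 0 + _ * 4 + _ * 0 + _ * 0
    linarith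
  · show x7 = _ * 0 + _ * 0 + _ * 0 + _ * 0 + _ * 0 + _ * 0 + _ * 4 + _ * 0
    linarith

theorem span4 {v : leechLattice} (hv : v ∈ Fx (gm X0)) (h4 : D4 v) : ∃ r : Fin 8 → ℤ, v = ∑ j : Fin 8, r j • lv (ga.getD j 0) := by
  obtain ⟨m, c, y, hm, hR, hc, hy⟩ := fx_rep hv
  have hrep : ∀ i < 24, y (pt i) = y (pt (repL.getD i 0)) := by
    intro i hi
    obtain ⟨h1, k, -, h2⟩ := hrepL i hi
    have := (const_on okX0 hy (repL.getD i 0) h1 k).1
    rwa [h2] at this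
  have ei : ∀ p, (v : GolayPt → ℤ) p = 4 * y p ∧ m = 0 := by
    intro p
    have h1 := hR.eq p
    obtain ⟨w, hw⟩ := h4 p
    unfold ind at h1
    rw [hw] at h1 ⊢
    split_ifs at h1 <;> rcases hm with rfl | rfl <;> constructor <;> omega
  obtain ⟨k, hk⟩ := hR.par
  rw [H9.CoMat.sum_pt, Finset.sum_congr rfl fun i hi => hrep i (Finset.mem_range.1 hi)] at hk
  simp only [Finset.sum_range_succ, Finset.sum_range_zero, repL, List.getD_cons_zero, List.getD_cons_succ] at hk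
  have hm0 := (ei (pt 0)).2
  subst hm0
  have hk' : 3 * (y (pt 0) + y (pt 2) + y (pt 5) + y (pt 6) + y (pt 7) + y (pt 8) + y (pt 13) + y (pt 14)) = 2 * k := by linarith
  obtain ⟨k', hk''⟩ : ∃ k', y (pt 0) = y (pt 2) + y (pt 5) + y (pt 6) + y (pt 7) + y (pt 8) + y (pt 13) + y (pt 14) + 2 * k' :=
    ⟨k - (y (pt 0) + 2 * (y (pt 2) + y (pt 5) + y (pt 6) + y (pt 7) + y (pt 8) + y (pt 13) + y (pt 14))), by linarith⟩
  obtain ⟨f, hf⟩ : ∃ f : Fin 8 → ℤ, f = ![y (pt 2), y (pt 5), y (pt 6), y (pt 7), y (pt 8), y (pt 13), y (pt 14), k'] := ⟨_, rfl⟩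
  have hfin := fin4 _ _ _ _ _ _ _ _ _ _ _ _ _ _ _ _ k' (ei (pt 0)).1 (ei (pt 2)).1 (ei (pt 5)).1 (ei (pt 6)).1 (ei (pt 7)).1
    (ei (pt 8)).1 (ei (pt 13)).1 (ei (pt 14)).1 hk'' f hf
  refine ⟨f, ?_⟩
  have hbl : ∀ j < 8, inLat (ga.getD j 0) = true := fun j hj => (ga_ok' j hj).1
  apply ext_fx okX0 hv (sum_mem_fx okX0 (fun j hj => ⟨(ga_ok' j hj).1, (ga_ok' j hj).2.1⟩) _) reps 3 hreps
  intro r hr
  obtain ⟨i, hi8, rfl⟩ : ∃ i < 8, reps.getD i 0 = r := by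
    have : ∀ r ∈ reps, ∃ i < 8, reps.getD i 0 = r := by decide
    exact this _ hr
  have hr24 : reps.getD i 0 < 24 := by
    have : ∀ i < 8, reps.getD i 0 < 24 := by decide
    exact this _ hi8
  have hxi : ∀ i < 8, (v : GolayPt → ℤ) (pt (reps.getD i 0)) =
      [(v : GolayPt → ℤ) (pt 0), (v : GolayPt → ℤ) (pt 2), (v : GolayPt → ℤ) (pt 5), (v : GolayPt → ℤ) (pt 6),
        (v : GolayPt → ℤ) (pt 7), (v : GolayPt → ℤ) (pt 8), (v : GolayPt → ℤ) (pt 13), (v : GolayPt → ℤ) (pt 14)].getD i 0 := by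
    intro i hi
    interval_cases i <;> rfl
  have e2 : ∑ j : Fin 8, f j * ((dg (ga.getD j 0) (reps.getD i 0) : ℤ) - 8) = ∑ j : Fin 8, f j * (tb2.getD i []).getD j 0 :=
    Finset.sum_congr rfl fun j _ => by rw [gvals i hi8 j]
  rw [sum_at hbl _ hr24, e2, hxi i hi8]
  exact hfin i hi8

variable {κ : Fx (gm X0) →+ (Fin 8 → ZMod 2)}

theorem kD4 (C : Crd X0 8 cs bs κ) (v : Fx (gm X0)) (h : D4 v.1) : κ v ∈ MS 8 M0 := by
  obtain ⟨r, hr⟩ := span4 v.2 h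
  have h1 : v = ∑ j : Fin 8, r j • (⟨lv (ga.getD j 0), lv_fx okX0 (ga_ok' j j.2).1 (ga_ok' j j.2).2.1⟩ : Fx (gm X0)) := by
    apply Subtype.ext
    rw [hr, AddSubgroup.val_finsetSum]
    rfl
  rw [h1, map_sum]
  show _ ∈ K0
  apply K0.sum_mem
  intro j _
  rw [map_zsmul]
  apply K0.zsmul_mem
  rw [C.val _ (ga.getD j 0) (coe_lv (ga_ok' j j.2).1)]
  exact (mem_MS (ga_ok' j j.2).2.2.1).2 (ga_ok' j j.2).2.2.2

theorem fvm_all : ∀ m < 256, M0.testBit m = true → m ∈ fvm := by decide +kernel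

theorem ex4 (C : Crd X0 8 cs bs κ) {a : Fin 8 → ZMod 2} (ha : a ∈ MS 8 M0) : ∃ v : Fx (gm X0), D4 v.1 ∧ κ v = a := by
  obtain ⟨m, hm, h1, rfl⟩ := ha
  have h2 := fvm_all m hm h1
  rw [← fv_eq, List.mem_map] at h2
  obtain ⟨d, hd, rfl⟩ := h2
  obtain ⟨d1, d2, d3⟩ := fv_ok d hd
  refine ⟨⟨lv d, lv_fx okX0 d1 d2⟩, ?_, C.val _ d (coe_lv d1)⟩
  intro p
  rw [coe_lv d1, ← pt_idx p, vec_pt _ (idx_lt p)]
  have := d3 _ (idx_lt p)
  omega

section
variable (C : Crd X0 8 cs bs κ) {act : CC (gm X0) →* Equiv.Perm (Fin 8 → ZMod 2)} (hact : ∀ σ v, act σ (κ v) = κ (sm σ v))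
include C hact

theorem pres_blk1 {σ : CC (gm X0)} (h : Pres σ.1) {a : Fin 8 → ZMod 2} (ha : a ∈ MS 8 M0) : act σ a ∈ MS 8 M0 := by
  obtain ⟨v, hv, rfl⟩ := ex4 C ha
  rw [hact]
  exact kD4 C _ (hv.smul h)

theorem pres_blk {σ : CC (gm X0)} (h : Pres σ.1) : act σ '' MS 8 M0 = MS 8 M0 := by
  ext a
  constructor
  · rintro ⟨b, hb, rfl⟩
    exact pres_blk1 C hact h hb
  · intro ha
    refine ⟨act σ⁻¹ a, pres_blk1 C hact (σ := σ⁻¹) ?_ ha, ?_⟩
    · have : σ.1 ∈ crossSub := h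
      exact crossSub.inv_mem this
    · rw [← Equiv.Perm.mul_apply, ← map_mul, mul_inv_cancel, map_one]; rfl
end

end H33.MonP3
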