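import Mathlib
import Cfsg.Agent.Lib.H33.MonP3c
import Cfsg.Agent.Lib.H33.MonCo7
import Cfsg.Agent.Lib.H1.Cores

set_option autoImplicit false

/-! The centralizer of an element of order 3 of `Co0`: the main theorem. -/

namespace H33.MonP3

open Cfsg H8.GolayCode H8.GolayCount H8.GolayBasic H9.Leech H9.LeechGood H9.Trans H9.Cross H9.CoOrder H9.CoMat
open H33.MonRed H33.MonCo H91.LeechTools H40.PermCode
open H32.M24Kit (okTab pm pm_mem pm_idx pm_pt fs)
open H94.M24Cls (X0 okX0)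
open H94.M24Fix (WX0 okWX0)

/-- the blocks -/
def BB (x : Fin 9) : Set (Fin 8 → ZMod 2) := MS 8 (BM.getD x 0)

theorem BM_nn : ((List.range 9).all fun i => (List.range 9).all fun j => i == j || (List.range 256).any fun z =>
    (BM.getD i 0).testBit z && !(BM.getD j 0).testBit z) = true := by decide +kernel

theorem BM_disj : ((List.range 9).all fun i => (List.range 9).all fun j => i == j || (List.range 256).all fun z =>
    z == 0 || !(BM.getD i 0).testBit z || !(BM.getD j 0).testBit z) = true := by decide +kernel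

theorem BM_ex : ∀ x : Fin 9, ∃ m ∈ T135, (BM.getD x 0).testBit m = true := by decide +kernel

theorem T135_lt : ∀ m ∈ T135, m < 256 ∧ m ≠ 0 := by decide +kernel

theorem BB_sub {x y : Fin 9} (h : BB x ⊆ BB y) : x = y := by
  by_contra hne
  have h1 := List.all_eq_true.1 (List.all_eq_true.1 BM_nn x (List.mem_range.2 x.2)) y (List.mem_range.2 y.2)
  rw [Bool.or_eq_true] at h1
  rcases h1 with h1 | h1
  · exact hne (Fin.ext (beq_iff_eq.1 h1))
  · obtain ⟨z, hz, h2⟩ := List.any_eq_true.1 h1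
    rw [Bool.and_eq_true, Bool.not_eq_true'] at h2
    have hz' : z < 2 ^ 8 := List.mem_range.1 hz
    have h3 := h ((mem_MS hz').2 h2.1)
    have h4 := (mem_MS hz').1 h3
    rw [h2.2] at h4
    exact Bool.noConfusion h4

theorem BB_inj : Function.Injective BB := fun _ _ h => BB_sub (le_of_eq h)

theorem BB_uniq {x y : Fin 9} {z : ℕ} (hz : z < 256) (hz0 : z ≠ 0) (h1 : bv 8 z ∈ BB x) (h2 : bv 8 z ∈ BB y) : x = y := by
  by_contra hne
  have h3 := List.all_eq_true.1 (List.all_eq_true.1 BM_disj x (List.mem_range.2 x.2)) y (List.mem_range.2 y.2)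
  rw [Bool.or_eq_true] at h3
  rcases h3 with h3 | h3
  · exact hne (Fin.ext (beq_iff_eq.1 h3))
  · have h4 := List.all_eq_true.1 h3 z (List.mem_range.2 hz)
    have e1 : (BM.getD x 0).testBit z = true := (mem_MS hz).1 h1
    have e2 : (BM.getD y 0).testBit z = true := (mem_MS hz).1 h2
    rw [e1, e2] at h4
    simp [hz0] at h4

def f3 : Equiv.Perm (Fin 9) := Equiv.swap 0 1 * Equiv.swap 0 2
def f7 : Equiv.Perm (Fin 9) := [2, 3, 4, 5, 6, 7, 8].formPerm
def m3i : List ℕ := [217, 157, 55, 207, 181, 245, 112, 11]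
def m7i : List ℕ := [6, 148, 236, 224, 119, 251, 162, 8]

def chkInv (ms mi : List ℕ) : Bool := (List.range 256).all fun z =>
  Nat.blt (lin mi z) 256 && (Nat.beq (lin ms (lin mi z)) z && Nat.blt (lin ms z) 256)
def chkBlk (ms mi : List ℕ) (f : Equiv.Perm (Fin 9)) : Prop := ∀ x : Fin 9, ((List.range 256).all fun z =>
  (!(BM.getD x 0).testBit z || (BM.getD (f x) 0).testBit (lin ms z)) &&
    (!(BM.getD (f x) 0).testBit z || (BM.getD x 0).testBit (lin mi z))) = true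

instance (ms mi : List ℕ) (f : Equiv.Perm (Fin 9)) : Decidable (chkBlk ms mi f) := by unfold chkBlk; infer_instance

theorem ci3 : chkInv m3 m3i = true := by decide +kernel
theorem ci7 : chkInv m7 m7i = true := by decide +kernel
theorem cb3 : chkBlk m3 m3i f3 := by decide +kernel
theorem cb7 : chkBlk m7 m7i f7 := by decide +kernel

/-- the frame vector -/
def dv0 : ℕ := ga.getD 7 0
def du0 : ℕ := 0xc000800080008000800080008000800080008000800080008000800080008000800080008000800080008000c0008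

theorem dv0_ok : inLat dv0 = true ∧ fxOK X0 dv0 = true ∧ kmask cs dv0 = 1 ∧ inLat du0 = true ∧ inLat (row idM 0) = true := by decide +kernel
theorem dv0_eq : ∀ i < 24, (dg dv0 i : ℤ) - 8 = ((dg (row idM 0) i : ℤ) - 8) + (((dg du0 i : ℤ) - 8) + ((dg du0 i : ℤ) - 8)) := by
  decide +kernel

noncomputable def v0 : Fx (gm X0) := ⟨lv dv0, lv_fx okX0 dv0_ok.1 dv0_ok.2.1⟩

theorem v0_eq : v0.1 = e8 (pt 0) + (lv du0 + lv du0) := by
  apply Subtype.ext
  funext q
  rw [AddSubgroup.coe_add, AddSubgroup.coe_add]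
  show ((lv dv0 : leechLattice) : GolayPt → ℤ) q = _
  rw [Pi.add_apply, Pi.add_apply, coe_lv dv0_ok.1, coe_lv dv0_ok.2.2.2.1, coe_e8, ← vec_idM (by norm_num : (0 : ℕ) < 24), ← pt_idx q, vec_pt _ (idx_lt q),
    vec_pt _ (idx_lt q), vec_pt _ (idx_lt q), dv0_eq _ (idx_lt q)]

variable {κ : Fx (gm X0) →+ (Fin 8 → ZMod 2)}

theorem kv0 (C : Crd X0 8 cs bs κ) : κ v0 = bv 8 1 := by
  rw [C.val v0 dv0 (coe_lv dv0_ok.1), dv0_ok.2.2.1]

theorem four_v0 : Four v0.1 := by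
  obtain ⟨w, u, hw, h⟩ := four_e8 (pt 0)
  refine ⟨w, u + lv du0, hw, ?_⟩
  rw [v0_eq, h]; abel

theorem four135 (C : Crd X0 8 cs bs κ) {v : Fx (gm X0)} (h : Four v.1) : ∃ m ∈ T135, κ v = bv 8 m := by
  obtain ⟨m, hm, h1, h2, h3⟩ := C.four_mask okX0 shOK1 h
  rw [shm_eq] at h3
  rcases sh_cls m hm with h4 | h4 | h4
  · exact absurd h4 h2
  · exact absurd h4 h3
  · exact ⟨m, h4, h1⟩

section
variable (C : Crd X0 8 cs bs κ) {act : CC (gm X0) →* Equiv.Perm (Fin 8 → ZMod 2)} (hact : ∀ σ v, act σ (κ v) = κ (sm σ v))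
  (hadd : ∀ σ a b, act σ (a + b) = act σ a + act σ b)
include C hact

theorem v0_class (σ : CC (gm X0)) : ∃ m ∈ T135, act σ (bv 8 1) = bv 8 m := by
  have h2 : Four (sm σ v0).1 := four_v0.smul σ.1
  obtain ⟨m, hm, h⟩ := four135 C h2
  exact ⟨m, hm, by rw [← kv0 C, hact, h]⟩

theorem pres_of_fix {σ : CC (gm X0)} (h : act σ (bv 8 1) = bv 8 1) : Pres σ.1 := by
  rw [← kv0 C, hact] at h
  obtain ⟨u, hu⟩ := C.congr h
  have hu' : σ.1 • v0.1 = v0.1 + (u + u) := hu
  rw [v0_eq, co0_add, co0_add] at hu'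
  rw [pres_iff' (pt 0)]
  refine ⟨u + lv du0 - σ.1 • lv du0, ?_⟩
  rw [two_smul, sub_eq_iff_eq_add]
  have h3 : σ.1 • e8 (pt 0) = (e8 (pt 0) + (lv du0 + lv du0) + (u + u)) - (σ.1 • lv du0 + σ.1 • lv du0) := by
    rw [← hu', add_sub_cancel_right]
  rw [h3]; abel

omit C hact in
theorem gen_blk {ms mi : List ℕ} {f : Equiv.Perm (Fin 9)} (hi : chkInv ms mi = true) (hb : chkBlk ms mi f) {σ : CC (gm X0)}
    (h : ∀ m < 2 ^ 8, act σ (bv 8 m) = bv 8 (lin ms m)) (x : Fin 9) : act σ '' BB x = BB (f x) := by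
  have key : ∀ z < 2 ^ 8, lin mi z < 2 ^ 8 ∧ lin ms (lin mi z) = z ∧ lin ms z < 2 ^ 8 := by
    intro z hz
    have h1 := List.all_eq_true.1 hi z (List.mem_range.2 hz)
    rw [Bool.and_eq_true, Bool.and_eq_true] at h1
    exact ⟨Nat.blt_eq ▸ h1.1, Nat.eq_of_beq_eq_true h1.2.1, Nat.blt_eq ▸ h1.2.2⟩
  have key2 : ∀ z < 2 ^ 8, ((BM.getD x 0).testBit z = true → (BM.getD (f x) 0).testBit (lin ms z) = true) ∧
      ((BM.getD (f x) 0).testBit z = true → (BM.getD x 0).testBit (lin mi z) = true) := by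
    intro z hz
    have h1 := List.all_eq_true.1 (hb x) z (List.mem_range.2 hz)
    rw [Bool.and_eq_true, Bool.or_eq_true, Bool.or_eq_true, Bool.not_eq_true', Bool.not_eq_true'] at h1
    constructor
    · intro h2
      rcases h1.1 with h3 | h3
      · rw [h2] at h3; exact Bool.noConfusion h3
      · exact h3
    · intro h2
      rcases h1.2 with h3 | h3
      · rw [h2] at h3; exact Bool.noConfusion h3
      · exact h3
  ext a
  constructor
  · rintro ⟨_, ⟨z, hz, hz1, rfl⟩, rfl⟩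
    rw [h z hz]
    exact (mem_MS (key z hz).2.2).2 ((key2 z hz).1 hz1)
  · rintro ⟨z, hz, hz1, rfl⟩
    refine ⟨bv 8 (lin mi z), (mem_MS (key z hz).1).2 ((key2 z hz).2 hz1), ?_⟩
    rw [h _ (key z hz).1, (key z hz).2.1]

/-- reachable masks -/
def Good (act : CC (gm X0) →* Equiv.Perm (Fin 8 → ZMod 2)) (m : ℕ) : Prop :=
  ∃ σ, act σ (bv 8 1) = bv 8 m ∧ ∀ x, ∃ y, act σ '' BB x = BB y

omit C hact in
theorem img_mul (σ τ : CC (gm X0)) (S : Set (Fin 8 → ZMod 2)) : act (σ * τ) '' S = act σ '' (act τ '' S) := by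
  rw [map_mul]
  exact (Set.image_image (act σ) (act τ) S).symm

omit C hact in
theorem good_tr {g3 g7 : CC (gm X0)} (h3 : ∀ m < 2 ^ 8, act g3 (bv 8 m) = bv 8 (lin m3 m)) (h7 : ∀ m < 2 ^ 8, act g7 (bv 8 m) = bv 8 (lin m7 m))
    (b3 : ∀ x, act g3 '' BB x = BB (f3 x)) (b7 : ∀ x, act g7 '' BB x = BB (f7 x)) :
    ∀ (l : List (ℕ × ℕ × ℕ)) (seen : List ℕ), okTr seen l = true → (∀ m ∈ seen, m < 256 ∧ Good act m) → ∀ m ∈ l.map Prod.fst, Good act m := by
  have hlt3 : ∀ z < 256, lin m3 z < 256 := by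
    intro z hz
    have h1 := List.all_eq_true.1 ci3 z (List.mem_range.2 hz)
    rw [Bool.and_eq_true, Bool.and_eq_true] at h1
    exact Nat.blt_eq ▸ h1.2.2
  have hlt7 : ∀ z < 256, lin m7 z < 256 := by
    intro z hz
    have h1 := List.all_eq_true.1 ci7 z (List.mem_range.2 hz)
    rw [Bool.and_eq_true, Bool.and_eq_true] at h1
    exact Nat.blt_eq ▸ h1.2.2
  intro l
  induction l with
  | nil => intro seen _ _ m hm; simp at hm
  | cons a t ih =>
    obtain ⟨c, p, g⟩ := a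
    intro seen hok hs m hm
    rw [okTr, Bool.and_eq_true, Bool.and_eq_true, List.contains_iff_mem] at hok
    obtain ⟨⟨hp, hg⟩, ht⟩ := hok
    obtain ⟨hplt, σ, hσ1, hσ2⟩ := hs p hp
    have hc : c < 256 ∧ Good act c := by
      split_ifs at hg with hg0
      · have hg := beq_iff_eq.1 hg
        subst hg
        refine ⟨hlt3 p hplt, g3 * σ, by rw [map_mul, Equiv.Perm.mul_apply, hσ1, h3 p hplt], ?_⟩
        intro x
        obtain ⟨y, hy⟩ := hσ2 x
        exact ⟨f3 y, by rw [img_mul, hy, b3]⟩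
      · have hg := beq_iff_eq.1 hg
        subst hg
        refine ⟨hlt7 p hplt, g7 * σ, by rw [map_mul, Equiv.Perm.mul_apply, hσ1, h7 p hplt], ?_⟩
        intro x
        obtain ⟨y, hy⟩ := hσ2 x
        exact ⟨f7 y, by rw [img_mul, hy, b7]⟩
    rw [List.map_cons, List.mem_cons] at hm
    rcases hm with rfl | hm
    · exact hc.2
    · refine ih (c :: seen) ht ?_ m hm
      intro m' hm'
      rw [List.mem_cons] at hm'
      rcases hm' with rfl | hm'
      · exact hc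
      · exact hs m' hm'
end

theorem act_blk (C : Crd X0 8 cs bs κ) {act : CC (gm X0) →* Equiv.Perm (Fin 8 → ZMod 2)} (hact : ∀ σ v, act σ (κ v) = κ (sm σ v))
    (hG : ∀ m ∈ T135, Good act m) (σ : CC (gm X0)) (x : Fin 9) : ∃ y, act σ '' BB x = BB y := by
  have h2 : BB 2 = MS 8 M0 := by
    show MS 8 (BM.getD 2 0) = _
    rw [M0_eq]
  -- the distinguished block
  have key : ∀ τ : CC (gm X0), ∃ y, act τ '' BB 2 = BB y := by
    intro τ
    obtain ⟨m, hm, h⟩ := v0_class C hact τ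
    obtain ⟨ρ, hρ1, hρ2⟩ := hG m hm
    have h3 : act (ρ⁻¹ * τ) (bv 8 1) = bv 8 1 := by
      rw [map_mul, Equiv.Perm.mul_apply, h, ← hρ1, ← Equiv.Perm.mul_apply, ← map_mul, inv_mul_cancel, map_one]; rfl
    have h4 := pres_blk C hact (pres_of_fix C hact h3)
    obtain ⟨y, hy⟩ := hρ2 2
    refine ⟨y, ?_⟩
    have h5 : τ = ρ * (ρ⁻¹ * τ) := by rw [mul_inv_cancel_left]
    rw [h5, img_mul, h2, h4, ← h2, hy]
  obtain ⟨m, hm, hmx⟩ := BM_ex x
  obtain ⟨hm1, hm0⟩ := T135_lt m hm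
  obtain ⟨ρ, hρ1, hρ2⟩ := hG m hm
  obtain ⟨y, hy⟩ := hρ2 2
  have h3 : bv 8 m ∈ BB y := by
    rw [← hy, ← hρ1]
    refine ⟨bv 8 1, ?_, rfl⟩
    rw [h2, mem_MS (by norm_num)]
    decide +kernel
  have h4 : bv 8 m ∈ BB x := (mem_MS hm1).2 hmx
  have h5 : y = x := BB_uniq hm1 hm0 h3 h4
  subst h5
  obtain ⟨w, hw⟩ := key (σ * ρ)
  exact ⟨w, by rw [← hy, ← img_mul, hw]⟩

theorem card_CC (C : Crd X0 8 cs bs κ) {act : CC (gm X0) →* Equiv.Perm (Fin 8 → ZMod 2)}
    (hact : ∀ σ v, act σ (κ v) = κ (sm σ v)) : Nat.card (CC (gm X0)) ≤ 181440 * (2 * 3) := by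
  have h1 : ({a | ∃ m ∈ T135, a = bv 8 m} : Set (Fin 8 → ZMod 2)) = ((T135.map (bv 8)).toFinset : Set _) := by
    ext a
    simp only [Set.mem_ofPred_eq, List.coe_toFinset, List.mem_map]
    constructor
    · rintro ⟨m, hm, rfl⟩; exact ⟨m, hm, rfl⟩
    · rintro ⟨m, hm, rfl⟩; exact ⟨m, hm, rfl⟩
  have h2 := card_le C.ker hact (v0 := v0) (p := pt 0) ⟨lv du0, v0_eq⟩
    (T := {a | ∃ m ∈ T135, a = bv 8 m}) (Set.toFinite _) (by
      intro σ
      rw [kv0 C]
      exact v0_class C hact σ)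
  have h3 : ({a | ∃ m ∈ T135, a = bv 8 m} : Set (Fin 8 → ZMod 2)).ncard ≤ 135 := by
    rw [h1, Set.ncard_coe_finset]
    exact (List.toFinset_card_le _).trans (by rw [List.length_map]; rfl)
  calc Nat.card (CC (gm X0)) ≤ _ := h2
    _ ≤ 135 * (504 * 16) := Nat.mul_le_mul h3 card_st
    _ = _ := by norm_num

theorem card_A9 : Nat.card (alternatingGroup (Fin 9)) = 181440 := by
  rw [nat_card_alternatingGroup]
  simp [Nat.factorial]

theorem conj7 : ∀ i : Fin 7, f7 ^ (i : ℕ) * f3 * (f7 ^ (i : ℕ))⁻¹ = Equiv.swap 0 1 * Equiv.swap 0 ⟨2 + i, by omega⟩ := by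
  decide +kernel

theorem main3 : ∃ (Φ : CC (gm X0) →* alternatingGroup (Fin 9)) (κ : Fx (gm X0) →+ (Fin 8 → ZMod 2)), CoD (gm X0) 3 Φ κ := by
  obtain ⟨κ, C⟩ := exists_crd3
  obtain ⟨act, hact, hadd⟩ := exists_act κ C.surj C.ker
  obtain ⟨g3, -, h3⟩ := gen_spec okX0 C hact hadd chk3
  obtain ⟨g7, -, h7⟩ := gen_spec okX0 C hact hadd chk7
  have b3 := gen_blk ci3 cb3 h3
  have b7 := gen_blk ci7 cb7 h7
  have hone : Good act 1 := ⟨1, by rw [map_one]; rfl, fun x => ⟨x, by rw [map_one]; exact Set.image_id _⟩⟩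
  have hG : ∀ m ∈ T135, Good act m := by
    intro m hm
    rcases tr_all m hm with rfl | h
    · exact hone
    · refine good_tr h3 h7 b3 b7 TR [1] tr_ok ?_ m h
      intro m' hm'
      rw [List.mem_singleton] at hm'
      subst hm'
      exact ⟨by norm_num, hone⟩
  obtain ⟨Φ, hΦ⟩ := exists_blk act BB BB_inj (act_blk C hact hG)
  have htriv : ∀ σ, act σ = 1 → Φ σ = 1 := by
    intro σ h
    ext x : 1
    apply BB_inj
    rw [← hΦ, h]
    exact Set.image_id _
  have e3 : Φ g3 = f3 := by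
    ext x : 1
    apply BB_inj
    rw [← hΦ, b3]
  have e7 : Φ g7 = f7 := by
    ext x : 1
    apply BB_inj
    rw [← hΦ, b7]
  have hle : alternatingGroup (Fin 9) ≤ Φ.range := by
    apply alt_le _ 0 1
    intro x hx
    by_cases hx1 : x = 1
    · rw [hx1, Equiv.swap_mul_self]; exact Φ.range.one_mem
    · have hx2 : 2 ≤ x.1 := by
        have h0 : x.1 ≠ 0 := fun h => hx (Fin.ext h)
        have h1 : x.1 ≠ 1 := fun h => hx1 (Fin.ext h)
        omega
      have h4 := conj7 ⟨x.1 - 2, by omega⟩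
      have h5 : (⟨2 + (x.1 - 2), by omega⟩ : Fin 9) = x := Fin.ext (by show 2 + (x.1 - 2) = x.1; omega)
      have h6 : Equiv.swap 0 1 * Equiv.swap 0 x = f7 ^ (x.1 - 2) * f3 * (f7 ^ (x.1 - 2))⁻¹ := by
        rw [h4, h5]
      rw [h6, ← e3, ← e7, ← map_pow, ← map_inv, ← map_mul, ← map_mul]
      exact ⟨_, rfl⟩
  have hge : 181440 ≤ Nat.card Φ.range := by
    rw [← card_A9]; exact Subgroup.card_le_of_le hle
  obtain ⟨hker, hr⟩ := ker_exact (r := 181440) (p := 3) (by norm_num) (by decide) gm3 gm_ne Φ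
    (fun k => htriv _ (act_triv C.surj C.ker hact (pow_triv _ k)))
    (htriv _ (act_triv C.surj C.ker hact (neg_triv _))) (by norm_num) hge (card_CC C hact)
  have heq : alternatingGroup (Fin 9) = Φ.range := Subgroup.eq_of_le_of_card_ge hle (by rw [hr, card_A9])
  have hmem : ∀ σ, Φ σ ∈ alternatingGroup (Fin 9) := fun σ => by rw [heq]; exact ⟨σ, rfl⟩
  refine ⟨Φ.codRestrict _ hmem, κ, ⟨by norm_num, by decide, gm3, gm_ne, ?_, ?_, C.surj, C.ker, ?_⟩⟩
  · rintro ⟨y, hy⟩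
    rw [heq] at hy
    obtain ⟨σ, rfl⟩ := hy
    exact ⟨σ, rfl⟩
  · intro δ
    rw [← hker δ]
    constructor
    · intro h; exact congrArg Subtype.val h
    · intro h; exact Subtype.ext h
  · intro δ h
    exact Subtype.ext (htriv _ (act_triv C.surj C.ker hact h))

theorem pcore9 : pCore 2 (alternatingGroup (Fin 9)) = ⊥ := by
  have hp : Fact (Nat.Prime 2) := ⟨Nat.prime_two⟩
  have hN : (pCore 2 (alternatingGroup (Fin 9))).Normal := inferInstance
  have hs : IsSimpleGroup (alternatingGroup (Fin 9)) := alternatingGroup.isSimpleGroup (by simp)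
  rcases hN.eq_bot_or_eq_top with h | h
  · exact h
  · exfalso
    have h2 : IsPGroup 2 (pCore 2 (alternatingGroup (Fin 9))) := H1.Cores.isPGroup_pCore 2
    obtain ⟨k, hk⟩ := IsPGroup.iff_card.1 h2
    rw [h, Subgroup.card_top, card_A9] at hk
    have h3 : 3 ∣ 2 ^ k := by rw [← hk]; norm_num
    have := Nat.prime_three.dvd_of_dvd_pow h3
    omega

end H33.MonP3
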