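import Mathlib
import Cfsg.Agent.Lib.H33.MonRed
import Cfsg.Agent.Lib.H26.GenFitting

set_option autoImplicit false

/-! Centralizers of elements of odd prime order in a group of Monster type: the extraspecial subgroup. -/

namespace H33.MonRed

open Cfsg H91.MonData H91.MonType H91.LargePair H91.LeechTools H91.InvForm

/-- assembling the structure of the centralizer -/
theorem assemble {D C S : Type*} [Group D] [Group C] [Group S] [Finite D] [Finite C] (ψ : D →* C)
    (hψ : Function.Surjective ψ) (ρ : D →* S) (hρ : Function.Surjective ρ) (K : Subgroup D) [hK : K.Normal]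
    (hker : ∀ x, ρ x = 1 ↔ ∃ k ∈ K, ψ x = ψ k) (hinj : ∀ k ∈ K, ψ k = 1 → k = 1) (hex : IsExtraspecial 2 K)
    (hfaith : ∀ x, (∀ k ∈ K, x * k = k * x) → ρ x = 1) (hcore : pCore 2 S = ⊥) :
    generalizedFittingSubgroup C = K.map ψ ∧ IsExtraspecial 2 (K.map ψ) ∧ Nat.card (K.map ψ) = Nat.card K ∧
      ∃ hN : (K.map ψ).Normal, Nonempty (C ⧸ K.map ψ ≃* S) := by
  have hp : Fact (Nat.Prime 2) := ⟨Nat.prime_two⟩
  have hN : (K.map ψ).Normal := hK.map ψ hψ
  -- the restriction to `K` is injective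
  let f : K →* C := ψ.comp K.subtype
  have hf : Function.Injective f := by
    rw [injective_iff_map_eq_one]
    rintro ⟨k, hk⟩ h
    exact Subtype.ext (hinj k hk h)
  have hfr : f.range = K.map ψ := by
    ext x
    constructor
    · rintro ⟨k, rfl⟩; exact ⟨k.1, k.2, rfl⟩
    · rintro ⟨k, hk, rfl⟩; exact ⟨⟨k, hk⟩, rfl⟩
  let eQ : K ≃* K.map ψ := (MonoidHom.ofInjective hf).trans (MulEquiv.subgroupCongr hfr)
  have hkk : ((QuotientGroup.mk' (K.map ψ)).comp ψ).ker = ρ.ker := by
    ext g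
    rw [MonoidHom.mem_ker, MonoidHom.comp_apply, QuotientGroup.mk'_apply, QuotientGroup.eq_one_iff, MonoidHom.mem_ker, hker]
    constructor
    · rintro ⟨k, hk, h⟩; exact ⟨k, hk, h.symm⟩
    · rintro ⟨k, hk, h⟩; exact ⟨k, hk, h.symm⟩
  have hsurj : Function.Surjective ((QuotientGroup.mk' (K.map ψ)).comp ψ) :=
    (QuotientGroup.mk'_surjective _).comp hψ
  let eR : C ⧸ K.map ψ ≃* S :=
    ((QuotientGroup.quotientKerEquivOfSurjective _ hsurj).symm.trans (QuotientGroup.quotientMulEquivOfEq hkk)).trans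
      (QuotientGroup.quotientKerEquivOfSurjective ρ hρ)
  have hexQ : IsExtraspecial 2 (K.map ψ) := H56.Heis.isExtraspecial_congr eQ hex
  have h2 : IsPGroup 2 (K.map ψ) := hexQ.1.1
  have hc1 : pCore 2 C = K.map ψ := by
    apply le_antisymm
    · have hP : IsPGroup 2 (pCore 2 C) := H1.Cores.isPGroup_pCore 2
      have hPN : (pCore 2 C).Normal := inferInstance
      let g : C →* S := eR.toMonoidHom.comp (QuotientGroup.mk' (K.map ψ))
      have hg : Function.Surjective g := eR.surjective.comp (QuotientGroup.mk'_surjective _)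
      have h3 : (pCore 2 C).map g ≤ pCore 2 S := H1.Cores.le_pCore (hPN.map g hg) (hP.map g)
      rw [hcore] at h3
      intro x hx
      have h4 : g x = 1 := h3 ⟨x, hx, rfl⟩
      have h5 : (QuotientGroup.mk' (K.map ψ)) x = 1 := eR.injective (by rw [map_one]; exact h4)
      exact (QuotientGroup.eq_one_iff x).1 h5
    · exact H1.Cores.le_pCore hN h2
  have hcent : Subgroup.centralizer ((K.map ψ : Subgroup C) : Set C) ≤ K.map ψ := by
    intro y hy
    obtain ⟨x, rfl⟩ := hψ y
    have h3 : ρ x = 1 := by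
      apply hfaith
      intro k hk
      have h4 := Subgroup.mem_centralizer_iff.1 hy (ψ k) ⟨k, hk, rfl⟩
      have h5 : x * k * x⁻¹ * k⁻¹ ∈ K := K.mul_mem (hK.conj_mem k hk x) (K.inv_mem hk)
      have h6 : ψ (x * k * x⁻¹ * k⁻¹) = 1 := by
        rw [map_mul, map_mul, map_mul, map_inv, map_inv, ← h4]; group
      have h7 := hinj _ h5 h6
      rw [mul_inv_eq_one, mul_inv_eq_iff_eq_mul] at h7
      exact h7
    obtain ⟨k, hk, h4⟩ := (hker x).1 h3
    exact ⟨k, hk, h4.symm⟩
  refine ⟨?_, hexQ, (Nat.card_congr eQ.toEquiv).symm, hN, ⟨eR⟩⟩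
  rw [← hc1, H26.GenFitting.gFitting_eq_pCore_iff, hc1]
  exact hcent

section
variable {G : Type*} [Group G] [Finite G] {z : G} {Q : Subgroup G} {Lab : leechLattice → G → Prop} {R : G → Co0 → Prop}
  {q : leechLattice → ZMod 2} {b : leechLattice → leechLattice → ZMod 2}
variable {S A : Type} [Group S] [AddCommGroup A] {γ : Co0} {p : ℕ}
  {Φ : Subgroup.centralizer ({γ} : Set Co0) →* S} {κ : Fx γ →+ A}

/-- the averaging operator -/
def av (γ : Co0) (p : ℕ) (v : leechLattice) : leechLattice := ∑ i ∈ Finset.range p, γ ^ i • v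

theorem av_mem (γ : Co0) (p : ℕ) (h : γ ^ p = 1) (v : leechLattice) : av γ p v ∈ Fx γ := by
  rw [mem_Fx, av, smul_sum]
  have h1 : ∀ i, γ • γ ^ i • v = γ ^ (i + 1) • v := fun i => by rw [← mul_smul, ← pow_succ']
  rw [Finset.sum_congr rfl fun i _ => h1 i]
  have h2 := Finset.sum_range_succ' (fun i => γ ^ i • v) p
  rw [Finset.sum_range_succ, h] at h2
  simp only [pow_zero] at h2
  exact (add_right_cancel h2).symm

theorem av_Fx (γ : Co0) (p : ℕ) {v : leechLattice} (hv : v ∈ Fx γ) : av γ p v = p • v := by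
  have h1 : ∀ i, γ ^ i • v = v := by
    intro i
    induction i with
    | zero => rw [pow_zero, one_smul]
    | succ i ih => rw [pow_succ', mul_smul, ih]; exact hv
  rw [av, Finset.sum_congr rfl fun i _ => h1 i, Finset.sum_const, Finset.card_range]

omit [Finite G] in
theorem lab_av (M : MonData z Q Lab R q b) {c x : G} (hγ : R c γ) (hx : x * c = c * x) {v : leechLattice} (h : Lab v x) (n : ℕ) :
    Lab (av γ n v) (x ^ n) := by
  have h1 : ∀ i : ℕ, Lab (γ ^ i • v) x := by
    intro i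
    have h2 := M.R_conj (R_pow M hγ i) h
    have h3 : c ^ i * x * (c ^ i)⁻¹ = x := by
      have : Commute x (c ^ i) := Commute.pow_right hx i
      rw [← this.eq, mul_inv_cancel_right]
    rwa [h3] at h2
  induction n with
  | zero =>
    rw [av, Finset.range_zero, Finset.sum_empty, pow_zero, M.lab_zero]
    exact Or.inl rfl
  | succ n ih =>
    rw [av, Finset.sum_range_succ, pow_succ]
    exact M.lab_mul ih (h1 n)

omit [Finite G] in
theorem pow_odd_cases (M : MonData z Q Lab R q b) {x : G} (hx : x ∈ Q) {n : ℕ} (hn : Odd n) : x ^ n = x ∨ x ^ n = x * z := by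
  obtain ⟨k, rfl⟩ := hn
  rw [pow_succ, pow_mul]
  have hz2 : z ^ 2 = 1 := by rw [sq, M.pack.zz]
  rcases M.pack.sq x hx with h | h
  · left; rw [sq, h, one_pow, one_mul]
  · rw [sq, h]
    rcases Nat.even_or_odd k with ⟨m, rfl⟩ | ⟨m, rfl⟩
    · left; rw [← two_mul, pow_mul, hz2, one_pow, one_mul]
    · right; rw [pow_succ, pow_mul, hz2, one_pow, one_mul, M.pack.zc x hx]

omit [Finite G] in
/-- elements of `Q` commuting with `c` have fixed labels -/
theorem fixed_label (M : MonData z Q Lab R q b) (D : CoD γ p Φ κ) {c x : G} (hγ : R c γ) (hx : x * c = c * x) (hxQ : x ∈ Q) :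
    ∃ v ∈ Fx γ, Lab v x := by
  obtain ⟨v, hv⟩ := M.lab_surj hxQ
  refine ⟨av γ p v, av_mem γ p D.pow v, ?_⟩
  have h1 := lab_av M hγ hx hv p
  rcases pow_odd_cases M hxQ D.odd with h2 | h2
  · rwa [h2] at h1
  · rw [h2] at h1
    have h3 := lab_mul_z M h1
    rwa [mul_assoc, M.pack.zz, mul_one] at h3

omit [Finite G] in
theorem comm_of_fixed (M : MonData z Q Lab R q b) (D : CoD γ p Φ κ) {c x : G} (hc : c ^ p = 1) (hγ : R c γ) {v : leechLattice}
    (hv : v ∈ Fx γ) (h : Lab v x) : x * c = c * x := by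
  have h1 := M.R_conj hγ h
  rw [show γ • v = v from hv] at h1
  have hcz := M.R_comm hγ
  rcases lab_eq M h h1 with h2 | h2
  · exact (mul_inv_eq_iff_eq_mul.1 h2).symm
  · exfalso
    have h3 : ∀ n : ℕ, c ^ n * x * (c ^ n)⁻¹ = x * z ^ n := by
      intro n
      induction n with
      | zero => simp
      | succ n ih =>
        have : Commute c (z ^ n) := Commute.pow_right hcz n
        calc c ^ (n + 1) * x * (c ^ (n + 1))⁻¹ = c * (c ^ n * x * (c ^ n)⁻¹) * c⁻¹ := by rw [pow_succ']; group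
          _ = (c * x * c⁻¹) * (c * z ^ n * c⁻¹) := by rw [ih]; group
          _ = x * z * z ^ n := by rw [h2, this.eq, mul_inv_cancel_right]
          _ = x * z ^ (n + 1) := by rw [pow_succ', mul_assoc]
    have h4 := h3 p
    rw [hc] at h4
    have h5 : z ^ p = z := by
      obtain ⟨k, rfl⟩ := D.odd
      rw [pow_succ, pow_mul, sq, M.pack.zz, one_pow, one_mul]
    rw [h5, one_mul, inv_one, mul_one] at h4
    exact M.pack.z1 (left_eq_mul.1 h4)

/-- the extraspecial subgroup of `DD` -/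
abbrev KK (Q : Subgroup G) (z c : G) : Subgroup (DD z c) := Q.subgroupOf (DD z c)

omit [Finite G] in
theorem KK_normal (M : MonData z Q Lab R q b) {c : G} : (KK Q z c).Normal := by
  refine ⟨fun x hx g => ?_⟩
  rw [Subgroup.mem_subgroupOf] at hx ⊢
  exact M.pack.N g.1 (mem_DD.1 g.2).1 x.1 hx

theorem KK_extra (M : MonData z Q Lab R q b) (D : CoD γ p Φ κ) {c : G} (hc : c ^ p = 1) (hγ : R c γ) (hA : 1 < Nat.card A) :
    IsExtraspecial 2 (KK Q z c) ∧ Nat.card (KK Q z c) = 2 * Nat.card A := by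
  have hcz := M.R_comm hγ
  have hzDD : z ∈ DD z c := mem_DD.2 ⟨rfl, hcz.symm⟩
  have hex : ∀ x : KK Q z c, ∃ v : Fx γ, Lab v.1 x.1.1 := by
    intro x
    obtain ⟨v, hv, h⟩ := fixed_label M D hγ (mem_DD.1 x.1.2).2 (Subgroup.mem_subgroupOf.1 x.2)
    exact ⟨⟨v, hv⟩, h⟩
  choose f hf using hex
  have huniq : ∀ (x : KK Q z c) (v : Fx γ), Lab v.1 x.1.1 → κ (f x) = κ v := by
    intro x v hv
    obtain ⟨u, hu⟩ := lab_congr M (hf x) hv
    have h1 : κ (f x - v) = 0 := (D.kker _).2 ⟨u, by
      show (f x).1 - v.1 = u + u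
      rw [hu]; abel⟩
    rw [map_sub, sub_eq_zero] at h1
    exact h1
  let F : KK Q z c →* Multiplicative A := MonoidHom.mk' (fun x => Multiplicative.ofAdd (κ (f x))) (by
    intro x y
    rw [← ofAdd_add, ← map_add]
    congr 1
    exact huniq (x * y) (f x + f y) (M.lab_mul (hf x) (hf y)))
  have hFsurj : Function.Surjective F := by
    intro a
    obtain ⟨v, hv⟩ := D.ksurj (Multiplicative.toAdd a)
    obtain ⟨x, hx⟩ := M.lab_ex v.1
    have hxQ := M.lab_mem hx
    have hxc := comm_of_fixed M D hc hγ v.2 hx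
    refine ⟨⟨⟨x, mem_DD.2 ⟨M.pack.zc x hxQ, hxc⟩⟩, hxQ⟩, ?_⟩
    show Multiplicative.ofAdd (κ (f _)) = a
    rw [huniq _ v hx, hv]; rfl
  have hFker : ∀ x : KK Q z c, x ∈ F.ker ↔ x.1.1 = 1 ∨ x.1.1 = z := by
    intro x
    rw [MonoidHom.mem_ker, ← M.lab_zero]
    constructor
    · intro h
      have h1 : κ (f x) = 0 := h
      obtain ⟨u, hu⟩ := (D.kker _).1 h1
      have h2 := hf x
      rw [hu] at h2
      have h3 := lab_add_double M (u := -u) h2
      have h4 : u + u + (-u + -u) = 0 := by abel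
      rwa [h4] at h3
    · intro h
      show Multiplicative.ofAdd (κ (f x)) = 1
      rw [huniq x 0 h, map_zero]; rfl
  have hcard : Nat.card (KK Q z c) = 2 * Nat.card A := by
    have h1 : Nat.card F.ker = 2 := by
      rw [Nat.card_eq_two_iff' (1 : F.ker)]
      refine ⟨⟨⟨⟨z, hzDD⟩, M.pack.zQ⟩, (hFker _).2 (Or.inr rfl)⟩, ?_, ?_⟩
      · intro h
        exact M.pack.z1 (congrArg (fun x : F.ker => x.1.1.1) h)
      · rintro ⟨y, hy⟩ hy1
        rcases (hFker y).1 hy with h | h
        · exact absurd (Subtype.ext (Subtype.ext (Subtype.ext h))) hy1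
        · exact Subtype.ext (Subtype.ext (Subtype.ext h))
    have h2 := F.ker.card_mul_index
    rw [h1, Subgroup.index_ker, MonoidHom.range_eq_top.2 hFsurj, Subgroup.card_top] at h2
    exact h2.symm
  refine ⟨?_, hcard⟩
  refine H33.Oct.extra_of ⟨⟨z, hzDD⟩, M.pack.zQ⟩ ?_ ?_ ?_ ?_ (by rw [hcard]; omega)
  · intro h
    exact M.pack.z1 (congrArg (fun x : KK Q z c => x.1.1) h)
  · intro x
    apply Subtype.ext; apply Subtype.ext
    exact (M.pack.zc x.1.1 x.2).symm
  · intro x
    rcases M.pack.sq x.1.1 x.2 with h | h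
    · left; exact Subtype.ext (Subtype.ext h)
    · right; exact Subtype.ext (Subtype.ext h)
  · intro x hx
    have h1 : x.1.1 = 1 ∨ x.1.1 = z := by
      apply M.pack.cen x.1.1 x.2
      intro y hy
      obtain ⟨w, hw⟩ := M.lab_surj hy
      obtain ⟨y', hy'⟩ := M.lab_ex (av γ p w)
      have hy'Q := M.lab_mem hy'
      have hy'c := comm_of_fixed M D hc hγ (av_mem γ p D.pow w) hy'
      have h2 := hx ⟨⟨y', mem_DD.2 ⟨M.pack.zc y' hy'Q, hy'c⟩⟩, hy'Q⟩
      have h3 : x.1.1 * y' = y' * x.1.1 := congrArg (fun x : KK Q z c => x.1.1) h2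
      have h4 : b (f x).1 (av γ p w) = 0 := (M.b_lab (hf x) hy').2 h3
      have h5 : ∀ i : ℕ, b (f x).1 (γ ^ i • w) = b (f x).1 w := by
        intro i
        have h6 : γ ^ i • (f x).1 = (f x).1 := by
          induction i with
          | zero => rw [pow_zero, one_smul]
          | succ i ih => rw [pow_succ', mul_smul, ih]; exact (f x).2
        calc b (f x).1 (γ ^ i • w) = b (γ ^ i • (f x).1) (γ ^ i • w) := by rw [h6]
          _ = _ := M.form.binv _ _ _
      have h6 : ∀ n : ℕ, b (f x).1 (av γ n w) = n * b (f x).1 w := by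
        intro n
        induction n with
        | zero =>
          rw [av, Finset.range_zero, Finset.sum_empty, Nat.cast_zero, zero_mul]
          rw [M.form.bsymm, M.form.bzero]
        | succ n ih =>
          have : av γ (n + 1) w = av γ n w + γ ^ n • w := by rw [av, Finset.sum_range_succ]; rfl
          rw [this, M.form.badd_right, ih, h5]
          push_cast; ring
      rw [h6] at h4
      have h7 : ((p : ℕ) : ZMod 2) = 1 := by
        obtain ⟨k, rfl⟩ := D.odd
        push_cast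
        have : (2 : ZMod 2) = 0 := rfl
        rw [this, zero_mul, zero_add]
      rw [h7, one_mul] at h4
      exact ((M.b_lab (hf x) hw).1 h4).symm
    rcases h1 with h1 | h1
    · left; exact Subtype.ext (Subtype.ext h1)
    · right; exact Subtype.ext (Subtype.ext h1)
end

end H33.MonRed
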