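import Mathlib
import Cfsg.Agent.Lib.H33.MonRed2

set_option autoImplicit false

/-! Centralizers of elements of odd prime order in a group of Monster type: the quotient. -/

namespace H33.MonRed

open Cfsg H91.MonData H91.MonType H91.LargePair H91.LeechTools H91.InvForm

section
variable {G : Type*} [Group G] [Finite G] {z : G} {Q : Subgroup G} {Lab : leechLattice → G → Prop} {R : G → Co0 → Prop}
  {q : leechLattice → ZMod 2} {b : leechLattice → leechLattice → ZMod 2}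
variable {S A : Type} [Group S] [AddCommGroup A] {γ : Co0} {p : ℕ}
  {Φ : Subgroup.centralizer ({γ} : Set Co0) →* S} {κ : Fx γ →+ A}

/-- the centralizer of `c` -/
abbrev HH (c : G) : Subgroup G := Subgroup.centralizer ((Subgroup.zpowers c : Subgroup G) : Set G)

omit [Finite G] in
theorem mem_HH {c x : G} : x ∈ HH c ↔ x * c = c * x := by
  rw [HH, Subgroup.mem_centralizer_iff]
  constructor
  · intro h; exact (h c (Subgroup.mem_zpowers c)).symm
  · intro h y hy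
    obtain ⟨k, rfl⟩ := Subgroup.mem_zpowers_iff.1 hy
    have : Commute x (c ^ k) := Commute.zpow_right h k
    exact this.eq.symm

/-- elements of `⟨c⟩` in `Q` -/
theorem inter_eq (M : MonData z Q Lab R q b) {c x : G} (hp : p.Prime) (hodd : Odd p) (hc : c ^ p = 1) (hx : x ∈ Subgroup.zpowers c)
    (hxQ : x ∈ Q) : x = 1 := by
  obtain ⟨k, rfl⟩ := Subgroup.mem_zpowers_iff.1 hx
  by_contra h
  refine not_mem_Q M hp hodd ?_ h hxQ
  rw [← zpow_natCast, ← zpow_mul, mul_comm, zpow_mul, zpow_natCast, hc, one_zpow]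

omit [Finite G] in
theorem pow_of_zpowers {c x : G} (hx : x ∈ Subgroup.zpowers c) (hp1 : 0 < p) (hc : c ^ p = 1) : ∃ n : ℕ, x = c ^ n := by
  have h1 : IsOfFinOrder c := isOfFinOrder_iff_pow_eq_one.2 ⟨p, hp1, hc⟩
  have h2 := h1.mem_powers_iff_mem_zpowers.2 hx
  obtain ⟨n, hn⟩ := h2
  exact ⟨n, hn.symm⟩

theorem sq_zpowers {c x : G} (hodd : Odd p) (hc : c ^ p = 1) (hx : x ∈ Subgroup.zpowers c) (h : x * x = 1) : x = 1 := by
  obtain ⟨k, rfl⟩ := Subgroup.mem_zpowers_iff.1 hx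
  have h1 : (c ^ k) ^ p = 1 := by
    rw [← zpow_natCast, ← zpow_mul, mul_comm, zpow_mul, zpow_natCast, hc, one_zpow]
  obtain ⟨m, rfl⟩ := hodd
  rw [pow_succ, pow_mul, sq, h, one_pow, one_mul] at h1
  exact h1

/-- commuting with `z` modulo `⟨c⟩` -/
theorem comm_z_of (M : MonData z Q Lab R q b) {c x : G} (hodd : Odd p) (hc : c ^ p = 1) (hcz : c * z = z * c)
    (h : x * z * x⁻¹ * z⁻¹ ∈ Subgroup.zpowers c) : x * z = z * x := by
  set e := x * z * x⁻¹ * z⁻¹ with he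
  have h1 : e * z = x * z * x⁻¹ := by rw [he]; group
  have h2 : (e * z) * (e * z) = 1 := by
    rw [h1]
    calc x * z * x⁻¹ * (x * z * x⁻¹) = x * (z * z) * x⁻¹ := by group
      _ = 1 := by rw [M.pack.zz]; group
  have h3 : e * z = z * e := by
    obtain ⟨k, hk⟩ := Subgroup.mem_zpowers_iff.1 h
    rw [← hk]
    exact (Commute.zpow_left hcz k).eq
  have h4 : e * e = 1 := by
    calc e * e = (e * z) * (e * z) := by
          calc e * e = e * (z * z) * e := by rw [M.pack.zz, mul_one]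
            _ = (e * z) * (z * e) := by group
            _ = _ := by rw [h3]
      _ = 1 := h2
  have h5 := sq_zpowers hodd hc h h4
  rw [he, mul_inv_eq_one, mul_inv_eq_iff_eq_mul] at h5
  exact h5

/-- the reduction -/
theorem red (M : MonData z Q Lab R q b) (D : CoD γ p Φ κ) {c : G} (hc : c ^ p = 1) (hγ : R c γ) (hA : 1 < Nat.card A)
    (hcore : pCore 2 S = ⊥) [hn : ((Subgroup.zpowers c).subgroupOf (HH c)).Normal] (hzH : z ∈ HH c) :
    orderOf (QuotientGroup.mk ⟨z, hzH⟩ : HH c ⧸ (Subgroup.zpowers c).subgroupOf (HH c)) = 2 ∧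
    ∃ Q' : Subgroup (Subgroup.centralizer ({(QuotientGroup.mk ⟨z, hzH⟩ : HH c ⧸ (Subgroup.zpowers c).subgroupOf (HH c))} : Set _)),
      ∃ _ : Q'.Normal, generalizedFittingSubgroup (Subgroup.centralizer ({(QuotientGroup.mk ⟨z, hzH⟩ : HH c ⧸ (Subgroup.zpowers c).subgroupOf (HH c))} : Set _)) = Q' ∧
      IsExtraspecial 2 Q' ∧ Nat.card Q' = 2 * Nat.card A ∧
      Nonempty ((Subgroup.centralizer ({(QuotientGroup.mk ⟨z, hzH⟩ : HH c ⧸ (Subgroup.zpowers c).subgroupOf (HH c))} : Set _)) ⧸ Q' ≃* S) ∧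
      ∀ y, y ∈ Q' ↔ ∃ x : HH c, x.1 ∈ Q ∧ y.1 = QuotientGroup.mk x := by
  have hcz := M.R_comm hγ
  have hp0 : 0 < p := D.prime.pos
  obtain ⟨ρ, hρ⟩ := exists_rho M D hγ
  have hsurj := rho_surj M D hc hγ hρ
  have hkerρ := rho_ker M D hc hγ hρ
  let π : HH c →* HH c ⧸ (Subgroup.zpowers c).subgroupOf (HH c) := QuotientGroup.mk' _
  have hπ : ∀ x : HH c, π x = 1 ↔ x.1 ∈ Subgroup.zpowers c := by
    intro x
    rw [QuotientGroup.mk'_apply, QuotientGroup.eq_one_iff, Subgroup.mem_subgroupOf]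
  have hπs : Function.Surjective π := QuotientGroup.mk'_surjective _
  have hDH : DD z c ≤ HH c := fun x hx => mem_HH.2 (mem_DD.1 hx).2
  let ψ : DD z c →* Subgroup.centralizer ({(QuotientGroup.mk ⟨z, hzH⟩ : HH c ⧸ (Subgroup.zpowers c).subgroupOf (HH c))} : Set _) :=
    (π.comp (Subgroup.inclusion hDH)).codRestrict _ (by
      intro x
      rw [Subgroup.mem_centralizer_singleton_iff]
      show π (Subgroup.inclusion hDH x) * π ⟨z, hzH⟩ = π ⟨z, hzH⟩ * π (Subgroup.inclusion hDH x)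
      rw [← map_mul, ← map_mul]
      congr 1
      exact Subtype.ext (mem_DD.1 x.2).1)
  have hψv : ∀ x : DD z c, (ψ x).1 = π ⟨x.1, hDH x.2⟩ := fun _ => rfl
  have hψs : Function.Surjective ψ := by
    rintro ⟨y, hy⟩
    obtain ⟨h, rfl⟩ := hπs y
    have h1 : h.1 * z = z * h.1 := by
      apply comm_z_of M D.odd hc hcz
      have h2 : π (h * ⟨z, hzH⟩ * h⁻¹ * ⟨z, hzH⟩⁻¹) = 1 := by
        have h3 := Subgroup.mem_centralizer_singleton_iff.1 hy
        have h3' : π h * π ⟨z, hzH⟩ = π ⟨z, hzH⟩ * π h := h3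
        rw [map_mul, map_mul, map_mul, map_inv, map_inv, h3']; group
      exact (hπ _).1 h2
    exact ⟨⟨h.1, mem_DD.2 ⟨h1, mem_HH.1 h.2⟩⟩, Subtype.ext rfl⟩
  have hψe : ∀ x y : DD z c, ψ x = ψ y ↔ x.1⁻¹ * y.1 ∈ Subgroup.zpowers c := by
    intro x y
    rw [← Subtype.coe_inj, hψv, hψv]
    show (QuotientGroup.mk _ : HH c ⧸ (Subgroup.zpowers c).subgroupOf (HH c)) = QuotientGroup.mk _ ↔ _
    rw [QuotientGroup.eq, Subgroup.mem_subgroupOf]
    rfl
  have hK : (KK Q z c).Normal := KK_normal M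
  have hex := KK_extra M D hc hγ hA
  have hcDD : ∀ n : ℕ, c ^ n ∈ DD z c := by
    intro n
    refine (DD z c).pow_mem (mem_DD.2 ⟨hcz, rfl⟩) n
  obtain ⟨h1, h2, h3, hN, h4⟩ := assemble ψ hψs ρ hsurj (KK Q z c) (by
    intro x
    rw [hkerρ]
    constructor
    · rintro ⟨n, hn'⟩
      refine ⟨x * ⟨c ^ n, hcDD n⟩, hn', ?_⟩
      rw [hψe]
      show x.1⁻¹ * (x.1 * c ^ n) ∈ _
      rw [inv_mul_cancel_left]
      exact Subgroup.pow_mem _ (Subgroup.mem_zpowers c) n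
    · rintro ⟨k, hk, hk2⟩
      rw [hψe] at hk2
      obtain ⟨n, hn'⟩ := pow_of_zpowers hk2 hp0 hc
      refine ⟨n, ?_⟩
      rw [← hn', mul_inv_cancel_left]
      exact hk) (by
    intro k hk h
    rw [← map_one ψ, eq_comm, hψe] at h
    have h5 : (1 : DD z c).1⁻¹ * k.1 = k.1 := by simp
    rw [h5] at h
    exact Subtype.ext (inter_eq M D.prime D.odd hc h hk)) hex.1 (by
    intro x hx
    obtain ⟨δ, hδ⟩ := M.R_ex' (mem_DD.1 x.2).1
    have hδc := comm_gamma M D.odd D.pow hγ (mem_DD.1 x.2).2 hδ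
    rw [hρ x ⟨δ, Subgroup.mem_centralizer_singleton_iff.2 hδc⟩ hδ]
    apply D.faith
    intro v hv
    obtain ⟨y, hy⟩ := M.lab_ex v
    have hyQ := M.lab_mem hy
    have hyc := comm_of_fixed M D hc hγ hv hy
    have h5 := hx ⟨y, mem_DD.2 ⟨M.pack.zc y hyQ, hyc⟩⟩ hyQ
    have h6 : x.1 * y = y * x.1 := congrArg Subtype.val h5
    have h7 := M.R_conj hδ hy
    rw [h6, mul_inv_cancel_right] at h7
    exact lab_congr M h7 hy) hcore
  refine ⟨?_, (KK Q z c).map ψ, hN, h1, h2, by rw [h3, hex.2], h4, ?_⟩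
  · have hp : Fact (Nat.Prime 2) := ⟨Nat.prime_two⟩
    refine orderOf_eq_prime ?_ ?_
    · rw [pow_two]
      show π ⟨z, hzH⟩ * π ⟨z, hzH⟩ = 1
      rw [← map_mul]
      have : (⟨z, hzH⟩ * ⟨z, hzH⟩ : HH c) = 1 := Subtype.ext M.pack.zz
      rw [this, map_one]
    · intro h
      have h5 : π ⟨z, hzH⟩ = 1 := h
      rw [hπ] at h5
      exact M.pack.z1 (inter_eq M D.prime D.odd hc h5 M.pack.zQ)
  · intro y
    constructor
    · rintro ⟨k, hk, rfl⟩
      exact ⟨⟨k.1, hDH k.2⟩, hk, rfl⟩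
    · rintro ⟨x, hx, hy⟩
      have hxD : x.1 ∈ DD z c := mem_DD.2 ⟨M.pack.zc x.1 hx, mem_HH.1 x.2⟩
      exact ⟨⟨x.1, hxD⟩, hx, Subtype.ext hy.symm⟩
end

end H33.MonRed
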