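import Mathlib
import Cfsg.Agent.Lib.H33.MonRed3
import Cfsg.Agent.Lib.H9.CoOrder

set_option autoImplicit false

/-! Fusion in centralizers of elements of odd order in a group of Monster type. -/

namespace H33.MonFus

open Cfsg H91.MonData H91.MonType H91.LargePair H91.LeechTools H91.InvForm H91.MonConj H91.MonCross H33.MonRed

/-- elements of order `p` in a group with `p`-part `p` -/
theorem conj_of_part {L : Type*} [Group L] [Finite L] {p : ℕ} [Fact p.Prime] (hL : (Nat.card L).factorization p = 1) {x y : L}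
    (hx : orderOf x = p) (hy : orderOf y = p) : ∃ l, l * y * l⁻¹ ∈ Subgroup.zpowers x := by
  have key : ∀ x : L, orderOf x = p → ∃ P : Sylow p L, (P : Subgroup L) = Subgroup.zpowers x := by
    intro x hx
    have h1 : IsPGroup p (Subgroup.zpowers x) := IsPGroup.of_card (n := 1) (by rw [Nat.card_zpowers, hx, pow_one])
    obtain ⟨P, hP⟩ := h1.exists_le_sylow
    refine ⟨P, ?_⟩
    have h2 := P.card_eq_multiplicity
    rw [hL, pow_one] at h2
    symm
    apply Subgroup.eq_of_le_of_card_ge hP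
    rw [h2, Nat.card_zpowers, hx]
  obtain ⟨P, hP⟩ := key x hx
  obtain ⟨P', hP'⟩ := key y hy
  obtain ⟨l, hl⟩ := MulAction.exists_smul_eq L P' P
  refine ⟨l, ?_⟩
  have h1 : l * y * l⁻¹ ∈ ((l • P' : Sylow p L) : Subgroup L) := by
    rw [Sylow.coe_subgroup_smul, hP', Subgroup.mem_pointwise_smul_iff_inv_smul_mem]
    have : (MulAut.conj l)⁻¹ • (l * y * l⁻¹) = y := by
      rw [← map_inv]
      show l⁻¹ * (l * y * l⁻¹) * l⁻¹⁻¹ = y
      group
    rw [this]; exact Subgroup.mem_zpowers y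
  rw [hl, hP] at h1
  exact h1

variable {G : Type*} [Group G] {z : G} {Q : Subgroup G} {Lab : leechLattice → G → Prop} {R : G → Co0 → Prop}
  {q : leechLattice → ZMod 2} {b : leechLattice → leechLattice → ZMod 2}

/-- the joint centralizer -/
abbrev LL (z s : G) : Subgroup G := Subgroup.centralizer ({z, s} : Set G)

theorem mem_LL {z s x : G} : x ∈ LL z s ↔ x * z = z * x ∧ x * s = s * x := by
  rw [LL, Subgroup.mem_centralizer_iff]
  constructor
  · intro h; exact ⟨(h z (by simp)).symm, (h s (by simp)).symm⟩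
  · rintro ⟨h1, h2⟩ y hy
    rcases hy with rfl | hy
    · exact h1.symm
    · rw [Set.mem_singleton_iff] at hy; subst hy; exact h2.symm

theorem zpowers_pow {c : G} (y : G) {e : ℤ} (hy : y * c * y⁻¹ = c ^ e) (n : ℤ) : y * c ^ n * y⁻¹ = c ^ (e * n) := by
  rw [zpow_mul, ← hy, conj_zpow]

/-- the commutator trick -/
theorem fuse [Finite G] (M : MonData z Q Lab R q b) {s c : G} (hsQ : s ∈ Q) (hzs : IsConj z s) (hsz : s ≠ z)
    (hcz : c * z = z * c) (hcs : c * s = s * c)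
    (Fr : ∀ g : G, (∀ x, x ∈ LL z s ↔ g * x * g⁻¹ ∈ LL z s) → ∃ l ∈ LL z s, (l * g) * c * (l * g)⁻¹ ∈ Subgroup.zpowers c) :
    ∃ k, k * c = c * k ∧ k * z * k⁻¹ = s := by
  obtain ⟨g, rfl⟩ := isConj_iff.1 hzs
  obtain ⟨h1, h2, h3, h4⟩ := basic M hsQ hsz
  set s := g * z * g⁻¹ with hs
  have hzz := M.pack.zz
  have hss : s * s = 1 := h1.zz
  have hs1 : s ≠ 1 := h1.z1
  have hzsc : z * s = s * z := (M.pack.zc s hsQ).symm
  obtain ⟨t, htQ, ht⟩ := M.pack.exists_shift hsQ hs1 hsz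
  have htz := M.pack.zc t htQ
  obtain ⟨y, hyQ, hy⟩ := h1.exists_shift h4 M.pack.z1 (Ne.symm hsz)
  have hys := h1.zc y hyQ
  -- both normalise `L`
  have hnorm : ∀ g : G, (g * z * g⁻¹ = z ∧ g * s * g⁻¹ = z * s) ∨ (g * z * g⁻¹ = s * z ∧ g * s * g⁻¹ = s) →
      ∀ x, x ∈ LL z s ↔ g * x * g⁻¹ ∈ LL z s := by
    intro g hg x
    have e1 : ∀ u, (g * x * g⁻¹) * (g * u * g⁻¹) = (g * u * g⁻¹) * (g * x * g⁻¹) ↔ x * u = u * x := by
      intro u
      constructor
      · intro h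
        have h5 : g * (x * u) * g⁻¹ = g * (u * x) * g⁻¹ := by
          calc g * (x * u) * g⁻¹ = (g * x * g⁻¹) * (g * u * g⁻¹) := by group
            _ = _ := h
            _ = _ := by group
        exact mul_left_cancel (mul_right_cancel h5)
      · intro h
        calc (g * x * g⁻¹) * (g * u * g⁻¹) = g * (x * u) * g⁻¹ := by group
          _ = g * (u * x) * g⁻¹ := by rw [h]
          _ = _ := by group
    have cm1 : ∀ X : G, (X * z = z * X ∧ X * (z * s) = (z * s) * X) ↔ (X * z = z * X ∧ X * s = s * X) := by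
      intro X
      constructor
      · rintro ⟨c1, c2⟩
        have c1' : Commute X z := c1
        have c2' : Commute X (z * s) := c2
        have := c1'.inv_right.mul_right c2'
        rw [inv_mul_cancel_left] at this
        exact ⟨c1, this.eq⟩
      · rintro ⟨c1, c2⟩
        have c1' : Commute X z := c1
        exact ⟨c1, (c1'.mul_right c2).eq⟩
    have cm2 : ∀ X : G, (X * (s * z) = (s * z) * X ∧ X * s = s * X) ↔ (X * z = z * X ∧ X * s = s * X) := by
      intro X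
      constructor
      · rintro ⟨c1, c2⟩
        have c1' : Commute X (s * z) := c1
        have c2' : Commute X s := c2
        have := c2'.inv_right.mul_right c1'
        rw [inv_mul_cancel_left] at this
        exact ⟨this.eq, c2⟩
      · rintro ⟨c1, c2⟩
        have c2' : Commute X s := c2
        exact ⟨(c2'.mul_right c1).eq, c2⟩
    have a1 := e1 z
    have a2 := e1 s
    rw [mem_LL, mem_LL]
    rcases hg with ⟨hg1, hg2⟩ | ⟨hg1, hg2⟩
    · rw [hg1] at a1
      rw [hg2] at a2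
      rw [← cm1 (g * x * g⁻¹), a1, a2]
    · rw [hg1] at a1
      rw [hg2] at a2
      rw [← cm2 (g * x * g⁻¹), a1, a2]
  have ht1 : t * z * t⁻¹ = z := by rw [htz, mul_inv_cancel_right]
  have hy1 : y * s * y⁻¹ = s := by rw [hys, mul_inv_cancel_right]
  obtain ⟨l1, hl1, hc1⟩ := Fr t (hnorm t (Or.inl ⟨ht1, ht⟩))
  obtain ⟨l2, hl2, hc2⟩ := Fr y (hnorm y (Or.inr ⟨hy, hy1⟩))
  rw [mem_LL] at hl1 hl2
  set T := l1 * t with hT
  set Y := l2 * y with hY
  have T1 : T * z * T⁻¹ = z := by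
    calc T * z * T⁻¹ = l1 * (t * z * t⁻¹) * l1⁻¹ := by rw [hT]; group
      _ = z := by rw [ht1, hl1.1, mul_inv_cancel_right]
  have T2 : T * s * T⁻¹ = z * s := by
    calc T * s * T⁻¹ = l1 * (t * s * t⁻¹) * l1⁻¹ := by rw [hT]; group
      _ = l1 * z * s * l1⁻¹ := by rw [ht]; group
      _ = z * s := by rw [hl1.1, mul_assoc z, hl1.2]; group
  have Y1 : Y * z * Y⁻¹ = s * z := by
    calc Y * z * Y⁻¹ = l2 * (y * z * y⁻¹) * l2⁻¹ := by rw [hY]; group
      _ = l2 * s * z * l2⁻¹ := by rw [hy]; group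
      _ = s * z := by rw [hl2.2, mul_assoc s, hl2.1]; group
  have Y2 : Y * s * Y⁻¹ = s := by
    calc Y * s * Y⁻¹ = l2 * (y * s * y⁻¹) * l2⁻¹ := by rw [hY]; group
      _ = s := by rw [hy1, hl2.2, mul_inv_cancel_right]
  obtain ⟨e, he⟩ := Subgroup.mem_zpowers_iff.1 hc1
  obtain ⟨f, hf⟩ := Subgroup.mem_zpowers_iff.1 hc2
  -- the commutator
  have hcomm : (T * Y) * c * (T * Y)⁻¹ = (Y * T) * c * (Y * T)⁻¹ := by
    calc (T * Y) * c * (T * Y)⁻¹ = T * (Y * c * Y⁻¹) * T⁻¹ := by group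
      _ = T * c ^ f * T⁻¹ := by rw [← hf]
      _ = c ^ (e * f) := zpowers_pow T he.symm f
      _ = c ^ (f * e) := by rw [mul_comm]
      _ = Y * c ^ e * Y⁻¹ := (zpowers_pow Y hf.symm e).symm
      _ = Y * (T * c * T⁻¹) * Y⁻¹ := by rw [he]
      _ = _ := by group
  set k := (Y * T)⁻¹ * (T * Y) with hk
  have hkc : k * c * k⁻¹ = c := by
    calc k * c * k⁻¹ = (Y * T)⁻¹ * ((T * Y) * c * (T * Y)⁻¹) * (Y * T) := by rw [hk]; group
      _ = (Y * T)⁻¹ * ((Y * T) * c * (Y * T)⁻¹) * (Y * T) := by rw [hcomm]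
      _ = c := by group
  have kz : k * z * k⁻¹ = z * s := by
    have e1 : (T * Y) * z * (T * Y)⁻¹ = s := by
      calc (T * Y) * z * (T * Y)⁻¹ = T * (Y * z * Y⁻¹) * T⁻¹ := by group
        _ = T * s * T⁻¹ * (T * z * T⁻¹) := by rw [Y1]; group
        _ = z * s * z := by rw [T2, T1]
        _ = z * (s * z) := by group
        _ = z * (z * s) := by rw [hzsc]
        _ = s := by rw [← mul_assoc, hzz, one_mul]
    have e2 : (Y * T) * (z * s) * (Y * T)⁻¹ = s := by
      calc (Y * T) * (z * s) * (Y * T)⁻¹ = Y * ((T * z * T⁻¹) * (T * s * T⁻¹)) * Y⁻¹ := by group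
        _ = Y * (z * (z * s)) * Y⁻¹ := by rw [T1, T2]
        _ = Y * s * Y⁻¹ := by rw [← mul_assoc z z s, hzz, one_mul]
        _ = s := Y2
    calc k * z * k⁻¹ = (Y * T)⁻¹ * ((T * Y) * z * (T * Y)⁻¹) * (Y * T) := by rw [hk]; group
      _ = (Y * T)⁻¹ * ((Y * T) * (z * s) * (Y * T)⁻¹) * (Y * T) := by rw [e1, e2]
      _ = z * s := by group
  have ks : k * s * k⁻¹ = z := by
    have e1 : (T * Y) * s * (T * Y)⁻¹ = z * s := by
      calc (T * Y) * s * (T * Y)⁻¹ = T * (Y * s * Y⁻¹) * T⁻¹ := by group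
        _ = T * s * T⁻¹ := by rw [Y2]
        _ = z * s := T2
    have e2 : (Y * T) * z * (Y * T)⁻¹ = z * s := by
      calc (Y * T) * z * (Y * T)⁻¹ = Y * (T * z * T⁻¹) * Y⁻¹ := by group
        _ = Y * z * Y⁻¹ := by rw [T1]
        _ = s * z := Y1
        _ = z * s := hzsc.symm
    calc k * s * k⁻¹ = (Y * T)⁻¹ * ((T * Y) * s * (T * Y)⁻¹) * (Y * T) := by rw [hk]; group
      _ = (Y * T)⁻¹ * ((Y * T) * z * (Y * T)⁻¹) * (Y * T) := by rw [e1, e2]
      _ = z := by group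
  refine ⟨k * k, ?_, ?_⟩
  · have h5 : k * c = c * k := mul_inv_eq_iff_eq_mul.1 hkc
    rw [mul_assoc, h5, ← mul_assoc, h5, mul_assoc]
  · calc (k * k) * z * (k * k)⁻¹ = k * (k * z * k⁻¹) * k⁻¹ := by group
      _ = k * (z * s) * k⁻¹ := by rw [kz]
      _ = (k * z * k⁻¹) * (k * s * k⁻¹) := by group
      _ = z * s * z := by rw [kz, ks]
      _ = z * (s * z) := by group
      _ = z * (z * s) := by rw [hzsc]
      _ = s := by rw [← mul_assoc, hzz, one_mul]

end H33.MonFus
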