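import Mathlib
import Cfsg.Agent.Lib.H33.MonFus
import Cfsg.Agent.Lib.H33.MonCo2

set_option autoImplicit false

/-! Fusion in centralizers of elements of odd order in a group of Monster type: orders, transport. -/

namespace H33.MonFus

open Cfsg H91.MonData H91.MonType H91.LargePair H91.LeechTools H91.InvForm H91.MonConj H91.MonCross H33.MonRed H33.MonCo
open H9.CoOrder (crossSub mem_crossSub card_crossSub pres_iff')
open H9.Cross (Pres)
open H9.LeechGood (e8 co0_add co0_neg co0_sub co0_zero)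

/-- the stabiliser of a class -/
def St (v : leechLattice) : Subgroup Co0 where
  carrier := {γ | ∃ u : leechLattice, γ • v = v + (u + u)}
  one_mem' := ⟨0, by rw [one_smul, add_zero, add_zero]⟩
  mul_mem' := by
    rintro g h ⟨u, hu⟩ ⟨w, hw⟩
    refine ⟨u + g • w, ?_⟩
    rw [mul_smul, hw, co0_add, hu, co0_add]; abel
  inv_mem' := by
    rintro g ⟨u, hu⟩
    refine ⟨-(g⁻¹ • u), ?_⟩
    rw [inv_smul_eq_iff, co0_add, co0_add, co0_neg, smul_inv_smul, hu]
    abel

theorem mem_St {v : leechLattice} {γ : Co0} : γ ∈ St v ↔ ∃ u : leechLattice, γ • v = v + (u + u) := Iff.rfl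

theorem St_conj {v : leechLattice} {k : Co0} {p : GolayPt} (hk : k • v = e8 p) (γ : Co0) : γ ∈ St v ↔ k * γ * k⁻¹ ∈ crossSub := by
  rw [mem_crossSub, pres_iff' p, mem_St]
  have hk' : k⁻¹ • e8 p = v := by rw [inv_smul_eq_iff, hk]
  constructor
  · rintro ⟨u, hu⟩
    refine ⟨k • u, ?_⟩
    rw [mul_smul, mul_smul, hk', hu, co0_add, hk, co0_add, add_sub_cancel_left, two_smul]
  · rintro ⟨u, hu⟩
    refine ⟨k⁻¹ • u, ?_⟩
    have h1 : k • (γ • v) = e8 p + (u + u) := by
      have : (k * γ * k⁻¹) • e8 p = k • (γ • v) := by rw [mul_smul, mul_smul, hk']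
      rw [← this, ← two_smul ℕ u, ← hu]; abel
    have h2 : γ • v = k⁻¹ • (e8 p + (u + u)) := by rw [← h1, inv_smul_smul]
    rw [h2, co0_add, hk', co0_add]

theorem card_St {v : leechLattice} (hv : sqNorm (v : GolayPt → ℤ) = 64) : Nat.card (St v) = 4096 * 244823040 := by
  obtain ⟨k, hk⟩ := H9.LeechGood.exists_to_e8 hv none
  have h := St_conj hk
  rw [← card_crossSub]
  apply Nat.card_congr
  exact
    { toFun := fun γ => ⟨k * γ * k⁻¹, (h γ).1 γ.2⟩
      invFun := fun γ => ⟨k⁻¹ * γ * k, (h _).2 (by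
        have : k * (k⁻¹ * (γ : Co0) * k) * k⁻¹ = γ := by group
        rw [this]; exact γ.2)⟩
      left_inv := fun γ => Subtype.ext (by show k⁻¹ * (k * (γ : Co0) * k⁻¹) * k = γ; group)
      right_inv := fun γ => Subtype.ext (by show k * (k⁻¹ * (γ : Co0) * k) * k⁻¹ = γ; group) }

section
variable {G : Type*} [Group G] {z : G} {Q : Subgroup G} {Lab : leechLattice → G → Prop} {R : G → Co0 → Prop}
  {q : leechLattice → ZMod 2} {b : leechLattice → leechLattice → ZMod 2}

theorem mem_St_of (M : MonData z Q Lab R q b) {s c : G} {v : leechLattice} {γ : Co0} (hv : Lab v s) (hc : c * s = s * c)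
    (hγ : R c γ) : γ ∈ St v := by
  have h1 := M.R_conj hγ hv
  rw [hc, mul_inv_cancel_right] at h1
  exact lab_congr M h1 hv

theorem card_LL [Finite G] (M : MonData z Q Lab R q b) {s : G} {v : leechLattice} (hv : Lab v s) (hv64 : sqNorm (v : GolayPt → ℤ) = 64) :
    ∃ m, 2 * Nat.card (LL z s) = 2 ^ m * (4096 * 244823040) := by
  have hne := ne_of_short M hv (ne_zero_of_norm (by norm_num) hv64) (by rw [hv64])
  obtain ⟨φ, hφ⟩ := exists_phi M (LL z s) (fun c hc => (mem_LL.1 hc).1)
  have h5 : Nat.card φ.range * Nat.card φ.ker = Nat.card (LL z s) := by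
    rw [← Subgroup.index_ker, mul_comm, Subgroup.card_mul_index]
  have h2 : IsPGroup 2 φ.ker := by
    intro x
    obtain ⟨γ, hγ⟩ := M.R_ex' (mem_LL.1 x.1.2).1
    have hxQ : x.1.1 ∈ Q := by
      rw [M.R_Q hγ, ← H91.LeechTools.mem_center_iff, ← QuotientGroup.eq_one_iff, ← hφ x.1 γ hγ]
      exact x.2
    refine ⟨25, ?_⟩
    have h3 : (⟨x.1.1, hxQ⟩ : Q) ^ 2 ^ 25 = 1 := by rw [← M.card]; exact pow_card_eq_one'
    apply Subtype.ext; apply Subtype.ext
    have h4 := congrArg Subtype.val h3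
    exact h4
  obtain ⟨m, hm⟩ := IsPGroup.iff_card.1 h2
  refine ⟨m, ?_⟩
  have h7 : φ.range = (St v).map (QuotientGroup.mk' (Subgroup.center Co0)) := by
    ext y
    constructor
    · rintro ⟨c, rfl⟩
      obtain ⟨γ, hγ⟩ := M.R_ex' (mem_LL.1 c.2).1
      exact ⟨γ, mem_St_of M hv (mem_LL.1 c.2).2 hγ, (hφ c γ hγ).symm⟩
    · rintro ⟨γ, ⟨u, hu⟩, rfl⟩
      obtain ⟨c, hc, hcs⟩ := exists_R_comm M hv hne.1 hne.2 hu
      exact ⟨⟨c, mem_LL.2 ⟨M.R_comm hc, hcs⟩⟩, hφ _ γ hc⟩
  have h8 : Nat.card φ.range * 2 = 4096 * 244823040 := by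
    let f : St v →* Co0 ⧸ Subgroup.center Co0 := (QuotientGroup.mk' (Subgroup.center Co0)).comp (St v).subtype
    have e1 : Nat.card f.range * Nat.card f.ker = Nat.card (St v) := by
      rw [← Subgroup.index_ker, mul_comm, Subgroup.card_mul_index]
    have e2 : f.range = φ.range := by
      rw [h7]
      ext y
      constructor
      · rintro ⟨γ, rfl⟩; exact ⟨γ, γ.2, rfl⟩
      · rintro ⟨γ, hγ, rfl⟩; exact ⟨⟨γ, hγ⟩, rfl⟩
    have e3 : Nat.card f.ker = 2 := by
      rw [← card_center]
      apply Nat.card_congr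
      exact
        { toFun := fun x => ⟨x.1.1, (QuotientGroup.eq_one_iff _).1 x.2⟩
          invFun := fun x => ⟨⟨x.1, by
            rcases mem_center_iff.1 x.2 with h | h
            · rw [h]; exact (St v).one_mem
            · rw [h]
              refine ⟨-v, ?_⟩
              rw [neg_smul]; abel⟩, (QuotientGroup.eq_one_iff _).2 x.2⟩
          left_inv := fun x => rfl
          right_inv := fun x => rfl }
    rw [e2, e3, card_St hv64] at e1
    exact e1
  rw [← h5, hm]
  calc 2 * (Nat.card φ.range * 2 ^ m) = 2 ^ m * (Nat.card φ.range * 2) := by ring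
    _ = _ := by rw [h8]

theorem fact_LL [Finite G] (M : MonData z Q Lab R q b) {s : G} {v : leechLattice} (hv : Lab v s) (hv64 : sqNorm (v : GolayPt → ℤ) = 64)
    {p : ℕ} (hp : p.Prime) (hp2 : p ≠ 2) : (Nat.card (LL z s)).factorization p = (4096 * 244823040).factorization p := by
  obtain ⟨m, hm⟩ := card_LL M hv hv64
  have h0 : Nat.card (LL z s) ≠ 0 := Nat.card_pos.ne'
  have h1 := congrArg (fun n : ℕ => n.factorization p) hm
  have h2 : (2 : ℕ).factorization p = 0 := Nat.factorization_eq_zero_of_not_dvd (fun h => hp2 ((Nat.prime_dvd_prime_iff_eq hp Nat.prime_two).1 h))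
  simp only [Nat.factorization_mul (by norm_num : (2 : ℕ) ≠ 0) h0, Nat.factorization_mul (by positivity : 2 ^ m ≠ 0) (by norm_num : 4096 * 244823040 ≠ 0),
    Nat.factorization_pow, Finsupp.add_apply, Finsupp.smul_apply, h2, zero_add] at h1
  rw [h1]
  show m * 0 + _ = _
  rw [mul_zero, zero_add]
end

theorem fact7 : (4096 * 244823040).factorization 7 = 1 := by
  rw [show 4096 * 244823040 = 7 * (4096 * 34974720) by norm_num, Nat.factorization_mul (by norm_num) (by norm_num), Finsupp.add_apply,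
    Nat.Prime.factorization_self (by norm_num), Nat.factorization_eq_zero_of_not_dvd (by norm_num)]

theorem fact5 : (4096 * 244823040).factorization 5 = 1 := by
  rw [show 4096 * 244823040 = 5 * (4096 * 48964608) by norm_num, Nat.factorization_mul (by norm_num) (by norm_num), Finsupp.add_apply,
    Nat.Prime.factorization_self (by norm_num), Nat.factorization_eq_zero_of_not_dvd (by norm_num)]

end H33.MonFus
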