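import Mathlib
import Cfsg.Agent.Lib.H33.MonFus2

set_option autoImplicit false

/-! Fusion in centralizers of elements of odd order in a group of Monster type: transport. -/

namespace H33.MonFus

open Cfsg H91.MonData H91.MonType H91.LargePair H91.LeechTools H91.InvForm H91.MonConj H91.MonCross H33.MonRed H33.MonCo
open H9.CoOrder (crossSub mem_crossSub card_crossSub pres_iff')
open H9.Cross (Pres)
open H9.LeechGood (e8 co0_add co0_neg co0_sub co0_zero)

/-- transport of the data -/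
theorem transport {γ : Co0} {p : ℕ} {S A : Type} [Group S] [AddCommGroup A] {Φ : CC γ →* S} {κ : Fx γ →+ A}
    (D : CoD γ p Φ κ) (k γ' : Co0) (j : ℕ) (hj : k * γ' * k⁻¹ = γ ^ j) (hne : γ' ≠ 1) :
    ∃ (Φ' : CC γ' →* S) (κ' : Fx γ' →+ A) (hF : ∀ v ∈ Fx γ', k • v ∈ Fx γ), CoD γ' p Φ' κ' ∧
      ∀ v : Fx γ', κ' v = κ ⟨k • v.1, hF v.1 v.2⟩ := by
  have hγ' : γ' = k⁻¹ * γ ^ j * k := by rw [← hj]; group
  -- `j` is prime to `p`
  have hcop : Nat.Coprime p j := by
    rw [D.prime.coprime_iff_not_dvd]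
    rintro ⟨m, rfl⟩
    rw [pow_mul, D.pow, one_pow] at hγ'
    exact hne (by rw [hγ']; group)
  obtain ⟨i, hi⟩ : ∃ i : ℕ, (γ ^ j) ^ i = γ := by
    obtain ⟨i, -, hi⟩ := Nat.exists_mul_mod_eq_one_of_coprime hcop.symm D.prime.one_lt
    refine ⟨i, ?_⟩
    rw [← pow_mul, pow_eq_pow_mod _ D.pow, hi, pow_one]
  have hback : γ = k * γ' ^ i * k⁻¹ := by
    rw [← conj_pow, hj, hi]
  have hpow : ∀ n : ℕ, k * γ' ^ n * k⁻¹ = γ ^ (j * n) := by
    intro n
    rw [← conj_pow, hj, ← pow_mul]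
  have hC : ∀ δ, δ ∈ CC γ' ↔ k * δ * k⁻¹ ∈ CC γ := by
    intro δ
    rw [mem_CC, mem_CC]
    constructor
    · intro h
      have h1 : Commute δ (γ' ^ i) := Commute.pow_right h i
      rw [hback]
      calc k * δ * k⁻¹ * (k * γ' ^ i * k⁻¹) = k * (δ * γ' ^ i) * k⁻¹ := by group
        _ = k * (γ' ^ i * δ) * k⁻¹ := by rw [h1.eq]
        _ = _ := by group
    · intro h
      have h1 : Commute (k * δ * k⁻¹) (γ ^ j) := Commute.pow_right h j
      have h2 := h1.eq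
      rw [← hj] at h2
      have h3 : k * (δ * γ') * k⁻¹ = k * (γ' * δ) * k⁻¹ := by
        calc k * (δ * γ') * k⁻¹ = k * δ * k⁻¹ * (k * γ' * k⁻¹) := by group
          _ = _ := h2
          _ = _ := by group
      exact mul_left_cancel (mul_right_cancel h3)
  have hfixpow : ∀ (γ : Co0) (v : leechLattice) (n : ℕ), γ • v = v → γ ^ n • v = v := by
    intro γ v n h
    induction n with
    | zero => rw [pow_zero, one_smul]
    | succ n ih => rw [pow_succ, mul_smul, h, ih]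
  have hFiff : ∀ v, v ∈ Fx γ' ↔ k • v ∈ Fx γ := by
    intro v
    rw [mem_Fx, mem_Fx]
    constructor
    · intro h
      rw [hback, mul_smul, mul_smul, inv_smul_smul, hfixpow γ' v i h]
    · intro h
      rw [hγ', mul_smul, mul_smul, hfixpow γ _ j h, inv_smul_smul]
  let cj : CC γ' →* CC γ :=
    { toFun := fun δ => ⟨k * δ.1 * k⁻¹, (hC δ.1).1 δ.2⟩
      map_one' := Subtype.ext (by show k * 1 * k⁻¹ = 1; group)
      map_mul' := fun x y => Subtype.ext (by show k * (x.1 * y.1) * k⁻¹ = k * x.1 * k⁻¹ * (k * y.1 * k⁻¹); group) }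
  have hcj : Function.Surjective cj := by
    rintro ⟨δ, hδ⟩
    have h1 : k * (k⁻¹ * δ * k) * k⁻¹ = δ := by group
    exact ⟨⟨k⁻¹ * δ * k, (hC _).2 (by rw [h1]; exact hδ)⟩, Subtype.ext h1⟩
  let cf : Fx γ' →+ Fx γ :=
    { toFun := fun v => ⟨k • v.1, (hFiff v.1).1 v.2⟩
      map_zero' := Subtype.ext (co0_zero k)
      map_add' := fun v w => Subtype.ext (co0_add k v.1 w.1) }
  refine ⟨Φ.comp cj, κ.comp cf, fun v hv => (hFiff v).1 hv, ⟨D.prime, D.odd, ?_, hne, D.surj.comp hcj, ?_, ?_, ?_, ?_⟩, fun v => rfl⟩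
  · rw [hγ']
    have : k⁻¹ * γ ^ j * k = k⁻¹ * γ ^ j * k⁻¹⁻¹ := by rw [inv_inv]
    rw [this, conj_pow, ← pow_mul, mul_comm, pow_mul, D.pow, one_pow]; group
  · intro δ
    show Φ (cj δ) = 1 ↔ _
    rw [D.ker]
    constructor
    · rintro ⟨n, hn⟩
      refine ⟨i * n, ?_⟩
      have h1 : k * γ' ^ (i * n) * k⁻¹ = γ ^ n := by
        rw [pow_mul, ← conj_pow, ← hback]
      rcases hn with hn | hn
      · left
        have h2 : k * δ.1 * k⁻¹ = γ ^ n := hn
        rw [← h1] at h2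
        exact mul_left_cancel (mul_right_cancel h2)
      · right
        have h2 : k * δ.1 * k⁻¹ = neg * γ ^ n := hn
        rw [← h1] at h2
        have h3 : neg * (k * γ' ^ (i * n) * k⁻¹) = k * (neg * γ' ^ (i * n)) * k⁻¹ := by
          rw [← mul_assoc, ← mul_assoc, ← mul_assoc, neg_central]
        rw [h3] at h2
        exact mul_left_cancel (mul_right_cancel h2)
    · rintro ⟨n, hn⟩
      refine ⟨j * n, ?_⟩
      show k * δ.1 * k⁻¹ = _ ∨ k * δ.1 * k⁻¹ = _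
      rcases hn with hn | hn
      · left; rw [hn, hpow]
      · right
        rw [hn, ← hpow]
        rw [← mul_assoc, ← mul_assoc, ← mul_assoc, neg_central]
  · intro a
    obtain ⟨v, rfl⟩ := D.ksurj a
    have h1 : k • (k⁻¹ • v.1) = v.1 := smul_inv_smul k v.1
    refine ⟨⟨k⁻¹ • v.1, (hFiff _).2 (by rw [h1]; exact v.2)⟩, ?_⟩
    show κ ⟨k • (k⁻¹ • v.1), _⟩ = κ v
    congr 1
    exact Subtype.ext h1
  · intro v
    show κ (cf v) = 0 ↔ _
    rw [D.kker]
    constructor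
    · rintro ⟨u, hu⟩
      refine ⟨k⁻¹ • u, ?_⟩
      have h1 : k • v.1 = u + u := hu
      rw [← co0_add, ← h1, inv_smul_smul]
    · rintro ⟨u, hu⟩
      refine ⟨k • u, ?_⟩
      show k • v.1 = _
      rw [hu, co0_add]
  · intro δ h
    apply D.faith (cj δ)
    intro v hv
    have h1 : k • (k⁻¹ • v) = v := smul_inv_smul k v
    obtain ⟨u, hu⟩ := h (k⁻¹ • v) ((hFiff _).2 (by rw [h1]; exact hv))
    refine ⟨k • u, ?_⟩
    show (k * δ.1 * k⁻¹) • v = _
    rw [mul_smul, mul_smul, hu, co0_add, h1, co0_add]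

section
variable {G : Type*} [Group G] {z : G} {Q : Subgroup G} {Lab : leechLattice → G → Prop} {R : G → Co0 → Prop}
  {q : leechLattice → ZMod 2} {b : leechLattice → leechLattice → ZMod 2}

/-- fusion, Sylow case -/
theorem fuse_sylow [Finite G] (L : LF) (M : MonData z Q Lab R q b) {s c : G} {p : ℕ} (hp : p.Prime) (hp2 : p ≠ 2)
    (hfact : (4096 * 244823040).factorization p = 1) (hsQ : s ∈ Q) (hzs : IsConj z s) (hsz : s ≠ z)
    (hcz : c * z = z * c) (hcs : c * s = s * c) (hc : orderOf c = p) : ∃ k, k * c = c * k ∧ k * z * k⁻¹ = s := by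
  have hpf : Fact p.Prime := ⟨hp⟩
  obtain ⟨v, hv, hv64⟩ := conj_label L M hzs hsQ hsz
  have hL : (Nat.card (LL z s)).factorization p = 1 := by rw [fact_LL M hv hv64 hp hp2, hfact]
  apply fuse M hsQ hzs hsz hcz hcs
  intro g hg
  have hcL : c ∈ LL z s := mem_LL.2 ⟨hcz, hcs⟩
  have hcL' : g * c * g⁻¹ ∈ LL z s := (hg c).1 hcL
  have h1 : orderOf (⟨c, hcL⟩ : LL z s) = p := by rw [← hc]; exact Subgroup.orderOf_mk c hcL
  have h2 : orderOf (⟨g * c * g⁻¹, hcL'⟩ : LL z s) = p := by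
    rw [Subgroup.orderOf_mk, ← hc]
    exact (MulAut.conj g).orderOf_eq c
  obtain ⟨l, hl⟩ := conj_of_part hL h1 h2
  refine ⟨l.1, l.2, ?_⟩
  obtain ⟨n, hn⟩ := Subgroup.mem_zpowers_iff.1 hl
  refine Subgroup.mem_zpowers_iff.2 ⟨n, ?_⟩
  have h3 := congrArg Subtype.val hn
  have h4 : c ^ n = l.1 * (g * c * g⁻¹) * l.1⁻¹ := h3
  rw [h4]; group
end

end H33.MonFus
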