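import Mathlib
import Cfsg.Agent.Lib.H33.MonFus3
import Cfsg.Agent.Lib.H33.MonP7d

set_option autoImplicit false

/-! The centralizer of an element of order 7 in a group of Monster type. -/

namespace H33.MonFus

open Cfsg H91.MonData H91.MonType H91.LargePair H91.LeechTools H91.InvForm H91.MonConj H91.MonCross H33.MonRed H33.MonCo
open H9.CoOrder (crossSub mem_crossSub card_crossSub pres_iff')
open H9.Cross (Pres)
open H9.LeechGood (e8 co0_add co0_neg co0_sub co0_zero)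

/-- conjugating into the permutation group -/
theorem exists_conj_gm {t p : ℕ} (hp : p.Prime) (hfact : (4096 * 244823040).factorization p = 1) (ht : gm t ^ p = 1) (ht1 : gm t ≠ 1)
    {γ : Co0} (hγ : γ ^ p = 1) (hγ1 : γ ≠ 1) {v : leechLattice} (hv : sqNorm (v : GolayPt → ℤ) = 64) (h : γ ∈ St v) :
    ∃ (k : Co0) (j : ℕ), k * γ * k⁻¹ = gm t ^ j := by
  have hpf : Fact p.Prime := ⟨hp⟩
  obtain ⟨k, hk⟩ := H9.LeechGood.exists_to_e8 hv none
  have h1 := (St_conj hk γ).1 h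
  have h2 : gm t ∈ crossSub := H9.Cross.pres_mono _ _
  have o1 : orderOf (⟨gm t, h2⟩ : crossSub) = p := by rw [Subgroup.orderOf_mk]; exact orderOf_eq_prime ht ht1
  have o2 : orderOf (⟨k * γ * k⁻¹, h1⟩ : crossSub) = p := by
    rw [Subgroup.orderOf_mk]
    have : orderOf (k * γ * k⁻¹) = orderOf γ := (MulAut.conj k).orderOf_eq γ
    rw [this]; exact orderOf_eq_prime hγ hγ1
  obtain ⟨l, hl⟩ := conj_of_part (by rw [card_crossSub, hfact]) o1 o2
  have hfo : IsOfFinOrder (⟨gm t, h2⟩ : crossSub) := isOfFinOrder_iff_pow_eq_one.2 ⟨p, hp.pos, by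
    apply Subtype.ext; exact ht⟩
  obtain ⟨j, hj⟩ := hfo.mem_powers_iff_mem_zpowers.2 hl
  refine ⟨l.1 * k, j, ?_⟩
  have h3 := congrArg Subtype.val hj
  have h4 : gm t ^ j = l.1 * (k * γ * k⁻¹) * l.1⁻¹ := h3
  rw [h4]; group

section
variable {G : Type*} [Group G] [Finite G] {z : G} {Q : Subgroup G} {Lab : leechLattice → G → Prop} {R : G → Co0 → Prop}
  {q : leechLattice → ZMod 2} {b : leechLattice → leechLattice → ZMod 2}
variable {S A : Type} [Group S] [AddCommGroup A] {γ : Co0} {p : ℕ} {Φ : CC γ →* S} {κ : Fx γ →+ A}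

omit [Finite G] in
/-- commuting elements of `Q` with labels of norm 64 -/
theorem ncard_four (M : MonData z Q Lab R q b) (D : CoD γ p Φ κ) {c : G} (hc : c ^ p = 1) (hγ : R c γ) {T : Set A}
    (hT : ∀ v : Fx γ, Four v.1 ↔ κ v ∈ T) :
    {y | y ∈ Q ∧ y * c = c * y ∧ ∃ v : leechLattice, sqNorm (v : GolayPt → ℤ) = 64 ∧ Lab v y}.ncard = T.ncard * 2 := by
  classical
  choose w hw using D.ksurj
  have hex : ∀ a, ∃ y, Lab (w a).1 y := fun a => M.lab_ex _
  choose y hy using hex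
  let F : A × Bool → G := fun x => if x.2 then y x.1 else y x.1 * z
  have hF : ∀ x, Lab (w x.1).1 (F x) := by
    rintro ⟨a, bb⟩
    cases bb
    · exact lab_mul_z M (hy a)
    · exact hy a
  have hinj : Function.Injective F := by
    rintro ⟨a, b1⟩ ⟨a', b2⟩ h
    have h1 := hF (a, b1)
    have h2 := hF (a', b2)
    rw [h] at h1
    obtain ⟨u, hu⟩ := lab_congr M h1 h2
    have h3 : κ (w a - w a') = 0 := (D.kker _).2 ⟨u, by
      show (w a).1 - (w a').1 = _
      rw [hu, add_sub_cancel_left]⟩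
    rw [map_sub, hw, hw, sub_eq_zero] at h3
    subst h3
    have hz1 := M.pack.z1
    cases b1 <;> cases b2
    · rfl
    · exfalso
      have h4 : y a * z = y a := h
      exact hz1 (mul_eq_left.1 h4)
    · exfalso
      have h4 : y a = y a * z := h
      exact hz1 (left_eq_mul.1 h4)
    · rfl
  have himg : {y | y ∈ Q ∧ y * c = c * y ∧ ∃ v : leechLattice, sqNorm (v : GolayPt → ℤ) = 64 ∧ Lab v y} =
      F '' (T ×ˢ Set.univ) := by
    ext x
    constructor
    · rintro ⟨hxQ, hxc, v, hv64, hv⟩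
      obtain ⟨v', hv'F, hv'⟩ := fixed_label M D hγ hxc hxQ
      have h1 : κ ⟨v', hv'F⟩ ∈ T := by
        rw [← hT]
        obtain ⟨u, hu⟩ := lab_congr M hv' hv
        exact ⟨v, u, hv64, hu⟩
      set a := κ ⟨v', hv'F⟩ with ha
      have h2 : κ (⟨v', hv'F⟩ - w a) = 0 := by rw [map_sub, hw, ha, sub_self]
      obtain ⟨u, hu⟩ := (D.kker _).1 h2
      have hu' : v' - (w a).1 = u + u := hu
      have h3 : Lab (w a).1 x := by
        have h4 := lab_add_double M (u := -u) hv'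
        have h5 : v' + (-u + -u) = (w a).1 := by
          rw [← neg_add, ← hu']; abel
        rwa [h5] at h4
      rcases lab_eq M (hy a) h3 with h4 | h4
      · exact ⟨(a, true), ⟨h1, trivial⟩, h4.symm⟩
      · exact ⟨(a, false), ⟨h1, trivial⟩, h4.symm⟩
    · rintro ⟨⟨a, bb⟩, ⟨ha, -⟩, rfl⟩
      have h1 := hF (a, bb)
      refine ⟨M.lab_mem h1, comm_of_fixed M D hc hγ (w a).2 h1, ?_⟩
      have h2 : Four (w a).1 := (hT _).2 (by rw [hw]; exact ha)
      obtain ⟨v, u, hv64, hv⟩ := h2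
      refine ⟨v, hv64, ?_⟩
      have h3 := lab_add_double M (u := -u) h1
      have h5 : (w a).1 + (-u + -u) = v := by rw [hv]; abel
      rwa [h5] at h3
  rw [himg, Set.ncard_image_of_injective _ hinj, Set.ncard_prod, Set.ncard_univ, Nat.card_eq_fintype_card, Fintype.card_bool]

theorem held (L : LF) (M : MonData z Q Lab R q b) {Φ : CC γ →* H33.SL32.S3} {κ : Fx γ →+ (Fin 6 → ZMod 2)} (D : CoD γ 7 Φ κ)
    {T : Set (Fin 6 → ZMod 2)} (hT : ∀ v : Fx γ, Four v.1 ↔ κ v ∈ T) (hTc : T.ncard = 14)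
    {c : G} (hc : orderOf c = 7) (hγ : R c γ) {s : G} (hsQ : s ∈ Q) (hzs : IsConj z s) (hsz : s ≠ z) (hcs : c * s = s * c)
    [hn : ((Subgroup.zpowers c).subgroupOf (HH c)).Normal] : IsOfHeldType (HH c ⧸ (Subgroup.zpowers c).subgroupOf (HH c)) := by
  have hc7 : c ^ 7 = 1 := by rw [← hc]; exact pow_orderOf_eq_one c
  have hcz := M.R_comm hγ
  have hzH : z ∈ HH c := mem_HH.2 hcz.symm
  have hA : 1 < Nat.card (Fin 6 → ZMod 2) := by
    rw [Nat.card_eq_fintype_card, Fintype.card_fun, ZMod.card, Fintype.card_fin]; norm_num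
  have hAc : Nat.card (Fin 6 → ZMod 2) = 64 := by
    rw [Nat.card_eq_fintype_card, Fintype.card_fun, ZMod.card, Fintype.card_fin]; norm_num
  obtain ⟨h1, Q', hN, h2, h3, h4, h5, h6⟩ := red M D hc7 hγ hA H33.SL32.pcore hzH
  have hinjQ : ∀ x y : HH c, x.1 ∈ Q → y.1 ∈ Q → (QuotientGroup.mk x : HH c ⧸ (Subgroup.zpowers c).subgroupOf (HH c)) = QuotientGroup.mk y → x = y := by
    intro x y hx hy h
    rw [QuotientGroup.eq, Subgroup.mem_subgroupOf] at h
    have h7 := inter_eq M D.prime D.odd hc7 h (Q.mul_mem (Q.inv_mem hx) hy)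
    have h8 : x.1⁻¹ * y.1 = 1 := h7
    exact Subtype.ext (inv_mul_eq_one.1 h8)
  have hfuse : ∀ s : G, s ∈ Q → IsConj z s → s ≠ z → c * s = s * c → ∃ k, k * c = c * k ∧ k * z * k⁻¹ = s :=
    fun s hsQ hzs hsz hcs => fuse_sylow L M (by norm_num) (by norm_num) fact7 hsQ hzs hsz hcz hcs hc
  refine ⟨_, Q', hN, ⟨h1, h2, h3, ?_, ?_⟩, h5, ?_⟩
  · rw [h4, hAc]; norm_num
  · obtain ⟨k, hk, hks⟩ := hfuse s hsQ hzs hsz hcs
    have hkH : k ∈ HH c := mem_HH.2 hk
    have hsH : s ∈ HH c := mem_HH.2 hcs.symm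
    have he : (QuotientGroup.mk (⟨k, hkH⟩ : HH c) : HH c ⧸ (Subgroup.zpowers c).subgroupOf (HH c)) * QuotientGroup.mk ⟨z, hzH⟩ * (QuotientGroup.mk (⟨k, hkH⟩ : HH c))⁻¹ =
        QuotientGroup.mk ⟨s, hsH⟩ := by
      rw [← QuotientGroup.mk_mul, ← QuotientGroup.mk_inv, ← QuotientGroup.mk_mul]
      congr 1
      exact Subtype.ext hks
    refine ⟨QuotientGroup.mk ⟨k, hkH⟩, ?_, ?_⟩
    · rw [he]
      refine ⟨?_, ?_⟩
      · rw [Subgroup.mem_centralizer_singleton_iff, ← QuotientGroup.mk_mul, ← QuotientGroup.mk_mul]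
        congr 1
        exact Subtype.ext (M.pack.zc s hsQ)
      · rw [h6]
        exact ⟨⟨s, hsH⟩, hsQ, rfl⟩
    · rw [he]
      intro h
      exact hsz (congrArg Subtype.val (hinjQ ⟨s, hsH⟩ ⟨z, hzH⟩ hsQ M.pack.zQ h))
  · -- the count
    let π : HH c → HH c ⧸ (Subgroup.zpowers c).subgroupOf (HH c) := fun x => QuotientGroup.mk x
    let z' : HH c ⧸ (Subgroup.zpowers c).subgroupOf (HH c) := QuotientGroup.mk ⟨z, hzH⟩
    have hz' : z' = QuotientGroup.mk ⟨z, hzH⟩ := rfl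
    let Y : Set (HH c) := {y | y.1 ∈ Q ∧ (y.1 = z ∨ ∃ v : leechLattice, sqNorm (v : GolayPt → ℤ) = 64 ∧ Lab v y.1)}
    have e1 : (Subtype.val '' {x : Subgroup.centralizer ({z'} : Set _) | x ∈ Q' ∧ IsConj z' (x : HH c ⧸ (Subgroup.zpowers c).subgroupOf (HH c))}) = π '' Y := by
      ext x
      constructor
      · rintro ⟨x, ⟨hx1, hx2⟩, rfl⟩
        obtain ⟨y, hyQ, hy⟩ := (h6 x).1 hx1
        refine ⟨y, ⟨hyQ, ?_⟩, hy.symm⟩
        obtain ⟨g, hg⟩ := isConj_iff.1 hx2
        obtain ⟨h, rfl⟩ := QuotientGroup.mk_surjective g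
        rw [hy, hz', ← QuotientGroup.mk_mul, ← QuotientGroup.mk_inv, ← QuotientGroup.mk_mul, eq_comm, QuotientGroup.eq,
          Subgroup.mem_subgroupOf] at hg
        -- `h z h⁻¹ = y e` with `e ∈ ⟨c⟩`
        set e := y.1⁻¹ * (h.1 * z * h.1⁻¹) with he
        have heC : e ∈ Subgroup.zpowers c := hg
        have h7 : h.1 * z * h.1⁻¹ = y.1 * e := by rw [he, mul_inv_cancel_left]
        have h8 : (y.1 * e) * (y.1 * e) = 1 := by
          rw [← h7]
          calc h.1 * z * h.1⁻¹ * (h.1 * z * h.1⁻¹) = h.1 * (z * z) * h.1⁻¹ := by group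
            _ = 1 := by rw [M.pack.zz]; group
        have h9 : y.1 * e = e * y.1 := by
          obtain ⟨n, hn'⟩ := Subgroup.mem_zpowers_iff.1 heC
          rw [← hn']
          exact (Commute.zpow_right (show Commute y.1 c from mem_HH.1 y.2) n).eq
        have h10 : (y.1 * y.1) * (e * e) = 1 := by
          calc (y.1 * y.1) * (e * e) = y.1 * (y.1 * e) * e := by group
            _ = y.1 * (e * y.1) * e := by rw [h9]
            _ = (y.1 * e) * (y.1 * e) := by group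
            _ = 1 := h8
        have h11 : e * e ∈ Q := by
          have : e * e = (y.1 * y.1)⁻¹ := eq_inv_of_mul_eq_one_right h10
          rw [this]
          exact Q.inv_mem (Q.mul_mem hyQ hyQ)
        have h12 : e * e = 1 := inter_eq M D.prime D.odd hc7 ((Subgroup.zpowers c).mul_mem heC heC) h11
        have h13 : e = 1 := sq_zpowers D.odd hc7 heC h12
        rw [h13, mul_one] at h7
        by_cases hyz : y.1 = z
        · exact Or.inl hyz
        · right
          exact (conj_iff L M hzs hsQ hsz hyQ).1 ⟨isConj_iff.2 ⟨h.1, h7⟩, hyz⟩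
      · rintro ⟨y, ⟨hyQ, hy⟩, rfl⟩
        have hyz : y.1 * z = z * y.1 := M.pack.zc y.1 hyQ
        have hmem : π y ∈ Subgroup.centralizer ({z'} : Set _) := by
          rw [Subgroup.mem_centralizer_singleton_iff, hz']
          show QuotientGroup.mk y * QuotientGroup.mk _ = QuotientGroup.mk _ * QuotientGroup.mk y
          rw [← QuotientGroup.mk_mul, ← QuotientGroup.mk_mul]
          congr 1
          exact Subtype.ext hyz
        refine ⟨⟨π y, hmem⟩, ⟨(h6 _).2 ⟨y, hyQ, rfl⟩, ?_⟩, rfl⟩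
        rcases hy with hy | hy
        · have : y = ⟨z, hzH⟩ := Subtype.ext hy
          show IsConj z' (π y)
          rw [this]
        · obtain ⟨h7, h8⟩ := (conj_iff L M hzs hsQ hsz hyQ).2 hy
          obtain ⟨k, hk, hks⟩ := hfuse y.1 hyQ h7 h8 (mem_HH.1 y.2).symm
          refine isConj_iff.2 ⟨QuotientGroup.mk ⟨k, mem_HH.2 hk⟩, ?_⟩
          show QuotientGroup.mk _ * QuotientGroup.mk _ * (QuotientGroup.mk _)⁻¹ = QuotientGroup.mk y
          rw [← QuotientGroup.mk_mul, ← QuotientGroup.mk_inv, ← QuotientGroup.mk_mul]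
          congr 1
          exact Subtype.ext hks
    rw [← Set.ncard_image_of_injective _ Subtype.val_injective, e1, Set.InjOn.ncard_image (fun x hx y hy h => hinjQ x y hx.1 hy.1 h)]
    rw [← Set.ncard_image_of_injective _ Subtype.val_injective]
    have e2 : Subtype.val '' Y = insert z {y | y ∈ Q ∧ y * c = c * y ∧ ∃ v : leechLattice, sqNorm (v : GolayPt → ℤ) = 64 ∧ Lab v y} := by
      ext x
      constructor
      · rintro ⟨y, ⟨hyQ, hy | hy⟩, rfl⟩
        · left; exact hy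
        · right; exact ⟨hyQ, mem_HH.1 y.2, hy⟩
      · rintro (rfl | ⟨h7, h8, h9⟩)
        · exact ⟨⟨x, hzH⟩, ⟨M.pack.zQ, Or.inl rfl⟩, rfl⟩
        · exact ⟨⟨x, mem_HH.2 h8⟩, ⟨h7, Or.inr h9⟩, rfl⟩
    rw [e2, Set.ncard_insert_of_notMem, ncard_four M D hc7 hγ hT, hTc]
    rintro ⟨-, -, v, hv64, hv⟩
    exact (ne_of_short M hv (ne_zero_of_norm (by norm_num) hv64) (by rw [hv64])).2 rfl
end

end H33.MonFus
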