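import Mathlib
import Cfsg.Agent.Lib.H33.MonHeld

set_option autoImplicit false

/-! The extraspecial centralizer setting in the quotient of the centralizer of a subgroup of prime order. -/

namespace H33.MonFus

open Cfsg H91.MonData H91.MonType H91.LargePair H91.LeechTools H91.InvForm H91.MonConj H91.MonCross H33.MonRed H33.MonCo
open H9.CoOrder (crossSub mem_crossSub card_crossSub pres_iff')
open H9.Cross (Pres)
open H9.LeechGood (e8 co0_add co0_neg co0_sub co0_zero)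

section
variable {G : Type*} [Group G] [Finite G] {z : G} {Q : Subgroup G} {Lab : leechLattice → G → Prop} {R : G → Co0 → Prop}
  {q : leechLattice → ZMod 2} {b : leechLattice → leechLattice → ZMod 2}
variable {S A : Type} [Group S] [AddCommGroup A] {γ : Co0} {p : ℕ} {Φ : CC γ →* S} {κ : Fx γ →+ A}

theorem setting (M : MonData z Q Lab R q b) (D : CoD γ p Φ κ) {w : ℕ} (hw : 0 < w) (hAc : Nat.card A = 2 ^ (2 * w))
    (hcore : pCore 2 S = ⊥) {c : G} (hc : orderOf c = p) (hγ : R c γ) {s k : G} (hsQ : s ∈ Q) (hsz : s ≠ z) (hcs : c * s = s * c)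
    (hk : k * c = c * k) (hks : k * z * k⁻¹ = s) [hn : ((Subgroup.zpowers c).subgroupOf (HH c)).Normal] :
    ∃ (z' : HH c ⧸ (Subgroup.zpowers c).subgroupOf (HH c)) (Q' : Subgroup (Subgroup.centralizer ({z'} : Set _))) (_ : Q'.Normal),
      IsExtraspecialCentralizerSetting z' Q' w ∧ Nonempty ((Subgroup.centralizer ({z'} : Set _)) ⧸ Q' ≃* S) := by
  have hc7 : c ^ p = 1 := by rw [← hc]; exact pow_orderOf_eq_one c
  have hcz := M.R_comm hγ
  have hzH : z ∈ HH c := mem_HH.2 hcz.symm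
  have hA : 1 < Nat.card A := by
    rw [hAc]; exact Nat.one_lt_two_pow (by omega)
  obtain ⟨h1, Q', hN, h2, h3, h4, h5, h6⟩ := red M D hc7 hγ hA hcore hzH
  have hinjQ : ∀ x y : HH c, x.1 ∈ Q → y.1 ∈ Q → (QuotientGroup.mk x : HH c ⧸ (Subgroup.zpowers c).subgroupOf (HH c)) = QuotientGroup.mk y → x = y := by
    intro x y hx hy h
    rw [QuotientGroup.eq, Subgroup.mem_subgroupOf] at h
    have h7 := inter_eq M D.prime D.odd hc7 h (Q.mul_mem (Q.inv_mem hx) hy)
    have h8 : x.1⁻¹ * y.1 = 1 := h7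
    exact Subtype.ext (inv_mul_eq_one.1 h8)
  refine ⟨_, Q', hN, ⟨h1, h2, h3, ?_, ?_⟩, h5⟩
  · rw [h4, hAc]; ring
  · have hkH : k ∈ HH c := mem_HH.2 hk
    have hsH : s ∈ HH c := mem_HH.2 hcs.symm
    have he : (QuotientGroup.mk (⟨k, hkH⟩ : HH c) : HH c ⧸ (Subgroup.zpowers c).subgroupOf (HH c)) * QuotientGroup.mk ⟨z, hzH⟩ * (QuotientGroup.mk (⟨k, hkH⟩ : HH c))⁻¹ =
        QuotientGroup.mk ⟨s, hsH⟩ := by
      rw [← QuotientGroup.mk_mul, ← QuotientGroup.mk_inv, ← QuotientGroup.mk_mul]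
      congr 1
      exact Subtype.ext hks
    refine ⟨QuotientGroup.mk ⟨k, hkH⟩, ?_, ?_⟩
    · rw [he]
      refine ⟨?_, ?_⟩
      · rw [Subgroup.mem_centralizer_singleton_iff, ← QuotientGroup.mk_mul, ← QuotientGroup.mk_mul]
        congr 1
        exact Subtype.ext (M.pack.zc s hsQ)
      · rw [h6]
        exact ⟨⟨s, hsH⟩, hsQ, rfl⟩
    · rw [he]
      intro h
      exact hsz (congrArg Subtype.val (hinjQ ⟨s, hsH⟩ ⟨z, hzH⟩ hsQ M.pack.zQ h))
end

end H33.MonFus
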