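import Mathlib
import Cfsg.Agent.Lib.H33.MonSet
import Cfsg.Agent.Lib.H33.MonP3d
import Cfsg.Agent.Lib.H33.M24C3b

set_option autoImplicit false

/-! The permutation action of the joint centralizer of two involutions in a group of Monster type. -/

namespace H33.MonFus

open Cfsg H91.MonData H91.MonType H91.LargePair H91.LeechTools H91.InvForm H91.MonConj H91.MonCross H33.MonRed H33.MonCo
open H9.CoOrder (crossSub mem_crossSub card_crossSub pres_iff')
open H9.Cross (Pres mono_e8 pres_mono mono_of_pres)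
open H9.LeechGood (e8 co0_add co0_neg co0_sub co0_zero coe_e8 mono)
open H32.M24Kit (pm pm_mem)
open H8.GolayCode H8.GolayCount H8.GolayBasic

/-- elements of order `p` in the same coset of a normal 2-group generate conjugate subgroups -/
theorem conj_coset {L : Type*} [Group L] [Finite L] (N : Subgroup L) [hNn : N.Normal] (hN : IsPGroup 2 N) {p : ℕ} [hp : Fact p.Prime]
    (hp2 : p ≠ 2) {x y : L} (hx : orderOf x = p) (hy : orderOf y = p) (h : y * x⁻¹ ∈ N) : ∃ l, l * y * l⁻¹ ∈ Subgroup.zpowers x := by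
  have h2 : Fact (Nat.Prime 2) := ⟨Nat.prime_two⟩
  obtain ⟨k, hk⟩ := IsPGroup.iff_card.1 hN
  set π := QuotientGroup.mk' N with hπ
  have hs : Function.Surjective π := QuotientGroup.mk'_surjective N
  have hxN : x ∉ N := by
    intro hxN
    obtain ⟨m, hm⟩ := hN ⟨x, hxN⟩
    have h3 : x ^ 2 ^ m = 1 := congrArg Subtype.val hm
    have h4 := orderOf_dvd_of_pow_eq_one h3
    rw [hx] at h4
    exact hp2 ((Nat.prime_dvd_prime_iff_eq hp.out Nat.prime_two).1 (hp.out.dvd_of_dvd_pow h4))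
  have ho : orderOf (π x) = p := by
    apply orderOf_eq_prime
    · rw [← map_pow, ← hx, pow_orderOf_eq_one, map_one]
    · intro h3
      exact hxN ((QuotientGroup.eq_one_iff x).1 h3)
  set K := Subgroup.zpowers (π x) with hK
  set H := K.comap π with hH
  have e1 : H.index = K.index := Subgroup.index_comap_of_surjective K hs
  have e2 : Nat.card H * H.index = Nat.card L := Subgroup.card_mul_index H
  have e3 : Nat.card K * K.index = Nat.card (L ⧸ N) := Subgroup.card_mul_index K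
  have e4 : Nat.card L = Nat.card (L ⧸ N) * Nat.card N := Subgroup.card_eq_card_quotient_mul_card_subgroup N
  have e5 : Nat.card K = p := by rw [hK, Nat.card_zpowers, ho]
  have e6 : Nat.card H = p * 2 ^ k := by
    have hne : K.index ≠ 0 := Subgroup.index_ne_zero_of_finite
    rw [e1, e4, ← e3, e5, hk] at e2
    have h3 : Nat.card H * K.index = (p * 2 ^ k) * K.index := by rw [e2]; ring
    exact Nat.eq_of_mul_eq_mul_right (Nat.pos_of_ne_zero hne) h3
  have e7 : (Nat.card H).factorization p = 1 := by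
    have h3 : ¬ p ∣ 2 := fun h3 => hp2 ((Nat.prime_dvd_prime_iff_eq hp.out Nat.prime_two).1 h3)
    rw [e6, Nat.factorization_mul hp.out.ne_zero (by positivity), Finsupp.add_apply, Nat.Prime.factorization_self hp.out,
      Nat.factorization_pow, Finsupp.smul_apply, Nat.factorization_eq_zero_of_not_dvd h3, smul_eq_mul, mul_zero, add_zero]
  have hxH : x ∈ H := Subgroup.mem_zpowers _
  have hyH : y ∈ H := by
    have : y = (y * x⁻¹) * x := by group
    rw [this]
    refine H.mul_mem ?_ hxH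
    show π (y * x⁻¹) ∈ K
    have h3 : π (y * x⁻¹) = 1 := (QuotientGroup.eq_one_iff _).2 h
    rw [h3]; exact K.one_mem
  obtain ⟨l, hl⟩ := conj_of_part e7 (x := (⟨x, hxH⟩ : H)) (y := ⟨y, hyH⟩) (by rw [Subgroup.orderOf_mk, hx]) (by rw [Subgroup.orderOf_mk, hy])
  refine ⟨l.1, ?_⟩
  obtain ⟨n, hn⟩ := Subgroup.mem_zpowers_iff.1 hl
  exact Subgroup.mem_zpowers_iff.2 ⟨n, congrArg Subtype.val hn⟩

theorem e8_inj {q q' : GolayPt} (h : e8 q = e8 q' ∨ e8 q = -e8 q') : q = q' := by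
  rcases h with h | h
  · have := congrArg (fun x : leechLattice => (x : GolayPt → ℤ) q) h
    simp only [coe_e8, Pi.single_eq_same] at this
    by_contra hpp
    rw [Pi.single_eq_of_ne hpp] at this
    norm_num at this
  · have := congrArg (fun x : leechLattice => (x : GolayPt → ℤ) q) h
    simp only [coe_e8, Pi.single_eq_same, AddSubgroup.coe_neg, Pi.neg_apply] at this
    by_contra hpp
    rw [Pi.single_eq_of_ne hpp] at this
    norm_num at this

/-- the permutation induced by an element on the frame -/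
def IsPm (g : Co0) (π : Equiv.Perm GolayPt) : Prop := ∀ p, g • e8 p = e8 (π p) ∨ g • e8 p = -e8 (π p)

theorem IsPm.mul {g h : Co0} {π ρ : Equiv.Perm GolayPt} (h1 : IsPm g π) (h2 : IsPm h ρ) : IsPm (g * h) (π * ρ) := by
  intro p
  rw [mul_smul, Equiv.Perm.mul_apply]
  rcases h2 p with h3 | h3 <;> rcases h1 (ρ p) with h4 | h4
  · left; rw [h3, h4]
  · right; rw [h3, h4]
  · right; rw [h3, co0_neg, h4]
  · left; rw [h3, co0_neg, h4, neg_neg]

theorem IsPm.uniq {g : Co0} {π ρ : Equiv.Perm GolayPt} (h1 : IsPm g π) (h2 : IsPm g ρ) : π = ρ := by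
  ext p : 1
  apply e8_inj
  rcases h1 p with h3 | h3 <;> rcases h2 p with h4 | h4 <;> rw [h3] at h4
  · left; exact h4
  · right; exact h4
  · right; rw [← h4, neg_neg]
  · left; exact neg_injective h4

theorem IsPm.neg {g : Co0} {π : Equiv.Perm GolayPt} (h : IsPm g π) : IsPm (neg * g) π := by
  intro p
  rw [mul_smul, neg_smul]
  rcases h p with h3 | h3
  · right; rw [h3]
  · left; rw [h3, neg_neg]

theorem isPm_mono {σ : Equiv.Perm GolayPt} (hσ : σ ∈ M24) {c : Finset GolayPt} (hc : c ∈ GS) : IsPm (mono σ hσ c hc) σ := by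
  intro p
  rw [mono_e8]
  split_ifs
  · right; rfl
  · left; rfl

theorem isPm_gm (t : ℕ) : IsPm (gm t) (pm t) := fun p => Or.inl (gm_e8 t p)

theorem IsPm.sq {g : Co0} (h : IsPm g 1) : g * g = 1 := by
  apply ext8
  intro k _
  rw [mul_smul, one_smul]
  rcases h (H8.GolayCode.pt k) with h3 | h3
  · rw [Equiv.Perm.one_apply] at h3; rw [h3, h3]
  · rw [Equiv.Perm.one_apply] at h3; rw [h3, co0_neg, h3, neg_neg]

theorem exists_isPm {g : Co0} (hg : g ∈ crossSub) : ∃ π ∈ M24, IsPm g π := by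
  obtain ⟨σ, hσ, c, hc, rfl⟩ := mono_of_pres hg
  exact ⟨σ, hσ, isPm_mono hσ hc⟩

section
variable {G : Type*} [Group G] [Finite G] {z : G} {Q : Subgroup G} {Lab : leechLattice → G → Prop} {R : G → Co0 → Prop}
  {q : leechLattice → ZMod 2} {b : leechLattice → leechLattice → ZMod 2}

omit [Finite G] in
/-- the permutation action of the joint centralizer -/
theorem exists_psi (M : MonData z Q Lab R q b) {s : G} {v : leechLattice} {k₀ : Co0} (hv : Lab v s) (hv64 : sqNorm (v : GolayPt → ℤ) = 64)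
    (hk : k₀ • v = e8 none) : ∃ ψ : LL z s →* Equiv.Perm GolayPt, (∀ (x : LL z s) (δ : Co0), R x δ → IsPm (k₀ * δ * k₀⁻¹) (ψ x)) ∧
      (∀ x, ψ x ∈ M24) ∧ (∀ π ∈ M24, ∃ x, ψ x = π) ∧ IsPGroup 2 ψ.ker := by
  have hex : ∀ x : LL z s, ∃ δ, R x δ := fun x => M.R_ex' (mem_LL.1 x.2).1
  choose f hf using hex
  have hcr : ∀ (x : LL z s) (δ : Co0), R x δ → k₀ * δ * k₀⁻¹ ∈ crossSub := fun x δ h =>
    (St_conj hk δ).1 (mem_St_of M hv (mem_LL.1 x.2).2 h)
  have hp : ∀ x : LL z s, ∃ π ∈ M24, IsPm (k₀ * f x * k₀⁻¹) π := fun x => exists_isPm (hcr x _ (hf x))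
  choose ρ hρ1 hρ2 using hp
  have key : ∀ (x : LL z s) (δ : Co0), R x δ → IsPm (k₀ * δ * k₀⁻¹) (ρ x) := by
    intro x δ h
    rcases R_eq M (hf x) h with h1 | h1
    · rw [h1]; exact hρ2 x
    · have h2 : k₀ * δ * k₀⁻¹ = neg * (k₀ * f x * k₀⁻¹) := by
        rw [h1, ← mul_assoc, ← mul_assoc, ← mul_assoc, neg_central]
      rw [h2]; exact (hρ2 x).neg
  let ψ : LL z s →* Equiv.Perm GolayPt := MonoidHom.mk' ρ (by
    intro x y
    have h1 : IsPm (k₀ * (f x * f y) * k₀⁻¹) (ρ (x * y)) := key (x * y) _ (M.R_mul (hf x) (hf y))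
    have h2 : k₀ * (f x * f y) * k₀⁻¹ = (k₀ * f x * k₀⁻¹) * (k₀ * f y * k₀⁻¹) := by group
    rw [h2] at h1
    exact h1.uniq ((hρ2 x).mul (hρ2 y)))
  refine ⟨ψ, key, hρ1, ?_, ?_⟩
  · intro π hπ
    have h1 : mono π hπ ∅ H8.GolayBasic.empty_mem ∈ crossSub := pres_mono _ _
    have h2 : k₀⁻¹ * mono π hπ ∅ H8.GolayBasic.empty_mem * k₀ ∈ St v := by
      rw [St_conj hk]
      have : k₀ * (k₀⁻¹ * mono π hπ ∅ H8.GolayBasic.empty_mem * k₀) * k₀⁻¹ = mono π hπ ∅ H8.GolayBasic.empty_mem := by group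
      rw [this]; exact h1
    obtain ⟨u, hu⟩ := h2
    have hne := ne_of_short M hv (ne_zero_of_norm (by norm_num) hv64) (by rw [hv64])
    obtain ⟨c, hc, hcs⟩ := exists_R_comm M hv hne.1 hne.2 hu
    refine ⟨⟨c, mem_LL.2 ⟨M.R_comm hc, hcs⟩⟩, ?_⟩
    have h3 := key ⟨c, mem_LL.2 ⟨M.R_comm hc, hcs⟩⟩ _ hc
    have h4 : k₀ * (k₀⁻¹ * mono π hπ ∅ H8.GolayBasic.empty_mem * k₀) * k₀⁻¹ = mono π hπ ∅ H8.GolayBasic.empty_mem := by group
    rw [h4] at h3
    exact h3.uniq (isPm_mono _ _)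
  · intro x
    have h1 : IsPm (k₀ * f x.1 * k₀⁻¹) 1 := by
      have h2 := key x.1 _ (hf x.1)
      have h3 : ρ x.1 = 1 := x.2
      rwa [h3] at h2
    have h2 := h1.sq
    have h3 : f x.1 * f x.1 = 1 := by
      have h4 : k₀ * (f x.1 * f x.1) * k₀⁻¹ = k₀ * 1 * k₀⁻¹ := by
        calc k₀ * (f x.1 * f x.1) * k₀⁻¹ = (k₀ * f x.1 * k₀⁻¹) * (k₀ * f x.1 * k₀⁻¹) := by group
          _ = 1 := h2
          _ = _ := by group
      exact mul_left_cancel (mul_right_cancel h4)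
    have h4 := M.R_mul (hf x.1) (hf x.1)
    rw [h3] at h4
    have h5 : x.1.1 * x.1.1 ∈ Q := (M.R_Q h4).2 (Or.inl rfl)
    refine ⟨26, ?_⟩
    have h6 : (⟨x.1.1 * x.1.1, h5⟩ : Q) ^ 2 ^ 25 = 1 := by rw [← M.card]; exact pow_card_eq_one'
    apply Subtype.ext; apply Subtype.ext
    have h7 : (x.1.1 * x.1.1) ^ 2 ^ 25 = 1 := congrArg Subtype.val h6
    show x.1.1 ^ 2 ^ 26 = 1
    rw [show 2 ^ 26 = 2 * 2 ^ 25 by norm_num, pow_mul, pow_two, h7]
end

end H33.MonFus
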