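import Mathlib
import Cfsg.Agent.Lib.H33.MonPsi

set_option autoImplicit false

/-! Lifting normalizers of elements of odd order from `Co0`. -/

namespace H33.MonFus

open Cfsg H91.MonData H91.MonType H91.LargePair H91.LeechTools H91.InvForm H91.MonConj H91.MonCross H33.MonRed H33.MonCo

/-- elements of order `p` in the same coset of a normal 2-group are conjugate in it -/
theorem conj_coset' {L : Type*} [Group L] [Finite L] (N : Subgroup L) [hNn : N.Normal] (hN : IsPGroup 2 N) {p : ℕ} [hp : Fact p.Prime]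
    (hp2 : p ≠ 2) {x y : L} (hx : orderOf x = p) (hy : orderOf y = p) (h : y * x⁻¹ ∈ N) : ∃ l ∈ N, l * y * l⁻¹ = x := by
  have h2 : Fact (Nat.Prime 2) := ⟨Nat.prime_two⟩
  set π := QuotientGroup.mk' N with hπ
  set H := (Subgroup.zpowers (π x)).comap π with hH
  have hyx : π y = π x := by
    have h3 : π (y * x⁻¹) = 1 := (QuotientGroup.eq_one_iff _).2 h
    rw [map_mul, map_inv, mul_inv_eq_one] at h3
    exact h3
  have hxH : x ∈ H := Subgroup.mem_zpowers _
  have hyH : y ∈ H := by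
    show π y ∈ Subgroup.zpowers (π x)
    rw [hyx]; exact Subgroup.mem_zpowers _
  have hN' : IsPGroup 2 (N.subgroupOf H) := by
    apply IsPGroup.comap_of_injective hN H.subtype (Subgroup.subtype_injective H)
  obtain ⟨l, hl⟩ := conj_coset (N.subgroupOf H) hN' (p := p) hp2 (x := ⟨x, hxH⟩) (y := ⟨y, hyH⟩)
    (by rw [← hx]; exact (Subgroup.orderOf_mk x hxH)) (by rw [← hy]; exact (Subgroup.orderOf_mk y hyH)) h
  obtain ⟨j, hj⟩ := Subgroup.mem_zpowers_iff.1 hl
  have hj' : x ^ j = l.1 * y * l.1⁻¹ := congrArg Subtype.val hj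
  obtain ⟨i, hi⟩ := Subgroup.mem_zpowers_iff.1 (show π l.1 ∈ Subgroup.zpowers (π x) from l.2)
  have hu : x ^ (-i) * l.1 ∈ N := by
    rw [← QuotientGroup.eq_one_iff]
    show π (x ^ (-i) * l.1) = 1
    rw [map_mul, map_zpow, ← hi, ← zpow_add, neg_add_cancel, zpow_zero]
  refine ⟨x ^ (-i) * l.1, hu, ?_⟩
  have e1 : (x ^ (-i) * l.1) * y * (x ^ (-i) * l.1)⁻¹ = x ^ j := by
    calc (x ^ (-i) * l.1) * y * (x ^ (-i) * l.1)⁻¹ = x ^ (-i) * (l.1 * y * l.1⁻¹) * (x ^ (-i))⁻¹ := by group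
      _ = x ^ (-i) * x ^ j * (x ^ (-i))⁻¹ := by rw [← hj']
      _ = x ^ j := by group
  have e2 : x ^ (j - 1) ∈ N := by
    rw [← QuotientGroup.eq_one_iff]
    show π (x ^ (j - 1)) = 1
    have e3 : x ^ (j - 1) = x ^ j * x⁻¹ := by rw [zpow_sub, zpow_one]
    have h5 : π (x ^ (-i) * l.1) = 1 := (QuotientGroup.eq_one_iff _).2 hu
    rw [e3, ← e1, map_mul, map_mul, map_mul, map_inv, map_inv, h5, hyx]
    group
  have e4 : x ^ (j - 1) = 1 := by
    obtain ⟨m, hm⟩ := hN ⟨_, e2⟩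
    have h3 : (x ^ (j - 1)) ^ 2 ^ m = 1 := congrArg Subtype.val hm
    have h4 := orderOf_dvd_of_pow_eq_one h3
    have h5 : orderOf (x ^ (j - 1)) ∣ p := by
      apply orderOf_dvd_of_pow_eq_one
      rw [← zpow_natCast, ← zpow_mul, mul_comm, zpow_mul, zpow_natCast, ← hx, pow_orderOf_eq_one, one_zpow]
    have h6 : Nat.Coprime (2 ^ m) p := Nat.Coprime.pow_left _ ((Nat.coprime_primes Nat.prime_two hp.out).2 (Ne.symm hp2))
    have h7 : orderOf (x ^ (j - 1)) = 1 := Nat.eq_one_of_dvd_coprimes h6 h4 h5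
    exact orderOf_eq_one_iff.1 h7
  rw [e1]
  calc x ^ j = x ^ (j - 1) * x := by rw [zpow_sub, zpow_one, inv_mul_cancel_right]
    _ = x := by rw [e4, one_mul]

section
variable {G : Type*} [Group G] [Finite G] {z : G} {Q : Subgroup G} {Lab : leechLattice → G → Prop} {R : G → Co0 → Prop}
  {q : leechLattice → ZMod 2} {b : leechLattice → leechLattice → ZMod 2}

theorem lift_pow (M : MonData z Q Lab R q b) {c : G} {γ δ : Co0} {p : ℕ} (hp : p.Prime) (hp2 : p ≠ 2) (hc : orderOf c = p)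
    (hγ : R c γ) {a : ℕ} (ha : p.Coprime a) (h : δ * γ = γ ^ a * δ) : ∃ g, R g δ ∧ g * c = c ^ a * g := by
  obtain ⟨d, hd⟩ := M.R_ex δ
  have hpf : Fact p.Prime := ⟨hp⟩
  set C := Subgroup.centralizer ({z} : Set G) with hC
  have memC : ∀ {x}, x ∈ C ↔ x * z = z * x := Subgroup.mem_centralizer_singleton_iff
  have hcz := M.R_comm hγ
  have hdz := M.R_comm hd
  have hcC : c ∈ C := memC.2 hcz
  have hdC : d ∈ C := memC.2 hdz
  have hNn : (Q.subgroupOf C).Normal := by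
    constructor
    intro n hn g
    exact M.pack.N g.1 (memC.1 g.2) n.1 hn
  have hN2 : IsPGroup 2 (Q.subgroupOf C) :=
    IsPGroup.comap_of_injective (isPGroup_of_card M.card) C.subtype (Subgroup.subtype_injective C)
  have hxC : c ^ a ∈ C := C.pow_mem hcC a
  have hyC : d * c * d⁻¹ ∈ C := C.mul_mem (C.mul_mem hdC hcC) (C.inv_mem hdC)
  obtain ⟨l, hlN, hl⟩ := conj_coset' (Q.subgroupOf C) hN2 (p := p) hp2 (x := ⟨c ^ a, hxC⟩) (y := ⟨d * c * d⁻¹, hyC⟩)
    (by
      rw [Subgroup.orderOf_mk, Nat.Coprime.orderOf_pow (by rw [hc]; exact ha), hc])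
    (by
      rw [Subgroup.orderOf_mk, ← hc]
      exact (MulAut.conj d).orderOf_eq c)
    (by
      rw [Subgroup.mem_subgroupOf]
      have h1 := M.R_mul (M.R_mul (M.R_mul hd hγ) (M.R_inv hd)) (M.R_inv (R_pow M hγ a))
      refine (M.R_Q h1).2 (Or.inl ?_)
      rw [h]; group)
  refine ⟨l.1 * d, ?_, ?_⟩
  · have := M.R_mul (M.R_one hlN) hd
    rwa [one_mul] at this
  · have h1 : l.1 * (d * c * d⁻¹) * l.1⁻¹ = c ^ a := congrArg Subtype.val hl
    rw [← h1]; group
end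

end H33.MonFus
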