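import Mathlib
import Cfsg.Agent.Lib.H33.CoA
import Cfsg.Agent.Lib.H33.MonLift
import Cfsg.Agent.Lib.H33.Oct9

set_option autoImplicit false

/-! The group of isometries which extend to the commutator subgroup; action of a group on an extraspecial normal subgroup. -/

namespace H33.CoT

open Cfsg H86.OutExtra Matrix QuadraticMap H49.OrthAdj H48.QuadStd H91.MonsterForm

variable {m k p : ℕ} {q1 : QuadraticForm (ZMod 2) (I1 m k → ZMod 2)} {qW : (Fin k → ZMod 2) → ZMod 2}
  {a1 : Matrix (Fin k) (Fin k) (ZMod 2)} {w0 : Fin k → ZMod 2}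

noncomputable def XX (F : FD m k q1 qW) : Subgroup (G (q0 m)) := (commutator (G q1)).comap (extG F)

theorem comm_le_of_index_two {L : Type*} [Group L] {R : Subgroup L} (h5 : R.index = 2) : commutator L ≤ R := by
  have hN : R.Normal := Subgroup.normal_of_index_eq_two h5
  rw [commutator_def, Subgroup.commutator_le]
  intro a _ b _
  rw [← QuotientGroup.eq_one_iff]
  have hc : IsCyclic (L ⧸ R) := by
    have : Fact (Nat.Prime 2) := ⟨Nat.prime_two⟩
    exact isCyclic_of_prime_card (p := 2) (by rw [← Subgroup.index]; exact h5)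
  rw [commutatorElement_def]
  have h6 : ((a * b * a⁻¹ * b⁻¹ : L) : L ⧸ R) = (a : L ⧸ R) * (b : L ⧸ R) * (a : L ⧸ R)⁻¹ * (b : L ⧸ R)⁻¹ := rfl
  have h7 : (a : L ⧸ R) * (b : L ⧸ R) = (b : L ⧸ R) * (a : L ⧸ R) := by
    obtain ⟨g, hg⟩ := hc.exists_generator
    obtain ⟨i, hi⟩ := Subgroup.mem_zpowers_iff.1 (hg (a : L ⧸ R))
    obtain ⟨j, hj⟩ := Subgroup.mem_zpowers_iff.1 (hg (b : L ⧸ R))
    rw [← hi, ← hj, ← _root_.zpow_add, ← _root_.zpow_add, add_comm]
  rw [h6, h7]; group

def uu (m : ℕ) : I0 m → ZMod 2 := Sum.elim 0 ![1, 0]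

theorem q0_uu (m : ℕ) : q0 m (uu m) = 1 := by
  rw [qMinus_apply, uu]; simp

theorem refl_not_mem (F : FD m k q1 qW) (W : WD k p qW a1 w0) (h8 : Fintype.card (I1 m k) ≠ 4) (v : I0 m → ZMod 2) (hv : q0 m v ≠ 0) :
    R (q0 m) v hv ∉ XX F := by
  intro hm
  have hv1 : q0 m v = 1 := by
    have : ∀ a : ZMod 2, a ≠ 0 → a = 1 := by decide
    exact this _ hv
  have h0 : q1 (Sum.elim v 0) = 1 := by rw [F.sum, hv1, W.zero, add_zero]
  have hne : q1 (Sum.elim v 0) ≠ 0 := by rw [h0]; exact one_ne_zero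
  have he : extG F (R (q0 m) v hv) = R q1 (Sum.elim v 0) hne := by
    apply mt_ext
    intro v'
    obtain ⟨y, w, rfl⟩ := eta v'
    rw [extG_mulVec, R_mulVec, R_mulVec, h0, hv1, polar_sum F, zero_add, W.zero]
    funext i
    rcases i with i | i <;> simp
  obtain ⟨D⟩ := H17.DicksonInv.exists_data q1
  have h1 : R q1 (Sum.elim v 0) hne ∈ commutator (G q1) := by rw [← he]; exact hm
  rw [mem_iff_dickson q1 F.nd (Or.inr h8) D, H17.DicksonInv.dickson_refl] at h1
  have h4 : (1 : ZMod 2) = 0 := Multiplicative.ofAdd.injective h1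
  exact one_ne_zero h4

theorem XX_index (F : FD m k q1 qW) (W : WD k p qW a1 w0) (h8 : Fintype.card (I1 m k) ≠ 4) : (XX F).index = 2 := by
  have h1 := (H17.DicksonInv.main_even (Q := q1) F.nd (by simp; omega) (Or.inr h8)).1
  have h2 : (XX F).index ∣ 2 := by
    have h4 := Subgroup.relIndex_dvd_index_of_normal (commutator (G q1)) (extG F).range
    rw [h1] at h4
    rw [XX, Subgroup.index_comap]
    exact h4
  rcases (Nat.dvd_prime Nat.prime_two).1 h2 with h3 | h3
  · exfalso
    apply refl_not_mem F W h8 (uu m) (by rw [q0_uu]; exact one_ne_zero)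
    rw [Subgroup.index_eq_one.1 h3]; exact Subgroup.mem_top _
  · exact h3

theorem XX_eq (F : FD m k q1 qW) (W : WD k p qW a1 w0) (h8 : Fintype.card (I1 m k) ≠ 4)
    (h0 : (commutator (G (q0 m))).index = 2) : XX F = commutator (G (q0 m)) := by
  have h1 := XX_index F W h8
  have h2 := comm_le_of_index_two h1
  have h3 := Subgroup.relIndex_mul_index h2
  rw [h0, h1] at h3
  exact le_antisymm (Subgroup.relIndex_eq_one.1 (by omega)) h2

section QDs
variable {E : Type*} [Group E] {ι : Type} [Fintype ι] [DecidableEq ι] {π : E → ι → ZMod 2} {z : E} {Q : QuadraticForm (ZMod 2) (ι → ZMod 2)}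

theorem zm (a : ZMod 2) : a = 0 ∨ a = 1 := by revert a; decide

omit [Fintype ι] [DecidableEq ι] in
theorem sq_one (h : QD π z Q) (x : E) : (Q (π x) = 0 ∧ x * x = 1) ∨ (Q (π x) = 1 ∧ x * x = z) := by
  rcases zm (Q (π x)) with h1 | h1
  · exact Or.inl ⟨h1, (h.sq x).2 h1⟩
  · right
    refine ⟨h1, ?_⟩
    rcases h.xs.sq x with h2 | h2
    · rw [h.sq, h1] at h2
      exact absurd h2 one_ne_zero
    · exact h2

theorem comm_iff (h : QD π z Q) (x y : E) : x * y = y * x ↔ polar Q (π x) (π y) = 0 := by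
  have hz := h.xs.sq_ζ
  have hz1 := h.xs.ne
  have hc := h.xs.comm
  have hp : polar Q (π x) (π y) = Q (π (x * y)) - Q (π x) - Q (π y) := by rw [h.mul]; rfl
  rw [hp]
  have e0 : (x * y) * (x * y) = x * (y * x) * y := by group
  constructor
  · intro hxy
    have e1 : (x * y) * (x * y) = (x * x) * (y * y) := by rw [e0, ← hxy]; group
    rcases sq_one h x with ⟨h1, h2⟩ | ⟨h1, h2⟩ <;> rcases sq_one h y with ⟨h3, h4⟩ | ⟨h3, h4⟩ <;>
      rcases sq_one h (x * y) with ⟨h5, h6⟩ | ⟨h5, h6⟩ <;> rw [h1, h3, h5] <;> rw [h2, h4, h6] at e1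
    · decide
    · rw [mul_one] at e1; exact absurd e1 hz1
    · rw [one_mul] at e1; exact absurd e1.symm hz1
    · decide
    · rw [mul_one] at e1; exact absurd e1.symm hz1
    · decide
    · decide
    · rw [hz] at e1; exact absurd e1 hz1
  · intro hpol
    rcases h.xs.cm x y with h7 | h7
    · exact h7.symm
    · exfalso
      have e1 : (x * y) * (x * y) = z * ((x * x) * (y * y)) := by
        rw [e0, h7]
        calc x * (z * (x * y)) * y = (x * z) * x * y * y := by group
          _ = (z * x) * x * y * y := by rw [hc]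
          _ = _ := by group
      rcases sq_one h x with ⟨h1, h2⟩ | ⟨h1, h2⟩ <;> rcases sq_one h y with ⟨h3, h4⟩ | ⟨h3, h4⟩ <;>
        rcases sq_one h (x * y) with ⟨h5, h6⟩ | ⟨h5, h6⟩ <;> rw [h1, h3, h5] at hpol <;> rw [h2, h4, h6] at e1
      · rw [mul_one, mul_one] at e1; exact hz1 e1.symm
      · exact absurd hpol (by decide)
      · exact absurd hpol (by decide)
      · rw [one_mul, hz] at e1; exact hz1 e1
      · exact absurd hpol (by decide)
      · rw [mul_one, hz] at e1; exact hz1 e1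
      · rw [hz, mul_one] at e1; exact hz1 e1.symm
      · exact absurd hpol (by decide)
end QDs

section C
variable {C : Type*} [Group C] [Finite C] {Qc : Subgroup C} [hQn : Qc.Normal] {π : Qc → I1 m k → ZMod 2} {zc : Qc}

noncomputable def rho (h : QD π zc q1) : C →* G q1 := (Phi h).comp MulAut.conjNormal

omit [Finite C] in
theorem rho_spec (h : QD π zc q1) (x : C) (y : Qc) : mt (rho h x) *ᵥ π y = π ⟨x * y * x⁻¹, hQn.conj_mem _ y.2 x⟩ := by
  have h1 := Phi1_spec h (MulAut.conjNormal x) y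
  have h2 : (MulAut.conjNormal x : MulAut Qc) y = ⟨x * y * x⁻¹, hQn.conj_mem _ y.2 x⟩ := Subtype.ext (MulAut.conjNormal_apply x y)
  rw [h2] at h1
  exact h1

theorem rho_ker (h : QD π zc q1) (hcent : Subgroup.centralizer (Qc : Set C) ≤ Qc) (x : C) : rho h x = 1 ↔ x ∈ Qc := by
  have h1 : rho h x = 1 ↔ (MulAut.conjNormal x : MulAut Qc) ∈ (Phi h).ker := Iff.rfl
  rw [h1, ker_Phi h]
  constructor
  · rintro ⟨e, he⟩
    have h2 : x * e.1⁻¹ ∈ Subgroup.centralizer (Qc : Set C) := by
      rw [Subgroup.mem_centralizer_iff]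
      intro y hy
      have h3 := congrArg (fun f : MulAut Qc => (f (⟨e.1⁻¹ * y * e.1, by
        have := hQn.conj_mem _ hy e.1⁻¹
        simpa using this⟩ : Qc)).1) he
      simp only [MulAut.conj_apply, Subgroup.coe_mul, Subgroup.coe_inv, MulAut.conjNormal_apply] at h3
      have h4 : y = x * (e.1⁻¹ * y * e.1) * x⁻¹ := by
        rw [← h3]; group
      calc y * (x * e.1⁻¹) = (x * (e.1⁻¹ * y * e.1) * x⁻¹) * (x * e.1⁻¹) := by rw [← h4]
        _ = x * e.1⁻¹ * y := by group
    have h5 := Qc.mul_mem (hcent h2) e.2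
    rwa [inv_mul_cancel_right] at h5
  · intro hx
    refine ⟨⟨x, hx⟩, ?_⟩
    ext y
    simp
end C

end H33.CoT
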