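import Mathlib
import Cfsg.Agent.Lib.H33.CoB

set_option autoImplicit false

/-! Centralizers of elements of odd prime order acting on an extraspecial normal subgroup. -/

namespace H33.CoT

open Cfsg H86.OutExtra Matrix QuadraticMap H49.OrthAdj H48.QuadStd H91.MonsterForm

variable {m k p : ℕ} {q1 : QuadraticForm (ZMod 2) (I1 m k → ZMod 2)} {qW : (Fin k → ZMod 2) → ZMod 2}
  {a1 : Matrix (Fin k) (Fin k) (ZMod 2)} {w0 : Fin k → ZMod 2}

variable {C : Type*} [Group C] [Finite C] {Qc : Subgroup C} [hQn : Qc.Normal] {π : Qc → I1 m k → ZMod 2} {zc : Qc}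

/-- the setting -/
structure St (Qc : Subgroup C) [hQn : Qc.Normal] (π : Qc → I1 m k → ZMod 2) (zc : Qc) (q1 : QuadraticForm (ZMod 2) (I1 m k → ZMod 2))
    (qW : (Fin k → ZMod 2) → ZMod 2) (a1 : Matrix (Fin k) (Fin k) (ZMod 2)) (w0 : Fin k → ZMod 2) (p : ℕ) (a : G q1) (c : C) : Prop where
  F : FD m k q1 qW
  W : WD k p qW a1 w0
  ha : ∀ x w, mt a *ᵥ Sum.elim x w = Sum.elim x (a1 *ᵥ w)
  hp : p.Prime
  hp2 : p ≠ 2
  h8 : Fintype.card (I1 m k) ≠ 4
  m1 : 0 < m
  h : QD π zc q1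
  cent : Subgroup.centralizer (Qc : Set C) ≤ Qc
  hc : orderOf c = p
  hca : rho h c = a
  range : (rho h).range = commutator (G q1)
  pg : IsPGroup 2 Qc

variable {a : G q1} {c : C}

abbrev DC (c : C) : Subgroup C := Subgroup.centralizer ({c} : Set C)

omit [Finite C] in
theorem mem_DC {c x : C} : x ∈ DC c ↔ x * c = c * x := Subgroup.mem_centralizer_singleton_iff

abbrev KR (Qc : Subgroup C) (c : C) : Subgroup (DC c) := Qc.subgroupOf (DC c)

instance KR_normal : (KR Qc c).Normal := by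
  constructor
  intro n hn g
  exact hQn.conj_mem _ hn g.1

omit [Finite C] hQn in
theorem ext2 {r s : KR Qc c} (h : (⟨r.1.1, r.2⟩ : Qc) = ⟨s.1.1, s.2⟩) : r = s :=
  Subtype.ext (Subtype.ext (congrArg (fun t : Qc => t.1) h))

section
variable (S : St Qc π zc q1 qW a1 w0 p a c)
include S

omit [Finite C] in
theorem St.zfix (x : C) : x * zc.1 * x⁻¹ = zc.1 := by
  have h2 := S.h.fix_z (MulAut.conjNormal x)
  have h3 := congrArg Subtype.val h2
  rwa [MulAut.conjNormal_apply] at h3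

omit [Finite C] in
/-- an element of `Q` commutes with `c` iff its vector lies in the first summand -/
theorem St.comm_c (y : Qc) : y.1 * c = c * y.1 ↔ π y ∘ Sum.inr = 0 := by
  rw [← fix_iff S.W S.ha, ← S.hca, rho_spec S.h]
  constructor
  · intro h1
    congr 1
    apply Subtype.ext
    show c * y.1 * c⁻¹ = y.1
    rw [← h1]; group
  · intro h1
    rcases (S.h.eq_iff _ _).1 h1 with h2 | h2
    · have h3 := congrArg Subtype.val h2
      have h4 : (c * y.1 * c⁻¹)⁻¹ * y.1 = 1 := h3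
      have h5 : c * y.1 * c⁻¹ = y.1 := inv_mul_eq_one.1 h4
      rw [mul_inv_eq_iff_eq_mul] at h5
      exact h5.symm
    · exfalso
      have h3 := congrArg Subtype.val h2
      have h4 : (c * y.1 * c⁻¹)⁻¹ * y.1 = zc.1 := h3
      have hzz : zc.1 * zc.1 = 1 := congrArg Subtype.val S.h.xs.sq_ζ
      have hzi : zc.1⁻¹ = zc.1 := inv_eq_of_mul_eq_one_right hzz
      have h5 : c * y.1 * c⁻¹ = y.1 * zc.1 := by
        rw [inv_mul_eq_iff_eq_mul] at h4
        calc c * y.1 * c⁻¹ = (c * y.1 * c⁻¹ * zc.1) * zc.1 := by rw [mul_assoc (c * y.1 * c⁻¹) zc.1 zc.1, hzz, mul_one]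
          _ = y.1 * zc.1 := by rw [← h4]
      have key : ∀ n : ℕ, c ^ n * y.1 * (c ^ n)⁻¹ = y.1 * zc.1 ^ n := by
        intro n
        induction n with
        | zero => simp
        | succ n ih =>
          have h6 : c ^ (n + 1) * y.1 * (c ^ (n + 1))⁻¹ = c * (c ^ n * y.1 * (c ^ n)⁻¹) * c⁻¹ := by
            rw [pow_succ']; group
          have h7 : c * zc.1 ^ n * c⁻¹ = zc.1 ^ n := by
            have := S.zfix c
            calc c * zc.1 ^ n * c⁻¹ = (c * zc.1 * c⁻¹) ^ n := by rw [conj_pow]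
              _ = _ := by rw [this]
          rw [h6, ih]
          calc c * (y.1 * zc.1 ^ n) * c⁻¹ = (c * y.1 * c⁻¹) * (c * zc.1 ^ n * c⁻¹) := by group
            _ = y.1 * zc.1 ^ (n + 1) := by rw [h5, h7, pow_succ']; group
      have h6 := key p
      have h7 : c ^ p = 1 := by rw [← S.hc]; exact pow_orderOf_eq_one c
      have hodd : Odd p := S.hp.odd_of_ne_two S.hp2
      obtain ⟨j, hj⟩ := hodd
      have h8 : zc.1 ^ p = zc.1 := by
        rw [hj, pow_succ, pow_mul, pow_two, hzz, one_pow, one_mul]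
      rw [h7, h8, one_mul, inv_one, mul_one] at h6
      have h9 : zc.1 = 1 := by
        have := left_eq_mul.1 h6
        exact this
      exact S.h.xs.ne (Subtype.ext h9)

omit [Finite C] in
theorem St.z_mem : (zc.1 : C) ∈ DC c := by
  rw [mem_DC]
  have := S.zfix c
  rw [mul_inv_eq_iff_eq_mul] at this
  exact this.symm

/-- the central element of `KR` -/
def St.zR : KR Qc c := ⟨⟨zc.1, S.z_mem⟩, zc.2⟩

/-- the vector of an element of `KR` -/
def vR (π : Qc → I1 m k → ZMod 2) (r : KR Qc c) : I0 m → ZMod 2 := π ⟨r.1.1, r.2⟩ ∘ Sum.inl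

omit [Finite C] in
theorem St.vR_eq (r : KR Qc c) : π ⟨r.1.1, r.2⟩ = Sum.elim (vR π r) 0 := by
  have h1 := (S.comm_c ⟨r.1.1, r.2⟩).1 (mem_DC.1 r.1.2)
  rw [vR, ← h1, Sum.elim_comp_inl_inr]

omit [Finite C] in
theorem St.vR_surj (x : I0 m → ZMod 2) : ∃ r : KR Qc c, vR π r = x := by
  obtain ⟨y, hy⟩ := S.h.surj (Sum.elim x 0)
  have h1 : y.1 * c = c * y.1 := by
    rw [S.comm_c, hy]; rfl
  refine ⟨⟨⟨y.1, mem_DC.2 h1⟩, y.2⟩, ?_⟩
  show π y ∘ Sum.inl = x
  rw [hy]; rfl

omit [Finite C] in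
theorem St.vR_mul (r s : KR Qc c) : vR π (r * s) = vR π r + vR π s := by
  have h1 := S.h.mul ⟨r.1.1, r.2⟩ ⟨s.1.1, s.2⟩
  have h2 : (⟨(r * s).1.1, (r * s).2⟩ : Qc) = ⟨r.1.1, r.2⟩ * ⟨s.1.1, s.2⟩ := rfl
  rw [vR, h2, h1]; rfl

omit [Finite C] in
theorem St.vR_zero (r : KR Qc c) : vR π r = 0 ↔ r = 1 ∨ r = S.zR := by
  have h1 : vR π r = 0 ↔ π ⟨r.1.1, r.2⟩ = 0 := by
    constructor
    · intro h2
      rw [S.vR_eq, h2]
      funext i; rcases i with i | i <;> rfl
    · intro h2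
      rw [vR, h2]; rfl
  rw [h1, S.h.ker]
  constructor
  · rintro (h2 | h2)
    · left; exact ext2 h2
    · right; exact ext2 h2
  · rintro (h2 | h2)
    · left; rw [h2]; rfl
    · right; rw [h2]; rfl

omit [Finite C] in
theorem St.q_vR (r : KR Qc c) : q1 (π ⟨r.1.1, r.2⟩) = q0 m (vR π r) := by
  rw [S.vR_eq, S.F.sum, S.W.zero, add_zero]

omit [Finite C] in
theorem St.comm_R (r s : KR Qc c) : r * s = s * r ↔ polar (q0 m) (vR π r) (vR π s) = 0 := by
  have h1 := comm_iff S.h ⟨r.1.1, r.2⟩ ⟨s.1.1, s.2⟩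
  rw [S.vR_eq, S.vR_eq, polar_sum S.F, S.W.zero] at h1
  have h2 : (r * s = s * r) ↔ ((⟨r.1.1, r.2⟩ : Qc) * ⟨s.1.1, s.2⟩ = ⟨s.1.1, s.2⟩ * ⟨r.1.1, r.2⟩) := by
    constructor
    · intro h3
      exact Subtype.ext (congrArg (fun t : KR Qc c => t.1.1) h3)
    · intro h3
      exact ext2 h3
  rw [h2, h1]
  simp [S.W.zero]

omit [Finite C] in
theorem St.center_R (r : KR Qc c) (hr : ∀ s : KR Qc c, r * s = s * r) : r = 1 ∨ r = S.zR := by
  rw [← S.vR_zero]
  apply nd0 S.F S.W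
  intro y
  obtain ⟨s, rfl⟩ := S.vR_surj y
  exact (S.comm_R r s).1 (hr s)

omit [Finite C] in
theorem St.zR_ne : S.zR ≠ 1 := by
  intro h1
  apply S.h.xs.ne
  exact Subtype.ext (congrArg (fun t : KR Qc c => t.1.1) h1)

omit [Finite C] in
theorem St.sq_R (r : KR Qc c) : r * r = 1 ∨ r * r = S.zR := by
  rcases S.h.xs.sq ⟨r.1.1, r.2⟩ with h2 | h2
  · left; exact ext2 h2
  · right; exact ext2 h2

omit [Finite C] in
theorem St.zR_comm (r : KR Qc c) : r * S.zR = S.zR * r := by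
  have h2 := S.h.xs.comm ⟨r.1.1, r.2⟩
  exact ext2 h2

theorem St.extra : IsExtraspecial 2 (KR Qc c) := by
  classical
  refine H33.Oct.extra_of S.zR S.zR_ne (fun h => (S.zR_comm h).symm) S.sq_R S.center_R ?_
  obtain ⟨r, hr⟩ := S.vR_surj (uu m)
  have h1 : r ≠ 1 := by
    intro h1
    have h2 := (S.vR_zero r).2 (Or.inl h1)
    rw [hr] at h2
    have h3 := q0_uu m
    rw [h2] at h3
    simp at h3
  have h2 : r ≠ S.zR := by
    intro h1
    have h2 := (S.vR_zero r).2 (Or.inr h1)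
    rw [hr] at h2
    have h3 := q0_uu m
    rw [h2] at h3
    simp at h3
  have : ({1, S.zR, r} : Finset (KR Qc c)).card = 3 := by
    rw [Finset.card_insert_of_notMem, Finset.card_insert_of_notMem, Finset.card_singleton]
    · simpa using h2.symm
    · simp only [Finset.mem_insert, Finset.mem_singleton, not_or]
      exact ⟨S.zR_ne.symm, h1.symm⟩
  have h4 : Fintype (KR Qc c) := Fintype.ofFinite _
  rw [Nat.card_eq_fintype_card]
  have := Finset.card_le_univ ({1, S.zR, r} : Finset (KR Qc c))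
  omega

theorem St.qd : QD (vR π (c := c)) S.zR (q0 m) where
  ext := S.extra
  xs := {
    ne := S.zR_ne
    sq_ζ := ext2 S.h.xs.sq_ζ
    comm := S.zR_comm
    center := by
      intro x
      rw [Subgroup.mem_center_iff]
      constructor
      · intro h1; exact S.center_R x (fun s => (h1 s).symm)
      · rintro (h1 | h1)
        · rw [h1]; intro g; rw [mul_one, one_mul]
        · rw [h1]; intro g; exact S.zR_comm g
    sq := S.sq_R
    cm := by
      intro x y
      rcases S.h.xs.cm ⟨x.1.1, x.2⟩ ⟨y.1.1, y.2⟩ with h2 | h2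
      · left; exact ext2 h2
      · right; exact ext2 h2 }
  mul := S.vR_mul
  surj := S.vR_surj
  ker := S.vR_zero
  sq := by
    intro x
    rw [← S.q_vR, ← S.h.sq]
    constructor
    · intro h1; exact Subtype.ext (congrArg (fun t : KR Qc c => t.1.1) h1)
    · intro h1; exact ext2 h1
end

end H33.CoT
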