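import Mathlib
import Cfsg.Agent.Lib.H33.CoC

set_option autoImplicit false

/-! The action of the centralizer of `c` on the extraspecial group of its fixed points. -/

namespace H33.CoT

open Cfsg H86.OutExtra Matrix QuadraticMap H49.OrthAdj H48.QuadStd H91.MonsterForm

variable {m k p : ℕ} {q1 : QuadraticForm (ZMod 2) (I1 m k → ZMod 2)} {qW : (Fin k → ZMod 2) → ZMod 2}
  {a1 : Matrix (Fin k) (Fin k) (ZMod 2)} {w0 : Fin k → ZMod 2}

variable {C : Type*} [Group C] [Finite C] {Qc : Subgroup C} [hQn : Qc.Normal] {π : Qc → I1 m k → ZMod 2} {zc : Qc}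
variable {a : G q1} {c : C}

section
variable (S : St Qc π zc q1 qW a1 w0 p a c)

noncomputable def St.phi : DC c →* G (q0 m) := (Phi S.qd).comp MulAut.conjNormal

include S

theorem St.phi_spec (d : DC c) (r : KR Qc c) :
    mt (S.phi d) *ᵥ vR π r = vR π (c := c) ⟨d * r.1 * d⁻¹, KR_normal.conj_mem _ r.2 d⟩ := by
  have h1 := Phi1_spec S.qd (MulAut.conjNormal d) r
  have h2 : (MulAut.conjNormal d : MulAut (KR Qc c)) r = ⟨d * r.1 * d⁻¹, KR_normal.conj_mem _ r.2 d⟩ :=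
    Subtype.ext (MulAut.conjNormal_apply d r)
  rw [h2] at h1
  exact h1

theorem St.rho_inl (d : DC c) (x : I0 m → ZMod 2) :
    mt (rho S.h d.1) *ᵥ Sum.elim x 0 = Sum.elim (mt (S.phi d) *ᵥ x) (0 : Fin k → ZMod 2) := by
  obtain ⟨r, rfl⟩ := S.vR_surj x
  rw [S.phi_spec, ← S.vR_eq, rho_spec, ← S.vR_eq]
  rfl

omit [Finite C] in
theorem St.a_pow (i : ℕ) (x : I0 m → ZMod 2) (w : Fin k → ZMod 2) :
    mt (a ^ i) *ᵥ Sum.elim x w = Sum.elim x ((a1 ^ i) *ᵥ w) := by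
  induction i generalizing w with
  | zero => rw [pow_zero, pow_zero, mt_one_mulVec, one_mulVec]
  | succ i ih => rw [pow_succ, mt_mul, ← mulVec_mulVec, S.ha, ih, mulVec_mulVec, ← pow_succ]

theorem St.decomp (d : DC c) : ∃ i : ℕ, rho S.h d.1 = extG S.F (S.phi d) * a ^ i := by
  have hg0 : rho S.h d.1 * rho S.h c = rho S.h c * rho S.h d.1 := by
    rw [← map_mul, ← map_mul, mem_DC.1 d.2]
  have hg : rho S.h d.1 * a = a * rho S.h d.1 := by
    rw [S.hca] at hg0; exact hg0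
  obtain ⟨i, hi⟩ := apply_inr S.F S.W S.ha hg
  refine ⟨i, ?_⟩
  apply mt_ext
  intro v
  obtain ⟨x, w, rfl⟩ := eta v
  have h1 : (Sum.elim x w : I1 m k → ZMod 2) = Sum.elim x (0 : Fin k → ZMod 2) + Sum.elim (0 : I0 m → ZMod 2) w := by
    funext s; rcases s with s | s <;> simp
  rw [mt_mul, ← mulVec_mulVec, S.a_pow, extG_mulVec, h1, mulVec_add, S.rho_inl, hi]
  funext s; rcases s with s | s <;> simp

theorem St.phi_mem (d : DC c) : S.phi d ∈ XX S.F := by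
  obtain ⟨i, hi⟩ := S.decomp d
  show extG S.F (S.phi d) ∈ commutator (G q1)
  rw [← S.range]
  refine ⟨d.1 * (c ^ i)⁻¹, ?_⟩
  rw [map_mul, map_inv, map_pow, S.hca, hi, mul_inv_cancel_right]

theorem St.phi_surj {x : G (q0 m)} (hx : x ∈ XX S.F) : ∃ d, S.phi d = x := by
  have hx1 : extG S.F x ∈ commutator (G q1) := hx
  rw [← S.range] at hx1
  obtain ⟨y, hy⟩ := hx1
  have hcomm : extG S.F x * a = a * extG S.F x := by
    apply mt_ext
    intro v
    obtain ⟨u, w, rfl⟩ := eta v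
    rw [mt_mul, mt_mul, ← mulVec_mulVec, ← mulVec_mulVec, S.ha, extG_mulVec, extG_mulVec, S.ha]
  have hp : Fact p.Prime := ⟨S.hp⟩
  have h1 : (y * c * y⁻¹) * c⁻¹ ∈ Qc := by
    rw [← rho_ker S.h S.cent, map_mul, map_mul, map_mul, map_inv, map_inv, hy, S.hca, hcomm]
    group
  obtain ⟨l, hl, hl2⟩ := H33.MonFus.conj_coset' Qc S.pg S.hp2 (x := c) (y := y * c * y⁻¹) S.hc
    (by rw [← S.hc]; exact (MulAut.conj y).orderOf_eq c) h1
  have hd : l * y ∈ DC c := by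
    rw [mem_DC]
    calc l * y * c = (l * (y * c * y⁻¹) * l⁻¹) * (l * y) := by group
      _ = c * (l * y) := by rw [hl2]
  refine ⟨⟨l * y, hd⟩, ?_⟩
  have h2 : rho S.h (l * y) = extG S.F x := by
    rw [map_mul, (rho_ker S.h S.cent l).2 hl, one_mul, hy]
  apply mt_ext
  intro u
  have h3 := S.rho_inl ⟨l * y, hd⟩ u
  have h4 : mt (rho S.h (l * y)) *ᵥ Sum.elim u 0 = Sum.elim (mt x *ᵥ u) (0 : Fin k → ZMod 2) := by
    rw [h2, extG_mulVec]
  funext s
  have h5 := congrFun (h3.symm.trans h4) (Sum.inl s)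
  exact h5

theorem St.a_p : a ^ p = 1 := by
  have h1 : c ^ p = 1 := by rw [← S.hc]; exact pow_orderOf_eq_one c
  rw [← S.hca, ← map_pow, h1, map_one]

theorem St.phi_c : S.phi ⟨c, mem_DC.2 rfl⟩ = 1 := by
  have h1 : (MulAut.conjNormal (⟨c, mem_DC.2 rfl⟩ : DC c) : MulAut (KR Qc c)) = 1 := by
    ext r
    rw [MulAut.conjNormal_apply]
    show c * r.1.1 * c⁻¹ = r.1.1
    rw [← mem_DC.1 r.1.2]; group
  rw [St.phi, MonoidHom.comp_apply, h1, map_one]

theorem St.phi_Q (d : DC c) (hd : d.1 ∈ Qc) : S.phi d = 1 := by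
  have h1 : (MulAut.conjNormal d : MulAut (KR Qc c)) ∈ (Phi S.qd).ker := by
    rw [ker_Phi S.qd]
    refine ⟨⟨d, hd⟩, ?_⟩
    ext r
    rw [MulAut.conjNormal_apply]; rfl
  exact h1

theorem St.phi_ker (d : DC c) : S.phi d = 1 ↔ ∃ n : ℕ, d.1 * c ^ n ∈ Qc := by
  constructor
  · intro h1
    obtain ⟨i, hi⟩ := S.decomp d
    rw [h1, map_one, one_mul] at hi
    refine ⟨(p - 1) * i, ?_⟩
    rw [← rho_ker S.h S.cent, map_mul, map_pow, hi, S.hca, ← pow_add]
    have : i + (p - 1) * i = p * i := by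
      obtain ⟨q, hq⟩ : ∃ q, p = q + 1 := ⟨p - 1, by have := S.hp.pos; omega⟩
      rw [hq]; simp; ring
    rw [this, pow_mul, S.a_p, one_pow]
  · rintro ⟨n, hn⟩
    have h2 := S.phi_Q (d * ⟨c, mem_DC.2 rfl⟩ ^ n) hn
    rwa [map_mul, map_pow, S.phi_c, one_pow, mul_one] at h2

theorem St.phi_one_of (d : DC c) (hd : ∀ r : KR Qc c, d.1 * r.1.1 = r.1.1 * d.1) : S.phi d = 1 := by
  have h1 : (MulAut.conjNormal d : MulAut (KR Qc c)) = 1 := by
    ext r
    rw [MulAut.conjNormal_apply]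
    show d.1 * r.1.1 * d.1⁻¹ = r.1.1
    rw [hd r]; group
  rw [St.phi, MonoidHom.comp_apply, h1, map_one]

theorem St.cent_R (d : DC c) (hd : ∀ r : KR Qc c, d.1 * r.1.1 = r.1.1 * d.1) :
    ∃ n : ℕ, d.1 * c ^ n = 1 ∨ d.1 * c ^ n = zc.1 := by
  obtain ⟨n, hn⟩ := (S.phi_ker d).1 (S.phi_one_of d hd)
  refine ⟨n, ?_⟩
  have hD : d.1 * c ^ n ∈ DC c := (DC c).mul_mem d.2 ((DC c).pow_mem (mem_DC.2 rfl) n)
  have h1 := S.center_R ⟨⟨d.1 * c ^ n, hD⟩, hn⟩ (by
    intro s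
    apply ext2
    apply Subtype.ext
    show d.1 * c ^ n * s.1.1 = s.1.1 * (d.1 * c ^ n)
    have h2 : c ^ n * s.1.1 = s.1.1 * c ^ n := by
      have h3 : Commute c s.1.1 := (mem_DC.1 s.1.2).symm
      exact (h3.pow_left n).eq
    rw [mul_assoc, h2, ← mul_assoc, hd s, mul_assoc])
  rcases h1 with h1 | h1
  · left; exact congrArg (fun t : KR Qc c => t.1.1) h1
  · right; exact congrArg (fun t : KR Qc c => t.1.1) h1
end

def e1 (m : ℕ) (h : 0 < m) : I0 m → ZMod 2 := Sum.elim (Sum.elim (Pi.single ⟨0, h⟩ 1) 0) 0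
def f1 (m : ℕ) (h : 0 < m) : I0 m → ZMod 2 := Sum.elim (Sum.elim 0 (Pi.single ⟨0, h⟩ 1)) 0
def vv (m : ℕ) : I0 m → ZMod 2 := Sum.elim 0 ![0, 1]

theorem q0_e1 (h : 0 < m) : q0 m (e1 m h) = 0 := by rw [qMinus_apply, e1]; simp
theorem q0_f1 (h : 0 < m) : q0 m (f1 m h) = 0 := by rw [qMinus_apply, f1]; simp
theorem pol_ef (h : 0 < m) : polar (q0 m) (e1 m h) (f1 m h) = 1 := by
  rw [polar_qMinus, e1, f1]
  simp only [Sum.elim_inl, Sum.elim_inr, Pi.zero_apply]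
  simp [Pi.single_apply]
theorem pol_eu (h : 0 < m) : polar (q0 m) (uu m) (e1 m h) = 0 := by
  rw [polar_qMinus, e1, uu]; simp
theorem pol_ev (h : 0 < m) : polar (q0 m) (vv m) (e1 m h) = 0 := by
  rw [polar_qMinus, e1, vv]; simp
theorem pol_uv : polar (q0 m) (uu m) (vv m) = 1 := by
  rw [polar_qMinus, uu, vv]; simp

section
variable (S : St Qc π zc q1 qW a1 w0 p a c)
include S

theorem St.gen (u : KR Qc c) (hu : vR π u = e1 m S.m1) (Y : Subgroup (DC c)) (hY : Y.Normal) (huY : u.1 ∈ Y) : KR Qc c ≤ Y := by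
  have hxx := XX_index S.F S.W S.h8
  -- the vectors of Y
  let U : Set (I0 m → ZMod 2) := {v | ∃ r : KR Qc c, r.1 ∈ Y ∧ vR π r = v}
  have hadd : ∀ {v w}, v ∈ U → w ∈ U → v + w ∈ U := by
    rintro v w ⟨r, hr, rfl⟩ ⟨s, hs, rfl⟩
    exact ⟨r * s, Y.mul_mem hr hs, S.vR_mul r s⟩
  have hact : ∀ {x : G (q0 m)} {v}, x ∈ XX S.F → v ∈ U → mt x *ᵥ v ∈ U := by
    rintro x v hx ⟨r, hr, rfl⟩
    obtain ⟨d, rfl⟩ := S.phi_surj hx
    exact ⟨⟨d * r.1 * d⁻¹, KR_normal.conj_mem _ r.2 d⟩, hY.conj_mem _ hr d, (S.phi_spec d r).symm⟩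
  have heU : e1 m S.m1 ∈ U := ⟨u, huY, hu⟩
  have h01 : ∀ a : ZMod 2, a ≠ 0 → a = 1 := by decide
  have hself : ∀ x : I0 m → ZMod 2, polar (q0 m) x x = 0 := by
    intro x
    rw [polar_self]
    have : (2 : ℕ) • q0 m x = 0 := by
      rw [two_nsmul]; exact CharTwo.add_self_eq_zero _
    simpa using this
  have hA : ∀ v, q0 m v = 1 → polar (q0 m) v (e1 m S.m1) = 1 → v ∈ U := by
    intro v hv hpv
    have hv0 : q0 m v ≠ 0 := by rw [hv]; exact one_ne_zero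
    have hu0 : q0 m (uu m) ≠ 0 := by rw [q0_uu]; exact one_ne_zero
    have h1 : R (q0 m) v hv0 * R (q0 m) (uu m) hu0 ∈ XX S.F := by
      rw [Subgroup.mul_mem_iff_of_index_two hxx]
      exact iff_of_false (refl_not_mem S.F S.W S.h8 v hv0) (refl_not_mem S.F S.W S.h8 (uu m) hu0)
    have h2 := hact h1 heU
    rw [mt_mul, ← mulVec_mulVec, R_mulVec, R_mulVec, pol_eu, q0_uu, hv] at h2
    simp only [mul_zero, zero_smul, sub_zero] at h2
    rw [hpv] at h2
    simp only [inv_one, one_mul, one_smul] at h2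
    have h3 := hadd heU h2
    have h4 : e1 m S.m1 + (e1 m S.m1 - v) = v := by
      funext i
      have : ∀ a b : ZMod 2, a + (a - b) = b := by decide
      exact this _ _
    rwa [h4] at h3
  have hB : ∀ v, polar (q0 m) v (e1 m S.m1) = 1 → v ∈ U := by
    intro v hpv
    rcases zm (q0 m v) with h1 | h1
    · have h2 : q0 m (v + e1 m S.m1) = 1 := by
        have : q0 m (v + e1 m S.m1) = polar (q0 m) v (e1 m S.m1) + q0 m v + q0 m (e1 m S.m1) := by
          rw [polar]; ring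
        rw [this, hpv, h1, q0_e1]; rfl
      have h3 : polar (q0 m) (v + e1 m S.m1) (e1 m S.m1) = 1 := by
        rw [polar_add_left, hpv, hself, add_zero]
      have h4 := hadd (hA _ h2 h3) heU
      rwa [add_assoc, two_vec, add_zero] at h4
    · exact hA v h1 hpv
  have hC : ∀ v, v ∈ U := by
    intro v
    rcases zm (polar (q0 m) v (e1 m S.m1)) with h1 | h1
    · have hf : polar (q0 m) (f1 m S.m1) (e1 m S.m1) = 1 := by rw [polar_comm]; exact pol_ef _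
      have h2 : polar (q0 m) (v + f1 m S.m1) (e1 m S.m1) = 1 := by
        rw [polar_add_left, h1, hf, zero_add]
      have h4 := hadd (hB _ h2) (hB _ hf)
      rwa [add_assoc, two_vec, add_zero] at h4
    · exact hB v h1
  -- z in Y
  have hz : (S.zR : DC c) ∈ Y := by
    obtain ⟨y, hy⟩ := S.vR_surj (f1 m S.m1)
    have h1 : ¬ (u * y = y * u) := by
      rw [S.comm_R, hu, hy, pol_ef]; exact one_ne_zero
    have h2 : y * u = S.zR * (u * y) := by
      rcases S.qd.xs.cm u y with h3 | h3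
      · exact absurd h3.symm h1
      · exact h3
    have h3 : S.zR = y * u * y⁻¹ * u⁻¹ := by rw [h2]; group
    have h4 : (S.zR : DC c) = (y.1 * u.1 * y.1⁻¹) * u.1⁻¹ := congrArg Subtype.val h3
    rw [h4]
    exact Y.mul_mem (hY.conj_mem _ huY _) (Y.inv_mem huY)
  intro d hd
  obtain ⟨r, hr, hr2⟩ := hC (vR π (c := c) ⟨d, hd⟩)
  rcases (S.qd.eq_iff r ⟨d, hd⟩).1 hr2 with h1 | h1
  · have h2 : r = ⟨d, hd⟩ := inv_mul_eq_one.1 h1
    have h3 : r.1 = d := congrArg Subtype.val h2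
    rw [← h3]; exact hr
  · have h2 : (⟨d, hd⟩ : KR Qc c) = r * S.zR := by rw [← h1]; group
    have h3 : d = r.1 * S.zR.1 := congrArg Subtype.val h2
    rw [h3]; exact Y.mul_mem hr hz
end

end H33.CoT
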