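import Mathlib
import Cfsg.Agent.Lib.H33.CoD
import Cfsg.Agent.Lib.H33.MonRed3
import Cfsg.Agent.Lib.H56.Heis
import Cfsg.Agent.S5428

set_option autoImplicit false

/-! Fusion in the centralizer of `c`. -/

namespace H33.CoT

open Cfsg H86.OutExtra Matrix QuadraticMap H49.OrthAdj H48.QuadStd H91.MonsterForm
open H33.MonRed (HH mem_HH pow_of_zpowers sq_zpowers assemble)

variable {m k p : ℕ} {q1 : QuadraticForm (ZMod 2) (I1 m k → ZMod 2)} {qW : (Fin k → ZMod 2) → ZMod 2}
  {a1 : Matrix (Fin k) (Fin k) (ZMod 2)} {w0 : Fin k → ZMod 2}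

section
variable {C : Type*} [Group C] [Finite C] {Qc : Subgroup C} [hQn : Qc.Normal] {π : Qc → I1 m k → ZMod 2} {zc : Qc}
variable {a : G q1} {c : C} (S : St Qc π zc q1 qW a1 w0 p a c)
include S

theorem St.card_KR : Nat.card (KR Qc c) = 2 ^ (2 * (m + 1) + 1) := by
  let f : KR Qc c →* Multiplicative (I0 m → ZMod 2) :=
    MonoidHom.mk' (fun r => Multiplicative.ofAdd (vR π r)) (fun r s => by rw [S.vR_mul]; rfl)
  have hs : Function.Surjective f := by
    intro v
    obtain ⟨r, hr⟩ := S.vR_surj (Multiplicative.toAdd v)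
    exact ⟨r, congrArg Multiplicative.ofAdd hr⟩
  have h1 := f.ker.card_mul_index
  rw [Subgroup.index_ker, MonoidHom.range_eq_top.2 hs, Subgroup.card_top] at h1
  have h2 : Nat.card f.ker = 2 := by
    rw [Nat.card_eq_two_iff]
    have hz : S.zR ∈ f.ker := congrArg Multiplicative.ofAdd ((S.vR_zero _).2 (Or.inr rfl))
    refine ⟨1, ⟨S.zR, hz⟩, fun h => S.zR_ne (congrArg Subtype.val h).symm, ?_⟩
    ext ⟨r, hr⟩
    simp only [Set.mem_insert_iff, Set.mem_singleton_iff, Set.mem_univ, iff_true]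
    rcases (S.vR_zero r).1 (Multiplicative.ofAdd.injective hr) with h | h
    · left; exact Subtype.ext h
    · right; exact Subtype.ext h
  have h3 : Nat.card (Multiplicative (I0 m → ZMod 2)) = 2 ^ (2 * m + 2) := by
    rw [Nat.card_eq_fintype_card, Fintype.card_multiplicative, Fintype.card_fun, ZMod.card]
    congr 1
    simp
    ring
  rw [← h1, h2, h3, ← pow_succ']
  congr 1
end

section
variable {L : Type*} [Group L] [Finite L] {z : L} {Qc : Subgroup (Subgroup.centralizer ({z} : Set L))} [hQn : Qc.Normal]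
  {π : Qc → I1 m k → ZMod 2} {zc : Qc}
variable {a : G q1} {c : Subgroup.centralizer ({z} : Set L)} (S : St Qc π zc q1 qW a1 w0 p a c) (hzc : zc.1.1 = z)
include S hzc

omit [Finite L] in
theorem St.zz : z * z = 1 := by
  have h1 := congrArg (fun t : Qc => t.1.1) S.h.xs.sq_ζ
  have h2 : zc.1.1 * zc.1.1 = 1 := h1
  rwa [hzc] at h2

omit [Finite L] in
theorem St.z1 : z ≠ 1 := by
  intro h
  apply S.h.xs.ne
  apply Subtype.ext
  apply Subtype.ext
  exact hzc.trans h

omit [Finite L] hzc in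
theorem St.cz : c.1 * z = z * c.1 := Subgroup.mem_centralizer_singleton_iff.1 c.2

omit [Finite L] hzc in
theorem St.cp : c.1 ^ p = 1 := by
  rw [← S.hc, ← Subgroup.orderOf_coe]; exact pow_orderOf_eq_one _

/-- an element commuting with `c` and `R` -/
theorem St.cent_AR {y : L} (hyc : y * c.1 = c.1 * y) (hy : ∀ r : KR Qc c, y * r.1.1.1 = r.1.1.1 * y) :
    y ∈ Subgroup.zpowers (c.1 * z) := by
  have hyz : y * z = z * y := by
    have h1 := hy S.zR
    have h2 : (S.zR.1.1.1 : L) = z := hzc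
    rwa [h2] at h1
  have hcp := S.cp
  have hzz := S.zz hzc
  have hcz : Commute c.1 z := S.cz
  obtain ⟨n, hn⟩ := S.cent_R ⟨⟨y, Subgroup.mem_centralizer_singleton_iff.2 hyz⟩, mem_DC.2 (Subtype.ext hyc)⟩
    (fun r => Subtype.ext (hy r))
  have hodd : Odd p := S.hp.odd_of_ne_two S.hp2
  obtain ⟨j, hj⟩ := hodd
  have hzp : z ^ p = z := by rw [hj, pow_succ, pow_mul, pow_two, hzz, one_pow, one_mul]
  have h1 : (c.1 * z) ^ p = z := by rw [hcz.mul_pow, hcp, one_mul, hzp]
  have h2 : (c.1 * z) ^ (p + 1) = c.1 := by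
    rw [pow_succ', h1, mul_assoc, hzz, mul_one]
  have hcm : c.1 ∈ Subgroup.zpowers (c.1 * z) := by
    have := Subgroup.pow_mem _ (Subgroup.mem_zpowers (c.1 * z)) (p + 1)
    rwa [h2] at this
  have hzm : z ∈ Subgroup.zpowers (c.1 * z) := by
    have := Subgroup.pow_mem _ (Subgroup.mem_zpowers (c.1 * z)) p
    rwa [h1] at this
  rcases hn with h | h
  · have h3 : y * c.1 ^ n = 1 := congrArg Subtype.val h
    have h4 : y = (c.1 ^ n)⁻¹ := eq_inv_of_mul_eq_one_left h3
    rw [h4]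
    exact Subgroup.inv_mem _ (Subgroup.pow_mem _ hcm n)
  · have h3 : y * c.1 ^ n = zc.1.1 := congrArg Subtype.val h
    rw [hzc] at h3
    have h4 : y = z * (c.1 ^ n)⁻¹ := eq_mul_inv_of_mul_eq h3
    rw [h4]
    exact Subgroup.mul_mem _ hzm (Subgroup.inv_mem _ (Subgroup.pow_mem _ hcm n))

theorem St.order_cz : orderOf (c.1 * z) = p * 2 := by
  have hcz : Commute c.1 z := S.cz
  have h1 : orderOf c.1 = p := by rw [Subgroup.orderOf_coe]; exact S.hc
  have h2 : orderOf z = 2 := by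
    have : Fact (Nat.Prime 2) := ⟨Nat.prime_two⟩
    exact orderOf_eq_prime (by rw [pow_two]; exact S.zz hzc) (S.z1 hzc)
  rw [hcz.orderOf_mul_eq_mul_orderOf_of_coprime (by rw [h1, h2]; exact (Nat.coprime_primes S.hp Nat.prime_two).2 S.hp2), h1, h2]

theorem St.fusion (hF : generalizedFittingSubgroup (Subgroup.centralizer ({z} : Set L)) = Qc) {g : L} (u : KR Qc c)
    (hu : vR π u = e1 m S.m1) (hgu : g * z * g⁻¹ = u.1.1.1) :
    ∃ x : L, x * c.1 = c.1 * x ∧ x * z * x⁻¹ = u.1.1.1 := by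
  have hodd : Odd p := S.hp.odd_of_ne_two S.hp2
  set A : Subgroup L := Subgroup.zpowers c.1 with hA
  have hcardA : Nat.card A = p := by rw [hA, Nat.card_zpowers, Subgroup.orderOf_coe]; exact S.hc
  have memA : ∀ {x}, x ∈ Subgroup.centralizer (A : Set L) ↔ x * c.1 = c.1 * x := mem_HH
  set Q : Subgroup L := Qc.map (Subgroup.centralizer ({z} : Set L)).subtype with hQ
  set R : Subgroup L := Q ⊓ Subgroup.centralizer (A : Set L) with hR
  have memR : ∀ {x}, x ∈ R ↔ ∃ r : KR Qc c, r.1.1.1 = x := by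
    intro x
    constructor
    · rintro ⟨⟨y, hy, rfl⟩, h2⟩
      exact ⟨⟨⟨y, mem_DC.2 (Subtype.ext (memA.1 h2))⟩, hy⟩, rfl⟩
    · rintro ⟨r, rfl⟩
      exact ⟨⟨r.1.1, r.2, rfl⟩, memA.2 (congrArg Subtype.val (mem_DC.1 r.1.2))⟩
  have hcardR : Nat.card R = Nat.card (KR Qc c) := by
    refine (Nat.card_congr (Equiv.ofBijective (fun r : KR Qc c => (⟨r.1.1.1, memR.2 ⟨r, rfl⟩⟩ : R)) ⟨?_, ?_⟩)).symm
    · intro r s hrs
      have h : r.1.1.1 = s.1.1.1 := congrArg (fun t : R => t.1) hrs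
      exact Subtype.ext (Subtype.ext (Subtype.ext h))
    · rintro ⟨x, hx⟩
      obtain ⟨r, hr⟩ := memR.1 hx
      exact ⟨r, Subtype.ext hr⟩
  have hinj := Subgroup.subtype_injective (Subgroup.centralizer ({z} : Set L))
  have eQ := Qc.equivMapOfInjective _ hinj
  have hK : ∀ y ∈ Subgroup.centralizer ((A ⊔ R : Subgroup L) : Set L), y ∈ Subgroup.zpowers (c.1 * z) := by
    intro y hy
    have h1 : ∀ x ∈ A ⊔ R, x * y = y * x := Subgroup.mem_centralizer_iff.1 hy
    refine S.cent_AR hzc (h1 c.1 (Subgroup.mem_sup_left (Subgroup.mem_zpowers _))).symm ?_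
    intro r
    exact (h1 _ (Subgroup.mem_sup_right (memR.2 ⟨r, rfl⟩))).symm
  have hcentA : Subgroup.centralizer (A : Set L) ⊔ A = Subgroup.centralizer (A : Set L) := by
    rw [sup_eq_left]
    intro x hx
    obtain ⟨j, rfl⟩ := Subgroup.mem_zpowers_iff.1 hx
    exact memA.2 ((Commute.refl c.1).zpow_left j).eq
  have hn : (A.subgroupOf (Subgroup.centralizer (A : Set L) ⊔ A)).Normal := by
    constructor
    intro n hn g
    have hg : g.1 ∈ Subgroup.centralizer (A : Set L) := hcentA.le g.2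
    have h1 := Subgroup.mem_centralizer_iff.1 hg n.1 hn
    have h2 : (g * n * g⁻¹) = n := by
      apply Subtype.ext
      show g.1 * n.1 * g.1⁻¹ = n.1
      rw [← h1]; group
    rw [h2]; exact hn
  obtain ⟨-, -, x, hx, hx2⟩ := Cfsg.Agent.S5428.result z
    (by
      have : Fact (Nat.Prime 2) := ⟨Nat.prime_two⟩
      exact orderOf_eq_prime (by rw [pow_two]; exact S.zz hzc) (S.z1 hzc))
    Q (by rintro _ ⟨y, -, rfl⟩; exact y.2) (by rw [hF]) (H56.Heis.isExtraspecial_congr eQ S.h.ext) A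
    (by
      rw [hA, Subgroup.zpowers_le]; exact c.2)
    (by rw [hcardA]; exact hodd) R rfl
    (by
      rw [hcardR, S.card_KR]
      calc 32 = 2 ^ 5 := by norm_num
        _ ≤ _ := Nat.pow_le_pow_right (by norm_num) (by have := S.m1; omega))
    (by
      rintro _ ⟨y, hy, rfl⟩
      have h1 := hK y.1 y.2
      have h2 : Odd (orderOf y.1) := by
        have h3 : orderOf y ∣ Nat.card (oddCore (Subgroup.centralizer ((A ⊔ R : Subgroup L) : Set L))) := Subgroup.orderOf_dvd_natCard _ hy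
        have h4 : Odd (Nat.card (oddCore (Subgroup.centralizer ((A ⊔ R : Subgroup L) : Set L)))) :=
          (Nat.coprime_two_right).1 (H1.Cores.coprime_card_pPrimeCore 2)
        rw [Subgroup.orderOf_coe]
        exact Odd.of_dvd_nat h4 h3
      have h3 : orderOf y.1 ∣ p * 2 := by
        rw [← S.order_cz hzc]
        exact orderOf_dvd_of_mem_zpowers h1
      have h4 : y.1 ^ p = 1 := orderOf_dvd_iff_pow_eq_one.1 ((Nat.coprime_two_right.2 h2).dvd_of_dvd_mul_right h3)
      obtain ⟨j, hj⟩ := Subgroup.mem_zpowers_iff.1 h1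
      have hcz : Commute c.1 z := S.cz
      have h5 : y.1 = c.1 ^ j * z ^ j := by rw [← hj, hcz.mul_zpow]
      have hzz := S.zz hzc
      obtain ⟨i, hi⟩ := hodd
      have hz2 : z ^ (2 : ℤ) = 1 := by rw [zpow_two]; exact hzz
      have h6 : (z ^ j) ^ p = z ^ j := by
        rw [hi, pow_succ, pow_mul, ← zpow_natCast (z ^ j) 2, ← _root_.zpow_mul, mul_comm, _root_.zpow_mul]
        have : z ^ ((2 : ℕ) : ℤ) = 1 := hz2
        rw [this, _root_.one_zpow, one_pow, one_mul]
      have h7 : y.1 ^ p = z ^ j := by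
        have hcj : (c.1 ^ j) ^ p = 1 := by
          rw [← zpow_natCast, ← _root_.zpow_mul, mul_comm, _root_.zpow_mul, zpow_natCast, S.cp, _root_.one_zpow]
        rw [h5, ((hcz.zpow_left j).zpow_right j).mul_pow, hcj, h6, one_mul]
      rw [h4] at h7
      show y.1 ∈ A
      rw [h5, ← h7, mul_one]
      exact Subgroup.zpow_mem _ (Subgroup.mem_zpowers _) j)
    (by
      intro h4
      have h1 : Subgroup.centralizer ((A ⊔ R : Subgroup L) : Set L) ≤ Subgroup.zpowers (c.1 * z) := hK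
      have h2 := Subgroup.card_dvd_of_le h1
      rw [Nat.card_zpowers, S.order_cz hzc] at h2
      have h3 : 4 ∣ p * 2 := h4.trans h2
      obtain ⟨i, hi⟩ := hodd
      omega)
    g (by rw [hgu]; exact memR.2 ⟨u, rfl⟩)
    (by
      rw [hgu]
      rintro ⟨y, hy, hy2⟩
      -- u is central in Q
      obtain ⟨s, hs⟩ := S.vR_surj (f1 m S.m1)
      have h1 : ¬ (u * s = s * u) := by
        rw [S.comm_R, hu, hs, pol_ef]; exact one_ne_zero
      apply h1
      have h2 := Subgroup.mem_center_iff.1 hy ⟨s.1.1.1, ⟨s.1.1, s.2, rfl⟩⟩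
      have h3 : s.1.1.1 * y.1 = y.1 * s.1.1.1 := congrArg Subtype.val h2
      have h4 : y.1 = u.1.1.1 := hy2
      rw [h4] at h3
      exact Subtype.ext (Subtype.ext (Subtype.ext h3.symm)))
    (Subgroup.centralizer (A : Set L) ⊔ A) rfl
  have hxA : x ∈ Subgroup.centralizer (A : Set L) := by
    have h1 : R ⊔ (Q.map (MulAut.conj g).toMonoidHom ⊓ Subgroup.centralizer (A : Set L)) ≤ Subgroup.centralizer (A : Set L) :=
      sup_le inf_le_right inf_le_right
    exact h1 hx
  have hxi := (Subgroup.centralizer (A : Set L)).inv_mem hxA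
  refine ⟨x⁻¹, memA.1 hxi, ?_⟩
  calc x⁻¹ * z * (x⁻¹)⁻¹ = x⁻¹ * (x * (g * z * g⁻¹) * x⁻¹) * (x⁻¹)⁻¹ := by rw [hx2]
    _ = g * z * g⁻¹ := by group
    _ = _ := hgu
end

end H33.CoT
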