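import Mathlib
import Cfsg.Agent.Lib.H91.LargePair
import Cfsg.Agent.Lib.H29.PGrp

set_option autoImplicit false

/-! A simplicity criterion for groups with a large extraspecial subgroup. -/

namespace H33.CoF

open Cfsg H91.LargePair

variable {S : Type*} [Group S] [Finite S] {Q : Subgroup S} {z : S}

omit [Finite S] in
theorem ne_bot' {K : Subgroup S} (h : K ≠ ⊥) : ∃ x, x ∈ K ∧ x ≠ 1 := by
  obtain ⟨a, ha⟩ := Subgroup.ne_bot_iff_exists_ne_one.1 h
  exact ⟨a.1, a.2, fun h => ha (Subtype.ext h)⟩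

omit [Finite S] in
theorem two_group (M : Pack Q z) : IsPGroup 2 Q := by
  intro x
  refine ⟨2, ?_⟩
  apply Subtype.ext
  show x.1 ^ 2 ^ 2 = 1
  have h1 : x.1 ^ 2 ^ 2 = (x.1 * x.1) * (x.1 * x.1) := by
    rw [show 2 ^ 2 = 4 from rfl]; simp only [pow_succ, pow_zero, one_mul, mul_assoc]
  rw [h1]
  rcases M.sq x.1 x.2 with h | h
  · rw [h, one_mul]
  · rw [h, M.zz]

theorem exists_P (M : Pack Q z) : ∃ P : Sylow 2 S, (∀ x ∈ (P : Subgroup S), x * z = z * x) ∧ Q ≤ P ∧
    ∀ x, (∀ y ∈ (P : Subgroup S), y * x = x * y) → x = 1 ∨ x = z := by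
  obtain ⟨P, hP⟩ := (two_group M).exists_le_sylow
  have h2 : Fact (Nat.Prime 2) := ⟨Nat.prime_two⟩
  have hcen : ∀ x, (∀ y ∈ (P : Subgroup S), y * x = x * y) → x = 1 ∨ x = z := fun x hx => M.C x (fun q hq => hx q (hP hq))
  refine ⟨P, ?_, hP, hcen⟩
  have hne : (P : Subgroup S) ≠ ⊥ := by
    intro h
    have := hP M.zQ
    rw [h, Subgroup.mem_bot] at this
    exact M.z1 this
  have h3 := H29.PGrp.inf_center_ne_bot P.2 (le_refl (P : Subgroup S)) Subgroup.le_normalizer hne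
  obtain ⟨x, hx, hx1⟩ := ne_bot' h3
  have h4 : ∀ y ∈ (P : Subgroup S), y * x = x * y := fun y hy => Subgroup.mem_centralizer_iff.1 hx.2 y hy
  rcases hcen x h4 with h5 | h5
  · exact absurd h5 hx1
  · rw [← h5]; exact h4

theorem z_mem_normal (M : Pack Q z) {u k : S} (hu : u ∈ Q) (huz : u ≠ z) (hk : k * z * k⁻¹ = u) (N : Subgroup S) [N.Normal]
    (hN : N ≠ ⊥) : z ∈ N := by
  have h2 : Fact (Nat.Prime 2) := ⟨Nat.prime_two⟩
  by_cases hdiv : 2 ∣ Nat.card N
  · obtain ⟨P, hP1, hP2, hP3⟩ := exists_P M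
    obtain ⟨x, hx⟩ := exists_prime_orderOf_dvd_card' 2 hdiv
    have hx' : orderOf x.1 = 2 := by rw [Subgroup.orderOf_coe]; exact hx
    have hxp : IsPGroup 2 (Subgroup.zpowers x.1) := by
      apply IsPGroup.of_card (n := 1)
      rw [Nat.card_zpowers, hx', pow_one]
    obtain ⟨P', hP'⟩ := hxp.exists_le_sylow
    obtain ⟨g, hg⟩ := MulAction.exists_smul_eq S P' P
    have h3 : g * x.1 * g⁻¹ ∈ (P : Subgroup S) := by
      rw [← hg]
      exact (Subgroup.smul_mem_pointwise_smul_iff (a := MulAut.conj g)).2 (hP' (Subgroup.mem_zpowers _))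
    have h4 : N ⊓ (P : Subgroup S) ≠ ⊥ := by
      intro h
      have h5 : g * x.1 * g⁻¹ ∈ N ⊓ (P : Subgroup S) := ⟨(inferInstance : N.Normal).conj_mem _ x.2 g, h3⟩
      rw [h, Subgroup.mem_bot, conj_eq_one_iff] at h5
      rw [h5, orderOf_one] at hx'
      omega
    have h5 := H29.PGrp.inf_center_ne_bot P.2 (M := N ⊓ (P : Subgroup S)) inf_le_right (by
      intro y hy
      rw [Subgroup.mem_normalizer_iff]
      intro t
      constructor
      · rintro ⟨h6, h7⟩
        exact ⟨(inferInstance : N.Normal).conj_mem _ h6 y, (P : Subgroup S).mul_mem ((P : Subgroup S).mul_mem hy h7) ((P : Subgroup S).inv_mem hy)⟩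
      · rintro ⟨h6, h7⟩
        have h8 := (inferInstance : N.Normal).conj_mem _ h6 y⁻¹
        have h9 := (P : Subgroup S).mul_mem ((P : Subgroup S).mul_mem ((P : Subgroup S).inv_mem hy) h7) hy
        have e : y⁻¹ * (y * t * y⁻¹) * y = t := by group
        rw [inv_inv, e] at h8
        rw [e] at h9
        exact ⟨h8, h9⟩) h4
    obtain ⟨t, ht, ht1⟩ := ne_bot' h5
    rcases hP3 t (fun y hy => Subgroup.mem_centralizer_iff.1 ht.2 y hy) with h6 | h6
    · exact absurd h6 ht1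
    · rw [← h6]; exact ht.1.1
  · exfalso
    have hQ2 := two_group M
    -- C_N(z) = 1
    have hNQ : ∀ x, x ∈ N → x ∈ Q → x = 1 := by
      intro x hx hxQ
      have h3 : x * x = 1 ∨ x * x = z := M.sq x hxQ
      have h4 : x ^ 4 = 1 := by
        have : x ^ 4 = (x * x) * (x * x) := by simp only [pow_succ, pow_zero, one_mul, mul_assoc]
        rw [this]
        rcases h3 with h | h
        · rw [h, one_mul]
        · rw [h, M.zz]
      have h5 : orderOf x ∣ Nat.card N := Subgroup.orderOf_dvd_natCard N hx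
      have h6 := orderOf_dvd_of_pow_eq_one h4
      have h7 : Nat.Coprime 4 (Nat.card N) := by
        rw [show 4 = 2 ^ 2 from rfl]
        exact Nat.Coprime.pow_left _ ((Nat.Prime.coprime_iff_not_dvd Nat.prime_two).2 hdiv)
      exact orderOf_eq_one_iff.1 (Nat.eq_one_of_dvd_coprimes h7 h6 h5)
    have hCz : ∀ n ∈ N, n * z = z * n → n = 1 := by
      intro n hn hnz
      have h3 : ∀ q ∈ Q, q * n = n * q := by
        intro q hq
        have h4 : n * q * n⁻¹ * q⁻¹ = 1 := by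
          apply hNQ
          · have h5 := (inferInstance : N.Normal).conj_mem _ (N.inv_mem hn) q
            have h6 := N.mul_mem hn h5
            have e : n * (q * n⁻¹ * q⁻¹) = n * q * n⁻¹ * q⁻¹ := by group
            rwa [e] at h6
          · exact Q.mul_mem (M.N n hnz q hq) (Q.inv_mem hq)
        have h5 : n * q = q * n := by
          calc n * q = (n * q * n⁻¹ * q⁻¹) * (q * n) := by group
            _ = q * n := by rw [h4, one_mul]
        exact h5.symm
      rcases M.C n h3 with h4 | h4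
      · exact h4
      · exact absurd (hNQ n hn (h4 ▸ M.zQ)) (by rw [h4]; exact M.z1)
    have hconj : ∀ g n : S, n ∈ N → n * (g * z * g⁻¹) = (g * z * g⁻¹) * n → n = 1 := by
      intro g n hn h3
      have h4 : g⁻¹ * n * g = 1 := by
        apply hCz
        · have := (inferInstance : N.Normal).conj_mem _ hn g⁻¹
          rwa [inv_inv] at this
        · calc g⁻¹ * n * g * z = g⁻¹ * (n * (g * z * g⁻¹)) * g := by group
            _ = g⁻¹ * ((g * z * g⁻¹) * n) * g := by rw [h3]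
            _ = z * (g⁻¹ * n * g) := by group
      calc n = g * (g⁻¹ * n * g) * g⁻¹ := by group
        _ = 1 := by rw [h4]; group
    -- an element inverting
    have hinv : ∀ t : S, t * t = 1 → (∀ n ∈ N, n * t = t * n → n = 1) → ∀ n ∈ N, t * n * t⁻¹ = n⁻¹ := by
      intro t ht hfix n hn
      have hN' : ∀ n : N, n.1⁻¹ * (t * n.1 * t⁻¹) ∈ N := fun n => N.mul_mem (N.inv_mem n.2) ((inferInstance : N.Normal).conj_mem _ n.2 t)
      let f : N → N := fun n => ⟨n.1⁻¹ * (t * n.1 * t⁻¹), hN' n⟩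
      have hf : Function.Injective f := by
        intro x y hxy
        have h3 : x.1⁻¹ * (t * x.1 * t⁻¹) = y.1⁻¹ * (t * y.1 * t⁻¹) := congrArg Subtype.val hxy
        have h4 : y.1 * x.1⁻¹ = 1 := by
          apply hfix _ (N.mul_mem y.2 (N.inv_mem x.2))
          calc y.1 * x.1⁻¹ * t = y.1 * (x.1⁻¹ * (t * x.1 * t⁻¹)) * (t * x.1⁻¹) := by group
            _ = y.1 * (y.1⁻¹ * (t * y.1 * t⁻¹)) * (t * x.1⁻¹) := by rw [h3]
            _ = t * (y.1 * x.1⁻¹) := by group
        exact Subtype.ext (mul_inv_eq_one.1 h4).symm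
      obtain ⟨m, hm⟩ := Finite.surjective_of_injective hf ⟨n, hn⟩
      have h5 : m.1⁻¹ * (t * m.1 * t⁻¹) = n := congrArg Subtype.val hm
      have hti : t⁻¹ = t := inv_eq_of_mul_eq_one_right ht
      rw [← h5]
      rw [hti]
      calc t * (m.1⁻¹ * (t * m.1 * t)) * t = t * m.1⁻¹ * t * m.1 * (t * t) := by group
        _ = (m.1⁻¹ * (t * m.1 * t))⁻¹ := by rw [ht]; simp only [mul_inv_rev, inv_inv, hti, mul_one]; group
    have hzi := hinv z M.zz hCz
    have huu : u * u = 1 := by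
      rw [← hk]
      calc k * z * k⁻¹ * (k * z * k⁻¹) = k * (z * z) * k⁻¹ := by group
        _ = 1 := by rw [M.zz]; group
    have hui := hinv u huu (by intro n hn h3; rw [← hk] at h3; exact hconj k n hn h3)
    -- u z is conjugate to u in Q
    have hu1 : u ≠ 1 := by
      intro h
      rw [h] at hk
      have : z = 1 := by
        calc z = k⁻¹ * (k * z * k⁻¹) * k := by group
          _ = 1 := by rw [hk]; group
      exact M.z1 this
    have hex : ∃ q ∈ Q, q * u * q⁻¹ = z * u := by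
      by_contra hno
      push Not at hno
      rcases M.cen u hu (by
        intro q hq
        rcases M.comm q hq u hu with h3 | h3
        · rw [mul_inv_eq_one, mul_inv_eq_iff_eq_mul] at h3
          exact h3
        · exfalso
          apply hno q hq
          rw [mul_inv_eq_iff_eq_mul] at h3
          exact h3) with h3 | h3
      · exact hu1 h3
      · exact huz h3
    obtain ⟨q, hq, hqu⟩ := hex
    obtain ⟨n, hn1⟩ := Subgroup.ne_bot_iff_exists_ne_one.1 hN
    have h6 : n.1 = 1 := by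
      apply hconj (q * k) n.1 n.2
      have h7 : q * k * z * (q * k)⁻¹ = z * u := by
        rw [← hqu, ← hk]; group
      rw [h7]
      have h8 : u * n.1 * u⁻¹ = n.1⁻¹ := hui n.1 n.2
      have h9 : z * n.1⁻¹ * z⁻¹ = n.1 := by rw [hzi _ (N.inv_mem n.2), inv_inv]
      calc n.1 * (z * u) = (z * n.1⁻¹ * z⁻¹) * (z * u) := by rw [h9]
        _ = z * (n.1⁻¹ * u) := by group
        _ = z * ((u * n.1 * u⁻¹) * u) := by rw [h8]
        _ = z * u * n.1 := by group
    exact hn1 (Subtype.ext h6)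

theorem simple_of (M : Pack Q z) {u k : S} (hu : u ∈ Q) (huz : u ≠ z) (hk : k * z * k⁻¹ = u) {y1 y2 : S} (h1 : y1 ∈ Q) (h2 : y2 ∈ Q)
    (h1u : y1 * u = u * y1) (h2u : y2 * u = u * y2) (h12 : y1 * y2 ≠ y2 * y1)
    (hgen : ∀ Y : Subgroup S, (∀ y ∈ Y, y * z = z * y) → (∀ c, c * z = z * c → ∀ y ∈ Y, c * y * c⁻¹ ∈ Y) → u ∈ Y → Q ≤ Y)
    (hmax : ∀ Y : Subgroup S, Q ≤ Y → (∀ y ∈ Y, y * z = z * y) → (∀ c, c * z = z * c → ∀ y ∈ Y, c * y * c⁻¹ ∈ Y) →
      Y = Q ∨ ∀ c, c * z = z * c → c ∈ Y) : IsSimpleGroup S := by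
  have hp2 : Fact (Nat.Prime 2) := ⟨Nat.prime_two⟩
  have hnt : Nontrivial S := ⟨z, 1, M.z1⟩
  refine IsSimpleGroup.mk (fun N hNn => ?_)
  by_cases hN : N = ⊥
  · exact Or.inl hN
  right
  have hz := z_mem_normal M hu huz hk N hN
  have huN : u ∈ N := by rw [← hk]; exact hNn.conj_mem _ hz k
  let Y : Subgroup S := N ⊓ Subgroup.centralizer ({z} : Set S)
  have hYm : ∀ {y}, y ∈ Y ↔ y ∈ N ∧ y * z = z * y := by
    intro y
    constructor
    · rintro ⟨h3, h4⟩; exact ⟨h3, Subgroup.mem_centralizer_singleton_iff.1 h4⟩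
    · rintro ⟨h3, h4⟩; exact ⟨h3, Subgroup.mem_centralizer_singleton_iff.2 h4⟩
  have hY1 : ∀ y ∈ Y, y * z = z * y := fun y hy => (hYm.1 hy).2
  have hY2 : ∀ c, c * z = z * c → ∀ y ∈ Y, c * y * c⁻¹ ∈ Y := by
    intro c hc y hy
    refine hYm.2 ⟨hNn.conj_mem _ (hYm.1 hy).1 c, ?_⟩
    have h3 : Commute c z := hc
    have h4 : Commute y z := (hYm.1 hy).2
    exact ((h3.mul_left h4).mul_left h3.inv_left).eq
  have hYu : u ∈ Y := hYm.2 ⟨huN, M.zc u hu⟩
  have hQY := hgen Y hY1 hY2 hYu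
  rcases hmax Y hQY hY1 hY2 with h3 | h3
  · exfalso
    -- y1, y2 in k Q k⁻¹
    have key : ∀ y ∈ Q, y * u = u * y → k⁻¹ * y * k ∈ Q := by
      intro y hy hyu
      rw [← h3]
      refine hYm.2 ⟨?_, ?_⟩
      · have := hNn.conj_mem _ (hYm.1 (hQY hy)).1 k⁻¹
        rwa [inv_inv] at this
      · calc k⁻¹ * y * k * z = k⁻¹ * (y * (k * z * k⁻¹)) * k := by group
          _ = k⁻¹ * ((k * z * k⁻¹) * y) * k := by rw [hk, hyu]
          _ = z * (k⁻¹ * y * k) := by group
    have k1 := key y1 h1 h1u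
    have k2 := key y2 h2 h2u
    have c1 : y1 * y2 * y1⁻¹ * y2⁻¹ = z := by
      rcases M.comm y1 h1 y2 h2 with h4 | h4
      · rw [mul_inv_eq_one, mul_inv_eq_iff_eq_mul] at h4
        exact absurd h4 h12
      · exact h4
    have c2 : (k⁻¹ * y1 * k) * (k⁻¹ * y2 * k) * (k⁻¹ * y1 * k)⁻¹ * (k⁻¹ * y2 * k)⁻¹ = k⁻¹ * (y1 * y2 * y1⁻¹ * y2⁻¹) * k := by group
    rcases M.comm _ k1 _ k2 with h4 | h4
    · rw [c2, c1] at h4
      apply M.z1
      calc z = k * (k⁻¹ * z * k) * k⁻¹ := by group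
        _ = 1 := by rw [h4]; group
    · rw [c2, c1] at h4
      apply huz
      rw [← hk]
      calc k * z * k⁻¹ = k * (k⁻¹ * z * k) * k⁻¹ := by rw [h4]
        _ = z := by group
  · obtain ⟨P, hP1, hP2, hP3⟩ := exists_P M
    have hCN : ∀ c, c * z = z * c → c ∈ N := fun c hc => (hYm.1 (h3 c hc)).1
    have hPN : (P : Subgroup S) ≤ N := fun x hx => hCN x (hP1 x hx)
    have h4 := Sylow.normalizer_sup_eq_top' P hPN
    have h5 : Subgroup.normalizer ((P : Subgroup S) : Set S) ≤ N := by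
      intro g hg
      apply hCN
      have h6 : ∀ y ∈ (P : Subgroup S), y * (g * z * g⁻¹) = (g * z * g⁻¹) * y := by
        intro y hy
        have h7 : g⁻¹ * y * g ∈ (P : Subgroup S) := by
          have := (Subgroup.mem_normalizer_iff.1 ((Subgroup.normalizer _).inv_mem hg) y).1 hy
          rwa [inv_inv] at this
        have h8 := hP1 _ h7
        calc y * (g * z * g⁻¹) = g * ((g⁻¹ * y * g) * z) * g⁻¹ := by group
          _ = g * (z * (g⁻¹ * y * g)) * g⁻¹ := by rw [h8]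
          _ = (g * z * g⁻¹) * y := by group
      rcases hP3 _ h6 with h7 | h7
      · rw [conj_eq_one_iff] at h7; exact absurd h7 M.z1
      · rwa [mul_inv_eq_iff_eq_mul] at h7
    rw [eq_top_iff, ← h4]
    exact sup_le h5 (le_refl N)

end H33.CoF
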