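import Mathlib
import Cfsg.Agent.Lib.H33.CoE
import Cfsg.Agent.Lib.H33.CoF

set_option autoImplicit false

/-! The quotient of the centralizer of `c`. -/

namespace H33.CoT

open Cfsg H86.OutExtra Matrix QuadraticMap H49.OrthAdj H48.QuadStd H91.MonsterForm
open H33.MonRed (HH mem_HH pow_of_zpowers sq_zpowers assemble)

variable {m k p : ℕ} {q1 : QuadraticForm (ZMod 2) (I1 m k → ZMod 2)} {qW : (Fin k → ZMod 2) → ZMod 2}
  {a1 : Matrix (Fin k) (Fin k) (ZMod 2)} {w0 : Fin k → ZMod 2}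

instance norm_zp {L : Type*} [Group L] (c : L) : ((Subgroup.zpowers c).subgroupOf (HH c)).Normal := by
  constructor
  intro n hn g
  have h1 := Subgroup.mem_centralizer_iff.1 g.2 n.1 hn
  have h2 : (g * n * g⁻¹) = n := by
    apply Subtype.ext
    show g.1 * n.1 * g.1⁻¹ = n.1
    rw [← h1]; group
  rw [h2]; exact hn

abbrev SS {L : Type*} [Group L] (c : L) : Type _ := HH c ⧸ (Subgroup.zpowers c).subgroupOf (HH c)

section
variable {L : Type*} [Group L] [Finite L] {z : L} {Qc : Subgroup (Subgroup.centralizer ({z} : Set L))} [hQn : Qc.Normal]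
  {π : Qc → I1 m k → ZMod 2} {zc : Qc}
variable {a : G q1} {c : Subgroup.centralizer ({z} : Set L)}

/-- the map to the quotient -/
def Th (c : Subgroup.centralizer ({z} : Set L)) : DC c →* SS c.1 :=
  (QuotientGroup.mk' _).comp (MonoidHom.mk' (fun d => (⟨d.1.1, mem_HH.2 (congrArg Subtype.val (mem_DC.1 d.2))⟩ : HH c.1)) (fun _ _ => rfl))

omit [Finite L] in
theorem Th_eq (d e : DC c) : Th c d = Th c e ↔ d.1.1⁻¹ * e.1.1 ∈ Subgroup.zpowers c.1 := by
  show (QuotientGroup.mk _ : SS c.1) = QuotientGroup.mk _ ↔ _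
  rw [QuotientGroup.eq, Subgroup.mem_subgroupOf]
  rfl

variable (S : St Qc π zc q1 qW a1 w0 p a c) (hzc : zc.1.1 = z)
include S hzc

omit hzc in
theorem St.inter {x : DC c} (hx : x.1 ∈ Qc) (hxc : x.1.1 ∈ Subgroup.zpowers c.1) : x = 1 := by
  obtain ⟨j, hj⟩ := Subgroup.mem_zpowers_iff.1 hxc
  have h1 : x.1.1 ^ p = 1 := by
    rw [← hj, ← zpow_natCast, ← _root_.zpow_mul, mul_comm, _root_.zpow_mul, zpow_natCast, S.cp, _root_.one_zpow]
  obtain ⟨n, hn⟩ := S.pg ⟨x.1, hx⟩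
  have h2 : x.1.1 ^ 2 ^ n = 1 := congrArg (fun t : Qc => t.1.1) hn
  have h3 : Nat.Coprime p (2 ^ n) := Nat.Coprime.pow_right _ ((Nat.coprime_primes S.hp Nat.prime_two).2 S.hp2)
  have h4 := Nat.eq_one_of_dvd_coprimes h3 (orderOf_dvd_of_pow_eq_one h1) (orderOf_dvd_of_pow_eq_one h2)
  exact Subtype.ext (Subtype.ext (orderOf_eq_one_iff.1 h4))

omit hzc in
theorem St.Th_inj {r s : KR Qc c} (h : Th c r.1 = Th c s.1) : r = s := by
  rw [Th_eq] at h
  have h1 := S.inter (x := r.1⁻¹ * s.1) (Qc.mul_mem (Qc.inv_mem r.2) s.2) h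
  exact Subtype.ext (inv_mul_eq_one.1 h1)

/-- the involution in the quotient -/
def St.zb (S : St Qc π zc q1 qW a1 w0 p a c) : SS c.1 := Th c S.zR.1

/-- the centralizer of the involution is the image -/
theorem St.Th_range {x : SS c.1} (hx : x * S.zb = S.zb * x) : ∃ d, Th c d = x := by
  obtain ⟨h, rfl⟩ := QuotientGroup.mk_surjective x
  have hodd : Odd p := S.hp.odd_of_ne_two S.hp2
  have hzz := S.zz hzc
  have hzH : z ∈ HH c.1 := mem_HH.2 S.cz.symm
  have e0 : S.zb = QuotientGroup.mk (⟨z, hzH⟩ : HH c.1) := by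
    show (QuotientGroup.mk _ : SS c.1) = QuotientGroup.mk _
    congr 1
    exact Subtype.ext hzc
  rw [e0, ← QuotientGroup.mk_mul, ← QuotientGroup.mk_mul, QuotientGroup.eq, Subgroup.mem_subgroupOf] at hx
  have h0 : (h.1 * z)⁻¹ * (z * h.1) ∈ Subgroup.zpowers c.1 := hx
  have h1 : h.1 * z = z * h.1 := by
    set e := (h.1 * z)⁻¹ * (z * h.1) with he
    have h2 : z * e = h.1⁻¹ * z * h.1 := by
      have hzi : z⁻¹ = z := inv_eq_of_mul_eq_one_right hzz
      rw [he, _root_.mul_inv_rev, hzi]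
      calc z * (z * h.1⁻¹ * (z * h.1)) = (z * z) * (h.1⁻¹ * z * h.1) := by group
        _ = _ := by rw [hzz, one_mul]
    have h3 : (z * e) * (z * e) = 1 := by
      rw [h2]
      calc h.1⁻¹ * z * h.1 * (h.1⁻¹ * z * h.1) = h.1⁻¹ * (z * z) * h.1 := by group
        _ = 1 := by rw [hzz]; group
    have h4 : e * z = z * e := by
      obtain ⟨j, hj⟩ := Subgroup.mem_zpowers_iff.1 h0
      rw [← hj]
      have hcz : Commute c.1 z := S.cz
      exact (hcz.zpow_left j).eq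
    have h5 : e * e = 1 := by
      calc e * e = (z * z) * (e * e) := by rw [hzz, one_mul]
        _ = z * (z * e) * e := by group
        _ = z * (e * z) * e := by rw [h4]
        _ = (z * e) * (z * e) := by group
        _ = 1 := h3
    have h6 := sq_zpowers hodd S.cp h0 h5
    rw [he, inv_mul_eq_one] at h6
    exact h6
  exact ⟨⟨⟨h.1, Subgroup.mem_centralizer_singleton_iff.2 h1⟩, mem_DC.2 (Subtype.ext (mem_HH.1 h.2))⟩, rfl⟩

omit hzc in
theorem St.Th_comm (d : DC c) : Th c d * S.zb = S.zb * Th c d := by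
  rw [St.zb, ← map_mul, ← map_mul]
  congr 1
  apply Subtype.ext
  have h1 := S.zfix d.1
  show d.1 * zc.1 = zc.1 * d.1
  rw [mul_inv_eq_iff_eq_mul] at h1
  exact h1

/-- the extraspecial subgroup of the quotient -/
abbrev QS (Qc : Subgroup (Subgroup.centralizer ({z} : Set L))) (c : Subgroup.centralizer ({z} : Set L)) : Subgroup (SS c.1) :=
  (KR Qc c).map (Th c)

theorem St.Th_c : Th c ⟨c, mem_DC.2 rfl⟩ = 1 := by
  rw [← map_one (Th c), eq_comm, Th_eq]
  have : (1 : DC c).1.1⁻¹ * (⟨c, mem_DC.2 rfl⟩ : DC c).1.1 = c.1 := by simp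
  rw [this]; exact Subgroup.mem_zpowers _

theorem St.Th_mul_pow (d : DC c) (n : ℕ) (h : d.1 * c ^ n ∈ DC c) : Th c ⟨d.1 * c ^ n, h⟩ = Th c d := by
  have h1 : (⟨d.1 * c ^ n, h⟩ : DC c) = d * ⟨c, mem_DC.2 rfl⟩ ^ n := Subtype.ext rfl
  rw [h1, map_mul, map_pow, S.Th_c hzc, one_pow, mul_one]

theorem St.pack : H91.LargePair.Pack (QS Qc c) S.zb where
  zQ := ⟨S.zR.1, S.zR.2, rfl⟩
  z1 := by
    intro h
    apply S.zR_ne
    apply S.Th_inj
    rw [← St.zb, h]; exact (map_one _).symm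
  zz := by
    rw [St.zb, ← map_mul]
    have : S.zR.1 * S.zR.1 = 1 := congrArg Subtype.val S.qd.xs.sq_ζ
    rw [this, map_one]
  zc := by
    rintro _ ⟨d, -, rfl⟩
    exact S.Th_comm d
  cen := by
    rintro _ ⟨r, hr, rfl⟩ h
    have h1 := S.center_R ⟨r, hr⟩ (by
      intro s
      apply S.Th_inj
      show Th c (r * s.1) = Th c (s.1 * r)
      rw [map_mul, map_mul]
      exact (h _ ⟨s.1, s.2, rfl⟩).symm)
    rcases h1 with h1 | h1
    · left
      have h2 : r = 1 := congrArg Subtype.val h1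
      rw [h2, map_one]
    · right
      have h2 : r = S.zR.1 := congrArg Subtype.val h1
      rw [h2]; rfl
  comm := by
    rintro _ ⟨r, hr, rfl⟩ _ ⟨s, hs, rfl⟩
    rcases S.qd.xs.cm ⟨s, hs⟩ ⟨r, hr⟩ with h | h
    · left
      have h2 : r * s = s * r := congrArg Subtype.val h
      rw [← map_mul, h2, map_mul]; group
    · right
      have h2 : r * s = S.zR.1 * (s * r) := congrArg Subtype.val h
      rw [← map_mul, h2, map_mul, map_mul]
      show S.zb * _ * _ * _ = _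
      group
  sq := by
    rintro _ ⟨r, hr, rfl⟩
    rcases S.sq_R ⟨r, hr⟩ with h | h
    · left
      have h2 : r * r = 1 := congrArg Subtype.val h
      rw [← map_mul, h2, map_one]
    · right
      have h2 : r * r = S.zR.1 := congrArg Subtype.val h
      rw [← map_mul, h2]; rfl
  C := by
    intro x hx
    have h1 : x * S.zb = S.zb * x := (hx _ ⟨S.zR.1, S.zR.2, rfl⟩).symm
    obtain ⟨d, rfl⟩ := S.Th_range hzc h1
    have h2 : ∀ r : KR Qc c, d.1 * r.1.1 = r.1.1 * d.1 := by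
      intro r
      have h3 := hx _ ⟨r.1, r.2, rfl⟩
      have h4 : (⟨d * r.1 * d⁻¹, KR_normal.conj_mem _ r.2 d⟩ : KR Qc c) = r := by
        apply S.Th_inj
        show Th c (d * r.1 * d⁻¹) = Th c r.1
        rw [map_mul, map_mul, map_inv, ← h3, mul_inv_cancel_right]
      have h5 : d.1 * r.1.1 * d.1⁻¹ = r.1.1 := congrArg (fun t : KR Qc c => t.1.1) h4
      rwa [mul_inv_eq_iff_eq_mul] at h5
    obtain ⟨n, hn⟩ := S.cent_R d h2
    have hD : d.1 * c ^ n ∈ DC c := (DC c).mul_mem d.2 ((DC c).pow_mem (mem_DC.2 rfl) n)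
    rw [← S.Th_mul_pow hzc d n hD]
    rcases hn with h | h
    · left
      have : (⟨d.1 * c ^ n, hD⟩ : DC c) = 1 := Subtype.ext h
      rw [this, map_one]
    · right
      have : (⟨d.1 * c ^ n, hD⟩ : DC c) = S.zR.1 := Subtype.ext h
      rw [this]; rfl
  N := by
    rintro x hx _ ⟨r, hr, rfl⟩
    obtain ⟨d, rfl⟩ := S.Th_range hzc hx
    rw [← map_inv, ← map_mul, ← map_mul]
    exact ⟨_, KR_normal.conj_mem _ hr d, rfl⟩

/-- `phi` onto `XX` -/
noncomputable def St.phX (S : St Qc π zc q1 qW a1 w0 p a c) : DC c →* XX S.F := S.phi.codRestrict _ S.phi_mem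

omit hzc in
theorem St.phX_surj : Function.Surjective S.phX := by
  rintro ⟨x, hx⟩
  obtain ⟨d, hd⟩ := S.phi_surj hx
  exact ⟨d, Subtype.ext hd⟩

omit hzc in
theorem St.phX_one (d : DC c) : S.phX d = 1 ↔ ∃ n : ℕ, d.1 * c ^ n ∈ Qc := by
  rw [← S.phi_ker]
  exact ⟨fun h => congrArg Subtype.val h, fun h => Subtype.ext h⟩

theorem St.simple (hsX : IsSimpleGroup (XX S.F)) (u : KR Qc c) (hu : vR π u = e1 m S.m1) {x : L} (hxc : x * c.1 = c.1 * x)
    (hx : x * z * x⁻¹ = u.1.1.1) : IsSimpleGroup (SS c.1) := by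
  obtain ⟨y1, hy1⟩ := S.vR_surj (uu m)
  obtain ⟨y2, hy2⟩ := S.vR_surj (vv m)
  have hne : u ≠ S.zR := by
    intro h
    have h1 := (S.vR_zero u).2 (Or.inr h)
    rw [hu] at h1
    have h2 := pol_ef S.m1
    rw [h1] at h2
    simp [polar] at h2
  refine H33.CoF.simple_of (S.pack hzc) (u := Th c u.1) (k := QuotientGroup.mk ⟨x, mem_HH.2 hxc⟩) (y1 := Th c y1.1) (y2 := Th c y2.1)
    ⟨u.1, u.2, rfl⟩ (fun h => hne (S.Th_inj h)) ?_ ⟨y1.1, y1.2, rfl⟩ ⟨y2.1, y2.2, rfl⟩ ?_ ?_ ?_ ?_ ?_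
  · have hzH : z ∈ HH c.1 := mem_HH.2 S.cz.symm
    have e0 : S.zb = QuotientGroup.mk (⟨z, hzH⟩ : HH c.1) := by
      show (QuotientGroup.mk _ : SS c.1) = QuotientGroup.mk _
      congr 1
      exact Subtype.ext hzc
    rw [e0, ← QuotientGroup.mk_inv, ← QuotientGroup.mk_mul, ← QuotientGroup.mk_mul]
    show (QuotientGroup.mk _ : SS c.1) = QuotientGroup.mk _
    congr 1
    exact Subtype.ext hx
  · have h1 : y1 * u = u * y1 := by rw [S.comm_R, hy1, hu, pol_eu]
    have h2 : y1.1 * u.1 = u.1 * y1.1 := congrArg Subtype.val h1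
    rw [← map_mul, h2, map_mul]
  · have h1 : y2 * u = u * y2 := by rw [S.comm_R, hy2, hu, pol_ev]
    have h2 : y2.1 * u.1 = u.1 * y2.1 := congrArg Subtype.val h1
    rw [← map_mul, h2, map_mul]
  · intro h
    have h1 : y1 * y2 = y2 * y1 := by
      apply S.Th_inj
      show Th c (y1.1 * y2.1) = Th c (y2.1 * y1.1)
      rw [map_mul, map_mul, h]
    rw [S.comm_R, hy1, hy2, pol_uv] at h1
    exact one_ne_zero h1
  · intro Y hY1 hY2 huY
    have hN : (Y.comap (Th c)).Normal := by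
      constructor
      intro n hn g
      show Th c (g * n * g⁻¹) ∈ Y
      rw [map_mul, map_mul, map_inv]
      exact hY2 _ (S.Th_comm g) _ hn
    have h1 := S.gen u hu (Y.comap (Th c)) hN huY
    rintro _ ⟨r, hr, rfl⟩
    exact h1 hr
  · intro Y hQY hY1 hY2
    have hN : (Y.comap (Th c)).Normal := by
      constructor
      intro n hn g
      show Th c (g * n * g⁻¹) ∈ Y
      rw [map_mul, map_mul, map_inv]
      exact hY2 _ (S.Th_comm g) _ hn
    have hKY : ∀ d : DC c, d.1 ∈ Qc → d ∈ Y.comap (Th c) := fun d hd => hQY ⟨d, hd, rfl⟩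
    have hcY : ∀ n : ℕ, (⟨c, mem_DC.2 rfl⟩ : DC c) ^ n ∈ Y.comap (Th c) := by
      intro n
      apply Subgroup.pow_mem
      show Th c _ ∈ Y
      rw [S.Th_c hzc]; exact Y.one_mem
    have hker : ∀ d : DC c, S.phX d = 1 → ∃ n : ℕ, ∃ e : DC c, e.1 ∈ Qc ∧ Th c e = Th c d ∧ e = d * ⟨c, mem_DC.2 rfl⟩ ^ n := by
      intro d hd
      obtain ⟨n, hn⟩ := (S.phX_one d).1 hd
      have hD : d.1 * c ^ n ∈ DC c := (DC c).mul_mem d.2 ((DC c).pow_mem (mem_DC.2 rfl) n)
      exact ⟨n, ⟨_, hD⟩, hn, S.Th_mul_pow hzc d n hD, Subtype.ext rfl⟩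
    have hNm : ((Y.comap (Th c)).map S.phX).Normal := Subgroup.Normal.map hN _ S.phX_surj
    rcases hsX.eq_bot_or_eq_top_of_normal _ hNm with h1 | h1
    · left
      apply le_antisymm _ hQY
      intro y hy
      obtain ⟨d, rfl⟩ := S.Th_range hzc (hY1 y hy)
      have h2 : S.phX d ∈ (Y.comap (Th c)).map S.phX := ⟨d, hy, rfl⟩
      rw [h1, Subgroup.mem_bot] at h2
      obtain ⟨n, e, he, he2, -⟩ := hker d h2
      rw [← he2]; exact ⟨e, he, rfl⟩
    · right
      intro x' hx'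
      obtain ⟨d, rfl⟩ := S.Th_range hzc hx'
      have h2 : S.phX d ∈ (Y.comap (Th c)).map S.phX := by rw [h1]; exact Subgroup.mem_top _
      obtain ⟨y, hy, hy2⟩ := h2
      obtain ⟨n, e, he, he2, -⟩ := hker (d * y⁻¹) (by rw [map_mul, map_inv, hy2, mul_inv_cancel])
      have h3 : Th c (d * y⁻¹) ∈ Y := by rw [← he2]; exact hKY e he
      rw [map_mul, map_inv] at h3
      have h4 := Y.mul_mem h3 (show Th c y ∈ Y from hy)
      rwa [inv_mul_cancel_right] at h4
end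

end H33.CoT
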