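import Mathlib
import Cfsg.Agent.Lib.H33.CoG

set_option autoImplicit false

/-! The extraspecial centralizer setting in the quotient of the centralizer of `c`. -/

namespace H33.CoT

open Cfsg H86.OutExtra Matrix QuadraticMap H49.OrthAdj H48.QuadStd H91.MonsterForm
open H33.MonRed (HH mem_HH pow_of_zpowers sq_zpowers assemble)

variable {m k p : ℕ} {q1 : QuadraticForm (ZMod 2) (I1 m k → ZMod 2)} {qW : (Fin k → ZMod 2) → ZMod 2}
  {a1 : Matrix (Fin k) (Fin k) (ZMod 2)} {w0 : Fin k → ZMod 2}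

section
variable {L : Type*} [Group L] [Finite L] {z : L} {Qc : Subgroup (Subgroup.centralizer ({z} : Set L))} [hQn : Qc.Normal]
  {π : Qc → I1 m k → ZMod 2} {zc : Qc}
variable {a : G q1} {c : Subgroup.centralizer ({z} : Set L)}
variable (S : St Qc π zc q1 qW a1 w0 p a c) (hzc : zc.1.1 = z)
include S hzc

theorem St.setting (hcore : pCore 2 (XX S.F) = ⊥) : orderOf S.zb = 2 ∧
    ∃ (Q' : Subgroup (Subgroup.centralizer ({S.zb} : Set (SS c.1)))) (_ : Q'.Normal),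
      generalizedFittingSubgroup (Subgroup.centralizer ({S.zb} : Set (SS c.1))) = Q' ∧ IsExtraspecial 2 Q' ∧
      Nat.card Q' = 2 ^ (2 * (m + 1) + 1) ∧ Nonempty ((Subgroup.centralizer ({S.zb} : Set (SS c.1))) ⧸ Q' ≃* XX S.F) ∧
      ∀ r : KR Qc c, ∃ h : Th c r.1 ∈ Subgroup.centralizer ({S.zb} : Set (SS c.1)), (⟨Th c r.1, h⟩ : Subgroup.centralizer ({S.zb} : Set (SS c.1))) ∈ Q' := by
  have P := S.pack hzc
  let ψ : DC c →* Subgroup.centralizer ({S.zb} : Set (SS c.1)) :=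
    (Th c).codRestrict _ (fun d => Subgroup.mem_centralizer_singleton_iff.2 (S.Th_comm d))
  have hψs : Function.Surjective ψ := by
    rintro ⟨y, hy⟩
    obtain ⟨d, hd⟩ := S.Th_range hzc (Subgroup.mem_centralizer_singleton_iff.1 hy)
    exact ⟨d, Subtype.ext hd⟩
  have hψe : ∀ x y : DC c, ψ x = ψ y ↔ Th c x = Th c y := fun x y => ⟨fun h => congrArg Subtype.val h, fun h => Subtype.ext h⟩
  obtain ⟨h1, h2, h3, hN, h4⟩ := assemble ψ hψs S.phX S.phX_surj (KR Qc c) (by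
    intro x
    rw [S.phX_one]
    constructor
    · rintro ⟨n, hn⟩
      have hD : x.1 * c ^ n ∈ DC c := (DC c).mul_mem x.2 ((DC c).pow_mem (mem_DC.2 rfl) n)
      refine ⟨⟨_, hD⟩, hn, ?_⟩
      rw [hψe, S.Th_mul_pow hzc]
    · rintro ⟨y, hy, hxy⟩
      rw [hψe, Th_eq] at hxy
      obtain ⟨n, hn⟩ := pow_of_zpowers hxy S.hp.pos S.cp
      refine ⟨n, ?_⟩
      have h5 : x.1 * c ^ n = y.1 := by
        apply Subtype.ext
        show x.1.1 * c.1 ^ n = y.1.1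
        rw [← hn, mul_inv_cancel_left]
      rw [h5]; exact hy) (by
    intro r hr h
    rw [← map_one ψ, hψe] at h
    have h5 := S.Th_inj (r := ⟨r, hr⟩) (s := 1) h
    exact congrArg Subtype.val h5) S.extra (by
    intro x hx
    apply Subtype.ext
    apply S.phi_one_of
    intro r
    exact congrArg Subtype.val (hx r.1 r.2)) hcore
  refine ⟨?_, (KR Qc c).map ψ, hN, h1, h2, by rw [h3, S.card_KR], h4, ?_⟩
  · have hp : Fact (Nat.Prime 2) := ⟨Nat.prime_two⟩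
    exact orderOf_eq_prime (by rw [pow_two]; exact P.zz) P.z1
  · intro r
    exact ⟨Subgroup.mem_centralizer_singleton_iff.2 (S.Th_comm r.1), r.1, r.2, rfl⟩

theorem St.main (hF : generalizedFittingSubgroup (Subgroup.centralizer ({z} : Set L)) = Qc) (hsX : IsSimpleGroup (XX S.F))
    (hcore : pCore 2 (XX S.F) = ⊥) (u : KR Qc c) (hu : vR π u = e1 m S.m1) {g : L} (hgu : g * z * g⁻¹ = u.1.1.1) :
    IsSimpleGroup (SS c.1) ∧ ¬ IsMulCommutative (SS c.1) ∧ ∃ z' : SS c.1, orderOf z' = 2 ∧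
    ∃ (Q' : Subgroup (Subgroup.centralizer ({z'} : Set (SS c.1)))) (_ : Q'.Normal),
      generalizedFittingSubgroup (Subgroup.centralizer ({z'} : Set (SS c.1))) = Q' ∧ IsExtraspecial 2 Q' ∧
      Nat.card Q' = 2 ^ (2 * (m + 1) + 1) ∧ Nonempty ((Subgroup.centralizer ({z'} : Set (SS c.1))) ⧸ Q' ≃* XX S.F) ∧
      ∃ g : SS c.1, (∃ hq : g * z' * g⁻¹ ∈ Subgroup.centralizer ({z'} : Set (SS c.1)),
        (⟨g * z' * g⁻¹, hq⟩ : Subgroup.centralizer ({z'} : Set (SS c.1))) ∈ Q') ∧ g * z' * g⁻¹ ≠ z' := by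
  obtain ⟨x, hxc, hx⟩ := S.fusion hzc hF u hu hgu
  have P := S.pack hzc
  have hsimp := S.simple hzc hsX u hu hxc hx
  obtain ⟨h1, Q', hN, h2, h3, h4, h5, h6⟩ := S.setting hzc hcore
  have hzH : z ∈ HH c.1 := mem_HH.2 S.cz.symm
  have e0 : S.zb = QuotientGroup.mk (⟨z, hzH⟩ : HH c.1) := by
    show (QuotientGroup.mk _ : SS c.1) = QuotientGroup.mk _
    congr 1
    exact Subtype.ext hzc
  have hne : u ≠ S.zR := by
    intro h
    have h1 := (S.vR_zero u).2 (Or.inr h)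
    rw [hu] at h1
    have h2 := pol_ef S.m1
    rw [h1] at h2
    simp [polar] at h2
  have hk : (QuotientGroup.mk (⟨x, mem_HH.2 hxc⟩ : HH c.1) : SS c.1) * S.zb * (QuotientGroup.mk (⟨x, mem_HH.2 hxc⟩ : HH c.1) : SS c.1)⁻¹ = Th c u.1 := by
    rw [e0, ← QuotientGroup.mk_inv, ← QuotientGroup.mk_mul, ← QuotientGroup.mk_mul]
    show (QuotientGroup.mk _ : SS c.1) = QuotientGroup.mk _
    congr 1
    exact Subtype.ext hx
  refine ⟨hsimp, ?_, S.zb, h1, Q', hN, h2, h3, h4, h5, (QuotientGroup.mk (⟨x, mem_HH.2 hxc⟩ : HH c.1) : SS c.1), ?_, ?_⟩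
  · intro hc
    -- commuting is impossible in an extraspecial group
    obtain ⟨y1, hy1⟩ := S.vR_surj (uu m)
    obtain ⟨y2, hy2⟩ := S.vR_surj (vv m)
    have h : Th c y1.1 * Th c y2.1 = Th c y2.1 * Th c y1.1 := hc.is_comm.comm _ _
    have h1 : y1 * y2 = y2 * y1 := by
      apply S.Th_inj
      show Th c (y1.1 * y2.1) = Th c (y2.1 * y1.1)
      rw [map_mul, map_mul, h]
    rw [S.comm_R, hy1, hy2, pol_uv] at h1
    exact one_ne_zero h1
  · obtain ⟨h7, h8⟩ := h6 u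
    rw [hk]
    exact ⟨h7, h8⟩
  · rw [hk]
    intro h
    exact hne (S.Th_inj h)
end

end H33.CoT
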