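import Mathlib
import Cfsg.Agent.Lib.H33.CoH
import Cfsg.Agent.Lib.H48.QuadWitt
import Cfsg.Agent.S0287
import Cfsg.Agent.S0288

set_option autoImplicit false

/-! Existence of the configuration in a group with an extraspecial normal subgroup of plus type. -/

namespace H33.CoT

open Cfsg H86.OutExtra Matrix QuadraticMap H49.OrthAdj H48.QuadStd H91.MonsterForm

variable {m k p : ℕ} {q1 : QuadraticForm (ZMod 2) (I1 m k → ZMod 2)} {qW : (Fin k → ZMod 2) → ZMod 2}
  {a1 : Matrix (Fin k) (Fin k) (ZMod 2)} {w0 : Fin k → ZMod 2}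

abbrev I8 : Type := Fin 4 ⊕ Fin 4

theorem card_plus8 : Nat.card (isometryGroup (ZMod 2) (quadFormPlus 4 (ZMod 2))) = 348364800 := by
  have h := Cfsg.Agent.S0287.result (F := ZMod 2) (q := 2) (ZMod.card 2) 4 (by norm_num)
  norm_num [Finset.prod_range_succ] at h
  exact h

theorem card_minus8 : Nat.card (isometryGroup (ZMod 2) (quadFormMinus 3 (ZMod 2) 1 1)) = 394813440 := by
  have h := Cfsg.Agent.S0288.result (F := ZMod 2) (q := 2) (ZMod.card 2) 4 (by norm_num) 1 1 (by decide)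
  norm_num [Finset.prod_range_succ] at h
  exact h

theorem comm_index (F : FD m k q1 qW) (h8 : Fintype.card (I1 m k) ≠ 4) : (commutator (G q1)).index = 2 :=
  (H17.DicksonInv.main_even (Q := q1) F.nd (by simp; omega) (Or.inr h8)).1

section
variable {C : Type*} [Group C] [Finite C] {Qc : Subgroup C} [hQn : Qc.Normal]

theorem qd_trans {ι ι' : Type} [Fintype ι] [DecidableEq ι] [Fintype ι'] [DecidableEq ι'] {E : Type*} [Group E] {π : E → ι → ZMod 2} {z : E}
    {Q : (ι → ZMod 2) → ZMod 2} {Q' : (ι' → ZMod 2) → ZMod 2} (h : QD π z Q) (T : (ι' → ZMod 2) ≃ₗ[ZMod 2] (ι → ZMod 2)) (hT : ∀ v, Q (T v) = Q' v) :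
    QD (fun y => T.symm (π y)) z Q' where
  ext := h.ext
  xs := h.xs
  mul x y := by rw [h.mul, _root_.map_add]
  surj v := by
    obtain ⟨y, hy⟩ := h.surj (T v)
    exact ⟨y, by simp only [hy, LinearEquiv.symm_apply_apply]⟩
  ker x := by rw [← h.ker]; exact T.symm.map_eq_zero_iff
  sq x := by rw [h.sq, ← hT, LinearEquiv.apply_symm_apply]

omit [Finite C] in
theorem exists_St [Finite C] (F : FD m k q1 qW) (W : WD k p qW a1 w0) (T : (I1 m k → ZMod 2) ≃ₗ[ZMod 2] (I8 → ZMod 2))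
    (hT : ∀ v, quadFormPlus 4 (ZMod 2) (T v) = q1 v) (hp : p.Prime) (hp2 : p ≠ 2) (h8 : Fintype.card (I1 m k) ≠ 4) (m1 : 0 < m)
    (h16 : 16 % p = 1) {π0 : Qc → I8 → ZMod 2} {zc : Qc} (h0 : QD π0 zc (quadFormPlus 4 (ZMod 2)))
    (hcent : Subgroup.centralizer (Qc : Set C) ≤ Qc) (hpg : IsPGroup 2 Qc) (hcard : Nat.card (C ⧸ Qc) = 174182400) :
    ∃ (a : G q1) (c : C), St Qc (fun y => T.symm (π0 y)) zc q1 qW a1 w0 p a c := by
  have h : QD (fun y => T.symm (π0 y)) zc q1 := qd_trans h0 T hT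
  have hker : (rho h).ker = Qc := by
    ext x
    exact rho_ker h hcent x
  have hcr : Nat.card (rho h).range = 174182400 := by
    rw [← hcard, ← Nat.card_congr (QuotientGroup.quotientKerEquivRange (rho h)).toEquiv]
    exact Nat.card_congr (QuotientGroup.quotientMulEquivOfEq hker).toEquiv
  have hcG : Nat.card (G q1) = 348364800 := by
    obtain ⟨e1⟩ := out_equiv h
    obtain ⟨e2⟩ := out_equiv h0
    rw [← card_plus8, ← Nat.card_congr e2.toEquiv]
    exact (Nat.card_congr e1.toEquiv).symm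
  have hidx : (rho h).range.index = 2 := by
    have h1 := (rho h).range.card_mul_index
    rw [hcr, hcG] at h1
    omega
  have hrange : (rho h).range = commutator (G q1) :=
    (H17.DicksonInv.main_even (Q := q1) F.nd (by simp; omega) (Or.inr h8)).2 _ hidx
  obtain ⟨a, ha⟩ := exists_a F W hp.pos
  have hapow : ∀ (i : ℕ) (x : I0 m → ZMod 2) (w : Fin k → ZMod 2), mt (a ^ i) *ᵥ Sum.elim x w = Sum.elim x ((a1 ^ i) *ᵥ w) := by
    intro i
    induction i with
    | zero => intro x w; rw [pow_zero, pow_zero, mt_one_mulVec, one_mulVec]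
    | succ i ih => intro x w; rw [pow_succ, mt_mul, ← mulVec_mulVec, ha, ih, mulVec_mulVec, ← pow_succ]
  have hap : a ^ p = 1 := by
    apply mt_ext
    intro v
    obtain ⟨x, w, rfl⟩ := eta v
    rw [hapow, W.pw, one_mulVec, mt_one_mulVec]
  have ha1 : a ≠ 1 := by
    intro h1
    have h2 := ha 0 w0
    rw [h1, mt_one_mulVec] at h2
    apply W.ne
    apply W.fpf
    funext i
    exact (congrFun h2 (Sum.inr i)).symm
  have ha16 : a ^ 16 = a := by
    have h1 : 16 = p * (16 / p) + 1 := by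
      have := Nat.div_add_mod 16 p
      omega
    rw [h1, pow_succ, pow_mul, hap, one_pow, one_mul]
  have haC : a ∈ commutator (G q1) := by
    have h1 := comm_index F h8
    have h2 : a * a ∈ commutator (G q1) := Subgroup.mul_self_mem_of_index_two h1 a
    have h3 := Subgroup.pow_mem _ h2 8
    rw [← pow_two, ← pow_mul] at h3
    norm_num at h3
    rwa [ha16] at h3
  rw [← hrange] at haC
  obtain ⟨c0, hc0⟩ := haC
  have hcp : c0 ^ p ∈ Qc := by
    rw [← rho_ker h hcent, map_pow, hc0, hap]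
  have hfour : ∀ y ∈ Qc, y ^ 16 = 1 := by
    intro y hy
    have h1 : (⟨y, hy⟩ : Qc) ^ 4 = 1 := by
      have h2 : (⟨y, hy⟩ : Qc) ^ 4 = (⟨y, hy⟩ * ⟨y, hy⟩) * (⟨y, hy⟩ * ⟨y, hy⟩) := by
        simp only [pow_succ, pow_zero, one_mul, mul_assoc]
      rw [h2]
      rcases h0.xs.sq ⟨y, hy⟩ with h3 | h3
      · rw [h3, one_mul]
      · rw [h3, h0.xs.sq_ζ]
    have h4 : y ^ 4 = 1 := congrArg Subtype.val h1
    rw [show 16 = 4 * 4 from rfl, pow_mul, h4, one_pow]
  have hc1 : rho h (c0 ^ 16) = a := by rw [map_pow, hc0, ha16]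
  refine ⟨a, c0 ^ 16, ⟨F, W, ha, hp, hp2, h8, m1, h, hcent, ?_, hc1, hrange, hpg⟩⟩
  have hpf : Fact p.Prime := ⟨hp⟩
  refine orderOf_eq_prime ?_ ?_
  · rw [← pow_mul, mul_comm, pow_mul]
    exact hfour _ hcp
  · intro h1
    rw [h1, map_one] at hc1
    exact ha1 hc1.symm

variable {π : Qc → I1 m k → ZMod 2} {zc : Qc} {a : G q1} {c : C}

theorem St.exists_u (S : St Qc π zc q1 qW a1 w0 p a c) {s : Qc} (hs1 : s ≠ 1) (hsz : s ≠ zc) (hss : s * s = 1) :
    ∃ (j : C) (u : KR Qc c), vR π u = e1 m S.m1 ∧ j * s.1 * j⁻¹ = u.1.1 := by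
  have hv0 : π s ≠ 0 := by
    rw [Ne, S.h.ker]; rintro (h | h)
    · exact hs1 h
    · exact hsz h
  have hqv : q1 (π s) = 0 := (S.h.sq s).1 hss
  have ht0 : (Sum.elim (e1 m S.m1) 0 : I1 m k → ZMod 2) ≠ 0 := by
    intro h
    have h1 : e1 m S.m1 = 0 := by funext i; exact congrFun h (Sum.inl i)
    have h2 := pol_ef S.m1
    rw [h1] at h2
    simp [polar] at h2
  have hqt : q1 (Sum.elim (e1 m S.m1) 0) = 0 := by rw [S.F.sum, q0_e1, S.W.zero, add_zero]
  have hself : ∀ x : I1 m k → ZMod 2, polar q1 x x = 0 := by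
    intro x
    rw [polar_self]
    have : (2 : ℕ) • q1 x = 0 := by
      rw [two_nsmul]; exact CharTwo.add_self_eq_zero _
    simpa using this
  obtain ⟨g, hg, hgb⟩ := H48.QuadWitt.witt_family S.F.nd (n := 1) (fun _ => π s) (fun _ => Sum.elim (e1 m S.m1) 0)
    (by rw [linearIndependent_unique_iff]; exact hv0) (by rw [linearIndependent_unique_iff]; exact ht0)
    (fun _ => by rw [hqv, hqt]) (fun _ _ => by rw [hself, hself])
  obtain ⟨g', hg'⟩ := exists_coe q1 g hg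
  have hgv : mt g' *ᵥ π s = Sum.elim (e1 m S.m1) 0 := by rw [hg']; exact hgb 0
  have hex : ∃ j : C, mt (rho S.h j) *ᵥ π s = Sum.elim (e1 m S.m1) 0 := by
    by_cases hmem : g' ∈ commutator (G q1)
    · rw [← S.range] at hmem
      obtain ⟨j, hj⟩ := hmem
      exact ⟨j, by rw [hj]; exact hgv⟩
    · have hu0 : q0 m (uu m) ≠ 0 := by rw [q0_uu]; exact one_ne_zero
      have hr : extG S.F (R (q0 m) (uu m) hu0) ∉ commutator (G q1) := refl_not_mem S.F S.W S.h8 (uu m) hu0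
      have h1 : extG S.F (R (q0 m) (uu m) hu0) * g' ∈ commutator (G q1) := by
        rw [Subgroup.mul_mem_iff_of_index_two (comm_index S.F S.h8)]
        exact iff_of_false hr hmem
      rw [← S.range] at h1
      obtain ⟨j, hj⟩ := h1
      refine ⟨j, ?_⟩
      rw [hj, mt_mul, ← mulVec_mulVec, hgv, extG_mulVec, R_mulVec, pol_eu]
      simp
  obtain ⟨j, hj⟩ := hex
  rw [rho_spec] at hj
  have h1 : (⟨j * s.1 * j⁻¹, hQn.conj_mem _ s.2 j⟩ : Qc).1 * c = c * (⟨j * s.1 * j⁻¹, hQn.conj_mem _ s.2 j⟩ : Qc).1 := by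
    rw [S.comm_c, hj]; rfl
  refine ⟨j, ⟨⟨j * s.1 * j⁻¹, mem_DC.2 h1⟩, hQn.conj_mem _ s.2 j⟩, ?_, rfl⟩
  show π _ ∘ Sum.inl = _
  rw [hj]; rfl
end

end H33.CoT
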