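import Mathlib
import Cfsg.Agent.Lib.H33.CoA

set_option autoImplicit false

/-! Two explicit decompositions of the hyperbolic form in dimension eight over the field with two elements. -/

namespace H33.CoT

open Cfsg H86.OutExtra Matrix QuadraticMap H49.OrthAdj H48.QuadStd

def T3 : (I1 2 2 → ZMod 2) ≃ₗ[ZMod 2] (Fin 4 ⊕ Fin 4 → ZMod 2) where
  toFun v := Sum.elim
    ![v (.inl (.inl (.inl 0))), v (.inl (.inl (.inl 1))), v (.inl (.inr 0)) + v (.inr 0), v (.inl (.inr 1)) + v (.inr 1)]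
    ![v (.inl (.inl (.inr 0))), v (.inl (.inl (.inr 1))), v (.inl (.inr 0)) + v (.inr 0) + v (.inl (.inr 1)), v (.inl (.inr 1)) + v (.inr 1) + v (.inr 0)]
  invFun u := Sum.elim (Sum.elim (Sum.elim ![u (.inl 0), u (.inl 1)] ![u (.inr 0), u (.inr 1)])
    ![u (.inl 2) + u (.inl 3) + u (.inr 3), u (.inl 2) + u (.inr 2)]) ![u (.inl 3) + u (.inr 3), u (.inl 3) + u (.inl 2) + u (.inr 2)]
  map_add' v w := by
    funext i; rcases i with i | i <;> fin_cases i <;> simp <;> ring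
  map_smul' a v := by
    funext i; rcases i with i | i <;> fin_cases i <;> simp <;> ring
  left_inv v := by
    have h2 : (2 : ZMod 2) = 0 := rfl
    funext i
    rcases i with ((i | i) | i) | i <;> fin_cases i <;> simp <;> ring_nf <;> simp [h2]
  right_inv v := by
    have h2 : (2 : ZMod 2) = 0 := rfl
    funext i
    rcases i with i | i <;> fin_cases i <;> simp <;> ring_nf <;> simp [h2]

def T5 : (I1 1 4 → ZMod 2) ≃ₗ[ZMod 2] (Fin 4 ⊕ Fin 4 → ZMod 2) where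
  toFun v := Sum.elim
    ![v (.inl (.inl (.inl 0))), v (.inr 3), v (.inl (.inr 0)) + v (.inr 0) + v (.inr 2), v (.inl (.inr 1)) + v (.inr 1)]
    ![v (.inl (.inl (.inr 0))), v (.inr 2) + v (.inr 3), v (.inl (.inr 0)) + v (.inr 0) + v (.inr 2) + v (.inl (.inr 1)), v (.inl (.inr 1)) + v (.inr 1) + v (.inr 0) + v (.inr 2)]
  invFun u := Sum.elim (Sum.elim (Sum.elim ![u (.inl 0)] ![u (.inr 0)])
    ![u (.inl 2) + u (.inl 3) + u (.inr 3), u (.inl 2) + u (.inr 2)])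
    ![u (.inl 3) + u (.inr 3) + u (.inl 1) + u (.inr 1), u (.inl 3) + u (.inl 2) + u (.inr 2), u (.inl 1) + u (.inr 1), u (.inl 1)]
  map_add' v w := by
    funext i; rcases i with i | i <;> fin_cases i <;> simp <;> ring
  map_smul' a v := by
    funext i; rcases i with i | i <;> fin_cases i <;> simp <;> ring
  left_inv v := by
    have h2 : (2 : ZMod 2) = 0 := rfl
    funext i
    rcases i with ((i | i) | i) | i <;> fin_cases i <;> simp <;> ring_nf <;> simp [h2]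
  right_inv v := by
    have h2 : (2 : ZMod 2) = 0 := rfl
    funext i
    rcases i with i | i <;> fin_cases i <;> simp <;> ring_nf <;> simp [h2]

noncomputable def q13 : QuadraticForm (ZMod 2) (I1 2 2 → ZMod 2) := (qPlus 4 (ZMod 2)).comp T3.toLinearMap
noncomputable def q15 : QuadraticForm (ZMod 2) (I1 1 4 → ZMod 2) := (qPlus 4 (ZMod 2)).comp T5.toLinearMap

def qW3 (w : Fin 2 → ZMod 2) : ZMod 2 := w 0 ^ 2 + w 0 * w 1 + w 1 ^ 2
def qW5 (u : Fin 4 → ZMod 2) : ZMod 2 := u 0 ^ 2 + u 1 ^ 2 + u 2 ^ 2 + u 3 ^ 2 + u 0 * u 1 + u 1 * u 2 + u 2 * u 3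

theorem hT3 (v : I1 2 2 → ZMod 2) : quadFormPlus 4 (ZMod 2) (T3 v) = q13 v := by
  rw [← coe_qPlus]; rfl

theorem hT5 (v : I1 1 4 → ZMod 2) : quadFormPlus 4 (ZMod 2) (T5 v) = q15 v := by
  rw [← coe_qPlus]; rfl

theorem nd_comp {V W : Type*} [AddCommGroup V] [AddCommGroup W] [Module (ZMod 2) V] [Module (ZMod 2) W] {Q : QuadraticForm (ZMod 2) W}
    (hQ : H48.QuadSplit.ND Q) (T : V ≃ₗ[ZMod 2] W) : (polarBilin (Q.comp T.toLinearMap)).Nondegenerate := by
  apply H48.QuadSplit.nd_iff.1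
  intro v hv
  have h1 : T v = 0 := by
    apply hQ
    intro w
    have h2 := hv (T.symm w)
    have h3 : polar (Q.comp T.toLinearMap) v (T.symm w) = polar Q (T v) w := by
      show Q (T (v + T.symm w)) - Q (T v) - Q (T (T.symm w)) = _
      rw [_root_.map_add, LinearEquiv.apply_symm_apply]; rfl
    rw [← h3]; exact h2
  exact T.map_eq_zero_iff.1 h1

theorem FD3 : FD 2 2 q13 qW3 where
  nd := nd_comp (nd_qPlus 4) T3
  sum x w := by
    have h2 : (2 : ZMod 2) = 0 := rfl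
    rw [← hT3, ← coe_qPlus, qPlus_apply, qMinus_apply]
    simp [T3, qW3, Fin.sum_univ_four]
    ring_nf
    simp [h2]
    ring

theorem FD5 : FD 1 4 q15 qW5 where
  nd := nd_comp (nd_qPlus 4) T5
  sum x w := by
    have h2 : (2 : ZMod 2) = 0 := rfl
    rw [← hT5, ← coe_qPlus, qPlus_apply, qMinus_apply]
    simp [T5, qW5, Fin.sum_univ_four]
    ring_nf
    simp [h2]
    ring

def a3 : Matrix (Fin 2) (Fin 2) (ZMod 2) := !![0, 1; 1, 1]
def a5 : Matrix (Fin 4) (Fin 4) (ZMod 2) := !![0, 0, 0, 1; 1, 0, 0, 1; 0, 1, 0, 1; 0, 0, 1, 1]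
def w3 : Fin 2 → ZMod 2 := ![1, 0]
def w5 : Fin 4 → ZMod 2 := ![1, 0, 1, 0]

theorem WD3 : WD 2 3 qW3 a3 w3 where
  iso := by decide +kernel
  pw := by decide +kernel
  fpf := by decide +kernel
  orb := by
    have h : ∀ w, w ≠ 0 → qW3 w = qW3 w3 → ∃ i : Fin 3, w = (a3 ^ (i : ℕ)) *ᵥ w3 := by decide +kernel
    intro w h1 h2
    obtain ⟨i, hi⟩ := h w h1 h2
    exact ⟨i, hi⟩
  ne := by decide +kernel
  span w := by
    have h : ∀ w : Fin 2 → ZMod 2, w = ∑ i : Fin 2, w i • ((a3 ^ (i : ℕ)) *ᵥ w3) := by decide +kernel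
    exact ⟨w, h w⟩
  zero := by decide +kernel

theorem WD5 : WD 4 5 qW5 a5 w5 where
  iso := by decide +kernel
  pw := by decide +kernel
  fpf := by decide +kernel
  orb := by
    have h : ∀ w, w ≠ 0 → qW5 w = qW5 w5 → ∃ i : Fin 5, w = (a5 ^ (i : ℕ)) *ᵥ w5 := by decide +kernel
    intro w h1 h2
    obtain ⟨i, hi⟩ := h w h1 h2
    exact ⟨i, hi⟩
  ne := by decide +kernel
  span w := by
    have h : ∀ w : Fin 4 → ZMod 2, w = ∑ i, (![w 2, w 0 + w 2 + w 3, w 0 + w 1 + w 2 + w 3, w 1 + w 3] : Fin 4 → ZMod 2) i • ((a5 ^ (i : ℕ)) *ᵥ w5) := by decide +kernel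
    exact ⟨_, h w⟩
  zero := by decide +kernel

end H33.CoT
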