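import Mathlib
import Cfsg.Agent.Lib.H33.CoB
import Cfsg.Agent.Lib.H33.CoJ
import Cfsg.Agent.Lib.H85.SuzA
import Cfsg.Agent.Lib.H58.J2O
import Cfsg.Agent.S0280
import Cfsg.Agent.S0283
import Cfsg.Agent.S0303

set_option autoImplicit false

/-! The two subgroups of index two are simple. -/

namespace H33.CoT

open Cfsg H86.OutExtra Matrix QuadraticMap H49.OrthAdj H48.QuadStd

theorem core_bot {X : Type*} [Group X] [Finite X] (hs : IsSimpleGroup X) {r : ℕ} (hr : r.Prime) (hr2 : r ≠ 2) (h : r ∣ Nat.card X) : pCore 2 X = ⊥ := by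
  have : Fact (Nat.Prime 2) := ⟨Nat.prime_two⟩
  have hn : (pCore 2 X).Normal := inferInstance
  rcases hn.eq_bot_or_eq_top with h1 | h1
  · exact h1
  · exfalso
    have h2 : IsPGroup 2 (pCore 2 X) := H1.Cores.isPGroup_pCore 2
    obtain ⟨n, hn⟩ := IsPGroup.iff_card.1 h2
    rw [h1, Subgroup.card_top] at hn
    rw [hn] at h
    have h3 := hr.dvd_of_dvd_pow h
    exact hr2 ((Nat.prime_dvd_prime_iff_eq hr Nat.prime_two).1 h3)

theorem aniso : ∀ z₁ z₂ : ZMod 2, z₁ ^ 2 + 1 * z₁ * z₂ + 1 * z₂ ^ 2 = 0 → z₁ = 0 ∧ z₂ = 0 := by decide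

theorem XX_iso3 : Nonempty (XX FD3 ≃* Omega (ZMod 2) (quadFormMinus 2 (ZMod 2) 1 1)) := by
  have h : XX FD3 = Omega (ZMod 2) ⇑(q0 2) := XX_eq FD3 WD3 (by simp) (H48.OMinusFour.index_minus aniso 2)
  rw [h, ← coe_qMinus]
  exact ⟨MulEquiv.refl _⟩

theorem XX_iso5 : Nonempty (XX FD5 ≃* Omega (ZMod 2) (quadFormMinus 1 (ZMod 2) 1 1)) := by
  have h : XX FD5 = Omega (ZMod 2) ⇑(q0 1) := XX_eq FD5 WD5 (by simp) (H48.OMinusFour.index_minus aniso 1)
  rw [h, ← coe_qMinus]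
  exact ⟨MulEquiv.refl _⟩

theorem omega6 : IsSimpleGroup (Omega (ZMod 2) (quadFormMinus 2 (ZMod 2) 1 1)) ∧ Nat.card (Omega (ZMod 2) (quadFormMinus 2 (ZMod 2) 1 1)) = 25920 := by
  have hc : Nat.card (Omega (ZMod 2) (quadFormMinus 2 (ZMod 2) 1 1)) = 25920 := by
    rw [← coe_qMinus]; exact H85.Suz.card_Om6
  have : Fact (Nat.Prime 2) := ⟨Nat.prime_two⟩
  letI : Fintype (GaloisField 2 2) := Fintype.ofFinite _
  have hK : Fintype.card (GaloisField 2 2) = 2 ^ 2 := by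
    rw [← Nat.card_eq_fintype_card, GaloisField.card 2 2 (by norm_num)]
  obtain ⟨e⟩ := Cfsg.Agent.S0303.result (F := ZMod 2) (K := GaloisField 2 2) (q := 2) (ZMod.card 2) hK 1 1 aniso
  have h1 := Cfsg.Agent.S0283.result hK 4 (by norm_num) (by norm_num)
  have h2 := Cfsg.Agent.S0280.result hK 4 (by norm_num)
  have h3 : Nat.card (PSU 4 (GaloisField 2 2) 2) = 25920 := by
    norm_num [Finset.prod_range_succ, Nat.even_iff] at h2
    omega
  have h4 : Nat.card (POmega (ZMod 2) (quadFormMinus 2 (ZMod 2) 1 1)) = 25920 := by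
    rw [Nat.card_congr e.toEquiv, h3]
  have hfin : Finite (Omega (ZMod 2) (quadFormMinus 2 (ZMod 2) 1 1)) := Nat.finite_of_card_ne_zero (by rw [hc]; norm_num)
  have h5 := Subgroup.card_mul_index (Subgroup.center (Omega (ZMod 2) (quadFormMinus 2 (ZMod 2) 1 1)))
  have h6 : (Subgroup.center (Omega (ZMod 2) (quadFormMinus 2 (ZMod 2) 1 1))).index = 25920 := h4
  rw [h6, hc] at h5
  have h7 : Nat.card (Subgroup.center (Omega (ZMod 2) (quadFormMinus 2 (ZMod 2) 1 1))) = 1 :=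
    Nat.eq_of_mul_eq_mul_right (show 0 < 25920 by norm_num) (h5.trans (one_mul _).symm)
  have h8 : Subgroup.center (Omega (ZMod 2) (quadFormMinus 2 (ZMod 2) 1 1)) = ⊥ := Subgroup.card_eq_one.1 h7
  have e2 : POmega (ZMod 2) (quadFormMinus 2 (ZMod 2) 1 1) ≃* Omega (ZMod 2) (quadFormMinus 2 (ZMod 2) 1 1) :=
    (QuotientGroup.quotientMulEquivOfEq h8).trans QuotientGroup.quotientBot
  exact ⟨(e2.symm.trans e).isSimpleGroup, hc⟩

theorem omega4 : IsSimpleGroup (Omega (ZMod 2) (quadFormMinus 1 (ZMod 2) 1 1)) := by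
  obtain ⟨e⟩ := H58.J2O.omega_iso
  exact e.isSimpleGroup

theorem XX_simple3 : IsSimpleGroup (XX FD3) := by
  obtain ⟨e⟩ := XX_iso3
  have := omega6.1
  exact e.isSimpleGroup

theorem XX_simple5 : IsSimpleGroup (XX FD5) := by
  obtain ⟨e⟩ := XX_iso5
  have := omega4
  exact e.isSimpleGroup

theorem XX_core3 : pCore 2 (XX FD3) = ⊥ := by
  obtain ⟨e⟩ := XX_iso3
  have h : Nat.card (XX FD3) = 25920 := by rw [Nat.card_congr e.toEquiv, omega6.2]
  have : Finite (XX FD3) := Nat.finite_of_card_ne_zero (by rw [h]; norm_num)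
  exact core_bot XX_simple3 (r := 3) (by norm_num) (by norm_num) (by rw [h]; norm_num)

theorem XX_core5 : pCore 2 (XX FD5) = ⊥ := by
  obtain ⟨e⟩ := XX_iso5
  have h : Nat.card (XX FD5) = 60 := by rw [Nat.card_congr e.toEquiv, H58.J2O.card_omega]
  have : Finite (XX FD5) := Nat.finite_of_card_ne_zero (by rw [h]; norm_num)
  exact core_bot XX_simple5 (r := 3) (by norm_num) (by norm_num) (by rw [h]; norm_num)

end H33.CoT
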