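import Mathlib
import Cfsg.Agent.Lib.H33.CoI
import Cfsg.Agent.Lib.H85.SuzA

set_option autoImplicit false

/-! From the involution centralizer of plus type to sections of minus type. -/

namespace H33.CoT

open Cfsg H86.OutExtra Matrix QuadraticMap H49.OrthAdj H48.QuadStd H91.MonsterForm

open H91.ExtModel in
theorem exists_QD8 {E : Type*} [Group E] [Finite E] (hE : IsExtraspecial 2 E) (hcard : Nat.card E = 2 ^ 9) :
    (∃ (π : E → I8 → ZMod 2) (ζ : E), QD π ζ (quadFormPlus 4 (ZMod 2))) ∨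
    (∃ (π : E → ((Fin 3 ⊕ Fin 3) ⊕ Fin 2) → ZMod 2) (ζ : E), QD π ζ (quadFormMinus 3 (ZMod 2) 1 1)) := by
  obtain ⟨a1, a2⟩ : commutator E ≤ Subgroup.center E ∧ Nat.card (Subgroup.center E) = 2 :=
    ⟨H3.Extraspecial.commutator_le hE.1, hE.2⟩
  have hM : IsExtraspecial 2 (EM 3 1) := extraspecial
  have hP : IsExtraspecial 2 (EM 3 0) := extraspecial
  have hP1 : commutator (EM 3 0) ≤ Subgroup.center (EM 3 0) := H3.Extraspecial.commutator_le hP.1
  have hM1 : commutator (EM 3 1) ≤ Subgroup.center (EM 3 1) := H3.Extraspecial.commutator_le hM.1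
  have h3 := H3.ExtraspecialUnique.three_two_groups (Nat.card E) a1 a2 hP1 hP.2 hM1 hM.2
    (by rw [hcard, card_EM]) (by rw [card_EM, card_EM]) (le_refl _)
  rcases h3 with ⟨⟨e⟩⟩ | h3 | ⟨⟨e⟩⟩
  · left
    exact ⟨_, _, H85.Suz.transport_QD H86.OutExtraB.qdP hE e⟩
  · exact absurd h3 H86.OutExtraB.not_iso
  · right
    exact ⟨_, _, H85.Suz.transport_QD (H86.OutExtraB.qdM (m := 3)) hE e⟩

theorem exists_plus {K : Type*} [Group K] [Finite K] (Q : Subgroup K) [hN : Q.Normal] (hE : IsExtraspecial 2 Q)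
    (hcard : Nat.card Q = 2 ^ 9) (hidx : Nat.card (K ⧸ Q) = 174182400) (hC : Subgroup.centralizer (Q : Set K) ≤ Q) :
    ∃ (π : Q → I8 → ZMod 2) (ζ : Q), QD π ζ (quadFormPlus 4 (ZMod 2)) := by
  rcases exists_QD8 hE hcard with h | ⟨π, ζ, h⟩
  · exact h
  · exfalso
    have hC' : ∀ c : K, (∀ q ∈ Q, c * q = q * c) → c ∈ Q := by
      intro c hc
      exact hC (Subgroup.mem_centralizer_iff.2 fun q hq => (hc q hq).symm)
    have h1 := H85.Suz.card_range_Psi Q h hC'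
    have h2 : Nat.card (H85.Suz.Psi Q h).range ∣ 394813440 := by
      rw [← card_minus8]
      exact Subgroup.card_subgroup_dvd_card _
    have h3 : Q.index = 174182400 := hidx
    rw [h1, h3] at h2
    norm_num at h2

variable {m k p : ℕ} {q1 : QuadraticForm (ZMod 2) (I1 m k → ZMod 2)} {qW : (Fin k → ZMod 2) → ZMod 2}
  {a1 : Matrix (Fin k) (Fin k) (ZMod 2)} {w0 : Fin k → ZMod 2}

theorem big {L : Type*} [Group L] [Finite L] {z : L} (hz : orderOf z = 2) (Q : Subgroup (Subgroup.centralizer ({z} : Set L))) [hQn : Q.Normal]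
    (hF : generalizedFittingSubgroup (Subgroup.centralizer ({z} : Set L)) = Q) (hE : IsExtraspecial 2 Q) (hQc : Nat.card Q = 2 ^ 9)
    (hidx : Nat.card ((Subgroup.centralizer ({z} : Set L)) ⧸ Q) = 174182400) {g : L}
    (hq : g * z * g⁻¹ ∈ Subgroup.centralizer ({z} : Set L)) (hqQ : (⟨g * z * g⁻¹, hq⟩ : Subgroup.centralizer ({z} : Set L)) ∈ Q)
    (hne : g * z * g⁻¹ ≠ z) (F : FD m k q1 qW) (W : WD k p qW a1 w0) (T : (I1 m k → ZMod 2) ≃ₗ[ZMod 2] (I8 → ZMod 2))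
    (hT : ∀ v, quadFormPlus 4 (ZMod 2) (T v) = q1 v) (hp : p.Prime) (hp2 : p ≠ 2) (h8 : Fintype.card (I1 m k) ≠ 4) (m1 : 0 < m)
    (h16 : 16 % p = 1) (hsX : IsSimpleGroup (XX F)) (hcore : pCore 2 (XX F) = ⊥) :
    ∃ c : L, orderOf c = p ∧ IsSimpleGroup (SS c) ∧ ¬ IsMulCommutative (SS c) ∧ ∃ z' : SS c, orderOf z' = 2 ∧
    ∃ (Q' : Subgroup (Subgroup.centralizer ({z'} : Set (SS c)))) (_ : Q'.Normal),
      generalizedFittingSubgroup (Subgroup.centralizer ({z'} : Set (SS c))) = Q' ∧ IsExtraspecial 2 Q' ∧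
      Nat.card Q' = 2 ^ (2 * (m + 1) + 1) ∧ Nonempty ((Subgroup.centralizer ({z'} : Set (SS c))) ⧸ Q' ≃* XX F) ∧
      ∃ g : SS c, (∃ hq : g * z' * g⁻¹ ∈ Subgroup.centralizer ({z'} : Set (SS c)),
        (⟨g * z' * g⁻¹, hq⟩ : Subgroup.centralizer ({z'} : Set (SS c))) ∈ Q') ∧ g * z' * g⁻¹ ≠ z' := by
  have hf2 : Fact (Nat.Prime 2) := ⟨Nat.prime_two⟩
  have hpg : IsPGroup 2 Q := IsPGroup.of_card hQc
  have hcore' : generalizedFittingSubgroup (Subgroup.centralizer ({z} : Set L)) = pCore 2 (Subgroup.centralizer ({z} : Set L)) := by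
    rw [← H26.GenFitting.isPGroup_gFitting_iff, hF]
    exact hpg
  have hcent : Subgroup.centralizer (Q : Set (Subgroup.centralizer ({z} : Set L))) ≤ Q := by
    have h1 := H26.GenFitting.gFitting_eq_pCore_iff.1 hcore'
    rw [← hcore', hF] at h1
    exact h1
  obtain ⟨π0, zc, h0⟩ := exists_plus Q hE hQc hidx hcent
  obtain ⟨a, c, S⟩ := exists_St F W T hT hp hp2 h8 m1 h16 h0 hcent hpg hidx
  -- identify the central involution
  have hzC : z ∈ Subgroup.centralizer ({z} : Set L) := Subgroup.mem_centralizer_singleton_iff.2 rfl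
  have hzcen : ∀ x : Subgroup.centralizer ({z} : Set L), x * ⟨z, hzC⟩ = ⟨z, hzC⟩ * x := by
    intro x
    apply Subtype.ext
    exact Subgroup.mem_centralizer_singleton_iff.1 x.2
  have hzQ : (⟨z, hzC⟩ : Subgroup.centralizer ({z} : Set L)) ∈ Q := by
    apply hcent
    rw [Subgroup.mem_centralizer_iff]
    intro x _
    exact hzcen x
  have hz1 : z ≠ 1 := by
    intro h
    rw [h, orderOf_one] at hz
    norm_num at hz
  have hzc : zc.1.1 = z := by
    have h1 : (⟨⟨z, hzC⟩, hzQ⟩ : Q) ∈ Subgroup.center Q := by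
      rw [Subgroup.mem_center_iff]
      intro x
      apply Subtype.ext
      exact hzcen x.1
    rcases (h0.xs.center _).1 h1 with h2 | h2
    · exact absurd (congrArg (fun t : Q => t.1.1) h2) hz1
    · rw [← h2]
  have hzz : z * z = 1 := by
    have := pow_orderOf_eq_one z
    rwa [hz, pow_two] at this
  have hss : (⟨⟨g * z * g⁻¹, hq⟩, hqQ⟩ : Q) * ⟨⟨g * z * g⁻¹, hq⟩, hqQ⟩ = 1 := by
    apply Subtype.ext
    apply Subtype.ext
    show g * z * g⁻¹ * (g * z * g⁻¹) = 1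
    rw [show g * z * g⁻¹ * (g * z * g⁻¹) = g * (z * z) * g⁻¹ by group, hzz, mul_one, mul_inv_cancel]
  have hs1 : (⟨⟨g * z * g⁻¹, hq⟩, hqQ⟩ : Q) ≠ 1 := by
    intro h
    have h1 : g * z * g⁻¹ = 1 := congrArg (fun t : Q => t.1.1) h
    apply hz1
    rw [mul_inv_eq_one] at h1
    exact mul_eq_left.1 h1
  have hsz : (⟨⟨g * z * g⁻¹, hq⟩, hqQ⟩ : Q) ≠ zc := by
    intro h
    have h1 : g * z * g⁻¹ = zc.1.1 := congrArg (fun t : Q => t.1.1) h
    exact hne (h1.trans hzc)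
  obtain ⟨j, u, hu, hju⟩ := S.exists_u hs1 hsz hss
  have hgu : (j.1 * g) * z * (j.1 * g)⁻¹ = u.1.1.1 := by
    rw [← hju]
    show _ = j.1 * (g * z * g⁻¹) * j.1⁻¹
    group
  refine ⟨c.1, by rw [Subgroup.orderOf_coe]; exact S.hc, ?_⟩
  exact S.main hzc hF hsX hcore u hu hgu

end H33.CoT
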