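import Mathlib
import Cfsg.Prelude.Def_Classical

set_option autoImplicit false

/-! An orthogonal representation modulo 2 from an even integral form. -/

namespace H33.OrthRep

open Finset Matrix

variable {L : Type*} [AddCommGroup L] {G : Type*} [Group G] {m : ℕ}

/-- the data -/
structure Dat (f : G → L →+ L) (B : L →+ L →+ ℤ) (X : Fin m ⊕ Fin m → L) : Prop where
  one : ∀ x, f 1 x = x
  mul : ∀ g h x, f (g * h) x = f g (f h x)
  symm : ∀ x y, B x y = B y x
  inv : ∀ g x y, B (f g x) (f g y) = B x y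
  even : ∀ x, (2 : ℤ) ∣ B x x
  gram : ∀ a b, ((B (X a) (X b) : ℤ) : ZMod 2) = if b = a.swap then 1 else 0
  norm : ∀ a, ((B (X a) (X a) / 2 : ℤ) : ZMod 2) = 0
  rad : ∀ y, (∀ a, ((B (X a) y : ℤ) : ZMod 2) = 0) → ∃ z, y = z + z

variable {f : G → L →+ L} {B : L →+ L →+ ℤ} {X : Fin m ⊕ Fin m → L}

/-- the quadratic form -/
def Qf (B : L →+ L →+ ℤ) (x : L) : ZMod 2 := ((B x x / 2 : ℤ) : ZMod 2)

/-- the coordinates -/
def cd (B : L →+ L →+ ℤ) (X : Fin m ⊕ Fin m → L) (y : L) : Fin m ⊕ Fin m → ZMod 2 := fun a => ((B (X a.swap) y : ℤ) : ZMod 2)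

/-- the lift -/
def lift (X : Fin m ⊕ Fin m → L) (v : Fin m ⊕ Fin m → ZMod 2) : L := ∑ b, ((v b).val : ℤ) • X b

theorem two (n : ℤ) : ((n + n : ℤ) : ZMod 2) = 0 := by
  push_cast
  exact CharTwo.add_self_eq_zero _

namespace Dat

theorem cd_add (x y : L) : cd B X (x + y) = cd B X x + cd B X y := by
  funext a
  simp [cd]

theorem cd_two (z : L) : cd B X (z + z) = 0 := by
  funext a
  rw [cd, map_add]
  exact two _

theorem cd_X (D : Dat f B X) (b : Fin m ⊕ Fin m) : cd B X (X b) = Pi.single b 1 := by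
  funext a
  rw [cd, D.gram, Sum.swap_swap]
  by_cases h : b = a
  · rw [if_pos h, h, Pi.single_eq_same]
  · rw [if_neg h, Pi.single_eq_of_ne (Ne.symm h)]

theorem exists_lift (D : Dat f B X) (y : L) : ∃ z, y = lift X (cd B X y) + (z + z) := by
  have h : ∀ a, ((B (X a) (y - lift X (cd B X y)) : ℤ) : ZMod 2) = 0 := by
    intro a
    rw [map_sub, lift, map_sum]
    simp only [map_zsmul, smul_eq_mul]
    push_cast
    rw [Finset.sum_eq_single a.swap]
    · rw [D.gram, if_pos rfl, mul_one, ZMod.natCast_val, ZMod.cast_id', id, cd, Sum.swap_swap, sub_self]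
    · intro b _ hb
      rw [D.gram, if_neg hb, mul_zero]
    · intro h; exact absurd (Finset.mem_univ _) h
  obtain ⟨z, hz⟩ := D.rad _ h
  exact ⟨z, by rw [← hz]; abel⟩

theorem cd_lift (D : Dat f B X) (v : Fin m ⊕ Fin m → ZMod 2) : cd B X (lift X v) = v := by
  funext a
  rw [cd, lift, map_sum]
  simp only [map_zsmul, smul_eq_mul]
  push_cast
  rw [Finset.sum_eq_single a]
  · rw [D.gram, Sum.swap_swap, if_pos rfl, mul_one, ZMod.natCast_val, ZMod.cast_id', id]
  · intro b _ hb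
    rw [D.gram, Sum.swap_swap, if_neg hb, mul_zero]
  · intro h; exact absurd (Finset.mem_univ _) h

theorem B_two (D : Dat f B X) (x z : L) : ((B x (z + z) : ℤ) : ZMod 2) = 0 := by
  rw [map_add]; exact two _

theorem expand (D : Dat f B X) (x y : L) : ((B x y : ℤ) : ZMod 2) = ∑ a, cd B X x a * cd B X y a.swap := by
  obtain ⟨z, hz⟩ := D.exists_lift y
  have h1 : ((B x y : ℤ) : ZMod 2) = ((B x (lift X (cd B X y)) : ℤ) : ZMod 2) := by
    rw [hz, map_add]
    push_cast
    rw [B_two D, add_zero, ← hz]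
  rw [h1, lift, map_sum]
  simp only [map_zsmul, smul_eq_mul]
  push_cast
  rw [← Equiv.sum_comp (Equiv.sumComm (Fin m) (Fin m))]
  refine Finset.sum_congr rfl fun a _ => ?_
  show (((cd B X y a.swap).val : ℕ) : ZMod 2) * ((B x (X a.swap) : ℤ) : ZMod 2) = cd B X x a * cd B X y a.swap
  rw [ZMod.natCast_val, ZMod.cast_id', id, mul_comm, D.symm]
  rfl

theorem quad_add (u v : Fin m ⊕ Fin m → ZMod 2) : Cfsg.quadFormPlus m (ZMod 2) (u + v) =
    Cfsg.quadFormPlus m (ZMod 2) u + Cfsg.quadFormPlus m (ZMod 2) v + ∑ a, u a * v a.swap := by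
  simp only [Cfsg.quadFormPlus, Pi.add_apply, Fintype.sum_sum_type, Sum.swap_inl, Sum.swap_inr]
  rw [← Finset.sum_add_distrib, ← Finset.sum_add_distrib, ← Finset.sum_add_distrib]
  refine Finset.sum_congr rfl fun i _ => ?_
  ring

theorem Qf_add (D : Dat f B X) (x y : L) : Qf B (x + y) = Qf B x + Qf B y + ((B x y : ℤ) : ZMod 2) := by
  obtain ⟨a, ha⟩ := D.even x
  obtain ⟨b, hb⟩ := D.even y
  have h : B (x + y) (x + y) = 2 * (a + b + B x y) := by
    simp only [map_add, AddMonoidHom.add_apply]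
    rw [ha, hb, D.symm y x]; ring
  rw [Qf, Qf, Qf, h, ha, hb, Int.mul_ediv_cancel_left _ (by norm_num), Int.mul_ediv_cancel_left _ (by norm_num),
    Int.mul_ediv_cancel_left _ (by norm_num)]
  push_cast
  ring

theorem quad_single (b : Fin m ⊕ Fin m) : Cfsg.quadFormPlus m (ZMod 2) (Pi.single b 1) = 0 := by
  rw [Cfsg.quadFormPlus]
  apply Finset.sum_eq_zero
  intro i _
  rcases b with j | j
  · rw [Pi.single_eq_of_ne (show (Sum.inr i : Fin m ⊕ Fin m) ≠ Sum.inl j by simp), mul_zero]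
  · rw [Pi.single_eq_of_ne (show (Sum.inl i : Fin m ⊕ Fin m) ≠ Sum.inr j by simp), zero_mul]

/-- the form in coordinates -/
theorem quad_cd (D : Dat f B X) (y : L) : Cfsg.quadFormPlus m (ZMod 2) (cd B X y) = Qf B y := by
  have hadd : ∀ x y, Cfsg.quadFormPlus m (ZMod 2) (cd B X x) = Qf B x → Cfsg.quadFormPlus m (ZMod 2) (cd B X y) = Qf B y →
      Cfsg.quadFormPlus m (ZMod 2) (cd B X (x + y)) = Qf B (x + y) := by
    intro x y hx hy
    rw [cd_add, quad_add, hx, hy, D.Qf_add, D.expand]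
  have hzero : Cfsg.quadFormPlus m (ZMod 2) (0 : Fin m ⊕ Fin m → ZMod 2) = 0 := by
    simp [Cfsg.quadFormPlus]
  have h0 : Cfsg.quadFormPlus m (ZMod 2) (cd B X 0) = Qf B 0 := by
    have : cd B X (0 : L) = 0 := by funext a; simp [cd]
    rw [this, hzero, Qf]; simp
  have htwo : ∀ z, Cfsg.quadFormPlus m (ZMod 2) (cd B X (z + z)) = Qf B (z + z) := by
    intro z
    rw [cd_two, hzero, D.Qf_add, CharTwo.add_self_eq_zero, zero_add]
    obtain ⟨a, ha⟩ := D.even z
    rw [ha, two_mul, two]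
  have hX : ∀ b, Cfsg.quadFormPlus m (ZMod 2) (cd B X (X b)) = Qf B (X b) := by
    intro b
    rw [D.cd_X, quad_single, Qf, D.norm]
  have hlift : ∀ (s : Finset (Fin m ⊕ Fin m)) (c : Fin m ⊕ Fin m → ZMod 2),
      Cfsg.quadFormPlus m (ZMod 2) (cd B X (∑ b ∈ s, ((c b).val : ℤ) • X b)) = Qf B (∑ b ∈ s, ((c b).val : ℤ) • X b) := by
    intro s c
    induction s using Finset.cons_induction with
    | empty => rw [Finset.sum_empty]; exact h0
    | cons b s hb ih =>
      rw [Finset.sum_cons]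
      refine hadd _ _ ?_ ih
      have : c b = 0 ∨ c b = 1 := by
        generalize c b = x; revert x; decide
      rcases this with h | h
      · rw [h, ZMod.val_zero, Nat.cast_zero, zero_smul]; exact h0
      · rw [h, show ((1 : ZMod 2).val : ℤ) = 1 from rfl, one_smul]; exact hX b
  obtain ⟨z, hz⟩ := D.exists_lift y
  rw [hz]
  exact hadd _ _ (hlift _ _) (htwo z)

/-- the matrix -/
def M (f : G → L →+ L) (B : L →+ L →+ ℤ) (X : Fin m ⊕ Fin m → L) (g : G) : Matrix (Fin m ⊕ Fin m) (Fin m ⊕ Fin m) (ZMod 2) :=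
  fun a b => cd B X (f g (X b)) a

theorem M_mulVec (D : Dat f B X) (g : G) (v : Fin m ⊕ Fin m → ZMod 2) : M f B X g *ᵥ v = cd B X (f g (lift X v)) := by
  funext a
  rw [Matrix.mulVec, dotProduct, cd, lift, map_sum, map_sum]
  push_cast
  refine Finset.sum_congr rfl fun b _ => ?_
  rw [map_zsmul, map_zsmul, smul_eq_mul]
  push_cast
  rw [ZMod.natCast_val, ZMod.cast_id', id, mul_comm]
  rfl

theorem cd_f (D : Dat f B X) (g : G) (x : L) : cd B X (f g x) = M f B X g *ᵥ cd B X x := by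
  rw [D.M_mulVec]
  obtain ⟨z, hz⟩ := D.exists_lift x
  conv_lhs => rw [hz]
  rw [map_add, map_add, cd_add, cd_two, add_zero]

theorem M_one (D : Dat f B X) : M f B X (1 : G) = 1 := by
  ext a b
  rw [M, D.one, D.cd_X, Matrix.one_apply, Pi.single_apply]

theorem M_mul (D : Dat f B X) (g h : G) : M f B X (g * h) = M f B X g * M f B X h := by
  ext a c
  have h1 : M f B X (g * h) a c = cd B X (f g (f h (X c))) a := by rw [M, D.mul]
  rw [h1, D.cd_f]
  rfl

/-- the matrix homomorphism -/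
def MH (D : Dat f B X) : G →* Matrix (Fin m ⊕ Fin m) (Fin m ⊕ Fin m) (ZMod 2) where
  toFun := M f B X
  map_one' := D.M_one
  map_mul' := D.M_mul

/-- the representation -/
noncomputable def rho (D : Dat f B X) : G →* Cfsg.isometryGroup (ZMod 2) (Cfsg.quadFormPlus m (ZMod 2)) where
  toFun g := ⟨D.MH.toHomUnits g, by
    intro u v
    show Cfsg.quadFormPlus m (ZMod 2) (M f B X g *ᵥ u) = Cfsg.quadFormPlus m (ZMod 2) u
    rw [D.M_mulVec, D.quad_cd]
    have h1 : Qf B (f g (lift X u)) = Qf B (lift X u) := by rw [Qf, Qf, D.inv]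
    rw [h1, ← D.quad_cd, D.cd_lift]⟩
  map_one' := Subtype.ext (map_one _)
  map_mul' g h := Subtype.ext (map_mul _ _ _)

theorem mem_ker (D : Dat f B X) {g : G} : g ∈ D.rho.ker ↔ M f B X g = 1 := by
  rw [MonoidHom.mem_ker]
  constructor
  · intro h
    exact congrArg (fun x : Cfsg.isometryGroup (ZMod 2) (Cfsg.quadFormPlus m (ZMod 2)) =>
      ((x.1 : Matrix.GeneralLinearGroup (Fin m ⊕ Fin m) (ZMod 2)) : Matrix (Fin m ⊕ Fin m) (Fin m ⊕ Fin m) (ZMod 2))) h
  · intro h
    apply Subtype.ext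
    apply Units.ext
    exact h

theorem ker_iff (D : Dat f B X) {g : G} : g ∈ D.rho.ker ↔ ∀ y, ∃ z, f g y = y + (z + z) := by
  rw [D.mem_ker]
  constructor
  · intro h y
    have h1 : cd B X (f g y - y) = 0 := by
      have h2 : cd B X (f g y) = cd B X y := by rw [D.cd_f, h, Matrix.one_mulVec]
      have h3 := cd_add (B := B) (X := X) (f g y - y) y
      rw [sub_add_cancel, h2] at h3
      exact (right_eq_add.1 h3)
    obtain ⟨z, hz⟩ := D.rad (f g y - y) (fun a => by
      have := congrFun h1 a.swap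
      rw [cd, Sum.swap_swap] at this
      exact this)
    exact ⟨z, by rw [← hz]; abel⟩
  · intro h
    ext a b
    obtain ⟨z, hz⟩ := h (X b)
    rw [M, hz, cd_add, cd_two, add_zero, D.cd_X, Matrix.one_apply, Pi.single_apply]

end Dat

end H33.OrthRep
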