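import Mathlib
import Cfsg.Agent.Lib.H33.Oct9
import Cfsg.Agent.Lib.H33.OrthRep
import Cfsg.Agent.Lib.H9.Co1Out

set_option autoImplicit false

/-! The orthogonal representation of the centralizer in `Co0` of an octad involution. -/

namespace H33.Oct

open Cfsg Finset H9.Leech H9.ModTwo H9.LatticeIso H9.LeechGood H9.Trans H9.Cross H9.CoOrder H9.Co23
open H8.GolayCode H8.GolayBasic H8.GolayCount MulAction H32.OctadStab H32.Octad H32.M24Kit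

/-- a hyperbolic basis -/
def YO : Fin 4 ⊕ Fin 4 → Fin 8 → ℤ :=
  Sum.elim ![![4, 0, 0, 0, 0, 0, 0, 0], ![2, 2, 2, 2, 0, 0, 0, 0], ![2, 2, 0, 0, 0, 2, 2, 0], ![2, 0, 2, 0, 0, 0, 2, 2]]
    ![![-3, 1, 1, 1, 1, 1, 1, 1], ![2, 2, 2, 0, 2, 0, 0, 0], ![2, 2, 0, 0, 0, 2, 0, 2], ![2, 0, 0, 2, 2, 2, 0, 0]]

theorem ok_YO : ∀ a, OkE (YO a) := by decide

theorem gram_YO : ∀ a b, (∑ k, YO a k * YO b k) / 4 % 2 = if b = a.swap then 1 else 0 := by decide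

theorem norm_YO : ∀ a, (∑ k, YO a k * YO a k) / 4 / 2 % 2 = 0 := by decide

theorem arith_radO {a0 a1 a2 a3 a4 a5 a6 a7 : ℤ} (g1 : (2 : ℤ) ∣ a0 + a1 + a2 + a3) (g2 : (2 : ℤ) ∣ a0 + a1 + a2 + a4)
    (g3 : (2 : ℤ) ∣ a0 + a1 + a5 + a6) (g4 : (2 : ℤ) ∣ a0 + a1 + a5 + a7) (g5 : (2 : ℤ) ∣ a0 + a2 + a6 + a7)
    (g6 : (2 : ℤ) ∣ a0 + a3 + a4 + a5) (g7 : (2 : ℤ) ∣ a0 + a1 + a2 + a3 + a4 + a5 + a6 + a7) :
    (2 : ℤ) ∣ a1 - a0 ∧ (2 : ℤ) ∣ a2 - a0 ∧ (2 : ℤ) ∣ a3 - a0 ∧ (2 : ℤ) ∣ a4 - a0 ∧ (2 : ℤ) ∣ a5 - a0 ∧ (2 : ℤ) ∣ a6 - a0 ∧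
    (2 : ℤ) ∣ a7 - a0 := by
  obtain ⟨c1, g1⟩ := g1
  obtain ⟨c2, g2⟩ := g2
  obtain ⟨c3, g3⟩ := g3
  obtain ⟨c4, g4⟩ := g4
  obtain ⟨c5, g5⟩ := g5
  obtain ⟨c6, g6⟩ := g6
  obtain ⟨c7, g7⟩ := g7
  refine ⟨⟨c5 + c6 + c7 - a0 * 2 - a2 - a3 - a4 - a5 - a6 - a7, ?_⟩, ⟨c3 + c4 + c5 - 2 * a0 - a1 - a5 - a6 - a7, ?_⟩,
    ⟨c1 + c3 + c4 + c6 + c7 - 3 * a0 - 2 * a1 - a2 - a3 - a4 - 2 * a5 - a6 - a7, ?_⟩, ⟨c2 + c3 + c4 + c6 + c7 - 3 * a0 - 2 * a1 - a2 - a3 - a4 - 2 * a5 - a6 - a7, ?_⟩,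
    ⟨c1 + c2 + c6 - 2 * a0 - a1 - a2 - a3 - a4, ?_⟩, ⟨c1 + c2 + c3 + c5 + c7 - 3 * a0 - 2 * a1 - 2 * a2 - a3 - a4 - a5 - a6 - a7, ?_⟩,
    ⟨c1 + c2 + c4 + c5 + c7 - 3 * a0 - 2 * a1 - 2 * a2 - a3 - a4 - a5 - a6 - a7, ?_⟩⟩
  all_goals linarith

theorem par_of {a : Fin 8 → ℤ} (h : ∀ i, (2 : ℤ) ∣ a i - a 0) : (∀ i, (2 : ℤ) ∣ a i) ∨ (∀ i, ¬ (2 : ℤ) ∣ a i) := by
  by_cases hc : (2 : ℤ) ∣ a 0
  · left; intro i; have := h i; omega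
  · right; intro i; have := h i; omega

theorem rad_YO {w : Fin 8 → ℤ} (hw : OkE w) (h : ∀ a, (8 : ℤ) ∣ ∑ k, YO a k * w k) :
    ∃ z, OkE z ∧ (∀ k, w k = 2 * z k) := by
  have e1 := h (.inl 0)
  have e2 := h (.inl 1)
  have e3 := h (.inl 2)
  have e4 := h (.inl 3)
  have f1 := h (.inr 0)
  have f2 := h (.inr 1)
  have f3 := h (.inr 2)
  have f4 := h (.inr 3)
  rw [Fin.sum_univ_eight] at e1 e2 e3 e4 f1 f2 f3 f4
  simp [YO] at e1 e2 e3 e4 f1 f2 f3 f4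
  rw [ok_iff] at hw
  obtain ⟨hpar, hs⟩ := hw
  have hev : ∀ i, (2 : ℤ) ∣ w i := by
    rcases hpar with hpar | hpar
    · exact hpar
    · exfalso
      have := hpar 0
      clear hpar e2 e3 e4 f1 f2 f3 f4 hs h
      omega
  choose a ha using hev
  simp only [ha] at e1 e2 e3 e4 f1 f2 f3 f4 hs
  clear hpar h
  obtain ⟨h1, h2, h3, h4, h5, h6, h7⟩ := arith_radO (a0 := a 0) (a1 := a 1) (a2 := a 2) (a3 := a 3)
    (a4 := a 4) (a5 := a 5) (a6 := a 6) (a7 := a 7) (by clear e1 e3 e4 f1 f2 f3 f4 hs; omega) (by clear e1 e2 e3 e4 f1 f3 f4 hs; omega)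
    (by clear e1 e2 e4 f1 f2 f3 f4 hs; omega) (by clear e1 e2 e3 e4 f1 f2 f4 hs; omega) (by clear e1 e2 e3 f1 f2 f3 f4 hs; omega)
    (by clear e1 e2 e3 e4 f1 f2 f3 hs; omega) (by clear e1 e2 e3 e4 f1 f2 f3 f4; omega)
  refine ⟨a, ?_, ha⟩
  rw [ok_iff]
  have hall : ∀ i, (2 : ℤ) ∣ a i - a 0 := by
    intro i
    fin_cases i
    · show (2 : ℤ) ∣ a 0 - a 0
      simp
    · exact h1
    · exact h2
    · exact h3
    · exact h4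
    · exact h5
    · exact h6
    · exact h7
  constructor
  · exact par_of hall
  · obtain ⟨c, hc⟩ := f1
    exact ⟨a 0 + c, by linarith⟩

section
variable {O : Finset GolayPt} (e : Fin 8 ≃ {q // q ∈ O}) (hO : O ∈ octads)

/-- the hyperbolic basis -/
def XO (a : Fin 4 ⊕ Fin 4) : LO hO := mkL e hO (YO a) (ok_YO a)

/-- the orthogonal representation -/
theorem datO {G : Type*} [Group G] (φ : G →* Co0) (hφ : ∀ g, φ g ∈ CC hO) :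
    H33.OrthRep.Dat (fO hO φ hφ) (BO hO) (XO e hO) := by
  refine ⟨?_, ?_, ?_, ?_, ?_, ?_, ?_, ?_⟩
  · intro x
    apply Subtype.ext
    rw [fO_coe, map_one, one_smul]
  · intro g h x
    apply Subtype.ext
    rw [fO_coe, fO_coe, fO_coe, map_mul, mul_smul]
  · exact BO_symm hO
  · exact fO_inv hO φ hφ
  · exact BO_even hO
  · intro a b
    rw [XO, XO, BO_mkL', cast_two (gram_YO a b)]
    push_cast
    split_ifs <;> simp
  · intro a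
    rw [XO, BO_mkL', cast_two (norm_YO a)]
    simp
  · intro y h2
    obtain ⟨w, hw, rfl⟩ := exists_mkL e hO y
    have h4 : ∀ a, (8 : ℤ) ∣ ∑ k, YO a k * w k := by
      intro a
      have := dvd_of_cast (h2 a)
      rw [← BO_mkL e hO (ok_YO a) hw]
      have h4 : BO hO (mkL e hO (YO a) (ok_YO a)) (mkL e hO w hw) = BO hO (XO e hO a) (mkL e hO w hw) := rfl
      omega
    obtain ⟨z, hz, h5⟩ := rad_YO hw h4
    exact ⟨mkL e hO z hz, mkL_two e hO hw hz h5⟩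

/-- the kernel of the orthogonal representation -/
theorem kerO {G : Type*} [Group G] (φ : G →* Co0) (hφ : ∀ g, φ g ∈ CC hO) {g : G} :
    g ∈ (datO e hO φ hφ).rho.ker ↔ φ g ∈ KO O ∨ H9.Co1Out.ng * φ g ∈ KO O := by
  rw [(datO e hO φ hφ).ker_iff]
  constructor
  · intro h
    have hroot : ∀ {x : LO hO}, BO hO x x = 2 → φ g • x.1 = x.1 ∨ φ g • x.1 = -x.1 := by
      intro x hx
      have hu : BO hO (fO hO φ hφ g x) (fO hO φ hφ g x) = 2 := by rw [fO_inv, hx]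
      rcases root_pm hO hx hu (h x) with h | h
      · left; rw [← fO_coe hO φ hφ, h]
      · right; rw [← fO_coe hO φ hφ, h]; rfl
    have h1 : (∀ k ∈ (Finset.univ : Finset (Fin 8)), φ g • e8 (e k) = e8 (e k)) ∨
        (∀ k ∈ (Finset.univ : Finset (Fin 8)), φ g • e8 (e k) = -e8 (e k)) := by
      refine triple e (fun k _ l _ hkl => pair_cases e hO ?_ ?_) (by decide)
      · exact hroot (BO_yp e hO hkl)
      · exact hroot (BO_ym e hO hkl)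
    rcases h1 with h1 | h1
    · left
      intro q hq
      obtain ⟨k, hk⟩ : ∃ k, q = (e k : GolayPt) := ⟨e.symm ⟨q, hq⟩, by rw [e.apply_symm_apply]⟩
      subst hk
      exact h1 k (Finset.mem_univ _)
    · right
      intro q hq
      obtain ⟨k, hk⟩ : ∃ k, q = (e k : GolayPt) := ⟨e.symm ⟨q, hq⟩, by rw [e.apply_symm_apply]⟩
      subst hk
      rw [mul_smul, h1 k (Finset.mem_univ _), H9.Co1Out.ng_smul, neg_neg]
  · rintro (h | h) y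
    · refine ⟨0, ?_⟩
      apply Subtype.ext
      rw [fO_coe, KO_fix hO h, add_zero, add_zero]
    · refine ⟨-y, ?_⟩
      apply Subtype.ext
      have h2 := KO_fix hO h y
      rw [mul_smul, H9.Co1Out.ng_smul] at h2
      rw [fO_coe, neg_eq_iff_eq_neg.1 h2]
      show -y.1 = y.1 + (-y.1 + -y.1)
      abel
end

end H33.Oct
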