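import Mathlib
import Cfsg.Agent.Lib.H33.Oct10
import Cfsg.Agent.Lib.H33.Om8
import Cfsg.Agent.Lib.H32.OctadOrb

set_option autoImplicit false

/-! The centralizer in `Co1` of an octad involution. -/

namespace H33.Oct

open Cfsg Finset H9.Leech H9.ModTwo H9.LatticeIso H9.LeechGood H9.Trans H9.Cross H9.CoOrder H9.Co23
open H8.GolayCode H8.GolayBasic H8.GolayCount MulAction H32.OctadStab H32.Octad H32.M24Kit H9.Co1Out
open H33.Om8

theorem KO_conj {O : Finset GolayPt} (hO : O ∈ octads) {b k : Co0} (hb : b ∈ KO O) (hk : k ∈ KO O) :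
    b * k * b⁻¹ = k ∨ b * k * b⁻¹ = zO hO * k := by
  have h1 := KO_sq hO ((KO O).mul_mem hb hk)
  have h2 := KO_sq hO hk
  have h3 := KO_sq hO hb
  have h4 : b * k * b⁻¹ = (b * k * (b * k)) * (k * k)⁻¹ * k * (b * b)⁻¹ := by group
  have hz : zO hO * zO hO = 1 := zO_sq hO
  have hzi : (zO hO)⁻¹ = zO hO := inv_eq_of_mul_eq_one_left hz
  have hc := zO_comm hO hk
  rw [h4]
  rcases h1 with h1 | h1 <;> rcases h2 with h2 | h2 <;> rcases h3 with h3 | h3 <;>
    simp only [h1, h2, h3, inv_one, one_mul, mul_one, hzi]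
  · left; trivial
  · right; exact hc.symm
  · right; trivial
  · left; rw [hc, mul_assoc, hz, mul_one]
  · right; trivial
  · left; rw [hc, mul_assoc, hz, mul_one]
  · left; rw [hz, one_mul]
  · right; rw [hz, one_mul, hc]

theorem ng_not_mem {O : Finset GolayPt} (hO : O ∈ octads) {g : Co0} (hg : g ∈ KO O) : ng * g ∉ KO O := by
  intro h
  obtain ⟨p, hp⟩ := octad_nonempty hO
  have h1 := h p hp
  rw [mul_smul, hg p hp, ng_smul] at h1
  exact e8_ne_neg _ _ h1.symm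

theorem tr_ng (g : Co0) : tr (ng * g) = -tr g := by
  unfold tr
  rw [← Finset.sum_neg_distrib]
  refine Finset.sum_congr rfl fun p _ => ?_
  show mt (ng * g) p p = -mt g p p
  unfold mt
  rw [mul_smul, ng_smul]
  rfl

/-- the centralizer upstairs and downstairs -/
theorem mem_C1_iff {O : Finset GolayPt} (hO : O ∈ octads) (g : Co0) :
    q g ∈ Subgroup.centralizer ({q (zO hO)} : Set Spor.Co1) ↔ g ∈ CC hO := by
  rw [Subgroup.mem_centralizer_singleton_iff, mem_CC_iff]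
  constructor
  · intro h
    have h1 : q (g * zO hO * g⁻¹ * (zO hO)⁻¹) = 1 := by
      rw [map_mul, map_mul, map_mul, map_inv, map_inv, h]; group
    rcases q_eq_one.1 h1 with h2 | h2
    · have h3 : g * zO hO * g⁻¹ = zO hO := by
        rw [mul_inv_eq_one] at h2; exact h2
      rw [mul_inv_eq_iff_eq_mul] at h3
      exact h3.symm
    · exfalso
      have h3 : g * zO hO * g⁻¹ = ng * zO hO := by rw [← h2]; group
      have h4 := tr_conj g (zO hO)
      rw [h3, tr_ng, zO, tr_es, Finset.card_compl, card_pt, hO.2] at h4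
      norm_num at h4
  · intro h
    rw [← map_mul, ← map_mul, h]

/-- two octads off a given one -/
theorem exists_pair {O : Finset GolayPt} (hO : O ∈ octads) : ∃ d ∈ octads, ∃ c ∈ octads, (∀ p ∈ d, p ∉ O) ∧
    (∀ p ∈ c, p ∉ O) ∧ (∃ p, p ∈ d ∧ p ∉ c) ∧ (∃ p, p ∈ d ∧ p ∈ c) := by
  have h30 := ncard_disjoint hO
  have hne : {s | s ∈ octads ∧ (O ∩ s).card = 0}.Nonempty := by
    apply Set.nonempty_of_ncard_ne_zero
    rw [h30]; norm_num
  obtain ⟨d, hd, hd0⟩ := hne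
  rw [Finset.card_eq_zero] at hd0
  have hdO : ∀ p ∈ d, p ∉ O := by
    intro p hp hpO
    exact Finset.notMem_empty p (hd0 ▸ Finset.mem_inter.2 ⟨hpO, hp⟩)
  obtain ⟨a, ha, b, hb, hab⟩ := Finset.one_lt_card.1 (show 1 < d.card by rw [hd.2]; norm_num)
  obtain ⟨c, hc, hcO, h1, h2⟩ := sep hO (hdO a ha) (hdO b hb) hab
  exact ⟨d, hd, c, hc, hdO, hcO, ⟨b, hb, h2⟩, ⟨a, ha, h1⟩⟩

theorem inter_zero {O d : Finset GolayPt} (h : ∀ p ∈ d, p ∉ O) : (O ∩ d).card = 0 := by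
  rw [Finset.card_eq_zero, Finset.eq_empty_iff_forall_notMem]
  intro p hp
  rw [Finset.mem_inter] at hp
  exact h p hp.2 hp.1

theorem es_mem_KO {O d : Finset GolayPt} (hd : d ∈ GS) (h : ∀ p ∈ d, p ∉ O) : es d hd ∈ KO O := by
  intro p hp
  rw [es_e8, if_neg (fun h' => h p h' hp)]

theorem permHom_mem_CC {O : Finset GolayPt} (hO : O ∈ octads) (τ : M24) (h : O.image τ.1 = O) : permHom τ ∈ CC hO := by
  rw [mem_CC]
  exact (perm_es τ hO.1 hO.1 h).symm

/-- no element acts on `KO` as needed -/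
theorem no_inner {O : Finset GolayPt} (hO : O ∈ octads) : ∃ g ∈ CC hO, ∃ k ∈ KO O, ∀ b ∈ KO O,
    q (g * k * g⁻¹) ≠ q (b * k * b⁻¹) := by
  obtain ⟨d, hd, c, hc, hdO, hcO, ⟨p, hpd, hpc⟩, ⟨r, hrd, hrc⟩⟩ := exists_pair hO
  obtain ⟨τ, hτ, t1, t2⟩ := H32.OctadOrb.octad_pair_trans' hO hd hO hc (by rw [inter_zero hdO, inter_zero hcO])
  refine ⟨permHom ⟨τ, hτ⟩, permHom_mem_CC hO ⟨τ, hτ⟩ t1, es d hd.1, es_mem_KO hd.1 hdO, ?_⟩
  intro b hb h
  have h1 : permHom ⟨τ, hτ⟩ * es d hd.1 * (permHom ⟨τ, hτ⟩)⁻¹ = es c hc.1 := by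
    rw [perm_es ⟨τ, hτ⟩ hd.1 hc.1 t2]; group
  rw [h1] at h
  have h2 : q (es c hc.1 * (b * es d hd.1 * b⁻¹)⁻¹) = 1 := by rw [map_mul, map_inv, h, mul_inv_cancel]
  have hk : b * es d hd.1 * b⁻¹ ∈ KO O := (KO O).mul_mem ((KO O).mul_mem hb (es_mem_KO hd.1 hdO)) ((KO O).inv_mem hb)
  have h3 : es c hc.1 = b * es d hd.1 * b⁻¹ := by
    rcases q_eq_one.1 h2 with h3 | h3
    · exact mul_inv_eq_one.1 h3
    · exfalso
      have h4 : es c hc.1 = ng * (b * es d hd.1 * b⁻¹) := by rw [← h3]; group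
      exact ng_not_mem hO hk (h4 ▸ es_mem_KO hc.1 hcO)
  rcases KO_conj hO hb (es_mem_KO hd.1 hdO) with h4 | h4
  · rw [h4] at h3
    have h5 := congrArg (fun x : Co0 => x • e8 p) h3
    simp only [es_e8, if_pos hpd, if_neg hpc] at h5
    exact e8_ne_neg _ _ h5
  · rw [h4] at h3
    have h5 := congrArg (fun x : Co0 => x • e8 r) h3
    simp only [mul_smul, es_e8, if_pos hrd, if_pos hrc, co0_neg, zO_e8, if_neg (hdO r hrd), neg_neg] at h5
    exact e8_ne_neg _ _ h5.symm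

end H33.Oct
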