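import Mathlib
import Cfsg.Agent.Lib.H33.CoL
import Cfsg.Agent.Lib.H33.CoK
import Cfsg.Agent.Lib.H33.Om8
import Cfsg.Agent.Lib.H9.Co1Out
import Cfsg.Agent.S5388

set_option autoImplicit false

/-! Sections of the automorphism group of the Leech lattice. -/

namespace H33.CoT

open Cfsg H9.Co1Out H33.MonRed

theorem translate {c : Spor.Co1} {p : ℕ} (hp : p.Prime) (hp2 : p ≠ 2) (hc : orderOf c = p) :
    ∃ A : Subgroup ↥Co0, Nat.card A = p ∧
      ∃ (_hn : ((A ⊔ Subgroup.center ↥Co0).subgroupOf (Subgroup.centralizer (A : Set ↥Co0))).Normal),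
        Nonempty (SS c ≃* ↥(Subgroup.centralizer (A : Set ↥Co0)) ⧸ (A ⊔ Subgroup.center ↥Co0).subgroupOf (Subgroup.centralizer (A : Set ↥Co0))) := by
  have hodd : Odd p := hp.odd_of_ne_two hp2
  have hpf : Fact p.Prime := ⟨hp⟩
  have hcp : c ^ p = 1 := by rw [← hc]; exact pow_orderOf_eq_one c
  have hc1 : c ≠ 1 := by
    intro h
    rw [h, orderOf_one] at hc
    exact hp.one_lt.ne hc
  obtain ⟨d, hdc, hdp⟩ : ∃ d : Co0, q d = c ∧ d ^ p = 1 := by
    obtain ⟨d0, hd0⟩ := q_surj c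
    have h1 : q (d0 ^ p) = 1 := by rw [map_pow, hd0, hcp]
    rcases q_eq_one.1 h1 with h2 | h2
    · exact ⟨d0, hd0, h2⟩
    · refine ⟨ng * d0, by rw [map_mul, q_ng, one_mul, hd0], ?_⟩
      rw [ng_mul_pow, ng_pow_odd hodd, h2, ng_sq]
  have hd1 : d ≠ 1 := by
    intro h
    rw [h, map_one] at hdc
    exact hc1 hdc.symm
  have hdo : orderOf d = p := orderOf_eq_prime hdp hd1
  have hmem : ∀ x : Co0, x ∈ Subgroup.centralizer (Subgroup.zpowers d : Set Co0) ↔ x * d = d * x := by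
    intro x
    rw [Subgroup.mem_centralizer_iff]
    constructor
    · intro h
      exact (h d (Subgroup.mem_zpowers d)).symm
    · intro h y hy
      obtain ⟨n, rfl⟩ := Subgroup.mem_zpowers_iff.1 hy
      have h1 : Commute x d := h
      exact (h1.zpow_right n).symm
  let f0 : ↥(Subgroup.centralizer (Subgroup.zpowers d : Set Co0)) →* HH c :=
    (q.comp (Subgroup.subtype _)).codRestrict _ (by
      intro x
      have h1 := (hmem x.1).1 x.2
      rw [mem_HH, ← hdc]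
      show q x.1 * q d = q d * q x.1
      rw [← map_mul, h1, map_mul])
  let f : ↥(Subgroup.centralizer (Subgroup.zpowers d : Set Co0)) →* SS c := (QuotientGroup.mk' _).comp f0
  have hf0 : Function.Surjective f0 := by
    intro y
    obtain ⟨x, hx⟩ := q_surj y.1
    have h1 := mem_HH.1 y.2
    rw [← hx, ← hdc] at h1
    have h2 := lift_comm hodd hdp h1
    exact ⟨⟨x, (hmem x).2 h2⟩, Subtype.ext hx⟩
  have hf : Function.Surjective f := (QuotientGroup.mk'_surjective _).comp hf0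
  have hcen : ∀ x : Co0, x ∈ Subgroup.center Co0 ↔ q x = 1 := by
    intro x
    exact (QuotientGroup.eq_one_iff x).symm
  have hker : (Subgroup.zpowers d ⊔ Subgroup.center ↥Co0).subgroupOf (Subgroup.centralizer (Subgroup.zpowers d : Set Co0)) = f.ker := by
    ext x
    have h1 : x ∈ f.ker ↔ q x.1 ∈ Subgroup.zpowers c := by
      rw [MonoidHom.mem_ker]
      show (QuotientGroup.mk (f0 x) : SS c) = 1 ↔ _
      rw [QuotientGroup.eq_one_iff]
      exact Subgroup.mem_subgroupOf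
    rw [h1, Subgroup.mem_subgroupOf]
    constructor
    · intro h2
      have h3 : Subgroup.zpowers d ⊔ Subgroup.center ↥Co0 ≤ (Subgroup.zpowers c).comap q := by
        rw [sup_le_iff]
        constructor
        · rw [Subgroup.zpowers_le, Subgroup.mem_comap, hdc]
          exact Subgroup.mem_zpowers c
        · intro y hy
          rw [Subgroup.mem_comap, (hcen y).1 hy]; exact Subgroup.one_mem _
      exact h3 h2
    · intro h2
      obtain ⟨n, hn⟩ := Subgroup.mem_zpowers_iff.1 h2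
      have h3 : x.1 * (d ^ n)⁻¹ ∈ Subgroup.center Co0 := by
        rw [hcen, map_mul, map_inv, map_zpow, hdc, hn, mul_inv_cancel]
      have h4 : x.1 = x.1 * (d ^ n)⁻¹ * d ^ n := by group
      rw [h4]
      exact Subgroup.mul_mem _ (Subgroup.mem_sup_right h3) (Subgroup.mem_sup_left (Subgroup.zpow_mem _ (Subgroup.mem_zpowers d) n))
  have hn : ((Subgroup.zpowers d ⊔ Subgroup.center ↥Co0).subgroupOf (Subgroup.centralizer (Subgroup.zpowers d : Set Co0))).Normal := by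
    rw [hker]; infer_instance
  refine ⟨Subgroup.zpowers d, by rw [Nat.card_zpowers, hdo], hn, ⟨?_⟩⟩
  exact ((QuotientGroup.quotientMulEquivOfEq hker).trans (QuotientGroup.quotientKerEquivOfSurjective f hf)).symm

theorem card_Om8 : Nat.card (Omega (ZMod 2) (quadFormPlus 4 (ZMod 2))) = 174182400 := by
  have h1 : (Omega (ZMod 2) (quadFormPlus 4 (ZMod 2))).index = 2 := comm_index FD3 (by simp) |> fun _ => by
    have h2 := (H17.DicksonInv.main_even (Q := H48.QuadStd.qPlus 4 (ZMod 2)) (H48.QuadSplit.nd_iff.1 (H48.QuadStd.nd_qPlus 4)) (by simp) (Or.inr (by simp))).1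
    rw [← H48.QuadStd.coe_qPlus]
    exact h2
  have h2 := (Omega (ZMod 2) (quadFormPlus 4 (ZMod 2))).card_mul_index
  have h3 := card_plus8
  rw [h1] at h2
  change _ = Nat.card (isometryGroup (ZMod 2) (quadFormPlus 4 (ZMod 2))) at h2
  omega

section
variable {m k p : ℕ} {q1 : QuadraticForm (ZMod 2) (I1 m k → ZMod 2)} {qW : (Fin k → ZMod 2) → ZMod 2}
  {a1 : Matrix (Fin k) (Fin k) (ZMod 2)} {w0 : Fin k → ZMod 2}

theorem final (F : FD m k q1 qW) (W : WD k p qW a1 w0) (T : (I1 m k → ZMod 2) ≃ₗ[ZMod 2] (I8 → ZMod 2))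
    (hT : ∀ v, quadFormPlus 4 (ZMod 2) (T v) = q1 v) (hp : p.Prime) (hp2 : p ≠ 2) (h8 : Fintype.card (I1 m k) ≠ 4) (m1 : 0 < m)
    (h16 : 16 % p = 1) (hsX : IsSimpleGroup (XX F)) (hcore : pCore 2 (XX F) = ⊥) {X : Type} [Group X] (hX : Nonempty (XX F ≃* X)) :
    ∃ A : Subgroup ↥Cfsg.Co0, Nat.card A = p ∧ ∃ (_hn : ((A ⊔ Subgroup.center ↥Cfsg.Co0).subgroupOf (Subgroup.centralizer (A : Set ↥Cfsg.Co0))).Normal), ∃ (S : Type) (_ : Group S) (_ : Finite S), Nonempty (S ≃* ↥(Subgroup.centralizer (A : Set ↥Cfsg.Co0)) ⧸ (A ⊔ Subgroup.center ↥Cfsg.Co0).subgroupOf (Subgroup.centralizer (A : Set ↥Cfsg.Co0))) ∧ IsSimpleGroup S ∧ ¬ IsMulCommutative S ∧ ∃ z : S, orderOf z = 2 ∧ ∃ (Q : Subgroup (Subgroup.centralizer ({z} : Set S))) (_ : Q.Normal), Cfsg.generalizedFittingSubgroup (Subgroup.centralizer ({z} : Set S)) = Q ∧ Cfsg.IsExtraspecial 2 Q ∧ Nat.card Q = 2 ^ (2 * (m + 1) + 1) ∧ Nonempty ((Subgroup.centralizer ({z} : Set S)) ⧸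 Q ≃* X) ∧ ∃ g : S, (∃ hq : g * z * g⁻¹ ∈ Subgroup.centralizer ({z} : Set S), (⟨g * z * g⁻¹, hq⟩ : Subgroup.centralizer ({z} : Set S)) ∈ Q) ∧ g * z * g⁻¹ ≠ z := by
  have hf0 : Finite Co0 := H9.CoOrder.finite_co0
  have hf1 : Finite Spor.Co1 := Finite.of_surjective _ q_surj
  obtain ⟨z, hz, Q, hN, hF, hE, hQ, ⟨e⟩, g, ⟨hq, hqQ⟩, hne⟩ := Cfsg.Agent.S5388.result
  have hidx : Nat.card ((Subgroup.centralizer ({z} : Set Spor.Co1)) ⧸ Q) = 174182400 := by
    rw [Nat.card_congr e.toEquiv, card_Om8]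
  obtain ⟨c, hc, h1, h2, z', h3, Q', hN', h4, h5, h6, ⟨e2⟩, h7⟩ := big hz Q hF hE hQ hidx hq hqQ hne F W T hT hp hp2 h8 m1 h16 hsX hcore
  obtain ⟨A, hA, hn, e3⟩ := translate hp hp2 hc
  obtain ⟨eX⟩ := hX
  exact ⟨A, hA, hn, SS c, inferInstance, inferInstance, e3, h1, h2, z', h3, Q', hN', h4, h5, h6, ⟨e2.trans eX⟩, h7⟩
end

end H33.CoT
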