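import Mathlib
set_option autoImplicit false

/-! Centralizer of an involution of M11: data. -/

namespace H33.DM11

def X0 : ℕ := 0xbba69aca117d8ac42a8b399a320440
/-- vectors to points -/
def B : ZMod 3 → ZMod 3 → ℕ := ![![99, 3, 4], ![1, 16, 21], ![2, 19, 17]]
def TL : ZMod 3 → ZMod 3 → ZMod 3 → ZMod 3 → ℕ := ![![![![0x0, 0x0, 0x0], ![0x0, 0x0, 0x0], ![0x0, 0x0, 0x0]], ![![0x0, 0x0, 0x0], ![0x93a74ade303596c6a9253bd0209060, 0x6504b0ca75325d76bd0551ed181060, 0xbae2e830413229269ec57a933a9060], ![0xba63684a753510c69dc553d6208c80, 0x92269ab04132ed76aa8579dd180c80, 0x658480de30339326bd653aa93a8c80]], ![![0x0, 0x0, 0x0], ![0xbd20e8cab33256c29ecd53d0111060, 0x6382b15e1135a922bd0d3a93599060, 0x92eb49b022321d72a92d79ed089060], ![0x95aa99de113390c2aa8d3bd6110c80, 0xba2168b02232d3229dcd7aa9598c80, 0x6242814ab3352d72bd6d51dd088c80]]],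
  ![![![0x0, 0xbdab49ca307b9ac5a928398a418820, 0x952168de757a5ac41dcb518a320820], ![0x0, 0x9242b132753d1b773d16518a41c600, 0x62ea99c8413a1b7b2a8e798a324600], ![0x0, 0x6220e8dc4152db2a1ec9798a41cea0, 0xbb82813230559b24bd74398a324ea0]], ![![0x0, 0x6508d1deb37a6d2598a851dd180820, 0x6586d24a117ba97418ab3a933a8820], ![0xba46d232b33d172b18ae53d020c600, 0x0, 0xbac8d1c8223a12c718b67aa93ac600], ![0x9388d1b21155917a18a93bd620cea0, 0x9206d25c2252dcc498b479ed184ea0, 0x0]], ![![0x0, 0x93636830837969759dc83293598820, 0xbb674ab064796d24292b31dd088820], ![0x63669adc833957272a9633d0114600, 0x9344b0dc643952cb3d0e32a959c600, 0x0], ![0x6362e848645151749ed433d6114ea0, 0x0, 0xbb4480c883515cca3d6931ed08cea0]]],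
  ![![![0x0, 0x9262e85eb37d0ac59ec8519a418440, 0xbba69aca117d8ac42a8b399a320440], ![0x0, 0xbd84b0b211538b2a3d09399a41d660, 0x62e3685c22520b249dd4799a325660], ![0x0, 0x62274ac8223acb772936799a41c220, 0x950480b2b33a4b7b3d6e519a324220]], ![![0x0, 0xb96a99b0837b5d25aa8831ed180440, 0x9160e8b0647b53741ecb32a93a8440], ![0x616168c88353577a1dc933d020d660, 0xb942b14864536cc4bd1431dd185660, 0x0], ![0x616b49dc643b512b292e33d620c220, 0x0, 0x9142815c833b68c73d7632933ac220]], ![![0x0, 0x638851ca307d937599a83aa9598440, 0x6246525e757d1d2419ab51ed088440], ![0x958652323053977499b43bd0115660, 0x0, 0x92c851dc41522cca19a979dd08d660], ![0xbd0851b2753a512719b653d6114220, 0xba065248413ae8cb19ae7a9359c220, 0x0]]]]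

end H33.DM11
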