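import Cfsg.Agent.Lib.H90.ThreeTransI

/-! Primitive 3-transposition groups: nontrivial `W`-classes inside `D_x`. -/

set_option autoImplicit false

namespace H33.Fisch

open Cfsg H90.ThreeTrans H90.ThreeTransB H90.WidthOne H90.ThreeTransC H90.ThreeTransH

variable {G : Type*} [Group G] {D : Set G}

theorem comm_conj_iff (g x y : G) : Commute (g * x * g⁻¹) (g * y * g⁻¹) ↔ Commute x y := by
  constructor
  · intro h
    have h1 := h.map (MulAut.conj g⁻¹).toMonoidHom
    have e : ∀ y : G, (MulAut.conj g⁻¹).toMonoidHom (g * y * g⁻¹) = y := by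
      intro y
      show g⁻¹ * (g * y * g⁻¹) * g⁻¹⁻¹ = y
      group
    rwa [e, e] at h1
  · intro h
    exact h.map (MulAut.conj g).toMonoidHom

theorem comm_conj_swap (g x y : G) : Commute (g * x * g⁻¹) y ↔ Commute x (g⁻¹ * y * g) := by
  rw [← comm_conj_iff g x (g⁻¹ * y * g)]
  have : g * (g⁻¹ * y * g) * g⁻¹ = y := by group
  rw [this]

/-- conjugation by an involution -/
theorem comm_inv_swap {z : G} (hz : z * z = 1) (x y : G) : Commute (z * x * z) y ↔ Commute x (z * y * z) := by
  have hi : z⁻¹ = z := inv_eq_of_mul_eq_one_left hz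
  have := comm_conj_swap z x y
  rwa [hi] at this

theorem comm_inv_iff {z : G} (hz : z * z = 1) (x y : G) : Commute (z * x * z) (z * y * z) ↔ Commute x y := by
  have hi : z⁻¹ = z := inv_eq_of_mul_eq_one_left hz
  have := comm_conj_iff z x y
  rwa [hi] at this

theorem comm_trip {e a b : G} (h : Commute e a) (h' : Commute e b) : Commute e (a * b * a) :=
  (h.mul_right h').mul_right h

section
variable (hD : IsThreeTranspositionSet D)
include hD

/-- commuting with two of the three points of a line means commuting with the third -/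
theorem comm_third {e a b : G} (ha : a ∈ D) (h : Commute e a) (h' : Commute e (a * b * a)) : Commute e b := by
  have h1 := comm_trip h h'
  have sa := mul_self hD ha
  have : a * (a * b * a) * a = b := by
    calc a * (a * b * a) * a = (a * a) * b * (a * a) := by group
      _ = b := by rw [sa]; group
  rwa [this] at h1

theorem comm_third' {e a b : G} (ha : a ∈ D) (hb : b ∈ D) (hab : ¬ Commute a b) (h : Commute e b)
    (h' : Commute e (a * b * a)) : Commute e a := by
  rw [braid hD ha hb hab] at h'
  exact comm_third hD hb h h'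

theorem conj_eq_self {a b : G} (hb : b ∈ D) (h : Commute a b) : b * a * b = a := by
  have sb := mul_self hD hb
  rw [← h.eq, mul_assoc, sb, mul_one]

end

theorem string_comm {a b c : G} (hD : IsThreeTranspositionSet D) (ha : a ∈ D) (hb : b ∈ D) (hc : c ∈ D)
    (hac : Commute a c) (hab : ¬ Commute a b) (hbc : ¬ Commute b c) : Commute (c * (a * b * a) * c) b := by
  have sa := mul_self hD ha
  have sb := mul_self hD hb
  have sc := mul_self hD hc
  have b1 : a * b * a = b * a * b := braid hD ha hb hab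
  have b2 : b * c * b = c * b * c := braid hD hb hc hbc
  have cc : c * a * c = a := conj_eq_self hD hc hac
  show c * (a * b * a) * c * b = b * (c * (a * b * a) * c)
  rw [b1]
  have e1 : b * (c * (b * a * b) * c) * b = c * (b * a * b) * c := by
    calc b * (c * (b * a * b) * c) * b = (b * c * b) * a * (b * c * b) := by simp only [mul_assoc]
      _ = (c * b * c) * a * (c * b * c) := by rw [b2]
      _ = c * b * (c * a * c) * b * c := by simp only [mul_assoc]
      _ = _ := by rw [cc]; simp only [mul_assoc]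
  calc c * (b * a * b) * c * b = (b * b) * (c * (b * a * b) * c) * b := by rw [sb, one_mul]
    _ = b * (b * (c * (b * a * b) * c) * b) := by simp only [mul_assoc]
    _ = _ := by rw [e1]

/-- Claim A. -/
theorem claimA (hG : IsThreeTranspositionGroup D) {x y y' z u : G} (hx : x ∈ D) (hy : y ∈ Dn D x)
    (hy' : y' ∈ Dn D x) (hW : WRel (Dn D x) y y') (hne : y ≠ y') (hz : z ∈ D) (hzy : Commute z y)
    (hzy' : ¬ Commute z y') (hzx : ¬ Commute z x) (hu : u ∈ Dn D x) (huy : Commute y u) (huy1 : u ≠ y) :
    Commute z u := by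
  have hD := hG.1
  by_contra hzu
  have hyy' : ¬ Commute y y' := fun h => hne (hW.eq_of_commute hy' h)
  have hu' := (hW u hu).1 ⟨huy1, huy⟩
  have sx := mul_self hD hx
  have sz := mul_self hD hz
  have sy := mul_self hD hy.1
  have sy' := mul_self hD hy'.1
  have bz : z * x * z = x * z * x := braid hD hz hx hzx
  have bz' : z * y' * z = y' * z * y' := braid hD hz hy'.1 hzy'
  have cxy' : x * y' = y' * x := hy'.2.2.eq
  have cxy : x * y = y * x := hy.2.2.eq
  set g : G := z * y' * x * z with hg
  have hgi : g⁻¹ = z * x * y' * z := by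
    rw [hg, mul_inv_rev, mul_inv_rev, mul_inv_rev, inv_eq hD hz, inv_eq hD hx, inv_eq hD hy'.1]
    simp only [mul_assoc]
  have e1 : g * x * g⁻¹ = y' := by
    rw [hgi, hg]
    calc z * y' * x * z * x * (z * x * y' * z) = z * y' * x * (z * x * z) * x * y' * z := by simp only [mul_assoc]
      _ = z * y' * (x * x) * z * (x * x) * y' * z := by rw [bz]; simp only [mul_assoc]
      _ = z * (y' * z * y') * z := by rw [sx]; simp only [mul_assoc, mul_one, one_mul]
      _ = (z * z) * y' * (z * z) := by rw [← bz']; simp only [mul_assoc]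
      _ = y' := by rw [sz, mul_one, one_mul]
  have e2 : g * y' * g⁻¹ = x := by
    have bz2 : z * y' * z = y' * z * y' := bz'
    rw [hgi, hg]
    calc z * y' * x * z * y' * (z * x * y' * z) = z * (y' * x) * (z * y' * z) * x * y' * z := by simp only [mul_assoc]
      _ = z * (x * y') * (y' * z * y') * x * y' * z := by rw [bz2, cxy']
      _ = z * x * (y' * y') * z * (y' * x) * y' * z := by simp only [mul_assoc]
      _ = z * x * (y' * y') * z * x * (y' * y') * z := by rw [← cxy']; simp only [mul_assoc]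
      _ = z * (x * z * x) * z := by rw [sy']; simp only [mul_assoc, mul_one, one_mul]
      _ = (z * z) * x * (z * z) := by rw [← bz]; simp only [mul_assoc]
      _ = x := by rw [sz, mul_one, one_mul]
  set v : G := g * u * g⁻¹ with hv
  have hvD : v ∈ D := conj_mem hG g hu.1
  have hvx : Commute v x := by
    rw [← e2, hv, comm_conj_iff]
    exact hu'.2.symm
  have hvy' : Commute v y' := by
    rw [← e1, hv, comm_conj_iff]
    exact hu.2.2.symm
  have hvne : v ≠ x := by
    intro h
    rw [← e2, hv] at h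
    exact hu'.1 (mul_left_cancel (mul_right_cancel h))
  have hvne' : v ≠ y' := by
    intro h
    rw [← e1, hv] at h
    exact hu.2.1 (mul_left_cancel (mul_right_cancel h))
  have hvy := (hW v ⟨hvD, hvne, hvx.symm⟩).2 ⟨hvne', hvy'.symm⟩
  -- `v` commutes with `y`, so `u` commutes with `z * (y' * y * y') * z`
  have h1 : Commute u (z * (y' * y * y') * z) := by
    have h2 := hvy.2.symm
    rw [hv, comm_conj_swap, hgi] at h2
    have e3 : z * x * y' * z * y * g = z * (y' * y * y') * z := by
      rw [hg]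
      calc z * x * y' * z * y * (z * y' * x * z) = z * x * y' * (z * y) * z * y' * x * z := by simp only [mul_assoc]
        _ = z * x * y' * (y * z) * z * y' * x * z := by rw [hzy.eq]
        _ = z * x * y' * y * (z * z) * y' * x * z := by simp only [mul_assoc]
        _ = z * (x * y') * y * (y' * x) * z := by rw [sz]; simp only [mul_assoc, mul_one, one_mul]
        _ = z * (y' * x) * y * (x * y') * z := by rw [cxy']
        _ = z * y' * (x * y) * x * y' * z := by simp only [mul_assoc]
        _ = z * y' * (y * x) * x * y' * z := by rw [cxy]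
        _ = z * y' * y * (x * x) * y' * z := by simp only [mul_assoc]
        _ = z * (y' * y * y') * z := by rw [sx]; simp only [mul_assoc, mul_one, one_mul]
    rwa [e3] at h2
  have h2 : Commute u (y' * y * y') := comm_trip hu'.2.symm huy.symm
  have hq : y' * y * y' ∈ D := mul_mul_mem hG hy'.1 hy.1
  have hzq : ¬ Commute z (y' * y * y') := by
    intro h
    have : y' * y * y' = y * y' * y := (braid hD hy.1 hy'.1 hyy').symm
    rw [this] at h
    exact hzy' (comm_third hD hy.1 hzy h)
  exact hzu (comm_third' hD hz hq hzq h2 h1).symm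

section
variable (hD : IsThreeTranspositionClass D) [Finite G]
  (hW : ∀ x ∈ D, ∀ y ∈ D, WRel D x y → x = y)
include hD hW

/-- existence of type 1 elements -/
theorem exists_type_one {x y y' : G} (hy : y ∈ Dn D x)
    (hy' : y' ∈ Dn D x) (hR : WRel (Dn D x) y y') (hne : y ≠ y') :
    ∃ z ∈ D, Commute z y ∧ ¬ Commute z y' ∧ ¬ Commute z x := by
  have h : ¬ Dn D y ⊆ Dn D y' := fun h => hne (eq_of_Dn_subset hD hW hy.1 hy'.1 h)
  rw [Set.not_subset] at h
  obtain ⟨z, hz, hz'⟩ := h
  have hzne : z ≠ y' := by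
    rintro rfl
    exact hne (hR.eq_of_commute hy' hz.2.2)
  have hzy' : ¬ Commute z y' := fun h => hz' ⟨hz.1, hzne, h.symm⟩
  refine ⟨z, hz.1, hz.2.2.symm, hzy', ?_⟩
  intro hzx
  by_cases h : z = x
  · subst h
    exact hzy' hy'.2.2
  · have := (hR z ⟨hz.1, h, hzx.symm⟩).1 ⟨hz.2.1, hz.2.2⟩
    exact hzy' this.2.symm

end

section
variable (hG : IsThreeTranspositionGroup D)
include hG

theorem typeone_B {x y y' z z2 : G} (hx : x ∈ D) (hy : y ∈ Dn D x)
    (hy' : y' ∈ Dn D x) (hR : WRel (Dn D x) y y')
    (hz : z ∈ D) (hzy : Commute z y) (hzy' : ¬ Commute z y') (hzx : ¬ Commute z x)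
    (hz2 : z2 ∈ D) (h2y : Commute z2 y) (h2y' : Commute z2 y') (h2x : ¬ Commute z2 x) : ¬ Commute z z2 := by
  have hDs := hG.1
  intro hc
  have sz := mul_self hDs hz
  have s2 := mul_self hDs hz2
  -- e = x^{z z2}
  set e : G := z2 * (z * x * z) * z2 with he
  have heD : e ∈ D := mul_mul_mem hG hz2 (mul_mul_mem hG hz hx)
  have hex : Commute e x := string_comm hDs hz hx hz2 hc hzx (fun h => h2x h.symm)
  have hey : Commute y e := by
    rw [he]
    exact comm_trip h2y.symm (comm_trip hzy.symm hy.2.2.symm)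
  have hey' : ¬ Commute e y' := by
    rw [he, comm_inv_swap s2, conj_eq_self hDs hz2 h2y'.symm]
    intro h
    rw [braid hDs hz hx hzx] at h
    exact hzy' (comm_third hDs hx hy'.2.2.symm h.symm).symm
  have hne : e ≠ x := by
    intro h
    rw [h] at hey'
    exact hey' hy'.2.2
  have hne' : e ≠ y := by
    intro h
    have h1 : z * (z2 * e * z2) * z = x := by
      rw [he]
      calc z * (z2 * (z2 * (z * x * z) * z2) * z2) * z = z * ((z2 * z2) * (z * x * z) * (z2 * z2)) * z := by simp only [mul_assoc]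
        _ = (z * z) * x * (z * z) := by rw [s2]; simp only [mul_assoc, mul_one, one_mul]
        _ = x := by rw [sz, one_mul, mul_one]
    rw [h, conj_eq_self hDs hz2 h2y.symm, conj_eq_self hDs hz hzy.symm] at h1
    exact hy.2.1 h1
  have := (hR e ⟨heD, hne, hex.symm⟩).1 ⟨hne', hey⟩
  exact hey' this.2.symm

end

section
variable (hD : IsThreeTranspositionClass D) [Finite G]
  (hW : ∀ x ∈ D, ∀ y ∈ D, WRel D x y → x = y)
include hD hW

/-- Step 2: no triangles. -/
theorem no_triangle (hWx : ∀ x ∈ D, ∀ y ∈ Dn D x, ∃ y' ∈ Dn D x, y' ≠ y ∧ WRel (Dn D x) y y') {x y u : G}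
    (hx : x ∈ D) (hy : y ∈ Dn D x) (hu : u ∈ Dn D x) (huy : u ≠ y) : ¬ Commute y u := by
  have hG := group_of_class hD
  have hDs := hD.1
  intro hyu
  obtain ⟨y', hy', hne, hR⟩ := hWx x hx y hy
  obtain ⟨u', hu', hne', hR'⟩ := hWx x hx u hu
  -- commutations
  have c1 := (hR u hu).1 ⟨huy, hyu⟩
  have c2 := (hR' y hy).1 ⟨huy.symm, hyu.symm⟩
  have c3 := (hR' y' hy').1 ⟨c1.1.symm, c1.2.symm⟩
  obtain ⟨z, hz, hzy, hzy', hzx⟩ := exists_type_one hD hW hy hy' hR hne.symm
  obtain ⟨z2, hz2, h2u, h2u', h2x⟩ := exists_type_one hD hW hu hu' hR' hne'.symm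
  have d1 : Commute z u := claimA hG hx hy hy' hR hne.symm hz hzy hzy' hzx hu hyu huy
  have d2 : Commute z u' := claimA hG hx hy hy' hR hne.symm hz hzy hzy' hzx hu' c2.2.symm c2.1.symm
  have d3 : Commute z2 y := claimA hG hx hu hu' hR' hne'.symm hz2 h2u h2u' h2x hy hyu.symm huy.symm
  have d4 : Commute z2 y' := claimA hG hx hu hu' hR' hne'.symm hz2 h2u h2u' h2x hy' c1.2.symm c1.1.symm
  have hB1 : ¬ Commute z z2 := typeone_B hG hx hy hy' hR hz hzy hzy' hzx hz2 d3 d4 h2x
  -- the conjugate of z2 by x
  have sx := mul_self hDs hx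
  have s2 := mul_self hDs hz2
  have sz := mul_self hDs hz
  have hz2' : x * z2 * x ∈ D := mul_mul_mem hG hx hz2
  have hB2 : ¬ Commute z (x * z2 * x) := by
    refine typeone_B hG hx hy hy' hR hz hzy hzy' hzx hz2' ?_ ?_ ?_
    · exact (comm_trip hy.2.2.symm d3.symm).symm
    · exact (comm_trip hy'.2.2.symm d4.symm).symm
    · intro h
      exact h2x (comm_third hDs hx (Commute.refl x) h.symm).symm
  -- z3
  have hz3 : z2 * z * z2 ∈ D := mul_mul_mem hG hz2 hz
  have e1 : Commute (z2 * z * z2) y := (comm_trip d3.symm hzy.symm).symm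
  have e2 : ¬ Commute (z2 * z * z2) y' := by
    rw [comm_inv_swap s2, conj_eq_self hDs hz2 d4.symm]
    exact hzy'
  have e3 : ¬ Commute (z2 * z * z2) x := by
    rw [comm_inv_swap s2, braid hDs hz2 hx h2x]
    exact hB2
  have e4 : Commute (z2 * z * z2) u' := claimA hG hx hy hy' hR hne.symm hz3 e1 e2 e3 hu' c2.2.symm c2.1.symm
  rw [comm_inv_swap s2] at e4
  exact hB1 (comm_third' hDs hz2 hu'.1 h2u' d2 e4)

end

end H33.Fisch
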