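import Cfsg.Agent.Lib.H33.Fisch1

/-! Primitive 3-transposition groups with `D_x` a kei: `|D_x| = 3`. -/

set_option autoImplicit false

namespace H33.Fisch

open Cfsg H90.ThreeTrans H90.ThreeTransB H90.WidthOne H90.ThreeTransC H90.ThreeTransH

variable {G : Type*} [Group G] {D : Set G}

/-- The type 0 lemma. -/
theorem typeZero (hG : IsThreeTranspositionGroup D) {x z a b : G} (hx : x ∈ D) (hz : z ∈ D) (hzx : ¬ Commute z x)
    (ha : a ∈ Dn D x) (hb : b ∈ Dn D x) (hab : ¬ Commute a b) (hza : ¬ Commute z a) (hzb : ¬ Commute z b)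
    (hzc : ¬ Commute z (a * b * a)) :
    ∃ x1 ∈ D, ¬ Commute x1 x ∧ Commute x1 a ∧ Commute x1 b ∧
      ∀ y ∈ Dn D x, Commute z y → Commute z (a * b * y * (b * a)) → Commute x1 y := by
  have hD := hG.1
  have sx := mul_self hD hx
  have sz := mul_self hD hz
  have sa := mul_self hD ha.1
  have sb := mul_self hD hb.1
  have hcD : a * b * a ∈ D := mul_mul_mem hG ha.1 hb.1
  have b0 : a * b * a = b * a * b := braid hD ha.1 hb.1 hab
  have b1 : z * a * z = a * z * a := braid hD hz ha.1 hza
  have b2 : z * b * z = b * z * b := braid hD hz hb.1 hzb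
  have b3 : z * (a * b * a) * z = (a * b * a) * z * (a * b * a) := braid hD hz hcD hzc
  have b4 : z * x * z = x * z * x := braid hD hz hx hzx
  obtain ⟨c, hc⟩ : ∃ c : G, c = a * b * a := ⟨_, rfl⟩
  rw [← hc] at hcD b3
  have b0' : c = b * a * b := hc.trans b0
  obtain ⟨r, hr⟩ : ∃ r : G, r = a * b := ⟨_, rfl⟩
  have ri : r⁻¹ = b * a := by rw [hr, mul_inv_rev, inv_eq hD ha.1, inv_eq hD hb.1]
  have r3 : r * r * r = 1 := by
    have := cube_of_not_commute hD ha.1 hb.1 hab
    rw [pow_succ, pow_two, ← hr] at this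
    exact this
  have rca : r = c * a := by rw [hr, hc, mul_assoc (a * b), sa, mul_one]
  have rbc : r = b * c := by
    rw [hr, b0']
    calc a * b = (b * b) * (a * b) := by rw [sb, one_mul]
      _ = b * (b * a * b) := by simp only [mul_assoc]
  obtain ⟨w, hw⟩ : ∃ w : G, w = r * (z * r * z) := ⟨_, rfl⟩
  have wa : w = a * w * a := by
    calc w = a * b * (z * (c * a) * z) := by rw [hw, ← rca, ← hr]
      _ = a * b * ((z * c) * (a * z)) := by simp only [mul_assoc]
      _ = a * b * ((z * c) * (z * z) * (a * z)) := by rw [sz, mul_one]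
      _ = a * b * ((z * c * z) * (z * a * z)) := by simp only [mul_assoc]
      _ = a * b * ((c * z * c) * (a * z * a)) := by rw [b1, b3]
      _ = a * (b * c) * (z * (c * a) * z) * a := by simp only [mul_assoc]
      _ = a * r * (z * r * z) * a := by rw [← rbc, ← rca]
      _ = a * w * a := by rw [hw]; simp only [mul_assoc]
  have wb : w = b * w * b := by
    calc w = b * c * (z * (a * b) * z) := by rw [hw, ← rbc, ← hr]
      _ = b * c * ((z * a) * (b * z)) := by simp only [mul_assoc]
      _ = b * c * ((z * a) * (z * z) * (b * z)) := by rw [sz, mul_one]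
      _ = b * c * ((z * a * z) * (z * b * z)) := by simp only [mul_assoc]
      _ = b * c * ((a * z * a) * (b * z * b)) := by rw [b1, b2]
      _ = b * (c * a) * (z * (a * b) * z) * b := by simp only [mul_assoc]
      _ = b * r * (z * r * z) * b := by rw [← rca, ← hr]
      _ = b * w * b := by rw [hw]; simp only [mul_assoc]
  have cwa : Commute w a := by
    show w * a = a * w
    nth_rewrite 1 [wa]
    rw [mul_assoc (a * w), sa, mul_one]
  have cwb : Commute w b := by
    show w * b = b * w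
    nth_rewrite 1 [wb]
    rw [mul_assoc (b * w), sb, mul_one]
  have cwr : Commute w r := by rw [hr]; exact cwa.mul_right cwb
  obtain ⟨p, hp⟩ : ∃ p : G, p = z * r * z := ⟨_, rfl⟩
  have hpw : p = r⁻¹ * w := by rw [hw, hp]; group
  have hpi : p⁻¹ = z * r⁻¹ * z := by
    rw [hp, mul_inv_rev, mul_inv_rev, inv_eq hD hz]; simp only [mul_assoc]
  have cxr : Commute x r := by rw [hr]; exact ha.2.2.mul_right hb.2.2
  refine ⟨p⁻¹ * x * p, conj_mem' hG p hx, ?_, ?_, ?_, ?_⟩
  · intro h
    -- reduce to `Commute (r⁻¹ z r) z`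
    have h1 : Commute (r⁻¹ * z * r) z := by
      have e1 : p⁻¹ * x * p = z * (x * (r⁻¹ * z * r) * x) * z := by
        rw [hpi, hp]
        calc z * r⁻¹ * z * x * (z * r * z) = z * r⁻¹ * (z * x * z) * r * z := by simp only [mul_assoc]
          _ = z * (r⁻¹ * x) * z * (x * r) * z := by rw [b4]; simp only [mul_assoc]
          _ = z * (x * r⁻¹) * z * (r * x) * z := by rw [cxr.eq, (cxr.inv_right).eq]
          _ = _ := by simp only [mul_assoc]
      rw [e1, comm_inv_swap sz, b4, comm_inv_iff sx] at h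
      exact h
    have h2 : (w⁻¹ * r * r) * (w⁻¹ * r * r) = 1 := by
      have e1 : w⁻¹ * r * r = z * (r⁻¹ * z * r) := by
        have : z * r⁻¹ * z = w⁻¹ * r := by
          rw [← hpi, hpw, mul_inv_rev, inv_inv]
        calc w⁻¹ * r * r = (z * r⁻¹ * z) * r := by rw [this]
          _ = _ := by simp only [mul_assoc]
      rw [e1]
      have sq : (r⁻¹ * z * r) * (r⁻¹ * z * r) = 1 := by
        calc (r⁻¹ * z * r) * (r⁻¹ * z * r) = r⁻¹ * (z * z) * r := by group
          _ = 1 := by rw [sz]; group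
      calc z * (r⁻¹ * z * r) * (z * (r⁻¹ * z * r)) = z * ((r⁻¹ * z * r) * z) * (r⁻¹ * z * r) := by simp only [mul_assoc]
        _ = z * (z * (r⁻¹ * z * r)) * (r⁻¹ * z * r) := by rw [h1.eq]
        _ = (z * z) * ((r⁻¹ * z * r) * (r⁻¹ * z * r)) := by simp only [mul_assoc]
        _ = 1 := by rw [sz, sq, mul_one]
    have h3 : w * w = r := by
      have e1 : (w⁻¹ * r * r) * (w⁻¹ * r * r) = w⁻¹ * w⁻¹ * r := by
        have c1 : Commute w⁻¹ r := cwr.inv_left
        calc (w⁻¹ * r * r) * (w⁻¹ * r * r) = w⁻¹ * r * (r * w⁻¹) * r * r := by simp only [mul_assoc]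
          _ = w⁻¹ * r * (w⁻¹ * r) * r * r := by rw [c1.eq]
          _ = w⁻¹ * (r * w⁻¹) * r * r * r := by simp only [mul_assoc]
          _ = w⁻¹ * (w⁻¹ * r) * r * r * r := by rw [c1.eq]
          _ = w⁻¹ * w⁻¹ * r * (r * r * r) := by simp only [mul_assoc]
          _ = _ := by rw [r3, mul_one]
      rw [e1] at h2
      calc w * w = w * w * (w⁻¹ * w⁻¹ * r) := by rw [h2, mul_one]
        _ = r := by group
    apply hab
    have h4 : Commute a (a * b) := by
      rw [← hr, ← h3]
      exact cwa.symm.mul_right cwa.symm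
    have h5 : a * (a * b) = a * b * a := h4.eq
    have h6 : a * b = b * a := by
      apply mul_left_cancel (a := a)
      rw [h5, mul_assoc]
    exact h6
  · rw [show p⁻¹ * x * p = p⁻¹ * x * p⁻¹⁻¹ by rw [inv_inv], comm_conj_swap, inv_inv]
    have e1 : p * a * p⁻¹ = a * b * a := by
      rw [hpw]
      calc r⁻¹ * w * a * (r⁻¹ * w)⁻¹ = r⁻¹ * (w * a) * w⁻¹ * r := by group
        _ = r⁻¹ * (a * w) * w⁻¹ * r := by rw [cwa.eq]
        _ = r⁻¹ * a * r := by group
        _ = b * (a * a) * (a * b) := by rw [ri, hr]; simp only [mul_assoc]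
        _ = b * a * b := by rw [sa, mul_one]; simp only [mul_assoc]
        _ = a * b * a := by rw [← b0]
    rw [e1]
    exact comm_trip ha.2.2 hb.2.2
  · rw [show p⁻¹ * x * p = p⁻¹ * x * p⁻¹⁻¹ by rw [inv_inv], comm_conj_swap, inv_inv]
    have e1 : p * b * p⁻¹ = a := by
      rw [hpw]
      calc r⁻¹ * w * b * (r⁻¹ * w)⁻¹ = r⁻¹ * (w * b) * w⁻¹ * r := by group
        _ = r⁻¹ * (b * w) * w⁻¹ * r := by rw [cwb.eq]
        _ = r⁻¹ * b * r := by group
        _ = b * (a * b * a) * b := by rw [ri, hr]; simp only [mul_assoc]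
        _ = (b * b) * a * (b * b) := by rw [b0]; simp only [mul_assoc]
        _ = a := by rw [sb, one_mul, mul_one]
    rw [e1]
    exact ha.2.2
  · intro y hy hzy hzy2
    rw [show p⁻¹ * x * p = p⁻¹ * x * p⁻¹⁻¹ by rw [inv_inv], comm_conj_swap, inv_inv]
    have e1 : p * y * p⁻¹ = z * (a * b * y * (b * a)) * z := by
      rw [hpi, hp, ri]
      calc z * r * z * y * (z * (b * a) * z) = z * r * (z * y * z) * (b * a) * z := by simp only [mul_assoc]
        _ = z * r * y * (b * a) * z := by rw [conj_eq_self hD hz hzy.symm]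
        _ = _ := by rw [hr]; simp only [mul_assoc]
    rw [e1, conj_eq_self hD hz hzy2.symm]
    exact ((ha.2.2.mul_right hb.2.2).mul_right hy.2.2).mul_right (hb.2.2.mul_right ha.2.2)

end H33.Fisch
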