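import Cfsg.Agent.Lib.H33.Fisch2

/-! Primitive 3-transposition groups with `D_x` a kei: `|D_x| = 3`. -/

set_option autoImplicit false

namespace H33.Fisch

open Cfsg H90.ThreeTrans H90.ThreeTransB H90.WidthOne H90.ThreeTransC H90.ThreeTransH

theorem kei_conj_mem {H : Type*} [Group H] {E : Set H} (hE : Kei E) {g : H} (hg : g ∈ Subgroup.closure E) :
    ∀ e ∈ E, g * e * g⁻¹ ∈ E := by
  have : ∀ e ∈ E, g * e * g⁻¹ ∈ E ∧ g⁻¹ * e * g ∈ E := by
    induction hg using Subgroup.closure_induction with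
    | mem x hx =>
      intro e he
      have h1 : x⁻¹ = x := inv_eq_of_mul_eq_one_right (hE.inv x hx)
      rw [h1]
      exact ⟨hE.cl x hx e he, hE.cl x hx e he⟩
    | one => intro e he; simpa using he
    | mul x y _ _ hx hy =>
      intro e he
      refine ⟨?_, ?_⟩
      · have := (hx _ (hy e he).1).1
        convert this using 1
        group
      · have := (hy _ (hx e he).2).2
        convert this using 1
        group
    | inv x _ hx =>
      intro e he
      rw [inv_inv]
      exact ⟨(hx e he).2, (hx e he).1⟩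
  exact fun e he => (this e he).1

theorem kei_eq_of_comm {H : Type*} [Group H] {E : Set H} (hE : Kei E) {a b : H} (ha : a ∈ E) (hb : b ∈ E)
    (hab : a * b = b * a) : a = b := by
  have h1 := hE.br a ha b hb
  have sa := hE.inv a ha
  have sb := hE.inv b hb
  have e1 : a * b * a = b := by rw [hab, mul_assoc, sa, mul_one]
  have e2 : b * a * b = a := by rw [← hab, mul_assoc, sb, mul_one]
  rw [← e1, h1, e2]

/-- central direction in a group generated by a kei. -/
theorem exists_direction_top {H : Type*} [Group H] [Finite H] {E : Set H} (hE : Kei E) (hgen : Subgroup.closure E = ⊤)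
    (hne : ∃ a ∈ E, ∃ b ∈ E, a ≠ b) :
    ∃ a ∈ E, ∃ b ∈ E, a ≠ b ∧ ∀ c ∈ E, c * (a * b) * c * (a * b) ∈ Subgroup.center H := by
  classical
  have h3 : Fact (Nat.Prime 3) := ⟨Nat.prime_three⟩
  have einv : ∀ e ∈ E, e⁻¹ = e := fun e he => inv_eq_of_mul_eq_one_left (hE.inv e he)
  have hconj : ∀ g : H, ∀ e ∈ E, g * e * g⁻¹ ∈ E := fun g => kei_conj_mem hE (by rw [hgen]; trivial)
  set X : Set H := {x : H | ∃ a ∈ E, ∃ b ∈ E, x = a * b} with hX
  set R : Subgroup H := Subgroup.closure X with hR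
  have hRp : IsPGroup 3 R := hE.isPGroup
  have hRn : R.Normal := normal_closure_of_conj (by
    rintro g _ ⟨a, ha, b, hb, rfl⟩
    exact ⟨_, hconj g a ha, _, hconj g b hb, by group⟩)
  set π := QuotientGroup.mk' (Subgroup.center H) with hπ
  have hπs : Function.Surjective π := QuotientGroup.mk'_surjective _
  have hker : ∀ g : H, π g = 1 ↔ g ∈ Subgroup.center H := by
    intro g
    rw [← MonoidHom.mem_ker, hπ, QuotientGroup.ker_mk']
  set P : Subgroup (H ⧸ Subgroup.center H) := R.map π with hP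
  have hPn : P.Normal := hRn.map π hπs
  have hPp : IsPGroup 3 P := hRp.map π
  have hPnt : Nontrivial P := by
    obtain ⟨a, ha, b, hb, hab⟩ := hne
    have h1 : π (a * b) ≠ 1 := by
      intro h
      rw [hker, Subgroup.mem_center_iff] at h
      apply hab
      apply kei_eq_of_comm hE ha hb
      have h2 := h a
      have h3 : a * (a * b) = a * (b * a) := by rw [h2, mul_assoc]
      exact mul_left_cancel h3
    have h2 : π (a * b) ∈ P := ⟨a * b, Subgroup.subset_closure ⟨a, ha, b, hb, rfl⟩, rfl⟩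
    exact ⟨⟨⟨π (a * b), h2⟩, 1, fun h => h1 (congrArg Subtype.val h)⟩⟩
  have hcent := hPp.center_nontrivial
  obtain ⟨⟨⟨ρ, hρP⟩, hρc⟩, hρ1⟩ := exists_ne (1 : Subgroup.center P)
  have hρ1' : ρ ≠ 1 := by
    rintro rfl
    exact hρ1 rfl
  have hρc' : ∀ s ∈ P, ρ * s = s * ρ := by
    intro s hs
    have := Subgroup.mem_center_iff.1 hρc ⟨s, hs⟩
    exact (congrArg Subtype.val this).symm
  set A : Subgroup (H ⧸ Subgroup.center H) := P ⊓ Subgroup.centralizer (P : Set (H ⧸ Subgroup.center H)) with hA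
  have hAn : A.Normal := by
    have : (Subgroup.centralizer (P : Set (H ⧸ Subgroup.center H))).Normal := Subgroup.normal_centralizer
    exact Subgroup.normal_inf_normal _ _
  have hρA : ρ ∈ A := ⟨hρP, Subgroup.mem_centralizer_iff.2 fun s hs => (hρc' s hs).symm⟩
  obtain ⟨ρ0, hρ0R, hρ0⟩ := hρP
  obtain ⟨a, ha, hac⟩ : ∃ a ∈ E, ρ0 * a ≠ a * ρ0 := by
    by_contra hcon
    push Not at hcon
    apply hρ1'
    rw [← hρ0]
    refine (hker ρ0).2 ?_
    rw [Subgroup.mem_center_iff]
    intro g
    have hg : g ∈ Subgroup.closure E := by rw [hgen]; trivial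
    have hle : Subgroup.closure E ≤ Subgroup.centralizer {ρ0} := by
      rw [Subgroup.closure_le]
      intro e he
      rw [SetLike.mem_coe, Subgroup.mem_centralizer_iff]
      intro h hh
      rw [Set.mem_singleton_iff] at hh
      rw [hh]
      exact hcon e he
    have := Subgroup.mem_centralizer_iff.1 (hle hg) ρ0 rfl
    exact this.symm
  refine ⟨a, ha, ρ0 * a * ρ0⁻¹, hconj ρ0 a ha, ?_, ?_⟩
  · intro h
    apply hac
    calc ρ0 * a = ρ0 * a * ρ0⁻¹ * ρ0 := by group
      _ = a * ρ0 := by rw [← h]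
  · intro c hc
    set g : H := a * (ρ0 * a * ρ0⁻¹) with hg
    have hgA : π g ∈ A := by
      have h1 : π g = (π a * ρ * (π a)⁻¹) * ρ⁻¹ := by
        rw [← hρ0, ← map_inv, ← map_inv, einv a ha, hg]
        simp only [map_mul, mul_assoc]
      rw [h1]
      exact A.mul_mem (hAn.conj_mem _ hρA _) (A.inv_mem hρA)
    have hsR : a * c ∈ R := Subgroup.subset_closure ⟨a, ha, c, hc, rfl⟩
    have hcs : c = (a * c) * a * (a * c)⁻¹ := by
      rw [mul_inv_rev, einv a ha, einv c hc]
      calc c = (a * a) * c * (a * a) := by rw [hE.inv a ha, one_mul, mul_one]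
        _ = a * (a * c * a) * a := by simp only [mul_assoc]
        _ = a * (c * a * c) * a := by rw [hE.br a ha c hc]
        _ = _ := by simp only [mul_assoc]
    have hsP : π (a * c) ∈ P := ⟨_, hsR, rfl⟩
    have hcomm : π g * π (a * c) = π (a * c) * π g :=
      (Subgroup.mem_centralizer_iff.1 hgA.2 _ hsP).symm
    have hainv : π a * π g * π a = (π g)⁻¹ := by
      rw [← map_mul, ← map_mul, ← map_inv]
      congr 1
      rw [hg, mul_inv_rev, mul_inv_rev, mul_inv_rev, inv_inv, einv a ha]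
      calc a * (a * (ρ0 * a * ρ0⁻¹)) * a = (a * a) * (ρ0 * a * ρ0⁻¹) * a := by simp only [mul_assoc]
        _ = _ := by rw [hE.inv a ha, one_mul]; simp only [mul_assoc]
    have hfin : π (c * g * c) = (π g)⁻¹ := by
      have h1 : c * g * c = (a * c) * a * (a * c)⁻¹ * g * ((a * c) * a * (a * c)⁻¹) := by rw [← hcs]
      rw [h1]
      simp only [map_mul π, map_inv]
      simp only [← map_mul π (a) (c)]
      set s := π (a * c) with hs
      have h2 : s⁻¹ * π g * s = π g := by rw [mul_assoc, hcomm]; group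
      have h2' : s * (π g)⁻¹ * s⁻¹ = (π g)⁻¹ := by
        have : s * π g * s⁻¹ = π g := by rw [← hcomm]; group
        calc s * (π g)⁻¹ * s⁻¹ = (s * π g * s⁻¹)⁻¹ := by group
          _ = _ := by rw [this]
      calc s * π a * s⁻¹ * π g * (s * π a * s⁻¹) = s * π a * (s⁻¹ * π g * s) * π a * s⁻¹ := by simp only [mul_assoc]
        _ = s * (π a * π g * π a) * s⁻¹ := by rw [h2]; simp only [mul_assoc]
        _ = (π g)⁻¹ := by rw [hainv, h2']
    rw [← hker, map_mul, hfin, inv_mul_cancel]

/-- central direction for a kei in a finite group. -/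
theorem exists_direction {G : Type*} [Group G] [Finite G] {E : Set G} (hE : Kei E) (hne : ∃ a ∈ E, ∃ b ∈ E, a ≠ b) :
    ∃ a ∈ E, ∃ b ∈ E, a ≠ b ∧ ∀ c ∈ E, ∀ m ∈ E, Commute (c * (a * b) * c * (a * b)) m := by
  set H := Subgroup.closure E with hH
  set E' : Set H := {x | (x : G) ∈ E} with hE'
  have hk : Kei E' := ⟨fun e he => Subtype.ext (hE.inv e he), fun a ha b hb => hE.cl a ha b hb,
    fun a ha b hb => Subtype.ext (hE.br a ha b hb)⟩
  have hgen : Subgroup.closure E' = ⊤ := by
    have : E' = ((↑) : H → G) ⁻¹' E := rfl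
    rw [this]
    exact Subgroup.closure_closure_coe_preimage
  obtain ⟨a, ha, b, hb, hab⟩ := hne
  obtain ⟨⟨a', ha'⟩, haE, ⟨b', hb'⟩, hbE, hne', hc⟩ := exists_direction_top hk hgen
    ⟨⟨a, Subgroup.subset_closure ha⟩, ha, ⟨b, Subgroup.subset_closure hb⟩, hb, fun h => hab (congrArg Subtype.val h)⟩
  refine ⟨a', haE, b', hbE, fun h => hne' (Subtype.ext h), ?_⟩
  intro c hcE m hm
  have := Subgroup.mem_center_iff.1 (hc ⟨c, Subgroup.subset_closure hcE⟩ hcE) ⟨m, Subgroup.subset_closure hm⟩
  exact (congrArg Subtype.val this).symm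

end H33.Fisch
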