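import Cfsg.Agent.Lib.H33.Fisch3

/-! Primitive 3-transposition groups with `D_x` a kei: `|D_x| = 3`. -/

set_option autoImplicit false

namespace H33.Fisch

open Cfsg H90.ThreeTrans H90.ThreeTransB H90.WidthOne H90.ThreeTransC H90.ThreeTransH

variable {G : Type*} [Group G] {D : Set G}

theorem Dn_cl (hG : IsThreeTranspositionGroup D) {x a b : G} (ha : a ∈ Dn D x) (hb : b ∈ Dn D x) :
    a * b * a ∈ Dn D x := by
  refine ⟨mul_mul_mem hG ha.1 hb.1, ?_, comm_trip ha.2.2 hb.2.2⟩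
  intro h
  apply hb.2.1
  have sa := mul_self hG.1 ha.1
  have h1 : a * (a * b * a) * a = b := by
    calc a * (a * b * a) * a = (a * a) * b * (a * a) := by simp only [mul_assoc]
      _ = b := by rw [sa, one_mul, mul_one]
  rw [← h1, h]
  exact conj_eq_self hG.1 ha.1 ha.2.2

/-- **`|D_x| = 3`** -/
theorem card_three [Finite G] (hD : IsThreeTranspositionClass D) (hW : ∀ x ∈ D, ∀ y ∈ D, WRel D x y → x = y)
    {x : G} (hx : x ∈ D) (hnt : ∀ y ∈ Dn D x, ∀ u ∈ Dn D x, u ≠ y → ¬ Commute y u)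
    (hne : ∃ a ∈ Dn D x, ∃ b ∈ Dn D x, a ≠ b) (hz0 : ∃ z ∈ D, ¬ Commute z x) :
    ∃ a ∈ Dn D x, ∃ b ∈ Dn D x, a ≠ b ∧ ∀ m ∈ Dn D x, m = a ∨ m = b ∨ m = a * b * a := by
  classical
  have hG := group_of_class hD
  have hDs := hD.1
  set E := Dn D x with hEdef
  have hk : Kei E := kei_of_no_commute hG (fun y hy => hy.1) (fun a ha b hb => Dn_cl hG ha hb) (by
    intro a ha b hb hab
    by_contra h
    exact hnt a ha b hb (Ne.symm h) hab)
  obtain ⟨a0, ha0, b0, hb0, hab0, hcc⟩ := exists_direction hk hne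
  obtain ⟨g, hg⟩ : ∃ g : G, g = a0 * b0 := ⟨_, rfl⟩
  rw [← hg] at hcc
  have g3 : g * g * g = 1 := by
    have := cube_of_not_commute hDs ha0.1 hb0.1 (hnt a0 ha0 b0 hb0 (Ne.symm hab0))
    rw [pow_succ, pow_two, ← hg] at this
    exact this
  have gi : g⁻¹ = g * g := by
    rw [inv_eq_iff_mul_eq_one, ← mul_assoc]; exact g3
  obtain ⟨f, hf⟩ : ∃ f : G → G, ∀ m, f m = g * m * g⁻¹ := ⟨fun m => g * m * g⁻¹, fun _ => rfl⟩
  have f0 : ∀ m ∈ E, f m ∈ E := by
    intro m hm
    rw [hf]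
    exact kei_conj_mem hk (by
      rw [hg]
      exact Subgroup.mul_mem _ (Subgroup.subset_closure ha0) (Subgroup.subset_closure hb0)) m hm
  have fmul : ∀ u v, f (u * v) = f u * f v := by
    intro u v
    simp only [hf]; group
  have sq : ∀ m ∈ E, m * m = 1 := hk.inv
  -- `f (f (f m)) = m`
  have f3 : ∀ m, f (f (f m)) = m := by
    intro m
    rw [hf, hf, hf]
    have : g * g * g = 1 := g3
    calc g * (g * (g * m * g⁻¹) * g⁻¹) * g⁻¹ = (g * g * g) * m * (g * g * g)⁻¹ := by group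
      _ = m := by rw [this]; group
  -- F1
  have f1 : ∀ c ∈ E, ∀ m ∈ E, c * f c * m * (f c * c) = f m := by
    intro c hc m hm
    have h1 := (hcc c hc (f m) (f0 m hm)).eq
    have hci := inv_eq_of_mul_eq_one_left (sq c hc)
    have e1 : c * f c = (c * g * c * g) * g := by
      rw [hf, gi]; simp only [mul_assoc]
    have e2 : f c * c = (c * f c)⁻¹ := by
      rw [mul_inv_rev, hci, inv_eq_of_mul_eq_one_left (sq _ (f0 c hc))]
    rw [e2, e1]
    obtain ⟨k, hkk⟩ : ∃ k : G, k = c * g * c * g := ⟨_, rfl⟩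
    rw [← hkk] at h1 ⊢
    calc k * g * m * (k * g)⁻¹ = k * (g * m * g⁻¹) * k⁻¹ := by group
      _ = k * f m * k⁻¹ := by rw [hf]
      _ = f m := by rw [h1]; group
  have f1' : ∀ c ∈ E, ∀ m ∈ E, f c * m * f c = c * f m * c := by
    intro c hc m hm
    rw [← f1 c hc m hm]
    calc f c * m * f c = (c * c) * (f c * m * f c) * (c * c) := by rw [sq c hc, one_mul, mul_one]
      _ = _ := by simp only [mul_assoc]
  -- F3
  have hfa0 : f a0 = b0 := by
    have hb0i := inv_eq_of_mul_eq_one_left (sq b0 hb0)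
    have ha0i := inv_eq_of_mul_eq_one_left (sq a0 ha0)
    rw [hf, hg, mul_inv_rev, hb0i, ha0i]
    calc a0 * b0 * a0 * (b0 * a0) = a0 * (b0 * a0 * b0) * a0 := by simp only [mul_assoc]
      _ = a0 * (a0 * b0 * a0) * a0 := by rw [hk.br a0 ha0 b0 hb0]
      _ = (a0 * a0) * b0 * (a0 * a0) := by simp only [mul_assoc]
      _ = b0 := by rw [sq a0 ha0, one_mul, mul_one]
  have fne : ∀ m ∈ E, f m ≠ m := by
    intro m hm h
    have h1 := f1 m hm a0 ha0
    rw [h, hfa0] at h1
    apply hab0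
    rw [← h1]
    calc a0 = (m * m) * a0 * (m * m) := by rw [sq m hm, one_mul, mul_one]
      _ = _ := by simp only [mul_assoc]
  have f4 : ∀ c ∈ E, c * f c * c = f (f c) := by
    intro c hc
    rw [← f1 c hc (f c) (f0 c hc)]
    calc c * f c * c = c * f c * (f c * f c) * c := by rw [sq _ (f0 c hc), mul_one]
      _ = _ := by simp only [mul_assoc]
  have third : ∀ z c : G, c ∈ E → Commute z c → Commute z (f c) → Commute z (f (f c)) := by
    intro z c hc h1 h2
    rw [← f4 c hc]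
    exact comm_trip h1 h2
  -- E1
  have hE1 : ∀ z ∈ D, ¬ Commute z x → ∀ c ∈ E, Commute z c → Commute z (f c) → False := by
    have key : ∀ k : ℕ, (∃ z ∈ D, ¬ Commute z x ∧ ∃ c ∈ E, Commute z c ∧ Commute z (f c)) →
        ∃ z ∈ D, ¬ Commute z x ∧ (∃ c ∈ E, Commute z c ∧ Commute z (f c)) ∧ k ≤ {m : G | m ∈ E ∧ Commute z m}.ncard := by
      intro k hex
      induction k with
      | zero =>
        obtain ⟨z, hz, hzx, h⟩ := hex
        exact ⟨z, hz, hzx, h, Nat.zero_le _⟩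
      | succ k ih =>
        obtain ⟨z, hz, hzx, ⟨c, hc, hzc, hzfc⟩, hk1⟩ := ih
        have hinv : ∀ m ∈ E, Commute z m → Commute z (f m) := by
          intro m hm hzm
          rw [← f1 c hc m hm]
          exact (((hzc.mul_right hzfc).mul_right hzm)).mul_right (hzfc.mul_right hzc)
        obtain ⟨a2, ha2, hza2⟩ : ∃ a2 ∈ E, ¬ Commute z a2 := by
          by_contra hcon
          push Not at hcon
          have hsub : Dn D x ⊆ Dn D z := by
            intro m hm
            refine ⟨hm.1, ?_, hcon m hm⟩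
            rintro rfl
            exact hzx hm.2.2.symm
          have := eq_of_Dn_subset hD hW hx hz hsub
          exact hzx (this ▸ Commute.refl _)
        have hza2' : ¬ Commute z (f (f a2)) := by
          intro h
          have := hinv _ (f0 _ (f0 _ ha2)) h
          rw [f3] at this
          exact hza2 this
        have hza2'' : ¬ Commute z (f a2) := fun h => hza2' (hinv _ (f0 _ ha2) h)
        obtain ⟨x1, hx1, hx1x, h1a, h1b, h1y⟩ := typeZero hG hx hz hzx ha2 (f0 _ ha2)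
          (hnt a2 ha2 _ (f0 _ ha2) (fne a2 ha2)) hza2 hza2'' (by rw [f4 a2 ha2]; exact hza2')
        refine ⟨x1, hx1, hx1x, ⟨a2, ha2, h1a, h1b⟩, ?_⟩
        have hss : {m : G | m ∈ E ∧ Commute z m} ⊂ {m : G | m ∈ E ∧ Commute x1 m} := by
          refine ⟨?_, ?_⟩
          · rintro m ⟨hm, hzm⟩
            refine ⟨hm, h1y m hm hzm ?_⟩
            rw [f1 a2 ha2 m hm]
            exact hinv m hm hzm
          · intro hcon
            exact hza2 (hcon ⟨ha2, h1a⟩).2
        have := Set.ncard_lt_ncard hss (Set.toFinite _)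
        omega
    intro z hz hzx c hc h1 h2
    obtain ⟨z', -, -, -, hk'⟩ := key (Nat.card G + 1) ⟨z, hz, hzx, c, hc, h1, h2⟩
    have : {m : G | m ∈ E ∧ Commute z' m}.ncard ≤ Nat.card G := by
      rw [← Set.ncard_univ]
      exact Set.ncard_le_ncard (Set.subset_univ _) (Set.toFinite _)
    omega
  -- E2
  have hE2 : ∀ z ∈ D, ¬ Commute z x → ∀ c ∈ E, Commute z c ∨ Commute z (f c) ∨ Commute z (f (f c)) := by
    intro z hz hzx c hc
    by_contra hcon
    push Not at hcon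
    obtain ⟨x1, hx1, hx1x, h1a, h1b, -⟩ := typeZero hG hx hz hzx hc (f0 _ hc)
      (hnt c hc _ (f0 _ hc) (fne c hc)) hcon.1 hcon.2.1 (by rw [f4 c hc]; exact hcon.2.2)
    exact hE1 x1 hx1 hx1x c hc h1a h1b
  -- E3
  have hE3 : ∀ z ∈ D, ¬ Commute z x → ∀ y ∈ E, ∀ y2 ∈ E, Commute z y → Commute z y2 → y2 = y := by
    intro z hz hzx y hy y2 hy2 hzy hzy2
    by_contra hne
    have hy3 : y * y2 * y ∈ E := hk.cl y hy y2 hy2
    have hzy3 : Commute z (y * y2 * y) := comm_trip hzy hzy2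
    have n1 : ¬ Commute z (f y) := fun h => hE1 z hz hzx y hy hzy h
    have n2 : ¬ Commute z (f y2) := fun h => hE1 z hz hzx y2 hy2 hzy2 h
    have n3 : ¬ Commute z (f y * f y2 * f y) := by
      rw [← fmul, ← fmul]
      exact fun h => hE1 z hz hzx _ hy3 hzy3 h
    have hfne : f y2 ≠ f y := by
      intro h
      rw [hf, hf] at h
      exact hne (mul_left_cancel (mul_right_cancel h))
    obtain ⟨x1, hx1, hx1x, h1a, h1b, h1y⟩ := typeZero hG hx hz hzx (f0 _ hy) (f0 _ hy2)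
      (hnt _ (f0 _ hy) _ (f0 _ hy2) hfne) n1 n2 n3
    have hQ : f y * f y2 * y * (f y2 * f y) = y * y2 * y * (y2 * y) := by
      calc f y * f y2 * y * (f y2 * f y) = f y * (f y2 * y * f y2) * f y := by simp only [mul_assoc]
        _ = f y * (y2 * f y * y2) * f y := by rw [f1' y2 hy2 y hy]
        _ = y * f (y2 * f y * y2) * y := by rw [f1' y hy _ (hk.cl y2 hy2 _ (f0 y hy))]
        _ = y * (f y2 * f (f y) * f y2) * y := by rw [fmul, fmul]
        _ = y * (y2 * f (f (f y)) * y2) * y := by rw [f1' y2 hy2 _ (f0 _ (f0 _ hy))]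
        _ = y * (y2 * y * y2) * y := by rw [f3]
        _ = _ := by simp only [mul_assoc]
    have h2 : Commute x1 y := by
      apply h1y y hy hzy
      rw [hQ]
      exact ((hzy.mul_right hzy2).mul_right hzy).mul_right (hzy2.mul_right hzy)
    exact hE1 x1 hx1 hx1x y hy h2 h1a
  obtain ⟨z, hz, hzx⟩ := hz0
  have hcov : ∀ m ∈ E, ∃ y ∈ E, Commute z y ∧ (m = y ∨ m = f y ∨ m = f (f y)) := by
    intro m hm
    rcases hE2 z hz hzx m hm with h | h | h
    · exact ⟨m, hm, h, Or.inl rfl⟩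
    · exact ⟨f m, f0 m hm, h, Or.inr (Or.inr (f3 m).symm)⟩
    · exact ⟨f (f m), f0 _ (f0 m hm), h, Or.inr (Or.inl (f3 m).symm)⟩
  obtain ⟨y, hy, hzy, -⟩ := hcov a0 ha0
  refine ⟨y, hy, f y, f0 y hy, (fne y hy).symm, ?_⟩
  intro m hm
  obtain ⟨y', hy', hzy', h⟩ := hcov m hm
  have : y' = y := hE3 z hz hzx y hy y' hy' hzy hzy'
  subst this
  rw [f4 y' hy']
  exact h

end H33.Fisch
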