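import Cfsg.Agent.Lib.H33.Fisch4
import Cfsg.Agent.S5352
import Cfsg.Agent.S5353

/-! 3-transposition groups without solvable normal subgroups. -/

set_option autoImplicit false

namespace H33.Fisch

open Cfsg H90.ThreeTrans H90.ThreeTransB H90.WidthOne H90.ThreeTransC H90.ThreeTransE H90.ThreeTransG H90.ThreeTransH

variable {G : Type*} [Group G] {D : Set G}

theorem eq_one_of_odd {H : Type*} [Group H] {N : Subgroup H} (hodd : (Nat.card N).Coprime 2) {x : H} (hx : x ∈ N)
    (h : x * x = 1) : x = 1 := by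
  have h1 : orderOf x ∣ 2 := orderOf_dvd_of_pow_eq_one (by rw [pow_two]; exact h)
  have h2 : orderOf x ∣ Nat.card N := by
    rw [← Subgroup.orderOf_mk x hx]
    exact orderOf_dvd_natCard _
  have h3 := Nat.dvd_gcd h2 h1
  rw [hodd.gcd_eq_one] at h3
  exact orderOf_eq_one_iff.1 (Nat.dvd_one.1 h3)

theorem wrel_of_odd_aux {H : Type*} [Group H] {D : Set H} (hG : IsThreeTranspositionGroup D)
    {N : Subgroup H} (hN : N.Normal) (hodd : (Nat.card N).Coprime 2) {d d' e : H} (hd : d ∈ D) (hd' : d' ∈ D)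
    (h : d * d' ∈ N) (he : e ∈ D) (hed : e ≠ d) (hde : Commute d e) : e ≠ d' ∧ Commute d' e := by
  have hD := hG.1
  have sd := mul_self hD hd
  have sd' := mul_self hD hd'
  have se := mul_self hD he
  have hei := inv_eq hD he
  have hdi := inv_eq hD hd
  have hd'i := inv_eq hD hd'
  by_cases hdd : d = d'
  · subst hdd; exact ⟨hed, hde⟩
  have hnc : ¬ Commute d d' := by
    intro hc
    apply hdd
    have h1 : (d * d') * (d * d') = 1 := by
      have := (commute_iff_sq hD hd hd').1 hc
      rwa [pow_two] at this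
    have h2 := eq_one_of_odd hodd h h1
    rw [mul_eq_one_iff_eq_inv, hd'i] at h2
    exact h2
  have hne : e ≠ d' := by
    rintro rfl
    exact hnc hde
  refine ⟨hne, ?_⟩
  by_contra hc
  have h1 : d * (e * d' * e) ∈ N := by
    have := hN.conj_mem _ h e
    rw [hei] at this
    have e1 : e * (d * d') * e = d * (e * d' * e) := by
      calc e * (d * d') * e = (e * d) * d' * e := by simp only [mul_assoc]
        _ = (d * e) * d' * e := by rw [hde.eq]
        _ = _ := by simp only [mul_assoc]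
    rwa [e1] at this
  have h2 : (d' * e) * (d' * e) ∈ N := by
    have := N.mul_mem (N.inv_mem h) h1
    have e1 : (d * d')⁻¹ * (d * (e * d' * e)) = (d' * e) * (d' * e) := by
      rw [mul_inv_rev, hdi, hd'i]
      calc d' * d * (d * (e * d' * e)) = d' * (d * d) * (e * d' * e) := by simp only [mul_assoc]
        _ = _ := by rw [sd, mul_one]; simp only [mul_assoc]
    rwa [e1] at this
  have h3 : d' * e ∈ N := by
    have h4 := N.mul_mem h2 h2
    have e1 : (d' * e) * (d' * e) * ((d' * e) * (d' * e)) = d' * e := by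
      have h5 := cube_of_not_commute hD hd' he hc
      rw [pow_succ, pow_two] at h5
      calc (d' * e) * (d' * e) * ((d' * e) * (d' * e)) = ((d' * e) * (d' * e) * (d' * e)) * (d' * e) := by simp only [mul_assoc]
        _ = _ := by rw [h5, one_mul]
    rwa [e1] at h4
  have h4 : d * e ∈ N := by
    have := N.mul_mem h h3
    have e1 : (d * d') * (d' * e) = d * e := by
      calc (d * d') * (d' * e) = d * (d' * d') * e := by simp only [mul_assoc]
        _ = _ := by rw [sd', mul_one]
    rwa [e1] at this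
  have h5 : (d * e) * (d * e) = 1 := by
    have := (commute_iff_sq hD hd he).1 hde
    rwa [pow_two] at this
  have h6 := eq_one_of_odd hodd h4 h5
  rw [mul_eq_one_iff_eq_inv, hei] at h6
  exact hed h6.symm

theorem wrel_of_odd {H : Type*} [Group H] {D : Set H} (hG : IsThreeTranspositionGroup D)
    {N : Subgroup H} (hN : N.Normal) (hodd : (Nat.card N).Coprime 2) {d d' : H} (hd : d ∈ D) (hd' : d' ∈ D)
    (h : d * d' ∈ N) : WRel D d d' := by
  intro e he
  have h' : d' * d ∈ N := by
    have := N.inv_mem h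
    rwa [mul_inv_rev, inv_eq hG.1 hd, inv_eq hG.1 hd'] at this
  exact ⟨fun h1 => wrel_of_odd_aux hG hN hodd hd hd' h he h1.1 h1.2,
    fun h1 => wrel_of_odd_aux hG hN hodd hd' hd h' he h1.1 h1.2⟩

/-- the group generated by `D_x` -/
theorem sub_group (hG : IsThreeTranspositionGroup D) (x : G) :
    IsThreeTranspositionGroup {d : ↥(Subgroup.closure (Dn D x)) | (d : G) ∈ Dn D x} := by
  have hle : Subgroup.closure (Dn D x) ≤ Subgroup.centralizer {x} := by
    rw [Subgroup.closure_le]
    intro y hy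
    rw [SetLike.mem_coe, Subgroup.mem_centralizer_iff]
    intro z hz
    rw [Set.mem_singleton_iff] at hz
    rw [hz]
    exact hy.2.2
  refine ⟨⟨?_, ?_⟩, ?_, ?_⟩
  · intro d hd
    rw [← hG.1.1 (d : G) hd.1]
    exact (Subgroup.orderOf_coe d).symm
  · intro d hd e he
    rcases hG.1.2 (d : G) hd.1 (e : G) he.1 with h | h
    · exact Or.inl (Subtype.ext h)
    · exact Or.inr (Subtype.ext h)
  · rintro ⟨g, hg⟩ d hd
    have hgx := Subgroup.mem_centralizer_iff.1 (hle hg) x rfl
    refine ⟨conj_mem hG g hd.1, ?_, ?_⟩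
    · intro h
      apply hd.2.1
      have h1 : g * (d : G) * g⁻¹ = x := h
      calc (d : G) = g⁻¹ * (g * (d : G) * g⁻¹) * g := by group
        _ = g⁻¹ * (x * g) := by rw [h1]; group
        _ = x := by rw [hgx]; group
    · have h1 : Commute x g := hgx
      exact (h1.mul_right hd.2.2).mul_right h1.inv_right
  · have : {d : ↥(Subgroup.closure (Dn D x)) | (d : G) ∈ Dn D x} =
      ((↑) : ↥(Subgroup.closure (Dn D x)) → G) ⁻¹' (Dn D x) := rfl
    rw [this]
    exact Subgroup.closure_closure_coe_preimage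

theorem exists_wclass [Finite G] (hG : IsThreeTranspositionGroup D) {x : G}
    (h : ¬ oddCore ↥(Subgroup.closure (Dn D x)) ≤ Subgroup.center ↥(Subgroup.closure (Dn D x))) :
    ∃ y ∈ Dn D x, ∃ y' ∈ Dn D x, y' ≠ y ∧ WRel (Dn D x) y y' := by
  have hs := sub_group hG x
  have hN : (oddCore ↥(Subgroup.closure (Dn D x))).Normal := Subgroup.sSup_normal _ fun N hN => hN.1
  have hodd := H1.Cores.coprime_card_pPrimeCore (G := ↥(Subgroup.closure (Dn D x))) 2
  by_contra hcon
  push Not at hcon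
  apply h
  apply le_center_of_commute hs
  intro d hd n hn
  have hd' := hs.2.1 n d hd
  have h1 : d * (n * d * n⁻¹) ∈ oddCore ↥(Subgroup.closure (Dn D x)) := by
    have h2 := hN.conj_mem n hn d
    have h3 := Subgroup.mul_mem _ h2 (Subgroup.inv_mem _ hn)
    have e : d * n * d⁻¹ * n⁻¹ = d * (n * d * n⁻¹) := by
      rw [inv_eq hs.1 hd]; simp only [mul_assoc]
    rwa [e] at h3
  have h2 := wrel_of_odd hs hN hodd hd hd' h1
  by_contra hc
  have hne : ((n * d * n⁻¹ : ↥(Subgroup.closure (Dn D x))) : G) ≠ (d : G) := by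
    intro h3
    apply hc
    have h4 : n * d * n⁻¹ = d := Subtype.ext h3
    show d * n = n * d
    calc d * n = (n * d * n⁻¹) * n := by rw [h4]
      _ = n * d := by group
  apply hcon (d : G) hd _ hd' hne
  intro e he
  have h3 := h2 ⟨e, Subgroup.subset_closure he⟩ he
  constructor
  · rintro ⟨h4, h5⟩
    have := h3.1 ⟨fun h => h4 (congrArg Subtype.val h), Subtype.ext h5.eq⟩
    exact ⟨fun h => this.1 (Subtype.ext h), congrArg Subtype.val this.2.eq⟩
  · rintro ⟨h4, h5⟩
    have := h3.2 ⟨fun h => h4 (congrArg Subtype.val h), Subtype.ext h5.eq⟩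
    exact ⟨fun h => this.1 (Subtype.ext h), congrArg Subtype.val this.2.eq⟩

theorem wrel_conj {S : Set G} (g : G) {a b : G} (h : WRel S a b) :
    WRel ((fun y => g * y * g⁻¹) '' S) (g * a * g⁻¹) (g * b * g⁻¹) := by
  rintro _ ⟨w, hw, rfl⟩
  have h1 := h w hw
  have hne : ∀ a : G, (g * w * g⁻¹ ≠ g * a * g⁻¹) ↔ w ≠ a := by
    intro a
    rw [not_iff_not]
    exact ⟨fun h => mul_left_cancel (mul_right_cancel h), fun h => by rw [h]⟩
  rw [hne, hne, comm_conj_iff, comm_conj_iff]
  exact h1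

/-- all points of all `D_x` have a nontrivial class -/
theorem wclass_all [Finite G] (hD : IsThreeTranspositionClass D)
    (hprim : ∀ B : Set G, B ⊆ D → IsBlock B → B.Subsingleton ∨ B = D)
    (hV : ∀ x ∈ D, ∀ y ∈ D, VRel D x y → x = y) (hW : ∀ x ∈ D, ∀ y ∈ D, WRel D x y → x = y)
    {x : G} (hx : x ∈ D) (h : ∃ y ∈ Dn D x, ∃ y' ∈ Dn D x, y' ≠ y ∧ WRel (Dn D x) y y') :
    ∀ x ∈ D, ∀ y ∈ Dn D x, ∃ y' ∈ Dn D x, y' ≠ y ∧ WRel (Dn D x) y y' := by
  have hG := group_of_class hD
  have hDs := hD.1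
  have tr : ∀ (g x y : G), (∃ y' ∈ Dn D x, y' ≠ y ∧ WRel (Dn D x) y y') →
      ∃ y' ∈ Dn D (g * x * g⁻¹), y' ≠ g * y * g⁻¹ ∧ WRel (Dn D (g * x * g⁻¹)) (g * y * g⁻¹) y' := by
    rintro g x y ⟨y', hy', hne, hR⟩
    refine ⟨g * y' * g⁻¹, ?_, fun h => hne (mul_left_cancel (mul_right_cancel h)), ?_⟩
    · rw [Dn_conj hG]; exact ⟨y', hy', rfl⟩
    · rw [Dn_conj hG]; exact wrel_conj g hR
  have h1 : ∀ y ∈ Dn D x, ∃ y' ∈ Dn D x, y' ≠ y ∧ WRel (Dn D x) y y' := by
    obtain ⟨y, hy, hyy⟩ := h
    intro u hu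
    have hp := (single_comp hD hprim hV hW hx hy hu).2
    unfold Pth at hp
    induction hp with
    | refl => exact hyy
    | @tail b c _ hstep ih =>
      have ih' := ih hstep.1
      obtain ⟨hb, hc, hbc⟩ := hstep
      have := tr (b * c) x b ih'
      have e1 : (b * c) * x * (b * c)⁻¹ = x := by
        have : Commute (b * c) x := (hb.2.2.mul_right hc.2.2).symm
        rw [this.eq]; group
      have e2 : (b * c) * b * (b * c)⁻¹ = c := by
        rw [mul_inv_rev, inv_eq hDs hb.1, inv_eq hDs hc.1]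
        calc b * c * b * (c * b) = (b * c * b) * c * b := by simp only [mul_assoc]
          _ = (c * b * c) * c * b := by rw [braid hDs hb.1 hc.1 hbc]
          _ = c * b * (c * c) * b := by simp only [mul_assoc]
          _ = c * (b * b) := by rw [mul_self hDs hc.1, mul_one]; simp only [mul_assoc]
          _ = c := by rw [mul_self hDs hb.1, mul_one]
      rwa [e1, e2] at this
  intro x2 hx2 y hy
  obtain ⟨g, rfl⟩ := exists_conj_eq hD hx hx2
  rw [Dn_conj hG] at hy
  obtain ⟨w, hw, rfl⟩ := hy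
  exact tr g x w (h1 w hw)

end H33.Fisch
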