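import Cfsg.Agent.Lib.H33.Fisch5
import Cfsg.Agent.S5365
import Cfsg.Agent.Lib.H93.E54b

/-! 3-transposition groups without solvable normal subgroups. -/

set_option autoImplicit false

namespace H33.Fisch

open Cfsg H90.ThreeTrans H90.ThreeTransB H90.WidthOne H90.ThreeTransC H90.ThreeTransE H90.ThreeTransG H90.ThreeTransH

variable {G : Type*} [Group G] {D : Set G}

section
variable [Finite G] (hsol : ∀ N : Subgroup G, N.Normal → Group.IsSolvable ↥N → N = ⊥)
include hsol

omit [Finite G] in
theorem center_bot : Subgroup.center G = ⊥ := hsol _ inferInstance (by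
  let _ : CommGroup (Subgroup.center G) := { (inferInstance : Group (Subgroup.center G)) with
    mul_comm := fun a b => Subtype.ext ((Subgroup.mem_center_iff.1 b.2 a)) }
  infer_instance)

theorem pCore_bot (p : ℕ) [Fact p.Prime] : pCore p G = ⊥ := by
  have hn : (pCore p G).Normal := Subgroup.sSup_normal _ fun N hN => hN.1
  have hp : IsPGroup p (pCore p G) := H1.Cores.isPGroup_pCore p
  apply hsol _ hn
  have := hp.isNilpotent
  infer_instance

variable (hperf : ⁅commutator G, commutator G⁆ = commutator G) (hD : IsThreeTranspositionClass D)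
  (hw : ∃ a ∈ D, ∃ b ∈ D, a ≠ b ∧ Commute a b)
include hperf hD hw

/-- primitivity -/
theorem primitive : IsPrimitiveUnderConj D := by
  have h2' : Fact (Nat.Prime 2) := ⟨Nat.prime_two⟩
  have h3' : Fact (Nat.Prime 3) := ⟨Nat.prime_three⟩
  have hG := group_of_class hD
  have hD2 : ∃ a ∈ D, ∃ b ∈ D, a ≠ b := by
    obtain ⟨a, ha, b, hb, hne, -⟩ := hw
    exact ⟨a, ha, b, hb, hne⟩
  have h2 : pCore 2 G ≤ Subgroup.center G := by rw [pCore_bot hsol 2]; exact bot_le
  have h3 : pCore 3 G ≤ Subgroup.center G := by rw [pCore_bot hsol 3]; exact bot_le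
  obtain ⟨L, nL, hL, hF, hLw⟩ := Cfsg.Agent.S5352.result hD hD2 h2 h3
  refine (Cfsg.Agent.S5353.result hD hD2 h2 h3 L hL hF).1 ?_
  rcases hLw with rfl | hLw
  · simp
  -- the quotient
  set π := QuotientGroup.mk' L with hπ
  have hπs : Function.Surjective π := QuotientGroup.mk'_surjective _
  have hker : ∀ g : G, π g = 1 ↔ g ∈ L := by
    intro g
    rw [← MonoidHom.mem_ker, hπ, QuotientGroup.ker_mk']
  set E : Set (G ⧸ L) := π '' D with hE
  have hk : Kei E := by
    refine ⟨?_, ?_, ?_⟩
    · rintro _ ⟨d, hd, rfl⟩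
      rw [← map_mul, mul_self hG.1 hd, map_one]
    · rintro _ ⟨a, ha, rfl⟩ _ ⟨b, hb, rfl⟩
      exact ⟨a * b * a, mul_mul_mem hG ha hb, by simp only [map_mul]⟩
    · rintro _ ⟨a, ha, rfl⟩ _ ⟨b, hb, rfl⟩
      by_cases hab : Commute a b
      · have h1 : a * b * a⁻¹ * b⁻¹ ∈ L := by
          have : a * b * a⁻¹ * b⁻¹ = 1 := by rw [hab.eq]; group
          rw [this]; exact L.one_mem
        have h2 := hLw a ha b hb h1
        have h3 : π a = π b := by
          rw [← inv_mul_eq_one, ← map_inv, ← map_mul, hker]; exact h2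
        rw [h3]
      · rw [← map_mul, ← map_mul, ← map_mul, ← map_mul, braid hG.1 ha hb hab]
  have hgen : Subgroup.closure E = ⊤ := by
    rw [hE, ← MonoidHom.map_closure, hG.2.2]
    exact Subgroup.map_top_of_surjective _ hπs
  have hconj : ∀ g : G ⧸ L, ∀ e ∈ E, g * e * g⁻¹ ∈ E := fun g => kei_conj_mem hk (by rw [hgen]; trivial)
  set R : Subgroup (G ⧸ L) := Subgroup.closure {x : G ⧸ L | ∃ a ∈ E, ∃ b ∈ E, x = a * b} with hR
  have hRp : IsPGroup 3 R := hk.isPGroup
  have hRn : R.Normal := normal_closure_of_conj (by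
    rintro g _ ⟨a, ha, b, hb, rfl⟩
    exact ⟨_, hconj g a ha, _, hconj g b hb, by group⟩)
  -- the commutator subgroup of the quotient lies in `R`
  have hcomm : ∀ u v : G ⧸ L, u * v * u⁻¹ * v⁻¹ ∈ R := by
    obtain ⟨d, hd, -⟩ := hw
    have hdE : π d ∈ E := ⟨d, hd, rfl⟩
    have hsq : π d * π d = 1 := hk.inv _ hdE
    have key : ∀ u : G ⧸ L, u ∈ R ∨ u * π d ∈ R := by
      intro u
      have hu : u ∈ Subgroup.closure E := by rw [hgen]; trivial
      induction hu using Subgroup.closure_induction with
      | mem x hx => exact Or.inr (Subgroup.subset_closure ⟨x, hx, _, hdE, rfl⟩)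
      | one => exact Or.inl R.one_mem
      | mul x y _ _ h1 h2 =>
        rcases h1 with h1 | h1 <;> rcases h2 with h2 | h2
        · exact Or.inl (R.mul_mem h1 h2)
        · right
          have := R.mul_mem h1 h2
          rwa [← mul_assoc] at this
        · right
          have h3 := hRn.conj_mem _ h2 (π d)
          have h4 := R.mul_mem h1 h3
          have e : x * π d * (π d * y * (π d)⁻¹) = x * y * π d := by
            rw [inv_eq_of_mul_eq_one_left hsq]
            calc x * π d * (π d * y * π d) = x * (π d * π d) * y * π d := by simp only [mul_assoc]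
              _ = _ := by rw [hsq, mul_one]
          rwa [e] at h4
        · left
          have h3 := hRn.conj_mem _ h2 (π d)
          have h4 := R.mul_mem h1 h3
          have e : x * π d * (π d * (y * π d) * (π d)⁻¹) = x * y := by
            calc x * π d * (π d * (y * π d) * (π d)⁻¹) = x * (π d * π d) * y := by group
              _ = _ := by rw [hsq, mul_one]
          rwa [e] at h4
      | inv x _ h1 =>
        rcases h1 with h1 | h1
        · exact Or.inl (R.inv_mem h1)
        · right
          have h3 := hRn.conj_mem _ (R.inv_mem h1) (π d)⁻¹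
          have e : (π d)⁻¹ * (x * π d)⁻¹ * (π d)⁻¹⁻¹ = x⁻¹ * π d := by
            have hdi : (π d)⁻¹ = π d := inv_eq_of_mul_eq_one_left hsq
            rw [mul_inv_rev, hdi, hdi]
            calc π d * (π d * x⁻¹) * π d = (π d * π d) * x⁻¹ * π d := by simp only [mul_assoc]
              _ = _ := by rw [hsq, one_mul]
          rwa [e] at h3
    intro u v
    -- work in the quotient by `R`
    have hq : ∀ u v : G ⧸ L, (QuotientGroup.mk' R u) * (QuotientGroup.mk' R v) = (QuotientGroup.mk' R v) * (QuotientGroup.mk' R u) := by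
      have hone : ∀ u : G ⧸ L, QuotientGroup.mk' R u = 1 ∨ QuotientGroup.mk' R u = QuotientGroup.mk' R (π d) := by
        intro u
        have hm : ∀ u, u ∈ R → QuotientGroup.mk' R u = 1 := by
          intro u hu
          rw [← MonoidHom.mem_ker, QuotientGroup.ker_mk']
          exact hu
        rcases key u with h | h
        · exact Or.inl (hm u h)
        · right
          have h1 := hm _ h
          rw [map_mul] at h1
          rw [← mul_one (QuotientGroup.mk' R u), ← map_one (QuotientGroup.mk' R), ← hsq, map_mul, ← mul_assoc, h1, one_mul]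
      intro u v
      rcases hone u with h | h <;> rcases hone v with h' | h' <;> rw [h, h'] <;> simp
    have h1 : QuotientGroup.mk' R (u * v * u⁻¹ * v⁻¹) = 1 := by
      simp only [map_mul, map_inv]
      rw [hq u v]; group
    rwa [← MonoidHom.mem_ker, QuotientGroup.ker_mk'] at h1
  have hle : commutator (G ⧸ L) ≤ R := by
    rw [commutator_def, Subgroup.commutator_le]
    intro u _ v _
    exact hcomm u v
  have hmap : (commutator G).map π = commutator (G ⧸ L) := by
    rw [commutator_def, commutator_def, Subgroup.map_commutator, Subgroup.map_top_of_surjective _ hπs]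
  have hperf' : ⁅commutator (G ⧸ L), commutator (G ⧸ L)⁆ = commutator (G ⧸ L) := by
    rw [← hmap, ← Subgroup.map_commutator, hperf]
  have hbot : commutator (G ⧸ L) = ⊥ := by
    have hp : IsPGroup 3 (commutator (G ⧸ L)) := hRp.to_le hle
    have := hp.isNilpotent
    have hsv : Group.IsSolvable (commutator (G ⧸ L)) := inferInstance
    by_contra hne
    have hnt : Nontrivial (commutator (G ⧸ L)) := (Subgroup.nontrivial_iff_ne_bot _).2 hne
    have h1 := Group.IsSolvable.commutator_lt_top_of_nontrivial (commutator (G ⧸ L))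
    apply h1.ne
    have h2 : (commutator ↥(commutator (G ⧸ L))).map (commutator (G ⧸ L)).subtype = commutator (G ⧸ L) := by
      rw [commutator_def ↥(commutator (G ⧸ L)), Subgroup.map_commutator, ← MonoidHom.range_eq_map, Subgroup.range_subtype]
      exact hperf'
    apply Subgroup.map_injective (commutator (G ⧸ L)).subtype_injective
    rw [h2, ← MonoidHom.range_eq_map, Subgroup.range_subtype]
  have hcommQ : ∀ u v : G ⧸ L, u * v = v * u := by
    intro u v
    have h1 := Subgroup.commutator_mem_commutator (Subgroup.mem_top u) (Subgroup.mem_top v)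
    rw [← commutator_def, hbot, Subgroup.mem_bot] at h1
    exact commutatorElement_eq_one_iff_mul_comm.1 h1
  obtain ⟨d, hd, -⟩ := hw
  have hall : ∀ e ∈ E, e = π d := by
    rintro _ ⟨e, he, rfl⟩
    obtain ⟨g, rfl⟩ := exists_conj_eq hD hd he
    rw [map_mul, map_mul, hcommQ (π g), mul_assoc, ← map_mul, mul_inv_cancel, map_one, mul_one]
  have hz : (⊤ : Subgroup (G ⧸ L)) = Subgroup.zpowers (π d) := by
    rw [← hgen]
    apply le_antisymm
    · rw [Subgroup.closure_le]
      intro e he
      rw [hall e he]
      exact Subgroup.mem_zpowers _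
    · rw [Subgroup.zpowers_le]
      exact Subgroup.subset_closure ⟨d, hd, rfl⟩
  have hcard : Nat.card (G ⧸ L) = orderOf (π d) := by
    rw [← Nat.card_zpowers, ← hz, Subgroup.card_top]
  rw [Subgroup.index_eq_card, hcard]
  apply Nat.le_of_dvd (by norm_num)
  apply orderOf_dvd_of_pow_eq_one
  rw [pow_two]
  exact hk.inv _ ⟨d, hd, rfl⟩

end

end H33.Fisch
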