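import Cfsg.Agent.Lib.H33.Fisch6

/-! 3-transposition groups with `|D_x| = 3`. -/

set_option autoImplicit false

namespace H33.Fisch

open Cfsg H90.ThreeTrans H90.ThreeTransB H90.WidthOne H90.ThreeTransC H90.ThreeTransE H90.ThreeTransG H90.ThreeTransH

variable {G : Type*} [Group G] {D : Set G}

/-- an element of odd order stabilizing a pair fixes it -/
theorem comm_of_pair {g u v : G} (hodd : Odd (orderOf g)) (huv : u ≠ v) (hu : g * u * g⁻¹ = u ∨ g * u * g⁻¹ = v)
    (hv : g * v * g⁻¹ = u ∨ g * v * g⁻¹ = v) : Commute g u ∧ Commute g v := by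
  have hc : ∀ w : G, g * w * g⁻¹ = w → Commute g w := by
    intro w h
    show g * w = w * g
    calc g * w = (g * w * g⁻¹) * g := by group
      _ = w * g := by rw [h]
  have hinj : g * u * g⁻¹ ≠ g * v * g⁻¹ := fun h => huv (mul_left_cancel (mul_right_cancel h))
  rcases hu with h | h
  · refine ⟨hc u h, hc v ?_⟩
    rcases hv with h' | h'
    · exfalso
      exact hinj (h.trans h'.symm)
    · exact h'
  · exfalso
    have h' : g * v * g⁻¹ = u := by
      rcases hv with h' | h'
      · exact h'
      · exfalso
        exact hinj (h.trans h'.symm)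
    have h2 : Commute (g * g) u := by
      show g * g * u = u * (g * g)
      calc g * g * u = (g * (g * u * g⁻¹) * g⁻¹) * (g * g) := by group
        _ = u * (g * g) := by rw [h, h']
    obtain ⟨k, hk⟩ := hodd
    have h3 : Commute g u := by
      have e : (g * g) ^ (k + 1) = g := by
        rw [← pow_two, ← pow_mul, show 2 * (k + 1) = (2 * k + 1) + 1 by ring, ← hk, pow_succ, pow_orderOf_eq_one, one_mul]
      rw [← e]
      exact h2.pow_left _
    apply huv
    rw [← h, h3.eq]; group

section
variable [Finite G] (hD : IsThreeTranspositionClass D) (hprim : IsPrimitiveUnderConj D)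
  (hw : ∃ a ∈ D, ∃ b ∈ D, a ≠ b ∧ Commute a b)
  (h3 : ∀ x ∈ D, ∃ a ∈ Dn D x, ∃ b ∈ Dn D x, a ≠ b ∧ ¬ Commute a b ∧ ∀ m ∈ Dn D x, m = a ∨ m = b ∨ m = a * b * a)
include hD hprim hw h3

omit hprim hw [Finite G] in
theorem pair_of_mem {x y : G} (hx : x ∈ D) (hy : y ∈ Dn D x) :
    ∃ u ∈ Dn D x, ∃ v ∈ Dn D x, u ≠ v ∧ u ≠ y ∧ v ≠ y ∧ ∀ m ∈ Dn D x, m = y ∨ m = u ∨ m = v := by
  obtain ⟨a, ha, b, hb, hab, hnc, hall⟩ := h3 x hx
  have hG := group_of_class hD
  have hc : a * b * a ∈ Dn D x := Dn_cl hG ha hb
  have sa := mul_self hG.1 ha.1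
  have sb := mul_self hG.1 hb.1
  have hca : a * b * a ≠ a := by
    intro h
    have : b = a := by
      calc b = a * (a * b * a) * a := by
            calc b = (a * a) * b * (a * a) := by rw [sa, one_mul, mul_one]
              _ = _ := by simp only [mul_assoc]
        _ = a := by rw [h, sa, one_mul]
    exact hab this.symm
  have hcb : a * b * a ≠ b := by
    rw [braid hG.1 ha.1 hb.1 hnc]
    intro h
    have : a = b := by
      calc a = b * (b * a * b) * b := by
            calc a = (b * b) * a * (b * b) := by rw [sb, one_mul, mul_one]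
              _ = _ := by simp only [mul_assoc]
        _ = b := by rw [h, sb, one_mul]
    exact hab this
  rcases hall y hy with rfl | rfl | rfl
  · exact ⟨b, hb, _, hc, hcb.symm, hab.symm, hca, hall⟩
  · refine ⟨a, ha, _, hc, hca.symm, hab, hcb, ?_⟩
    intro m hm
    rcases hall m hm with h | h | h
    · exact Or.inr (Or.inl h)
    · exact Or.inl h
    · exact Or.inr (Or.inr h)
  · refine ⟨a, ha, b, hb, hab, hca.symm, hcb.symm, ?_⟩
    intro m hm
    rcases hall m hm with h | h | h
    · exact Or.inr (Or.inl h)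
    · exact Or.inr (Or.inr h)
    · exact Or.inl h

omit [Finite G] in
/-- elements of odd order centralizing `D_d` are central. -/
theorem central_of_odd {d g : G} (hd : d ∈ D) (hodd : Odd (orderOf g)) (hgd : Commute g d) (hg : ∀ m ∈ Dn D d, Commute g m) :
    g ∈ Subgroup.center G := by
  have hG := group_of_class hD
  have key : ∀ e, Relation.ReflTransGen (fun u v => u ∈ D ∧ v ∈ D ∧ Commute u v) d e →
      Commute g e ∧ ∀ m ∈ Dn D e, Commute g m := by
    intro e he
    induction he with
    | refl => exact ⟨hgd, hg⟩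
    | @tail b c _ hstep ih =>
      obtain ⟨hb, hc, hbc⟩ := hstep
      by_cases hcb : c = b
      · rw [hcb]; exact ih
      have hcD : c ∈ Dn D b := ⟨hc, hcb, hbc⟩
      have hgc := ih.2 c hcD
      refine ⟨hgc, ?_⟩
      have hbD : b ∈ Dn D c := mem_Dn_symm hb hcD
      obtain ⟨u, hu, v, hv, huv, hub, hvb, hall⟩ := pair_of_mem hD h3 hc hbD
      have hgcD : ∀ m ∈ Dn D c, g * m * g⁻¹ ∈ Dn D c := by
        intro m hm
        have h1 := Dn_conj hG g c
        have h2 : g * c * g⁻¹ = c := by rw [hgc.eq]; group
        rw [h2] at h1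
        rw [h1]
        exact ⟨m, hm, rfl⟩
      have hgb : ∀ m, m ≠ b → g * m * g⁻¹ ≠ b := by
        intro m hm h
        apply hm
        have h2 : g * b * g⁻¹ = b := by rw [ih.1.eq]; group
        rw [← h2] at h
        exact mul_left_cancel (mul_right_cancel h)
      have h1 : g * u * g⁻¹ = u ∨ g * u * g⁻¹ = v := by
        rcases hall _ (hgcD u hu) with h | h | h
        · exact absurd h (hgb u hub)
        · exact Or.inl h
        · exact Or.inr h
      have h2 : g * v * g⁻¹ = u ∨ g * v * g⁻¹ = v := by
        rcases hall _ (hgcD v hv) with h | h | h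
        · exact absurd h (hgb v hvb)
        · exact Or.inl h
        · exact Or.inr h
      obtain ⟨h4, h5⟩ := comm_of_pair hodd huv h1 h2
      intro m hm
      rcases hall m hm with rfl | rfl | rfl
      · exact ih.1
      · exact h4
      · exact h5
  rw [Subgroup.mem_center_iff]
  intro h
  have hh : h ∈ Subgroup.closure D := by rw [hG.2.2]; trivial
  have hle : Subgroup.closure D ≤ Subgroup.centralizer {g} := by
    rw [Subgroup.closure_le]
    intro e he
    rw [SetLike.mem_coe, Subgroup.mem_centralizer_iff]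
    intro k hk
    rw [Set.mem_singleton_iff] at hk
    rw [hk]
    exact (key e (H90.ThreeTransI.reach hG hprim hw hd he)).1.eq
  exact (Subgroup.mem_centralizer_iff.1 (hle hh) g rfl).symm

variable (hZ : Subgroup.center G = ⊥)
include hZ

omit [Finite G] in
theorem local_struct {d : G} (hd : d ∈ D) :
    Nonempty (↥(Subgroup.closure (Dn D d)) ≃* Equiv.Perm (Fin 3)) ∧
      Nat.card (pCore 3 ↥(Subgroup.centralizer ({d} : Set G))) = 3 := by
  classical
  have hG := group_of_class hD
  have hp3 : Fact (Nat.Prime 3) := ⟨Nat.prime_three⟩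
  obtain ⟨a, ha, b, hb, hab, hnc, hall⟩ := h3 d hd
  have sa := mul_self hG.1 ha.1
  have sb := mul_self hG.1 hb.1
  have bab := braid hG.1 ha.1 hb.1 hnc
  have cube := cube_of_not_commute hG.1 ha.1 hb.1 hnc
  have hne1 : a * b ≠ 1 := by
    intro h
    rw [mul_eq_one_iff_eq_inv, inv_eq hG.1 hb.1] at h
    exact hab h
  constructor
  · set X := Subgroup.closure (Dn D d) with hX
    have haX : a ∈ X := Subgroup.subset_closure ha
    have hbX : b ∈ X := Subgroup.subset_closure hb
    apply H93.E54.iso_perm (X := X) (a := ⟨a, haX⟩) (b := ⟨b, hbX⟩) (Subtype.ext sa) (Subtype.ext sb)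
      (Subtype.ext cube) (fun h => hne1 (congrArg Subtype.val h))
    rw [eq_top_iff]
    rintro ⟨g, hg⟩ -
    have hle : X ≤ (Subgroup.closure ({⟨a, haX⟩, ⟨b, hbX⟩} : Set X)).map X.subtype := by
      refine (Subgroup.closure_le _).2 ?_
      intro m hm
      have h1 : a ∈ (Subgroup.closure ({⟨a, haX⟩, ⟨b, hbX⟩} : Set X)).map X.subtype :=
        ⟨⟨a, haX⟩, Subgroup.subset_closure (Or.inl rfl), rfl⟩
      have h2 : b ∈ (Subgroup.closure ({⟨a, haX⟩, ⟨b, hbX⟩} : Set X)).map X.subtype :=
        ⟨⟨b, hbX⟩, Subgroup.subset_closure (Or.inr rfl), rfl⟩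
      rcases hall m hm with rfl | rfl | rfl
      · exact h1
      · exact h2
      · exact Subgroup.mul_mem _ (Subgroup.mul_mem _ h1 h2) h1
    obtain ⟨⟨g', hg'⟩, hg'c, rfl⟩ := hle hg
    exact hg'c
  · set C := Subgroup.centralizer ({d} : Set G) with hC
    have hCm : ∀ {g : G}, g ∈ C ↔ Commute d g := by
      intro g
      rw [hC, Subgroup.mem_centralizer_iff]
      constructor
      · intro h; exact h d rfl
      · intro h k hk
        rw [Set.mem_singleton_iff] at hk
        rw [hk]; exact h
    have hCD : ∀ g ∈ C, ∀ m ∈ Dn D d, g * m * g⁻¹ ∈ Dn D d := by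
      intro g hg m hm
      have h1 := Dn_conj hG g d
      have h2 : g * d * g⁻¹ = d := by rw [← (hCm.1 hg).eq]; group
      rw [h2] at h1
      rw [h1]
      exact ⟨m, hm, rfl⟩
    have hrC : a * b ∈ C := hCm.2 (ha.2.2.mul_right hb.2.2)
    set r : C := ⟨a * b, hrC⟩ with hr
    have hri : (a * b)⁻¹ = b * a := by rw [mul_inv_rev, inv_eq hG.1 ha.1, inv_eq hG.1 hb.1]
    have hord : orderOf r = 3 := by
      apply orderOf_eq_prime
      · exact Subtype.ext cube
      · exact fun h => hne1 (congrArg Subtype.val h)
    have hzn : (Subgroup.zpowers r).Normal := by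
      constructor
      rintro _ ⟨k, rfl⟩ g
      have hprod : g * r * g⁻¹ = r ∨ g * r * g⁻¹ = r⁻¹ := by
        have h1 := hCD g g.2 a ha
        have h2 := hCD g g.2 b hb
        have hne : (g : G) * a * (g : G)⁻¹ ≠ (g : G) * b * (g : G)⁻¹ :=
          fun h => hab (mul_left_cancel (mul_right_cancel h))
        have e : ((g * r * g⁻¹ : C) : G) = ((g : G) * a * (g : G)⁻¹) * ((g : G) * b * (g : G)⁻¹) := by
          show (g : G) * (a * b) * (g : G)⁻¹ = _
          group
        have hfin : ((g : G) * a * (g : G)⁻¹) * ((g : G) * b * (g : G)⁻¹) = a * b ∨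
            ((g : G) * a * (g : G)⁻¹) * ((g : G) * b * (g : G)⁻¹) = b * a := by
          rcases hall _ h1 with h1 | h1 | h1 <;> rcases hall _ h2 with h2 | h2 | h2
          · rw [h1, h2] at hne; exact absurd rfl hne
          · rw [h1, h2]; exact Or.inl rfl
          · rw [h1, h2]; right
            calc a * (a * b * a) = (a * a) * (b * a) := by simp only [mul_assoc]
              _ = b * a := by rw [sa, one_mul]
          · rw [h1, h2]; exact Or.inr rfl
          · rw [h1, h2] at hne; exact absurd rfl hne
          · rw [h1, h2, bab]; left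
            calc b * (b * a * b) = (b * b) * (a * b) := by simp only [mul_assoc]
              _ = a * b := by rw [sb, one_mul]
          · rw [h1, h2]; left
            rw [mul_assoc (a * b), sa, mul_one]
          · rw [h1, h2, bab]; right
            rw [mul_assoc (b * a), sb, mul_one]
          · rw [h1, h2] at hne; exact absurd rfl hne
        rcases hfin with h | h
        · left; exact Subtype.ext (e.trans h)
        · right
          apply Subtype.ext
          rw [e, h]
          show _ = (a * b)⁻¹
          rw [hri]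
      have e : g * r ^ k * g⁻¹ = (g * r * g⁻¹) ^ k := (conj_zpow).symm
      show g * r ^ k * g⁻¹ ∈ _
      rw [e]
      rcases hprod with h | h
      · rw [h]; exact ⟨k, rfl⟩
      · rw [h, inv_zpow']; exact ⟨-k, rfl⟩
    have hle1 : Subgroup.zpowers r ≤ pCore 3 C := by
      apply H1.Cores.le_pCore hzn
      apply IsPGroup.of_card (n := 1)
      rw [Nat.card_zpowers, hord, pow_one]
    have hle2 : pCore 3 C ≤ Subgroup.zpowers r := by
      intro g hg
      -- odd order
      have hoddall : ∀ g ∈ pCore 3 C, Odd (orderOf (g : G)) := by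
        intro g hg
        obtain ⟨k, hk⟩ := H1.Cores.isPGroup_pCore (G := C) 3 ⟨g, hg⟩
        have h1 : (g : G) ^ (3 ^ k) = 1 := congrArg (fun z : pCore 3 C => ((z : C) : G)) hk
        have h2 := orderOf_dvd_of_pow_eq_one h1
        exact Odd.of_dvd_nat (Odd.pow (by decide)) h2
      have hcase : ∃ k : ℕ, Commute ((r ^ k * g : C) : G) a := by
        have hconj : ∀ k : ℕ, ((r ^ k * g : C) : G) * a * ((r ^ k * g : C) : G)⁻¹ = a → Commute ((r ^ k * g : C) : G) a := by
          intro k h
          show ((r ^ k * g : C) : G) * a = a * ((r ^ k * g : C) : G)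
          calc ((r ^ k * g : C) : G) * a = (((r ^ k * g : C) : G) * a * ((r ^ k * g : C) : G)⁻¹) * ((r ^ k * g : C) : G) := by group
            _ = _ := by rw [h]
        have hexp : ∀ k : ℕ, ((r ^ k * g : C) : G) * a * ((r ^ k * g : C) : G)⁻¹ =
            (a * b) ^ k * ((g : G) * a * (g : G)⁻¹) * ((a * b) ^ k)⁻¹ := by
          intro k
          show ((a * b) ^ k * (g : G)) * a * ((a * b) ^ k * (g : G))⁻¹ = _
          group
        rcases hall _ (hCD g g.2 a ha) with h | h | h
        · refine ⟨0, hconj 0 ?_⟩
          rw [hexp, h]; simp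
        · refine ⟨2, hconj 2 ?_⟩
          rw [hexp, h]
          have e : ((a * b) ^ 2)⁻¹ = (b * a) * (b * a) := by rw [pow_two, mul_inv_rev, hri]
          rw [e, pow_two]
          calc a * b * (a * b) * b * (b * a * (b * a)) = a * b * a * (b * b * b * a) * b * a := by simp only [mul_assoc]
            _ = (a * b * a) * b * (a * b * a) := by rw [sb, one_mul]; simp only [mul_assoc]
            _ = (b * a * b) * b * (b * a * b) := by rw [bab]
            _ = b * a * (b * b) * b * a * b := by simp only [mul_assoc]
            _ = (b * a * b) * a * b := by rw [sb, mul_one]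
            _ = (a * b * a) * a * b := by rw [← bab]
            _ = a * b * (a * a) * b := by simp only [mul_assoc]
            _ = a * (b * b) := by rw [sa, mul_one]; simp only [mul_assoc]
            _ = a := by rw [sb, mul_one]
        · refine ⟨1, hconj 1 ?_⟩
          rw [hexp, h, pow_one, hri]
          calc a * b * (a * b * a) * (b * a) = a * b * (b * a * b) * (b * a) := by rw [bab]
            _ = a * (b * b) * a * (b * b) * a := by simp only [mul_assoc]
            _ = a * a * a := by rw [sb, mul_one, mul_one]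
            _ = a := by rw [sa, one_mul]
      obtain ⟨k, hk⟩ := hcase
      set g' : C := r ^ k * g with hg'
      have hg'P : g' ∈ pCore 3 C := Subgroup.mul_mem _ (Subgroup.pow_mem _ (hle1 (Subgroup.mem_zpowers r)) k) hg
      have hodd := hoddall g' hg'P
      obtain ⟨u, hu, v, hv, huv, hua, hva, hall'⟩ := pair_of_mem hD h3 hd ha
      have hga : ∀ m, m ≠ a → (g' : G) * m * (g' : G)⁻¹ ≠ a := by
        intro m hm h
        apply hm
        have h2 : (g' : G) * a * (g' : G)⁻¹ = a := by rw [hk.eq]; group
        rw [← h2] at h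
        exact mul_left_cancel (mul_right_cancel h)
      have h1 : (g' : G) * u * (g' : G)⁻¹ = u ∨ (g' : G) * u * (g' : G)⁻¹ = v := by
        rcases hall' _ (hCD g' g'.2 u hu) with h | h | h
        · exact absurd h (hga u hua)
        · exact Or.inl h
        · exact Or.inr h
      have h2 : (g' : G) * v * (g' : G)⁻¹ = u ∨ (g' : G) * v * (g' : G)⁻¹ = v := by
        rcases hall' _ (hCD g' g'.2 v hv) with h | h | h
        · exact absurd h (hga v hva)
        · exact Or.inl h
        · exact Or.inr h
      obtain ⟨h4, h5⟩ := comm_of_pair hodd huv h1 h2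
      have hcen := central_of_odd hD hprim hw h3 hd hodd (hCm.1 g'.2).symm (by
        intro m hm
        rcases hall' m hm with rfl | rfl | rfl
        · exact hk
        · exact h4
        · exact h5)
      rw [hZ, Subgroup.mem_bot] at hcen
      have hone : g' = 1 := Subtype.ext hcen
      rw [hg', mul_eq_one_iff_inv_eq] at hone
      rw [← hone]
      exact Subgroup.inv_mem _ (Subgroup.pow_mem _ (Subgroup.mem_zpowers r) k)
    rw [le_antisymm hle2 hle1, Nat.card_zpowers, hord]

end

end H33.Fisch
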