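import Mathlib
import Cfsg.Agent.Lib.H5.ZStar
import Cfsg.Agent.Lib.H1.Solv
import Cfsg.Agent.Lib.H1.Cores

/-!
Classes of involutions with products of `p`-power order (`p` odd) : `G'` is a `p`-group (Fischer, via `Z*`).
-/

set_option autoImplicit false

open Subgroup Cfsg
open scoped Pointwise

namespace H33.Fischer1

universe u

variable {G : Type u} [Group G] [Finite G]

theorem exists_inv_sylow (N : Subgroup G) [N.Normal] (hN : Odd (Nat.card N)) (d : G)
    (hd : d * d = 1) (r : ℕ) [hr : Fact r.Prime] :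
    ∃ R : Sylow r N, ∀ u : N, u ∈ R → MulAut.conjNormal d u ∈ R := by
  have : Fact (Nat.Prime 2) := ⟨Nat.prime_two⟩
  set f : MulAut N := MulAut.conjNormal d with hf
  have hf2 : f ^ 2 = 1 := by
    rw [hf, ← map_pow, pow_two, hd, map_one]
  have hP : IsPGroup 2 (Subgroup.zpowers f) := by
    intro x
    obtain ⟨x, hx⟩ := x
    obtain ⟨k, rfl⟩ := hx
    refine ⟨1, ?_⟩
    ext1
    change (f ^ k) ^ (2 ^ 1) = 1
    rw [pow_one, ← zpow_natCast, ← zpow_mul, mul_comm, zpow_mul]
    simp [hf2]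
  have hnd : ¬ 2 ∣ Nat.card (Sylow r N) := by
    intro h
    obtain ⟨R⟩ : Nonempty (Sylow r N) := inferInstance
    have h1 : Nat.card (Sylow r N) ∣ Nat.card N := (Sylow.card_dvd_index R).trans (index_dvd_card _)
    have h2 := h.trans h1
    obtain ⟨k, hk⟩ := hN
    omega
  obtain ⟨R, hR⟩ := hP.nonempty_fixed_point_of_prime_not_dvd_card (Sylow r N) hnd
  refine ⟨R, fun u hu => ?_⟩
  have h1 : (⟨f, Subgroup.mem_zpowers f⟩ : Subgroup.zpowers f) • R = R := hR _
  have h2 : (f • u) ∈ (f • (R : Subgroup N)) := Subgroup.smul_mem_pointwise_smul u f _ hu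
  have h3 : (f • (R : Subgroup N)) = R := by
    have := congrArg (fun S : Sylow r N => (S : Subgroup N)) h1
    exact this
  rw [h3] at h2
  exact h2

/-- the main configuration inside a normal subgroup of odd order -/
theorem main (N : Subgroup G) [N.Normal] (hN : Odd (Nat.card N)) (d : G) (hd : d * d = 1)
    (p : ℕ) [hp : Fact p.Prime]
    (hprod : ∀ n ∈ N, ∃ k : ℕ, orderOf (d * (n * d * n⁻¹)) = p ^ k) :
    ∃ P : Subgroup G, IsPGroup p P ∧ P ≤ N ∧ (∀ u ∈ P, d * u * d⁻¹ ∈ P) ∧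
      ∀ n ∈ N, ∃ u ∈ P, n * d * n⁻¹ = u * d * u⁻¹ := by
  classical
  have hdi : d⁻¹ = d := inv_eq_of_mul_eq_one_left hd
  -- the fixed points
  set C : Subgroup N := (centralizer {d}).subgroupOf N with hC
  have memC : ∀ u : N, u ∈ C ↔ d * (u : G) = u * d := by
    intro u
    rw [hC, Subgroup.mem_subgroupOf, Subgroup.mem_centralizer_singleton_iff]
    exact ⟨fun h => h.symm, fun h => h.symm⟩
  have key : ∀ r : ℕ, r.Prime → r ≠ p → ¬ r ∣ C.index := by
    intro r hr hrp hdvd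
    have : Fact r.Prime := ⟨hr⟩
    obtain ⟨R, hR⟩ := exists_inv_sylow N hN d hd r
    have hRC : (R : Subgroup N) ≤ C := by
      intro u hu
      rw [memC]
      obtain ⟨k, hk⟩ := hprod (u : G) u.2
      have h1 : (MulAut.conjNormal d u) * u⁻¹ ∈ R := mul_mem (hR u hu) (inv_mem hu)
      have h2 : (((MulAut.conjNormal d u) * u⁻¹ : N) : G) = d * (u * d * (u : G)⁻¹) := by
        push_cast
        rw [MulAut.conjNormal_apply, hdi]
        group
      obtain ⟨l, hl⟩ := R.2 ⟨_, h1⟩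
      have h3 : (d * (u * d * (u : G)⁻¹)) ^ (r ^ l) = 1 := by
        rw [← h2]
        have := congrArg (fun x : (R : Subgroup N) => ((x : N) : G)) hl
        simpa using this
      have h4 := orderOf_dvd_of_pow_eq_one h3
      rw [hk] at h4
      have h5 : Nat.Coprime (p ^ k) (r ^ l) :=
        Nat.Coprime.pow _ _ ((Nat.coprime_primes hp.1 hr).mpr (Ne.symm hrp))
      have h6 : p ^ k = 1 := Nat.eq_one_of_dvd_coprimes h5 dvd_rfl h4
      rw [h6, orderOf_eq_one_iff] at hk
      have h7 : d * (u : G) * d = u := by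
        have : d * (u : G) * d * (u : G)⁻¹ = 1 := by rw [← hk]; group
        exact mul_inv_eq_one.mp this
      calc d * (u : G) = d * (u : G) * (d * d) := by rw [hd, mul_one]
        _ = (d * (u : G) * d) * d := by group
        _ = u * d := by rw [h7]
    have h1 : C.index ∣ (R : Subgroup N).index := Subgroup.index_dvd_of_le hRC
    exact R.not_dvd_index (hdvd.trans h1)
  have hCp : ∃ a, C.index = p ^ a := by
    refine ⟨_, Nat.eq_prime_pow_of_unique_prime_dvd Subgroup.index_ne_zero_of_finite ?_⟩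
    intro q hq hqd
    by_contra hne
    exact key q hq hne hqd
  obtain ⟨a, ha⟩ := hCp
  obtain ⟨P, hP⟩ := exists_inv_sylow N hN d hd p
  refine ⟨(P : Subgroup N).map N.subtype, P.2.map _, ?_, ?_, ?_⟩
  · rintro _ ⟨u, -, rfl⟩; exact u.2
  · rintro _ ⟨u, hu, rfl⟩
    refine ⟨_, hP u hu, ?_⟩
    simp [MulAut.conjNormal_apply]
  · intro n hn
    have hcop : (P : Subgroup N).index.Coprime C.index := by
      rw [ha]
      exact Nat.Coprime.pow_right _ ((Nat.Prime.coprime_iff_not_dvd hp.1).mpr P.not_dvd_index).symm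
    obtain ⟨x, hx, y, hy, hxy⟩ := H1.Solv.exists_mul_of_coprime_index hcop (⟨n, hn⟩ : N)
    refine ⟨x, ⟨x, hx, rfl⟩, ?_⟩
    have hn' : n = (x : G) * y := congrArg Subtype.val hxy
    have hy' := (memC y).mp hy
    rw [hn', mul_inv_rev]
    calc (x : G) * y * d * ((y : G)⁻¹ * (x : G)⁻¹) = x * (y * d * (y : G)⁻¹) * (x : G)⁻¹ := by group
      _ = x * d * (x : G)⁻¹ := by rw [← hy']; group

theorem conclusion (p : ℕ) (hp : p.Prime) (hodd : p ≠ 2) {D : Set G}
    (hinv : ∀ d ∈ D, orderOf d = 2) (hconj : ∃ d ∈ D, D = conjugatesOf d)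
    (hgen : Subgroup.closure D = ⊤)
    (hprod : ∀ x ∈ D, ∀ y ∈ D, x ≠ y → ∃ k : ℕ, orderOf (x * y) = p ^ k) :
    ∃ P : Subgroup G, P.Normal ∧ IsPGroup p P ∧ commutator G ≤ P := by
  have : Fact p.Prime := ⟨hp⟩
  obtain ⟨d, hd, hD⟩ := hconj
  have hconjmem : ∀ g : G, g * d * g⁻¹ ∈ D := by
    intro g
    rw [hD]
    exact isConj_iff.mpr ⟨g, rfl⟩
  have hall : ∀ g : G, ∃ k : ℕ, orderOf (d * (g * d * g⁻¹)) = p ^ k := by
    intro g
    by_cases h : d = g * d * g⁻¹
    · refine ⟨0, ?_⟩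
      rw [← h, pow_zero, orderOf_eq_one_iff]
      exact H5.Dihedral.mul_self (hinv d hd)
    · exact hprod d hd _ (hconjmem g) h
  have hiso : H5.ZStar1.IsoInv d := by
    refine ⟨hinv d hd, fun g => ?_⟩
    obtain ⟨k, hk⟩ := hall g
    rw [hk]
    exact (hp.odd_of_ne_two hodd).pow
  have hz := H5.ZStar.zstar hiso
  set N := pPrimeCore 2 G with hNdef
  have hNn : N.Normal := inferInstance
  have hNc : Odd (Nat.card N) := by
    have := H1.Cores.coprime_card_pPrimeCore (G := G) 2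
    rw [Nat.coprime_two_right] at this
    exact this
  have hdd : d * d = 1 := H5.Dihedral.mul_self (hinv d hd)
  obtain ⟨P, hP1, hP2, hP3, hP4⟩ := main N hNc d hdd p (fun n _ => hall n)
  -- every element is `n * d ^ k`
  have hS : (zpowers (QuotientGroup.mk' N d)).comap (QuotientGroup.mk' N) = ⊤ := by
    rw [eq_top_iff, ← hgen, closure_le]
    intro x hx
    rw [hD] at hx
    obtain ⟨g, rfl⟩ := isConj_iff.mp (hx : IsConj d x)
    have h1 := hz g
    have h2 : QuotientGroup.mk' N (d * (g * d * g⁻¹)) = 1 :=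
      (QuotientGroup.eq_one_iff _).mpr h1
    rw [map_mul] at h2
    change QuotientGroup.mk' N (g * d * g⁻¹) ∈ zpowers (QuotientGroup.mk' N d)
    rw [← inv_eq_of_mul_eq_one_right h2]
    exact inv_mem (mem_zpowers _)
  have hconjN : ∀ g : G, ∃ n ∈ N, g * d * g⁻¹ = n * d * n⁻¹ := by
    intro g
    have hg : g ∈ (zpowers (QuotientGroup.mk' N d)).comap (QuotientGroup.mk' N) := by
      rw [hS]; trivial
    obtain ⟨k, hk⟩ := hg
    refine ⟨g * (d ^ k)⁻¹, ?_, ?_⟩
    · rw [← QuotientGroup.eq_one_iff]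
      have : QuotientGroup.mk' N (g * (d ^ k)⁻¹) = 1 := by
        rw [map_mul, map_inv, map_zpow]
        simp only at hk
        rw [hk, mul_inv_cancel]
      exact this
    · rw [mul_inv_rev, inv_inv]
      have hc : (d ^ k)⁻¹ * d * d ^ k = d := by
        rw [((Commute.refl d).zpow_left k).inv_left.eq]
        rw [mul_assoc, inv_mul_cancel, mul_one]
      calc g * d * g⁻¹ = g * ((d ^ k)⁻¹ * d * d ^ k) * g⁻¹ := by rw [hc]
        _ = _ := by group
  have htop : P ⊔ zpowers d = ⊤ := by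
    rw [eq_top_iff, ← hgen, closure_le]
    intro x hx
    rw [hD] at hx
    obtain ⟨g, rfl⟩ := isConj_iff.mp (hx : IsConj d x)
    obtain ⟨n, hn, hn2⟩ := hconjN g
    obtain ⟨u, hu, hu2⟩ := hP4 n hn
    rw [hn2, hu2]
    have h1 : u ∈ P ⊔ zpowers d := mem_sup_left hu
    exact mul_mem (mul_mem h1 (mem_sup_right (mem_zpowers d))) (inv_mem h1)
  have hPn : P.Normal := by
    rw [← normalizer_eq_top_iff, eq_top_iff, ← htop, sup_le_iff]
    refine ⟨le_normalizer, ?_⟩
    rw [zpowers_le, mem_normalizer_iff]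
    intro h
    refine ⟨hP3 h, fun hh => ?_⟩
    have h2 := hP3 _ hh
    have h3 : d * (d * h * d⁻¹) * d⁻¹ = h := by
      rw [inv_eq_of_mul_eq_one_left hdd]
      calc d * (d * h * d) * d = (d * d) * h * (d * d) := by group
        _ = h := by rw [hdd]; group
    rwa [h3] at h2
  exact ⟨P, hPn, hP1, Subgroup.Normal.commutator_le_of_self_sup_commutative_eq_top htop inferInstance⟩

theorem nilpotent (p : ℕ) (hp : p.Prime) (hodd : p ≠ 2) {D : Set G}
    (hinv : ∀ d ∈ D, orderOf d = 2) (hconj : ∃ d ∈ D, D = conjugatesOf d)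
    (hgen : Subgroup.closure D = ⊤)
    (hprod : ∀ x ∈ D, ∀ y ∈ D, x ≠ y → ∃ k : ℕ, orderOf (x * y) = p ^ k) :
    Group.IsNilpotent ↥(commutator G) := by
  have : Fact p.Prime := ⟨hp⟩
  obtain ⟨P, -, hP, hle⟩ := conclusion p hp hodd hinv hconj hgen hprod
  exact (hP.to_le hle).isNilpotent

end H33.Fischer1
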