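import Mathlib
import Cfsg.Agent.Lib.H90.ThreeTransI

/-!
Three-transposition groups without solvable normal subgroups and with perfect derived group:
transitivity on commuting pairs, and the normaliser of a basis.
-/

set_option autoImplicit false

open Subgroup Cfsg
open scoped Pointwise commutatorElement

namespace H33.Fischer2

open H90.ThreeTrans H90.ThreeTransB H90.WidthOne H90.ThreeTransC H90.ThreeTransE H90.ThreeTransF
  H90.ThreeTransG H90.ThreeTransH

variable {G : Type*} [Group G] [Finite G] {D : Set G}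

omit [Finite G] in
/-- a perfect solvable subgroup is trivial -/
theorem eq_bot_of_perfect {M : Subgroup G} (hs : Group.IsSolvable M) (hp : ⁅M, M⁆ = M) : M = ⊥ := by
  by_contra hne
  have : Nontrivial M := (Subgroup.nontrivial_iff_ne_bot M).mpr hne
  have h1 := Group.IsSolvable.commutator_lt_top_of_nontrivial (G := M)
  apply h1.ne
  apply Subgroup.map_injective M.subtype_injective
  rw [_root_.commutator_def, Subgroup.map_commutator, ← MonoidHom.range_eq_map, Subgroup.range_subtype, hp]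

/-- the index of the quasisimple normal subgroup -/
theorem index_le_two (hperf : ⁅commutator G, commutator G⁆ = commutator G)
    (hD : IsThreeTranspositionClass D) {L : Subgroup G} (nL : L.Normal) (hL : IsQuasisimple L) :
    L.index ≤ 2 := by
  classical
  have hG := group_of_class hD
  set f := QuotientGroup.mk' L with hf
  have hfs : Function.Surjective f := QuotientGroup.mk'_surjective L
  set E : Set (G ⧸ L) := f '' D with hE
  have hgenE : closure E = ⊤ := by
    rw [hE, ← MonoidHom.map_closure, hG.2.2, ← MonoidHom.range_eq_map, MonoidHom.range_eq_top.mpr hfs]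
  have hkei : Kei E := by
    refine ⟨?_, ?_, ?_⟩
    · rintro _ ⟨a, ha, rfl⟩
      rw [← map_mul, mul_self hG.1 ha, map_one]
    · rintro _ ⟨a, ha, rfl⟩ _ ⟨b, hb, rfl⟩
      exact ⟨a * b * a, mul_mul_mem hG ha hb, by simp⟩
    · rintro _ ⟨a, ha, rfl⟩ _ ⟨b, hb, rfl⟩
      by_cases hc : Commute a b
      · have h1 : a * b * a⁻¹ * b⁻¹ = 1 := by rw [hc.eq]; group
        have h2 := width_mod hD nL hL ha hb (by rw [h1]; exact one_mem L)
        have h3 : f a = f b := by
          exact QuotientGroup.eq.mpr h2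
        rw [h3]
      · rw [← map_mul, ← map_mul, braid hG.1 ha hb hc]
        simp
  have hR := hkei.isPGroup
  set R := closure {x : G ⧸ L | ∃ a ∈ E, ∃ b ∈ E, x = a * b} with hRdef
  have hconjE : ∀ g : G ⧸ L, ∀ x ∈ E, g * x * g⁻¹ ∈ E := by
    rintro g _ ⟨a, ha, rfl⟩
    obtain ⟨g, rfl⟩ := hfs g
    exact ⟨g * a * g⁻¹, conj_mem hG g ha, by simp⟩
  have nR : R.Normal := by
    apply normal_closure_of_conj
    rintro g _ ⟨a, ha, b, hb, rfl⟩
    exact ⟨_, hconjE g a ha, _, hconjE g b hb, by group⟩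
  obtain ⟨d, hd, hDd⟩ := hD.2.1
  have hfd : f d ∈ E := ⟨d, hd, rfl⟩
  have htop : R ⊔ zpowers (f d) = ⊤ := by
    rw [eq_top_iff, ← hgenE, closure_le]
    intro a ha
    have h1 : a = (a * f d) * f d := by
      rw [mul_assoc, hkei.inv _ hfd, mul_one]
    rw [h1]
    exact mul_mem (mem_sup_left (subset_closure ⟨a, ha, _, hfd, rfl⟩)) (mem_sup_right (mem_zpowers _))
  have hle : commutator (G ⧸ L) ≤ R :=
    Subgroup.Normal.commutator_le_of_self_sup_commutative_eq_top htop inferInstance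
  have h3 : Fact (Nat.Prime 3) := ⟨Nat.prime_three⟩
  have hsolv : Group.IsSolvable (commutator (G ⧸ L)) := by
    have : Group.IsNilpotent (commutator (G ⧸ L)) := (hR.to_le hle).isNilpotent
    infer_instance
  have hmap : (commutator G).map f = commutator (G ⧸ L) := by
    rw [_root_.commutator_def, Subgroup.map_commutator, ← MonoidHom.range_eq_map,
      MonoidHom.range_eq_top.mpr hfs]
    rfl
  have hbot : commutator (G ⧸ L) = ⊥ := by
    apply eq_bot_of_perfect hsolv
    rw [← hmap, ← Subgroup.map_commutator, hperf]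
  -- the quotient is abelian, so generated by `f d`
  have hcomm : ∀ x y : G ⧸ L, x * y = y * x := by
    intro x y
    have h1 : ⁅x, y⁆ ∈ commutator (G ⧸ L) := commutator_mem_commutator (mem_top _) (mem_top _)
    rw [hbot, mem_bot, commutatorElement_eq_one_iff_mul_comm] at h1
    exact h1
  have hz : zpowers (f d) = ⊤ := by
    rw [eq_top_iff, ← hgenE, closure_le]
    rintro _ ⟨a, ha, rfl⟩
    obtain ⟨g, rfl⟩ := exists_conj_eq hD hd ha
    rw [map_mul, map_mul, map_inv, hcomm (f g), mul_inv_cancel_right]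
    exact mem_zpowers _
  have hcard : Nat.card (G ⧸ L) ≤ 2 := by
    have h1 : Nat.card (zpowers (f d)) = Nat.card (G ⧸ L) := by
      rw [hz]; exact Nat.card_congr Subgroup.topEquiv.toEquiv
    rw [← h1, Nat.card_zpowers]
    have h2 : f d ^ 2 = 1 := by rw [pow_two, hkei.inv _ hfd]
    exact Nat.le_of_dvd (by norm_num) (orderOf_dvd_of_pow_eq_one h2)
  exact hcard

omit [Finite G] in
/-- a path of non-commuting members of `D_x` is realised in the centralizer of `x` -/
theorem exists_conj_of_pth (hG : IsThreeTranspositionGroup D) {x e f : G} (h : Pth (Dn D x) e f) :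
    ∃ g : G, g * x * g⁻¹ = x ∧ g * e * g⁻¹ = f := by
  unfold Pth at h
  induction h with
  | refl => exact ⟨1, by simp, by simp⟩
  | @tail u v _ hstep ih =>
    obtain ⟨g, hgx, hg⟩ := ih
    obtain ⟨hu, hv, hc⟩ := hstep
    have hb := braid hG.1 hu.1 hv.1 hc
    have iu := inv_eq hG.1 hu.1
    have iv := inv_eq hG.1 hv.1
    have su := mul_self hG.1 hu.1
    have sv := mul_self hG.1 hv.1
    have hcx : (u * v) * x = x * (u * v) := by
      rw [mul_assoc, ← hv.2.2.eq, ← mul_assoc, ← hu.2.2.eq, mul_assoc]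
    refine ⟨(u * v) * g, ?_, ?_⟩
    · calc (u * v) * g * x * ((u * v) * g)⁻¹ = (u * v) * (g * x * g⁻¹) * (u * v)⁻¹ := by group
        _ = x := by rw [hgx, hcx, mul_inv_cancel_right]
    · calc (u * v) * g * e * ((u * v) * g)⁻¹ = (u * v) * (g * e * g⁻¹) * (v⁻¹ * u⁻¹) := by group
        _ = (u * v * u) * (v * u) := by rw [hg, iu, iv]
        _ = v * u * v * (v * u) := by rw [hb]
        _ = v * u * (v * v) * u := by group
        _ = v * (u * u) := by rw [sv]; group
        _ = v := by rw [su, mul_one]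

omit [Finite G] in
theorem exists_closure_conj_of_pth (hG : IsThreeTranspositionGroup D) {x e f : G}
    (h : Pth (Dn D x) e f) : ∃ g ∈ closure (Dn D x), g * e * g⁻¹ = f := by
  unfold Pth at h
  induction h with
  | refl => exact ⟨1, one_mem _, by simp⟩
  | @tail u v _ hstep ih =>
    obtain ⟨g, hgx, hg⟩ := ih
    obtain ⟨hu, hv, hc⟩ := hstep
    have hb := braid hG.1 hu.1 hv.1 hc
    have iu := inv_eq hG.1 hu.1
    have iv := inv_eq hG.1 hv.1
    have su := mul_self hG.1 hu.1
    have sv := mul_self hG.1 hv.1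
    refine ⟨(u * v) * g, mul_mem (mul_mem (subset_closure hu) (subset_closure hv)) hgx, ?_⟩
    calc (u * v) * g * e * ((u * v) * g)⁻¹ = (u * v) * (g * e * g⁻¹) * (v⁻¹ * u⁻¹) := by group
      _ = (u * v * u) * (v * u) := by rw [hg, iu, iv]
      _ = v * u * v * (v * u) := by rw [hb]
      _ = v * u * (v * v) * u := by group
      _ = v * (u * u) := by rw [sv]; group
      _ = v := by rw [su, mul_one]

/-- the members of `D_x` are joined by non-commuting paths -/
theorem pth_of_mem (hsol : ∀ N : Subgroup G, N.Normal → Group.IsSolvable ↥N → N = ⊥)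
    (hperf : ⁅commutator G, commutator G⁆ = commutator G) (hD : IsThreeTranspositionClass D)
    {x e f : G} (hx : x ∈ D) (he : e ∈ Dn D x) (hf : f ∈ Dn D x) : Pth (Dn D x) e f := by
  have hG := group_of_class hD
  have hD2 : ∃ a ∈ D, ∃ b ∈ D, a ≠ b := ⟨x, hx, e, he.1, he.2.1.symm⟩
  have hO : ∀ p : ℕ, p.Prime → pCore p G = ⊥ := by
    intro p hp
    have : Fact p.Prime := ⟨hp⟩
    have hn : (pCore p G).Normal := Subgroup.sSup_normal _ fun N hN => hN.1
    refine hsol _ hn ?_
    have : Group.IsNilpotent (pCore p G) := (H1.Cores.isPGroup_pCore p).isNilpotent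
    infer_instance
  have h2 : pCore 2 G ≤ Subgroup.center G := by rw [hO 2 Nat.prime_two]; exact bot_le
  have h3 : pCore 3 G ≤ Subgroup.center G := by rw [hO 3 Nat.prime_three]; exact bot_le
  obtain ⟨L, nL, hL, -⟩ := exists_quasisimple hD hD2 h2 h3
  have hi := index_le_two hperf hD nL hL
  have hprim : ∀ B : Set G, B ⊆ D → IsBlock B → B.Subsingleton ∨ B = D :=
    fun B hBD hB => block_trivial hD hD2 h2 h3 nL hL hi hB hBD
  have triv : ∀ x ∈ D, ∀ y ∈ D, ∀ p : ℕ, p.Prime → x * y ∈ pCore p G → x = y := by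
    intro x hx y hy p hp h
    rw [hO p hp, mem_bot] at h
    rw [eq_inv_of_mul_eq_one_left h, inv_eq hG.1 hy]
  have hV : ∀ x ∈ D, ∀ y ∈ D, VRel D x y → x = y :=
    fun x hx y hy h => triv x hx y hy 2 Nat.prime_two (vpair_mem hG hx hy h)
  have hW : ∀ x ∈ D, ∀ y ∈ D, WRel D x y → x = y :=
    fun x hx y hy h => triv x hx y hy 3 Nat.prime_three (wpair_mem hG hx hy h)
  exact (single_comp hD hprim hV hW hx he hf).2

/-- transitivity on ordered commuting pairs -/
theorem exists_conj_pair (hsol : ∀ N : Subgroup G, N.Normal → Group.IsSolvable ↥N → N = ⊥)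
    (hperf : ⁅commutator G, commutator G⁆ = commutator G) (hD : IsThreeTranspositionClass D)
    {a b c d : G} (ha : a ∈ D) (hb : b ∈ D) (hc : c ∈ D) (hd : d ∈ D) (hab : Commute a b)
    (hcd : Commute c d) (nab : a ≠ b) (ncd : c ≠ d) :
    ∃ g : G, g * a * g⁻¹ = c ∧ g * b * g⁻¹ = d := by
  have hG := group_of_class hD
  obtain ⟨g, hg⟩ := exists_conj_eq hD ha hc
  have hb' : g * b * g⁻¹ ∈ Dn D c := by
    refine ⟨conj_mem hG g hb, ?_, ?_⟩
    · rw [← hg]
      intro h
      exact nab (conj_inj g h).symm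
    · rw [← hg]
      exact hab.map (MulAut.conj g).toMonoidHom
  have hd' : d ∈ Dn D c := ⟨hd, ncd.symm, hcd⟩
  obtain ⟨h, hh1, hh2⟩ := exists_conj_of_pth hG (pth_of_mem hsol hperf hD hc hb' hd')
  refine ⟨h * g, ?_, ?_⟩
  · rw [← hh1, ← hg]; group
  · rw [← hh2]; group

/-- maximal commuting sets are the traces of the 2-subgroups containing them -/
theorem trace_eq (hG : IsThreeTranspositionGroup D) {E : Set G} (hE : E ⊆ D)
    (hmax : ∀ E' : Set G, E' ⊆ D → (∀ a ∈ E', ∀ b ∈ E', Commute a b) → E'.ncard ≤ E.ncard)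
    (T : Subgroup G) (hT : IsPGroup 2 T) (hET : E ⊆ T) : E = {x | x ∈ D ∧ x ∈ T} := by
  refine Set.eq_of_subset_of_ncard_le (s := E) (t := {x | x ∈ D ∧ x ∈ T})
    (fun x hx => ⟨hE hx, hET hx⟩) ?_ (Set.toFinite _)
  exact hmax _ (fun x hx => hx.1) fun a ha b hb => commute_of_mem_two_group hG T hT ha.1 hb.1 ha.2 hb.2

theorem mem_normalizer_of_image_subset {E : Set G} {g : G} (h : ∀ x ∈ E, g * x * g⁻¹ ∈ E) :
    g ∈ Subgroup.normalizer E := by
  have h1 : (fun x => g * x * g⁻¹) '' E = E := by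
    apply Set.eq_of_subset_of_ncard_le
    · rintro _ ⟨x, hx, rfl⟩; exact h x hx
    · rw [Set.ncard_image_of_injective _ (conj_inj g)]
    · exact Set.toFinite _
  change ∀ n, n ∈ E ↔ g * n * g⁻¹ ∈ E
  intro x
  refine ⟨h x, fun hx => ?_⟩
  rw [← h1] at hx
  obtain ⟨y, hy, hxy⟩ := hx
  exact (conj_inj g hxy) ▸ hy

theorem main (hsol : ∀ N : Subgroup G, N.Normal → Group.IsSolvable ↥N → N = ⊥)
    (hperf : ⁅commutator G, commutator G⁆ = commutator G) (hD : IsThreeTranspositionClass D)
    {E : Set G} (hE : E ⊆ D) (hc : ∀ a ∈ E, ∀ b ∈ E, Commute a b)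
    (hmax : ∀ E' : Set G, E' ⊆ D → (∀ a ∈ E', ∀ b ∈ E', Commute a b) → E'.ncard ≤ E.ncard) :
    (∃ P : Sylow 2 G, (P : Subgroup G) ≤ Subgroup.normalizer E) ∧
      ∀ a ∈ E, ∀ b ∈ E, ∀ c ∈ E, ∀ d ∈ E, a ≠ b → c ≠ d →
        ∃ g ∈ Subgroup.normalizer E, g * a * g⁻¹ = c ∧ g * b * g⁻¹ = d := by
  have hG := group_of_class hD
  refine ⟨?_, ?_⟩
  · obtain ⟨P, hP⟩ := (isPGroup_closure_of_commute hG hE hc).exists_le_sylow
    refine ⟨P, fun g hg => ?_⟩
    apply mem_normalizer_of_image_subset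
    intro x hx
    have h1 := trace_eq hG hE hmax P P.2 (fun x hx => hP (subset_closure hx))
    rw [h1] at hx ⊢
    exact ⟨conj_mem hG g hx.1, mul_mem (mul_mem hg hx.2) (inv_mem hg)⟩
  · intro a ha b hb c hcE d hd nab ncd
    obtain ⟨g, hg1, hg2⟩ := exists_conj_pair hsol hperf hD (hE ha) (hE hb) (hE hcE) (hE hd)
      (hc a ha b hb) (hc c hcE d hd) nab ncd
    set H : Subgroup G := centralizer {c, d} with hH
    have hclE : closure E ≤ H := by
      rw [closure_le]
      intro x hx
      rw [SetLike.mem_coe, mem_centralizer_iff]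
      rintro y (rfl | rfl)
      · exact (hc _ hcE x hx).eq
      · exact (hc _ hd x hx).eq
    set E' : Set G := (fun x => g * x * g⁻¹) '' E with hE'
    have hE'D : E' ⊆ D := by
      rintro _ ⟨x, hx, rfl⟩; exact conj_mem hG g (hE hx)
    have hE'c : ∀ a ∈ E', ∀ b ∈ E', Commute a b := by
      rintro _ ⟨x, hx, rfl⟩ _ ⟨y, hy, rfl⟩
      exact (hc x hx y hy).map (MulAut.conj g).toMonoidHom
    have hcE' : c ∈ E' := ⟨a, ha, hg1⟩
    have hdE' : d ∈ E' := ⟨b, hb, hg2⟩
    have hclE' : closure E' ≤ H := by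
      rw [closure_le]
      intro x hx
      rw [SetLike.mem_coe, mem_centralizer_iff]
      rintro y (rfl | rfl)
      · exact (hE'c _ hcE' x hx).eq
      · exact (hE'c _ hdE' x hx).eq
    have p1 : IsPGroup 2 ((closure E).subgroupOf H) :=
      (isPGroup_closure_of_commute hG hE hc).of_equiv (subgroupOfEquivOfLe hclE).symm
    have p2 : IsPGroup 2 ((closure E').subgroupOf H) :=
      (isPGroup_closure_of_commute hG hE'D hE'c).of_equiv (subgroupOfEquivOfLe hclE').symm
    obtain ⟨T1, hT1⟩ := p1.exists_le_sylow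
    obtain ⟨T2, hT2⟩ := p2.exists_le_sylow
    obtain ⟨h, hh⟩ := MulAction.exists_smul_eq H T2 T1
    have hET : E ⊆ ((T1 : Subgroup H).map H.subtype : Subgroup G) := by
      intro x hx
      have hxH : x ∈ H := hclE (subset_closure hx)
      refine ⟨⟨x, hxH⟩, hT1 ?_, rfl⟩
      exact subset_closure hx
    have htr := trace_eq hG hE hmax ((T1 : Subgroup H).map H.subtype) (T1.2.map _) hET
    have hhc : ∀ y ∈ ({c, d} : Set G), (h : G) * y * (h : G)⁻¹ = y := by
      intro y hy
      have := (mem_centralizer_iff.mp h.2) y hy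
      rw [← this, mul_inv_cancel_right]
    refine ⟨h * g, ?_, ?_, ?_⟩
    · apply mem_normalizer_of_image_subset
      intro x hx
      rw [htr]
      have hx' : g * x * g⁻¹ ∈ E' := ⟨x, hx, rfl⟩
      have hxe : (h : G) * g * x * ((h : G) * g)⁻¹ = h * (g * x * g⁻¹) * (h : G)⁻¹ := by group
      rw [hxe]
      refine ⟨conj_mem hG _ (hE'D hx'), ?_⟩
      have hxH : g * x * g⁻¹ ∈ H := hclE' (subset_closure hx')
      have hx2 : (⟨g * x * g⁻¹, hxH⟩ : H) ∈ T2 := hT2 (subset_closure hx' : _)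
      have hx3 : h * ⟨g * x * g⁻¹, hxH⟩ * h⁻¹ ∈ T1 := by
        rw [← hh]
        exact ⟨_, hx2, rfl⟩
      exact ⟨_, hx3, rfl⟩
    · calc (h : G) * g * a * ((h : G) * g)⁻¹ = h * (g * a * g⁻¹) * (h : G)⁻¹ := by group
        _ = c := by rw [hg1]; exact hhc c (by simp)
    · calc (h : G) * g * b * ((h : G) * g)⁻¹ = h * (g * b * g⁻¹) * (h : G)⁻¹ := by group
        _ = d := by rw [hg2]; exact hhc d (by simp)

end H33.Fischer2
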