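import Mathlib
import Cfsg.Agent.Lib.H33.Hexa
set_option autoImplicit false
open Cfsg

/-! The hexacode over an arbitrary field with four elements. -/

namespace H33.Hexa
open H33.BitSet

section
variable {F : Type*} [Field F] (ω : F)

/-- code to field element -/
def phi (n : ℕ) : F := match n with
  | 0 => 0
  | 1 => 1
  | 2 => ω
  | 3 => ω ^ 2
  | _ => 0

variable [Fintype F] (hF : Fintype.card F = 4) (hω : ω ^ 2 + ω + 1 = 0)

include hF in
theorem two_eq_zero : (2 : F) = 0 := by
  have h : ((4 : ℕ) : F) = 0 := by rw [← hF]; exact FiniteField.cast_card_eq_zero F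
  have h2 : (2 : F) * 2 = 0 := by rw [← h]; norm_num
  rcases mul_eq_zero.1 h2 with h | h <;> exact h

include hω in
theorem w_ne_zero : ω ≠ 0 := by
  rintro rfl; simp at hω

include hF hω in
theorem w_ne_one : ω ≠ 1 := by
  rintro rfl
  have := two_eq_zero hF
  have h3 : (1 : F) = 0 := by linear_combination hω - this
  exact one_ne_zero h3

include hω in
theorem w_cube : ω ^ 3 = 1 := by linear_combination (ω - 1) * hω

include hF hω in
theorem w_sq : ω ^ 2 = ω + 1 := by
  have := two_eq_zero hF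
  linear_combination hω - (ω + 1) * this

include hF hω in
theorem phi_inj : ∀ a < 4, ∀ b < 4, phi ω a = phi ω b → a = b := by
  have h2 := two_eq_zero hF
  have h0 := w_ne_zero ω hω
  have h1 := w_ne_one ω hF hω
  have hs := w_sq ω hF hω
  have h3 : ω ^ 2 ≠ 0 := pow_ne_zero 2 h0
  have h4 : ω ^ 2 ≠ 1 := by rw [hs]; intro h; apply h0; linear_combination h
  have h5 : ω ^ 2 ≠ ω := by
    intro h; apply h1; apply mul_right_cancel₀ h0; linear_combination h
  intro a ha b hb h
  interval_cases a <;> interval_cases b <;> simp only [phi] at h <;>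
    first
      | rfl
      | exact absurd h zero_ne_one
      | exact absurd h.symm zero_ne_one
      | exact absurd h h0
      | exact absurd h.symm h0
      | exact absurd h h1
      | exact absurd h.symm h1
      | exact absurd h h3
      | exact absurd h.symm h3
      | exact absurd h h4
      | exact absurd h.symm h4
      | exact absurd h h5
      | exact absurd h.symm h5

include hF hω in
theorem phi_surj (x : F) : ∃ a < 4, phi ω a = x := by
  have hinj : Function.Injective (fun a : Fin 4 => phi ω (a : ℕ)) := fun a b h =>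
    Fin.ext (phi_inj ω hF hω a a.2 b b.2 h)
  have hbij := (Fintype.bijective_iff_injective_and_card (fun a : Fin 4 => phi ω (a : ℕ))).2
    ⟨hinj, by rw [hF]; simp⟩
  obtain ⟨a, ha⟩ := hbij.2 x
  exact ⟨a, a.2, ha⟩

include hF hω in
theorem phi_add : ∀ a < 4, ∀ b < 4, phi ω (addN a b) = phi ω a + phi ω b := by
  have h2 := two_eq_zero hF
  have hs := w_sq ω hF hω
  intro a ha b hb
  interval_cases a <;> interval_cases b <;> simp only [addN, show Nat.xor 0 0 = 0 from rfl,
    show Nat.xor 0 1 = 1 from rfl, show Nat.xor 0 2 = 2 from rfl, show Nat.xor 0 3 = 3 from rfl,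
    show Nat.xor 1 0 = 1 from rfl, show Nat.xor 1 1 = 0 from rfl, show Nat.xor 1 2 = 3 from rfl,
    show Nat.xor 1 3 = 2 from rfl, show Nat.xor 2 0 = 2 from rfl, show Nat.xor 2 1 = 3 from rfl,
    show Nat.xor 2 2 = 0 from rfl, show Nat.xor 2 3 = 1 from rfl, show Nat.xor 3 0 = 3 from rfl,
    show Nat.xor 3 1 = 2 from rfl, show Nat.xor 3 2 = 1 from rfl, show Nat.xor 3 3 = 0 from rfl, phi, hs] <;>
    first
      | ring1
      | linear_combination -h2
      | linear_combination -ω * h2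
      | linear_combination -(ω + 1) * h2

include hω in
theorem phi_mul : ∀ a < 4, ∀ b < 4, phi ω (mulN a b) = phi ω a * phi ω b := by
  have h3 := w_cube ω hω
  intro a ha b hb
  interval_cases a <;> interval_cases b <;> simp only [show mulN 0 0 = 0 from rfl,
    show mulN 0 1 = 0 from rfl, show mulN 0 2 = 0 from rfl, show mulN 0 3 = 0 from rfl,
    show mulN 1 0 = 0 from rfl, show mulN 1 1 = 1 from rfl, show mulN 1 2 = 2 from rfl,
    show mulN 1 3 = 3 from rfl, show mulN 2 0 = 0 from rfl, show mulN 2 1 = 2 from rfl,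
    show mulN 2 2 = 3 from rfl, show mulN 2 3 = 1 from rfl, show mulN 3 0 = 0 from rfl,
    show mulN 3 1 = 3 from rfl, show mulN 3 2 = 1 from rfl, show mulN 3 3 = 2 from rfl, phi] <;>
    first
      | ring1
      | linear_combination -h3
      | linear_combination -ω * h3

theorem addN_lt : ∀ a < 4, ∀ b < 4, addN a b < 4 := by decide
theorem mulN_lt : ∀ a < 4, ∀ b < 4, mulN a b < 4 := by decide

theorem digit_lt (w i : ℕ) : digit w i < 4 := by
  unfold digit
  have : Nat.land (Nat.shiftRight w (2 * i)) 3 = (Nat.shiftRight w (2 * i)) % 4 :=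
    Nat.and_two_pow_sub_one_eq_mod _ 2
  rw [this]; exact Nat.mod_lt _ (by norm_num)

theorem digit_eq (w i : ℕ) : digit w i = w / 4 ^ i % 4 := by
  unfold digit
  have : Nat.land (Nat.shiftRight w (2 * i)) 3 = (Nat.shiftRight w (2 * i)) % 4 :=
    Nat.and_two_pow_sub_one_eq_mod _ 2
  rw [this]
  congr 1
  have h : Nat.shiftRight w (2 * i) = w / 2 ^ (2 * i) := Nat.shiftRight_eq_div_pow _ _
  rw [h, pow_mul]; norm_num

theorem digit_pack (f : ℕ → ℕ) (hf : ∀ i < 6, f i < 4) : ∀ i < 6, digit (pack f) i = f i := by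
  intro i hi
  rw [digit_eq]
  unfold pack
  have h0 := hf 0 (by norm_num)
  have h1 := hf 1 (by norm_num)
  have h2 := hf 2 (by norm_num)
  have h3 := hf 3 (by norm_num)
  have h4 := hf 4 (by norm_num)
  have h5 := hf 5 (by norm_num)
  interval_cases i <;> norm_num <;> omega

theorem pack_lt (f : ℕ → ℕ) (hf : ∀ i < 6, f i < 4) : pack f < 4096 := by
  unfold pack
  have h0 := hf 0 (by norm_num)
  have h1 := hf 1 (by norm_num)
  have h2 := hf 2 (by norm_num)
  have h3 := hf 3 (by norm_num)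
  have h4 := hf 4 (by norm_num)
  have h5 := hf 5 (by norm_num)
  omega

theorem eq_of_digit {w w' : ℕ} (hw : w < 4096) (hw' : w' < 4096) (h : ∀ i < 6, digit w i = digit w' i) :
    w = w' := by
  have h0 := h 0 (by norm_num)
  have h1 := h 1 (by norm_num)
  have h2 := h 2 (by norm_num)
  have h3 := h 3 (by norm_num)
  have h4 := h 4 (by norm_num)
  have h5 := h 5 (by norm_num)
  rw [digit_eq, digit_eq] at h0 h1 h2 h3 h4 h5
  norm_num at h0 h1 h2 h3 h4 h5
  omega

/-- the vector with a given packed code -/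
def decW (w : ℕ) : Fin 6 → F := fun i => phi ω (digit w i)

include hF hω in
theorem decW_inj {w w' : ℕ} (hw : w < 4096) (hw' : w' < 4096) (h : decW ω w = decW ω w') : w = w' := by
  apply eq_of_digit hw hw'
  intro i hi
  exact phi_inj ω hF hω _ (digit_lt _ _) _ (digit_lt _ _) (congrFun h ⟨i, hi⟩)

include hF hω in
theorem decW_surj (x : Fin 6 → F) : ∃ w < 4096, decW ω w = x := by
  choose a ha ha' using fun i => phi_surj ω hF hω (x i)
  let f : ℕ → ℕ := fun i => if h : i < 6 then a ⟨i, h⟩ else 0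
  have hf : ∀ i < 6, f i < 4 := by
    intro i hi; simp only [f, hi, dif_pos]; exact ha _
  refine ⟨pack f, pack_lt f hf, ?_⟩
  funext i
  show phi ω (digit (pack f) i) = x i
  rw [digit_pack f hf i i.2]
  simp only [f, i.2, dif_pos]
  exact ha' i

include hF hω in
theorem decW_pack_W (n : ℕ) : decW ω (pack (W n)) =
    phi ω (digit n 0) • decW ω (gen 0) + phi ω (digit n 1) • decW ω (gen 1) + phi ω (digit n 2) • decW ω (gen 2) := by
  funext i
  have hm : ∀ j, mulN (digit n j) (digit (gen j) i) < 4 := fun j => mulN_lt _ (digit_lt _ _) _ (digit_lt _ _)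
  have hW : ∀ i < 6, W n i < 4 := fun i _ => by
    have hm : ∀ j, mulN (digit n j) (digit (gen j) i) < 4 := fun j => mulN_lt _ (digit_lt _ _) _ (digit_lt _ _)
    exact addN_lt _ (addN_lt _ (hm 0) _ (hm 1)) _ (hm 2)
  show phi ω (digit (pack (W n)) i) = _
  rw [digit_pack _ hW i i.2]
  unfold W
  rw [phi_add ω hF hω _ (addN_lt _ (hm 0) _ (hm 1)) _ (hm 2), phi_add ω hF hω _ (hm 0) _ (hm 1),
    phi_mul ω hω _ (digit_lt _ _) _ (digit_lt _ _), phi_mul ω hω _ (digit_lt _ _) _ (digit_lt _ _),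
    phi_mul ω hω _ (digit_lt _ _) _ (digit_lt _ _)]
  rfl

theorem gen_eq : (decW ω (gen 0) = ![ω, ω ^ 2, ω ^ 2, ω, ω ^ 2, ω]) ∧
    (decW ω (gen 1) = ![ω ^ 2, ω, ω, ω ^ 2, ω ^ 2, ω]) ∧
    (decW ω (gen 2) = ![ω ^ 2, ω, ω ^ 2, ω, ω, ω ^ 2]) := by
  refine ⟨?_, ?_, ?_⟩ <;> funext i <;> fin_cases i <;> rfl

include hF hω in
theorem mem_hexacode (x : Fin 6 → F) : x ∈ hexacode F ω ↔ ∃ w ∈ CL, decW ω w = x := by
  unfold hexacode
  obtain ⟨g0, g1, g2⟩ := gen_eq ω
  rw [← g0, ← g1, ← g2, Submodule.mem_span_triple]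
  constructor
  · rintro ⟨a, b, c, rfl⟩
    obtain ⟨a', ha, rfl⟩ := phi_surj ω hF hω a
    obtain ⟨b', hb, rfl⟩ := phi_surj ω hF hω b
    obtain ⟨c', hc, rfl⟩ := phi_surj ω hF hω c
    have hn : a' + 4 * b' + 16 * c' < 64 := by omega
    refine ⟨pack (W (a' + 4 * b' + 16 * c')), (memB_iff _ _).1 ((allB_iff _ _).1 CL_ok _ hn), ?_⟩
    rw [decW_pack_W ω hF hω, digit_eq, digit_eq, digit_eq]
    congr <;> norm_num <;> omega
  · rintro ⟨w, hw, rfl⟩
    have := (allL_iff _ _).1 CL_ok' w hw
    rw [Bool.and_eq_true, anyB_iff] at this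
    obtain ⟨_, n, _, hn⟩ := this
    rw [Nat.beq_eq] at hn
    subst hn
    exact ⟨_, _, _, (decW_pack_W ω hF hω n).symm⟩

theorem CL_lt {w : ℕ} (hw : w ∈ CL) : w < 4096 := by
  have := (allL_iff _ _).1 CL_ok' w hw
  rw [Bool.and_eq_true, Nat.blt_eq] at this
  exact this.1

include hF hω in
theorem wt_eq [DecidableEq F] (w : ℕ) : (Finset.univ.filter fun i : Fin 6 => decW ω w i ≠ 0).card = wt w := by
  rw [wt, countB_eq]
  have : (Finset.univ.filter fun i : Fin 6 => decW ω w i ≠ 0).image (fun i : Fin 6 => (i : ℕ)) =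
      (Finset.range 6).filter fun i => (!Nat.beq (digit w i) 0) = true := by
    ext k
    simp only [Finset.mem_image, Finset.mem_filter, Finset.mem_univ, true_and, Finset.mem_range]
    constructor
    · rintro ⟨i, hi, rfl⟩
      refine ⟨i.2, ?_⟩
      rw [Bool.not_eq_true', ← Bool.not_eq_true, Nat.beq_eq]
      intro h
      apply hi
      show phi ω (digit w i) = 0
      rw [h]; rfl
    · rintro ⟨hk, h⟩
      refine ⟨⟨k, hk⟩, ?_, rfl⟩
      rw [Bool.not_eq_true', ← Bool.not_eq_true, Nat.beq_eq] at h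
      intro h0
      exact h (phi_inj ω hF hω _ (digit_lt _ _) 0 (by norm_num) h0)
  rw [← this, Finset.card_image_of_injective _ Fin.val_injective]

include hF hω in
theorem card_hexacode : Nat.card (hexacode F ω) = 64 := by
  classical
  have h : (hexacode F ω : Set (Fin 6 → F)) = (decW ω) '' ((CL.toFinset : Finset ℕ) : Set ℕ) := by
    ext x
    rw [SetLike.mem_coe, mem_hexacode ω hF hω, Set.mem_image]
    simp
  rw [← SetLike.coe_sort_coe, Nat.card_coe_set_eq, h, Set.InjOn.ncard_image, Set.ncard_coe_finset,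
    List.toFinset_card_of_nodup CL_nodup, CL_length]
  intro a ha b hb h
  simp only [List.coe_toFinset] at ha hb
  exact decW_inj ω hF hω (CL_lt ha) (CL_lt hb) h

include hF hω in
theorem ncard_wt [DecidableEq F] (k : ℕ) :
    {x : Fin 6 → F | x ∈ hexacode F ω ∧ (Finset.univ.filter fun i => x i ≠ 0).card = k}.ncard =
      countL CL (fun w => Nat.beq (wt w) k) := by
  rw [countL_eq]
  have h : {x : Fin 6 → F | x ∈ hexacode F ω ∧ (Finset.univ.filter fun i => x i ≠ 0).card = k} =
      (decW ω) '' (((CL.filter (fun w => Nat.beq (wt w) k)).toFinset : Finset ℕ) : Set ℕ) := by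
    ext x
    rw [Set.mem_ofPred_eq, mem_hexacode ω hF hω, Set.mem_image]
    simp only [List.coe_toFinset, List.mem_filter, Nat.beq_eq, Set.mem_ofPred_eq]
    constructor
    · rintro ⟨⟨w, hw, rfl⟩, h⟩
      rw [wt_eq ω hF hω] at h
      exact ⟨w, ⟨hw, h⟩, rfl⟩
    · rintro ⟨w, ⟨hw, h⟩, rfl⟩
      rw [wt_eq ω hF hω]
      exact ⟨⟨w, hw, rfl⟩, h⟩
  rw [h, Set.InjOn.ncard_image, Set.ncard_coe_finset, List.toFinset_card_of_nodup (CL_nodup.filter _)]
  intro a ha b hb h
  simp only [List.coe_toFinset, List.mem_filter, Set.mem_ofPred_eq] at ha hb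
  exact decW_inj ω hF hω (CL_lt ha.1) (CL_lt hb.1) h

include hF hω in
theorem weights [DecidableEq F] (x : Fin 6 → F) (hx : x ∈ hexacode F ω) (h0 : x ≠ 0) :
    (Finset.univ.filter fun i => x i ≠ 0).card = 4 ∨ (Finset.univ.filter fun i => x i ≠ 0).card = 6 := by
  obtain ⟨w, hw, rfl⟩ := (mem_hexacode ω hF hω x).1 hx
  rw [wt_eq ω hF hω]
  have := (allL_iff _ _).1 CL_wt w hw
  rw [Bool.or_eq_true, Bool.or_eq_true, Nat.beq_eq, Nat.beq_eq, Nat.beq_eq] at this
  rcases this with (h | h) | h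
  · exfalso; apply h0; subst h
    funext i
    show phi ω (digit 0 i) = 0
    rw [digit_eq]; simp [phi]
  · exact Or.inl h
  · exact Or.inr h

end

end H33.Hexa
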