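import Mathlib
import Cfsg.Agent.Lib.H33.Hexa2
set_option autoImplicit false
open Cfsg

/-! The monomial group of the hexacode. -/

namespace H33.Hexa
open H33.BitSet

section
variable {F : Type*} [Field F] (ω : F)

/-- `(σ, c)` preserves the hexacode -/
def Pres (σ : Equiv.Perm (Fin 6)) (c : Fin 6 → Fˣ) : Prop :=
  ∀ x ∈ hexacode F ω, monomialMap σ c x ∈ hexacode F ω

theorem mono_mul (σ τ : Equiv.Perm (Fin 6)) (c d : Fin 6 → Fˣ) (x : Fin 6 → F) :
    monomialMap σ c (monomialMap τ d x) = monomialMap (σ * τ) (fun i => c i * d (σ.symm i)) x := by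
  funext i
  simp only [monomialMap, Units.val_mul, mul_assoc]
  rfl

theorem mono_add (σ : Equiv.Perm (Fin 6)) (c : Fin 6 → Fˣ) (x y : Fin 6 → F) :
    monomialMap σ c (x + y) = monomialMap σ c x + monomialMap σ c y := by
  funext i; simp only [monomialMap, Pi.add_apply]; ring

theorem mono_smul (σ : Equiv.Perm (Fin 6)) (c : Fin 6 → Fˣ) (a : F) (x : Fin 6 → F) :
    monomialMap σ c (a • x) = a • monomialMap σ c x := by
  funext i; simp only [monomialMap, Pi.smul_apply, smul_eq_mul]; ring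

variable {ω}

theorem Pres.mul {σ τ : Equiv.Perm (Fin 6)} {c d : Fin 6 → Fˣ} (h1 : Pres ω σ c) (h2 : Pres ω τ d) :
    Pres ω (σ * τ) (fun i => c i * d (σ.symm i)) := by
  intro x hx
  rw [← mono_mul]
  exact h1 _ (h2 _ hx)

theorem Pres.one : Pres ω 1 (fun _ => 1) := by
  intro x hx
  have : monomialMap (1 : Equiv.Perm (Fin 6)) (fun _ => (1 : Fˣ)) x = x := by
    funext i; simp only [monomialMap, Units.val_one, one_mul]; rfl
  rwa [this]

theorem Pres.scal {σ : Equiv.Perm (Fin 6)} {c : Fin 6 → Fˣ} (h1 : Pres ω σ c) (u : Fˣ) :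
    Pres ω σ (fun i => u * c i) := by
  intro x hx
  have : monomialMap σ (fun i => u * c i) x = (u : F) • monomialMap σ c x := by
    funext i; simp only [monomialMap, Units.val_mul, Pi.smul_apply, smul_eq_mul]; ring
  rw [this]
  exact Submodule.smul_mem _ _ (h1 x hx)

variable (ω)

/-- the permutation parts form a group -/
def PG : Subgroup (Equiv.Perm (Fin 6)) where
  carrier := {σ | ∃ c, Pres ω σ c}
  one_mem' := ⟨_, Pres.one⟩
  mul_mem' := by
    rintro σ τ ⟨c, hc⟩ ⟨d, hd⟩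
    exact ⟨_, hc.mul hd⟩
  inv_mem' := by
    rintro σ ⟨c, hc⟩
    have hpow : ∀ n : ℕ, ∃ d, Pres ω (σ ^ n) d := by
      intro n
      induction n with
      | zero => exact ⟨_, by rw [pow_zero]; exact Pres.one⟩
      | succ n ih =>
        obtain ⟨d, hd⟩ := ih
        exact ⟨_, by rw [pow_succ]; exact hd.mul hc⟩
    have : σ⁻¹ = σ ^ (orderOf σ - 1) := by
      rw [inv_eq_iff_mul_eq_one]
      have h1 : 0 < orderOf σ := orderOf_pos σ
      calc σ * σ ^ (orderOf σ - 1) = σ ^ (orderOf σ - 1 + 1) := by rw [pow_succ']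
        _ = 1 := by rw [Nat.sub_add_cancel h1, pow_orderOf_eq_one]
    show ∃ d, Pres ω σ⁻¹ d
    rw [this]
    exact hpow _

theorem mem_PG (σ : Equiv.Perm (Fin 6)) : σ ∈ PG ω ↔ ∃ c, Pres ω σ c := Iff.rfl

variable [Fintype F] (hF : Fintype.card F = 4) (hω : ω ^ 2 + ω + 1 = 0)

theorem pres_of_gens (σ : Equiv.Perm (Fin 6)) (c : Fin 6 → Fˣ)
    (h : ∀ j < 3, monomialMap σ c (decW ω (gen j)) ∈ hexacode F ω) : Pres ω σ c := by
  intro x hx
  have hx' := hx
  unfold hexacode at hx'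
  obtain ⟨g0, g1, g2⟩ := gen_eq ω
  rw [← g0, ← g1, ← g2, Submodule.mem_span_triple] at hx'
  obtain ⟨a, b, d, rfl⟩ := hx'
  rw [mono_add, mono_add, mono_smul, mono_smul, mono_smul]
  exact Submodule.add_mem _ (Submodule.add_mem _ (Submodule.smul_mem _ _ (h 0 (by norm_num)))
    (Submodule.smul_mem _ _ (h 1 (by norm_num)))) (Submodule.smul_mem _ _ (h 2 (by norm_num)))

include hF hω in
theorem phi_ne_zero {a : ℕ} (ha : a < 4) (h : a ≠ 0) : phi ω a ≠ 0 := fun h0 =>
  h (phi_inj ω hF hω a ha 0 (by norm_num) h0)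

include hF hω in
theorem exists_elt (e : ℕ × ℕ × ℕ) (he : okE e = true) :
    ∃ σ ∈ PG ω, ∀ p : Fin 6, ((σ p : Fin 6) : ℕ) = imgN e.1 p := by
  unfold okE at he
  rw [Bool.and_eq_true, Bool.and_eq_true, Bool.and_eq_true] at he
  obtain ⟨⟨⟨h1, h2⟩, h3⟩, h4⟩ := he
  rw [allB_iff] at h1 h2 h3 h4
  have h1' : ∀ k < 6, imgN e.1 k < 6 := fun k hk => by
    have := h1 k hk; rwa [Nat.blt_eq] at this
  have hsurj : Function.Surjective (fun p : Fin 6 => (⟨imgN e.1 p, h1' p p.2⟩ : Fin 6)) := by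
    intro q
    have := h2 q q.2
    rw [anyB_iff] at this
    obtain ⟨k, hk, h⟩ := this
    rw [Nat.beq_eq] at h
    exact ⟨⟨k, hk⟩, Fin.ext h⟩
  let σ : Equiv.Perm (Fin 6) := Equiv.ofBijective _ ⟨Finite.injective_iff_surjective.2 hsurj, hsurj⟩
  have hσ : ∀ p : Fin 6, ((σ p : Fin 6) : ℕ) = imgN e.1 p := fun p => rfl
  have hc : ∀ q : Fin 6, phi ω (digit e.2.1 q) ≠ 0 := by
    intro q
    have := h3 q q.2
    rw [Bool.not_eq_true', ← Bool.not_eq_true, Nat.beq_eq] at this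
    exact phi_ne_zero ω hF hω (digit_lt _ _) this
  refine ⟨σ, ⟨fun q => Units.mk0 _ (hc q), ?_⟩, hσ⟩
  apply pres_of_gens
  intro j hj
  rw [mem_hexacode ω hF hω]
  have hn : Nat.land (Nat.shiftRight e.2.2 (6 * j)) 63 < 64 := by
    have : Nat.land (Nat.shiftRight e.2.2 (6 * j)) 63 = (Nat.shiftRight e.2.2 (6 * j)) % 64 :=
      Nat.and_two_pow_sub_one_eq_mod _ 6
    rw [this]; exact Nat.mod_lt _ (by norm_num)
  refine ⟨pack (W (Nat.land (Nat.shiftRight e.2.2 (6 * j)) 63)),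
    (memB_iff _ _).1 ((allB_iff _ _).1 CL_ok _ hn), ?_⟩
  funext q
  obtain ⟨p, rfl⟩ := σ.surjective q
  have h5 := (allB_iff _ _).1 (h4 j hj) p p.2
  rw [Nat.beq_eq] at h5
  have hW : ∀ n, ∀ i < 6, W n i < 4 := fun n i _ => by
    have hm : ∀ j, mulN (digit n j) (digit (gen j) i) < 4 := fun j => mulN_lt _ (digit_lt _ _) _ (digit_lt _ _)
    exact addN_lt _ (addN_lt _ (hm 0) _ (hm 1)) _ (hm 2)
  show phi ω (digit (pack (W _)) (σ p : Fin 6)) = phi ω (digit e.2.1 (σ p : Fin 6)) *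
    phi ω (digit (gen j) ((σ.symm (σ p) : Fin 6) : ℕ))
  rw [digit_pack _ (hW _) _ (Fin.is_lt _), Equiv.symm_apply_apply, hσ, h5,
    phi_mul ω hω _ (digit_lt _ _) _ (digit_lt _ _)]

include hF hω in
theorem level (i : ℕ) (hi : i < 4) (q : Fin 6) (hq : i ≤ (q : ℕ)) :
    ∃ σ ∈ PG ω, (∀ j : Fin 6, (j : ℕ) < i → σ j = j) ∧ ∀ j : Fin 6, (j : ℕ) = i → σ j = q := by
  have h := (allB_iff _ _).1 trans_cover i hi
  have h := (allB_iff _ _).1 h q q.2
  rw [Bool.or_eq_true, anyL_iff] at h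
  rcases h with h | ⟨e, he, h⟩
  · rw [Nat.blt_eq] at h; omega
  · rw [Bool.and_eq_true, Nat.beq_eq, allB_iff] at h
    obtain ⟨σ, hσ, hσ'⟩ := exists_elt ω hF hω e ((allL_iff _ _).1 trans_ok e he)
    refine ⟨σ, hσ, fun j hj => ?_, fun j hj => ?_⟩
    · have := h.2 j hj
      rw [Nat.beq_eq] at this
      apply Fin.ext
      rw [hσ', this]
    · apply Fin.ext
      rw [hσ', hj, h.1]

include hF hω in
theorem trans4 (f : Fin 4 → Fin 6) (hf : Function.Injective f) :
    ∃ σ ∈ PG ω, ∀ i : Fin 4, σ ⟨i, by omega⟩ = f i := by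
  have key : ∀ m ≤ 4, ∃ σ ∈ PG ω, ∀ i : Fin 4, (i : ℕ) < m → σ ⟨i, by omega⟩ = f i := by
    intro m
    induction m with
    | zero => intro _; exact ⟨1, (PG ω).one_mem, fun i hi => absurd hi (Nat.not_lt_zero _)⟩
    | succ m ih =>
      intro hm
      obtain ⟨σ, hσ, h⟩ := ih (by omega)
      let q := σ⁻¹ (f ⟨m, by omega⟩)
      have hq : m ≤ (q : ℕ) := by
        by_contra hlt
        push Not at hlt
        have h1 := h ⟨q, by omega⟩ hlt
        have h2 : σ q = f ⟨m, by omega⟩ := by simp [q]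
        have h3 : f ⟨q, by omega⟩ = f ⟨m, by omega⟩ := h1.symm.trans h2
        have := hf h3
        rw [Fin.mk.injEq] at this
        omega
      obtain ⟨τ, hτ, h3, h4⟩ := level ω hF hω m (by omega) q hq
      refine ⟨σ * τ, (PG ω).mul_mem hσ hτ, fun i hi => ?_⟩
      rcases Nat.lt_succ_iff_lt_or_eq.1 hi with h5 | h5
      · rw [Equiv.Perm.mul_apply, h3 _ h5, h i h5]
      · have h6 : f ⟨m, by omega⟩ = f i := congrArg f (Fin.ext h5.symm)
        rw [Equiv.Perm.mul_apply, h4 _ h5, ← h6]; simp [q]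
  obtain ⟨σ, hσ, h⟩ := key 4 le_rfl
  exact ⟨σ, hσ, fun i => h i i.2⟩

include hF hω in
theorem card_PG_ge : 360 ≤ Nat.card (PG ω) := by
  have h1 : Nat.card (Fin 4 ↪ Fin 6) = 360 := by
    rw [Nat.card_eq_fintype_card, Fintype.card_embedding_eq]
    simp [Nat.descFactorial]
  rw [← h1]
  have hinj : Function.Injective (fun i : Fin 4 => (⟨i, by omega⟩ : Fin 6)) := by
    intro a b h
    have h' : ((⟨a, by omega⟩ : Fin 6) : ℕ) = ((⟨b, by omega⟩ : Fin 6) : ℕ) := congrArg Fin.val h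
    exact Fin.ext h'
  apply Nat.card_le_card_of_surjective (fun σ : PG ω =>
    (⟨fun i => σ.1 ⟨i, by omega⟩, fun a b h => hinj (σ.1.injective h)⟩ : Fin 4 ↪ Fin 6))
  intro f
  obtain ⟨σ, hσ, h⟩ := trans4 ω hF hω f f.injective
  exact ⟨⟨σ, hσ⟩, DFunLike.ext _ _ h⟩

include hF hω in
theorem swap_notMem : Equiv.swap (0 : Fin 6) 1 ∉ PG ω := by
  rintro ⟨c, hc⟩
  obtain ⟨w, hw, hw'⟩ := decW_surj ω hF hω (fun i => (c i : F))
  have h := (allB_iff _ _).1 swap_bad w hw
  rw [Bool.or_eq_true, anyB_iff] at h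
  rcases h with h | ⟨j, hj, h⟩
  · rw [Bool.not_eq_true', ← Bool.not_eq_true, allB_iff] at h
    apply h
    intro k hk
    rw [Bool.not_eq_true', ← Bool.not_eq_true, Nat.beq_eq]
    intro h0
    have := congrFun hw' ⟨k, hk⟩
    have h1 : decW ω w ⟨k, hk⟩ = 0 := by
      show phi ω (digit w k) = 0
      rw [h0]; rfl
    rw [h1] at this
    exact (c ⟨k, hk⟩).ne_zero this.symm
  · rw [Bool.not_eq_true', ← Bool.not_eq_true, memB_iff] at h
    apply h
    have hg : decW ω (gen j) ∈ hexacode F ω := by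
      obtain ⟨g0, g1, g2⟩ := gen_eq ω
      unfold hexacode
      rw [← g0, ← g1, ← g2]
      apply Submodule.subset_span
      interval_cases j
      · left; rfl
      · right; left; rfl
      · right; right; rfl
    have hm := hc _ hg
    rw [mem_hexacode ω hF hω] at hm
    obtain ⟨w2, hw2, h2⟩ := hm
    let f : ℕ → ℕ := fun i => mulN (digit w i) (digit (gen j) (match i with | 0 => 1 | 1 => 0 | i => i))
    have hf : ∀ i < 6, f i < 4 := fun i _ => mulN_lt _ (digit_lt _ _) _ (digit_lt _ _)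
    have : w2 = pack f := by
      apply decW_inj ω hF hω (CL_lt hw2) (pack_lt f hf)
      rw [h2]
      funext i
      show (c i : F) * phi ω (digit (gen j) (((Equiv.swap (0 : Fin 6) 1).symm i : Fin 6) : ℕ)) =
        phi ω (digit (pack f) i)
      rw [digit_pack f hf i i.2]
      have h3 : (c i : F) = phi ω (digit w i) := (congrFun hw' i).symm
      rw [h3, ← phi_mul ω hω _ (digit_lt _ _) _ (digit_lt _ _)]
      congr 2
      revert i; intro i _
      fin_cases i <;> rfl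
    rw [this] at hw2; exact hw2

include hF hω in
theorem PG_eq : PG ω = alternatingGroup (Fin 6) := by
  apply Equiv.Perm.eq_alternatingGroup_of_index_eq_two
  have h1 := card_PG_ge ω hF hω
  have h2 := (PG ω).card_mul_index
  have h3 : Nat.card (Equiv.Perm (Fin 6)) = 720 := by
    rw [Nat.card_eq_fintype_card, Fintype.card_perm]; rfl
  rw [h3] at h2
  have h4 : (PG ω).index ≠ 1 := by
    intro h
    rw [Subgroup.index_eq_one] at h
    exact swap_notMem ω hF hω (by rw [h]; trivial)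
  have h5 : (PG ω).index ≠ 0 := by
    intro h; rw [h] at h2; omega
  have h6 : (PG ω).index ≤ 2 := by
    by_contra hlt
    push Not at hlt
    nlinarith
  omega

include hF hω in
/-- diagonal maps preserving the hexacode are scalars -/
theorem diag_const [DecidableEq F] (c : Fin 6 → Fˣ) (h : Pres ω 1 c) (i j : Fin 6) : c i = c j := by
  have h1 := (allB_iff _ _).1 ((allB_iff _ _).1 pair_cover i i.2) j j.2
  rw [anyL_iff] at h1
  obtain ⟨w, hw, h1⟩ := h1
  simp only [Bool.and_eq_true, Nat.beq_eq, Bool.not_eq_true', ← Bool.not_eq_true] at h1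
  obtain ⟨⟨h4, hi⟩, hj⟩ := h1
  set x : Fin 6 → F := decW ω w with hx
  have hxm : x ∈ hexacode F ω := (mem_hexacode ω hF hω x).2 ⟨w, hw, rfl⟩
  have hy : monomialMap 1 c x - (c i : F) • x ∈ hexacode F ω :=
    Submodule.sub_mem _ (h x hxm) (Submodule.smul_mem _ _ hxm)
  have hval : ∀ k, (monomialMap 1 c x - (c i : F) • x) k = ((c k : F) - c i) * x k := by
    intro k
    have : (monomialMap 1 c x) k = (c k : F) * x k := rfl
    rw [Pi.sub_apply, this, Pi.smul_apply, smul_eq_mul]; ring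
  have hxi : x i ≠ 0 := phi_ne_zero ω hF hω (digit_lt _ _) hi
  have hxj : x j ≠ 0 := phi_ne_zero ω hF hω (digit_lt _ _) hj
  have hx4 : (Finset.univ.filter fun k => x k ≠ 0).card = 4 := by
    rw [hx, wt_eq ω hF hω, h4]
  have hlt : (Finset.univ.filter fun k => (monomialMap 1 c x - (c i : F) • x) k ≠ 0).card < 4 := by
    rw [← hx4]
    apply Finset.card_lt_card
    rw [Finset.ssubset_iff_subset_ne]
    constructor
    · intro k hk
      simp only [Finset.mem_filter, Finset.mem_univ, true_and, hval] at hk ⊢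
      exact right_ne_zero_of_mul hk
    · intro heq
      have : i ∈ (Finset.univ.filter fun k => (monomialMap 1 c x - (c i : F) • x) k ≠ 0) := by
        rw [heq]; simp [hxi]
      simp [hval] at this
  have hzero : monomialMap 1 c x - (c i : F) • x = 0 := by
    by_contra hne
    rcases weights ω hF hω _ hy hne with h | h <;> omega
  have h5 := congrFun hzero j
  rw [hval, Pi.zero_apply, mul_eq_zero] at h5
  rcases h5 with h5 | h5
  · exact Units.ext (sub_eq_zero.1 h5).symm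
  · exact absurd h5 hxj

include hF hω in
theorem pres_unique [DecidableEq F] {σ : Equiv.Perm (Fin 6)} {c d : Fin 6 → Fˣ} (hc : Pres ω σ c)
    (hd : Pres ω σ d) : ∃ u : Fˣ, c = fun i => u * d i := by
  obtain ⟨e, he⟩ : ∃ e, Pres ω σ⁻¹ e := (PG ω).inv_mem ⟨d, hd⟩
  have h1 := hd.mul he
  have h2 := hc.mul he
  rw [mul_inv_cancel] at h1 h2
  have k1 := diag_const ω hF hω _ h1
  have k2 := diag_const ω hF hω _ h2
  refine ⟨c 0 * (d 0)⁻¹, ?_⟩
  funext i
  have a1 : d i * e (σ.symm i) = d 0 * e (σ.symm 0) := k1 i 0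
  have a2 : c i * e (σ.symm i) = c 0 * e (σ.symm 0) := k2 i 0
  have : c i * d 0 = c 0 * d i := by
    have h3 : c i * d 0 * (e (σ.symm i) * e (σ.symm 0)) = c 0 * d i * (e (σ.symm i) * e (σ.symm 0)) := by
      calc c i * d 0 * (e (σ.symm i) * e (σ.symm 0)) = (c i * e (σ.symm i)) * (d 0 * e (σ.symm 0)) := by
            rw [mul_mul_mul_comm]
        _ = (c 0 * e (σ.symm 0)) * (d i * e (σ.symm i)) := by rw [a2, a1]
        _ = c 0 * d i * (e (σ.symm i) * e (σ.symm 0)) := by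
            rw [mul_mul_mul_comm, mul_comm (e (σ.symm 0))]
    exact mul_right_cancel h3
  calc c i = c i * d 0 * (d 0)⁻¹ := by rw [mul_inv_cancel_right]
    _ = c 0 * d i * (d 0)⁻¹ := by rw [this]
    _ = c 0 * (d 0)⁻¹ * d i := by rw [mul_assoc, mul_comm (d i), ← mul_assoc]

include hF hω in
theorem card_A [DecidableEq F] : Nat.card {f : Equiv.Perm (Fin 6) × (Fin 6 → Fˣ) //
    (∀ x ∈ hexacode F ω, monomialMap f.1 f.2 x ∈ hexacode F ω)} = 1080 := by
  classical
  choose c hc using fun σ : PG ω => σ.2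
  let G : PG ω × Fˣ → {f : Equiv.Perm (Fin 6) × (Fin 6 → Fˣ) //
    (∀ x ∈ hexacode F ω, monomialMap f.1 f.2 x ∈ hexacode F ω)} :=
    fun q => ⟨(q.1.1, fun i => q.2 * c q.1 i), (hc q.1).scal q.2⟩
  have hG : Function.Bijective G := by
    constructor
    · rintro ⟨σ, u⟩ ⟨τ, v⟩ h
      have h1 := congrArg (fun z => z.1.1) h
      have h2 := congrArg (fun z => z.1.2 0) h
      have h3 : σ = τ := Subtype.ext h1
      subst h3
      have h4 : u = v := mul_right_cancel h2
      rw [h4]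
    · rintro ⟨⟨σ, d⟩, hd⟩
      have hσ : σ ∈ PG ω := ⟨d, hd⟩
      obtain ⟨u, hu⟩ := pres_unique ω hF hω hd (hc ⟨σ, hσ⟩)
      exact ⟨(⟨σ, hσ⟩, u), Subtype.ext (Prod.ext rfl hu.symm)⟩
  rw [← Nat.card_congr (Equiv.ofBijective G hG), Nat.card_prod, PG_eq ω hF hω]
  have h1 : Nat.card Fˣ = 3 := by
    rw [Nat.card_units, Nat.card_eq_fintype_card, hF]
  have h2 : Nat.card (alternatingGroup (Fin 6)) = 360 := by
    rw [Nat.card_eq_fintype_card]
    have := two_mul_card_alternatingGroup (α := Fin 6)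
    rw [Fintype.card_perm] at this
    simp only [Fintype.card_fin] at this
    have h : Nat.factorial 6 = 720 := rfl
    omega
  rw [h1, h2]

end

end H33.Hexa
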