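import Mathlib
import Cfsg.Agent.Lib.H33.Leech8
set_option autoImplicit false
open Cfsg

/-! Configurations of short vectors in the Leech lattice, X: shapes of the vectors of norm 48. -/

namespace H33.Leech10
open Finset H9.Leech H9.LeechGood H8.GolayCode H8.GolayCount H8.GolayBasic H33.Leech1 H33.Leech2 H33.Leech3 H33.Leech4 H33.Leech5 H33.Leech6 H33.Leech7 H33.Leech8

theorem even_mul_pred (n : ℤ) : ∃ k, n ^ 2 - n = 2 * k := by
  rcases Int.even_or_odd' n with ⟨m, h | h⟩
  · exact ⟨m * (2 * m - 1), by rw [h]; ring⟩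
  · exact ⟨m * (2 * m + 1), by rw [h]; ring⟩

/-- a sum of nonnegative integers equal to one -/
theorem sum_eq_one {ι : Type*} [DecidableEq ι] (s : Finset ι) (f : ι → ℤ) (h0 : ∀ i ∈ s, 0 ≤ f i)
    (h : ∑ i ∈ s, f i = 1) : ∃ j ∈ s, f j = 1 ∧ ∀ i ∈ s, i ≠ j → f i = 0 := by
  have h1 : ∃ j ∈ s, f j ≠ 0 := by
    by_contra hc
    push Not at hc
    rw [sum_eq_zero hc] at h
    exact absurd h (by norm_num)
  obtain ⟨j, hj, hj0⟩ := h1
  have h2 : f j + ∑ i ∈ s.erase j, f i = 1 := (Finset.add_sum_erase s f hj).trans h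
  have h3 : 0 ≤ ∑ i ∈ s.erase j, f i := sum_nonneg fun i hi => h0 i (mem_of_mem_erase hi)
  have h4 := h0 j hj
  have h5 : f j = 1 := by omega
  have h6 : ∑ i ∈ s.erase j, f i = 0 := by omega
  refine ⟨j, hj, h5, fun i hi hij => ?_⟩
  exact (sum_eq_zero_iff_of_nonneg fun i hi => h0 i (mem_of_mem_erase hi)).1 h6 i (mem_erase.2 ⟨hij, hi⟩)

/-- shapes of the vectors of norm 48 -/
theorem classify48 {x : GolayPt → ℤ} (hx : x ∈ leechLattice) (hn : sqNorm x = 48) :
    (∃ c ∈ dodecads, (∀ i ∈ c, x i = 2 ∨ x i = -2) ∧ ∀ i ∉ c, x i = 0) ∨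
    (∃ c ∈ octads, ∃ j ∉ c, (x j = 4 ∨ x j = -4) ∧ (∀ i ∈ c, x i = 2 ∨ x i = -2) ∧ ∀ i ∉ c, i ≠ j → x i = 0) ∨
    (∃ c ∈ GS, ∃ j, ∀ i, x i = eps c i * (if i = j then 5 else 1)) ∨
    (∃ c ∈ GS, ∃ J : Finset GolayPt, J.card = 3 ∧ ∀ i, x i = eps c i * (if i ∈ J then -3 else 1)) := by
  rcases exists_rep hx with ⟨c, y, h⟩ | ⟨c, y, h⟩
  · have h1 := even_form h
    rw [hn] at h1
    -- the defect
    set f : GolayPt → ℤ := fun i => if i ∈ c then y i * (y i + 1) else y i ^ 2 with hf
    have hf0 : ∀ i ∈ (univ : Finset GolayPt), 0 ≤ f i := by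
      intro i _
      show 0 ≤ if i ∈ c then y i * (y i + 1) else y i ^ 2
      split_ifs
      · rcases le_or_gt 0 (y i) with h2 | h2
        · positivity
        · have : y i ≤ -1 := by omega
          nlinarith
      · exact sq_nonneg _
    have hsum : 48 = 4 * (c.card : ℤ) + 16 * ∑ i, f i := by
      rw [← hn, ← sum_ind c, mul_sum, mul_sum, ← sum_add_distrib]
      unfold sqNorm
      apply sum_congr rfl
      intro i _
      rw [h.eq i]
      show _ = 4 * ind c i + 16 * (if i ∈ c then y i * (y i + 1) else y i ^ 2)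
      unfold ind
      split_ifs <;> ring
    rcases weight_cases h.mem with h2 | h2 | h2 | h2 | h2
    · exfalso
      rw [card_eq_zero] at h2
      subst h2
      have hs : ∑ i, f i = 3 := by rw [card_empty] at hsum; omega
      have hs' : ∑ i, y i ^ 2 = 3 := by
        rw [← hs]; exact sum_congr rfl fun i _ => (if_neg (notMem_empty i)).symm
      obtain ⟨k, hk⟩ := h.par
      choose t ht using fun i => even_mul_pred (y i)
      have h3 : ∑ i, (y i ^ 2 - y i) = 2 * ∑ i, t i := by rw [mul_sum]; exact sum_congr rfl fun i _ => ht i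
      rw [sum_sub_distrib, hs', hk] at h3
      omega
    · right; left
      have hs : ∑ i, f i = 1 := by rw [h2] at hsum; push_cast at hsum; omega
      obtain ⟨j, -, hj1, hj2⟩ := sum_eq_one univ f hf0 hs
      have hjc : j ∉ c := by
        intro hjc
        have h3 : y j * (y j + 1) = 1 := by
          have : f j = y j * (y j + 1) := if_pos hjc
          rw [← this, hj1]
        obtain ⟨t, ht⟩ := even_mul_pred (y j)
        have : 2 * t + 2 * y j = 1 := by linarith [sq (y j)]
        omega
      have hyj : y j ^ 2 = 1 := by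
        have : f j = y j ^ 2 := if_neg hjc
        rw [← this, hj1]
      refine ⟨c, ⟨h.mem, h2⟩, j, hjc, ?_, ?_, ?_⟩
      · have h3 := h.eq j
        rw [ind_out hjc] at h3
        have h4 : (y j - 1) * (y j + 1) = 0 := by linarith [sq (y j)]
        rcases mul_eq_zero.1 h4 with h5 | h5
        · left; omega
        · right; omega
      · intro i hi
        have hij : i ≠ j := fun hh => hjc (hh ▸ hi)
        have h3 : y i * (y i + 1) = 0 := by
          have : f i = y i * (y i + 1) := if_pos hi
          rw [← this, hj2 i (mem_univ _) hij]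
        have h4 := h.eq i
        rw [ind_in hi] at h4
        rcases mul_eq_zero.1 h3 with h5 | h5
        · left; omega
        · right; omega
      · intro i hi hij
        have h3 : y i ^ 2 = 0 := by
          have : f i = y i ^ 2 := if_neg hi
          rw [← this, hj2 i (mem_univ _) hij]
        have h4 := h.eq i
        rw [ind_out hi, (pow_eq_zero_iff two_ne_zero).1 h3] at h4
        omega
    · left
      have hs : ∑ i, f i = 0 := by rw [h2] at hsum; push_cast at hsum; omega
      have h3 := (sum_eq_zero_iff_of_nonneg hf0).1 hs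
      refine ⟨c, ⟨h.mem, h2⟩, ?_, ?_⟩
      · intro i hi
        have h3 : y i * (y i + 1) = 0 := by
          have : f i = y i * (y i + 1) := if_pos hi
          rw [← this, h3 i (mem_univ _)]
        have h4 := h.eq i
        rw [ind_in hi] at h4
        rcases mul_eq_zero.1 h3 with h5 | h5
        · left; omega
        · right; omega
      · intro i hi
        have h3 : y i ^ 2 = 0 := by
          have : f i = y i ^ 2 := if_neg hi
          rw [← this, h3 i (mem_univ _)]
        have h4 := h.eq i
        rw [ind_out hi, (pow_eq_zero_iff two_ne_zero).1 h3] at h4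
        omega
    all_goals (exfalso; rw [h2] at h1; norm_num at h1)
  · right; right
    obtain ⟨z, hz, k, hk⟩ := odd_form h
    have h1 := odd_norm hz
    rw [hn] at h1
    have h2 : ∑ i, z i * (2 * z i + 1) = 3 := by omega
    by_cases hex : ∃ j, z j = 1
    · left
      obtain ⟨j, hj⟩ := hex
      have h3 : z j * (2 * z j + 1) + ∑ k ∈ univ.erase j, z k * (2 * z k + 1) = 3 :=
        (Finset.add_sum_erase univ (fun i => z i * (2 * z i + 1)) (mem_univ j)).trans h2
      rw [hj] at h3
      have h4 : ∑ k ∈ univ.erase j, z k * (2 * z k + 1) = 0 := by linarith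
      have h5 := (sum_eq_zero_iff_of_nonneg (fun i _ => z_nonneg (z i))).1 h4
      refine ⟨c, h.mem, j, fun i => ?_⟩
      rw [hz i]
      by_cases hij : i = j
      · rw [if_pos hij, hij, hj]; norm_num
      · rw [if_neg hij]
        have := h5 i (mem_erase.2 ⟨hij, mem_univ _⟩)
        rcases mul_eq_zero.1 this with h11 | h11
        · rw [h11]; norm_num
        · omega
    · right
      have hle : ∀ i, z i * (2 * z i + 1) ≤ 3 := by
        intro i
        rw [← h2]
        exact single_le_sum (f := fun i => z i * (2 * z i + 1)) (fun i _ => z_nonneg (z i)) (mem_univ i)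
      have hval : ∀ i, z i = 0 ∨ z i = -1 := by
        intro i
        have h3 := hle i
        have h4 : z i ≠ 1 := fun hh => hex ⟨i, hh⟩
        have h5 : z i ≤ 1 := by nlinarith
        have h6 : -1 ≤ z i := by
          by_contra hc
          have : z i ≤ -2 := by omega
          nlinarith
        omega
      refine ⟨c, h.mem, univ.filter fun i => z i = -1, ?_, fun i => ?_⟩
      · have h3 : ∀ i, z i * (2 * z i + 1) = if z i = -1 then 1 else 0 := by
          intro i
          rcases hval i with h | h <;> rw [h] <;> norm_num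
        rw [sum_congr rfl fun i _ => h3 i, sum_boole] at h2
        exact_mod_cast h2
      · rw [hz i]
        rcases hval i with h | h
        · rw [if_neg (by simp [h]), h]; norm_num
        · rw [if_pos (by simp [h]), h]; norm_num

/-- vectors of shape `2^8` -/
def signed8 (O : Finset GolayPt) (hO : O ∈ octads) (T : Finset GolayPt) (hT : Even (O ∩ T).card) : leechLattice :=
  ⟨fun i => if i ∈ O then (if i ∈ T then -2 else 2) else 0, by
    refine Rep.mem_leech (m := 0) (c := O) (y := fun i => - ind (O ∩ T) i) ⟨hO.1, fun i => ?_, ?_⟩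
    · unfold ind
      by_cases h1 : i ∈ O <;> by_cases h2 : i ∈ T <;> simp [h1, h2]
    · obtain ⟨k, hk⟩ := hT
      refine ⟨-k, ?_⟩
      rw [sum_neg_distrib, sum_ind, hk]; push_cast; ring⟩

theorem coe_signed8 {O : Finset GolayPt} (hO : O ∈ octads) {T : Finset GolayPt} (hT : Even (O ∩ T).card) (i : GolayPt) :
    (signed8 O hO T hT : GolayPt → ℤ) i = if i ∈ O then (if i ∈ T then -2 else 2) else 0 := rfl

theorem norm_signed8 {O : Finset GolayPt} (hO : O ∈ octads) {T : Finset GolayPt} (hT : Even (O ∩ T).card) :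
    sqNorm (signed8 O hO T hT : GolayPt → ℤ) = 32 := by
  unfold sqNorm
  have : ∀ i, (signed8 O hO T hT : GolayPt → ℤ) i ^ 2 = 4 * ind O i := by
    intro i; rw [coe_signed8]; unfold ind; split_ifs <;> norm_num
  rw [sum_congr rfl fun i _ => this i, ← mul_sum, sum_ind, hO.2]; norm_num

end H33.Leech10
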