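import Mathlib
import Cfsg.Agent.Lib.H33.Leech10
set_option autoImplicit false
open Cfsg

/-! Configurations of short vectors in the Leech lattice, XI: the Higman-Sims configuration. -/

namespace H33.Leech11
open Finset H9.Leech H9.LeechGood H8.GolayCode H8.GolayCount H8.GolayBasic H33.Leech1 H33.Leech2 H33.Leech3 H33.Leech4 H33.Leech5 H33.Leech6 H33.Leech7 H33.Leech8 H33.Leech10 H33.M24Tab

/-- octads meeting the standard dodecad in six points -/
def hexL : List ℕ := [0xc75001, 0xba800c, 0x21007b, 0x67016, 0xc12017, 0xac012a, 0xd3085]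

theorem hexL_ok : (hexL.all fun m => Nat.blt m (2 ^ 24) && Nat.beq (cw (m % 4096)) m && Nat.beq (pop m) 8 &&
    Nat.beq (pop (Nat.land m 0xaf101f)) 6) = true := by decide +kernel

theorem hexL_cover : ((List.range 24).all fun i => (List.range 24).all fun j => hexL.any fun m =>
    (!Nat.testBit m i) && !Nat.testBit m j) = true := by decide +kernel

/-- a hexad avoiding two given points -/
theorem hexad_avoid {d : Finset GolayPt} (hd : d ∈ dodecads) (p q : GolayPt) :
    ∃ O ∈ octads, (O ∩ d).card = 6 ∧ p ∉ O ∧ q ∉ O := by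
  have hd0 : D 0xaf101f ∈ dodecads := ⟨mask_mem (by decide) (by decide +kernel), by
    show (support₂ (wd 0xaf101f)).card = 12
    rw [card_support_wd (by decide)]; decide +kernel⟩
  obtain ⟨σ, hσ, hσd⟩ := H8.M24Trans.dodecad_trans hd0 hd
  have h1 := hexL_cover
  rw [List.all_eq_true] at h1
  have h2 := h1 (idx (σ.symm p)) (List.mem_range.2 (idx_lt _))
  rw [List.all_eq_true] at h2
  have h3 := h2 (idx (σ.symm q)) (List.mem_range.2 (idx_lt _))
  rw [List.any_eq_true] at h3
  obtain ⟨m, hm, h4⟩ := h3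
  rw [Bool.and_eq_true, Bool.not_eq_true', Bool.not_eq_true'] at h4
  have h5 := hexL_ok
  rw [List.all_eq_true] at h5
  have h6 := h5 m hm
  rw [Bool.and_eq_true, Bool.and_eq_true, Bool.and_eq_true, Nat.blt_eq, Nat.beq_eq, Nat.beq_eq, Nat.beq_eq] at h6
  obtain ⟨⟨⟨h7, h8⟩, h9⟩, h10⟩ := h6
  have hO : D m ∈ octads := H33.M24Cls.octad_of_mask h7 h8 h9
  refine ⟨(D m).image σ, H8.M24Chain.image_octad hσ hO, ?_, ?_, ?_⟩
  · rw [← hσd, H33.M24Cls.card_inter_image, H33.M24Cls.card_inter h7, h10]
  · intro hp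
    rw [← σ.apply_symm_apply p, H33.M24Cls.mem_image_g, mem_support_wd, h4.1] at hp
    cases hp
  · intro hp
    rw [← σ.apply_symm_apply q, H33.M24Cls.mem_image_g, mem_support_wd, h4.2] at hp
    cases hp

theorem BdotA : dotInt (B : GolayPt → ℤ) A = 0 := by rw [dot_comm]; exact AdotB

/-- existence of a point of the Higman-Sims configuration -/
theorem exH {v : leechLattice} (hv : sqNorm (v : GolayPt → ℤ) = 48) (h4 : (v : GolayPt → ℤ) P - (v : GolayPt → ℤ) Q = 4) :
    ∃ x : leechLattice, sqNorm (x : GolayPt → ℤ) = 32 ∧ dotInt (B : GolayPt → ℤ) x = 0 ∧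
      dotInt (x : GolayPt → ℤ) v = 24 := by
  rcases classify48 v.2 hv with ⟨c, hc, h1, h2⟩ | ⟨c, hc, j, hjc, hj, h1, h2⟩ | ⟨c, hc, j, h⟩ | ⟨c, hc, J, hJ, h⟩
  · obtain ⟨O, hO, h6, hPO, hQO⟩ := hexad_avoid hc P Q
    have hne : (O \ c).Nonempty := by
      rw [← card_pos]
      have := card_sdiff_add_card_inter O c
      rw [h6, hO.2] at this
      omega
    obtain ⟨a, ha⟩ := hne
    rw [mem_sdiff] at ha
    obtain ⟨T, hT, hTc⟩ : ∃ T : Finset GolayPt, Even (O ∩ T).card ∧ ∀ i ∈ O ∩ c, (i ∈ T ↔ (v : GolayPt → ℤ) i = -2) := by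
      by_cases he : Even (O ∩ (c.filter fun i => (v : GolayPt → ℤ) i = -2)).card
      · refine ⟨c.filter fun i => (v : GolayPt → ℤ) i = -2, he, ?_⟩
        intro i hi
        rw [mem_inter] at hi
        simp [hi.2]
      · refine ⟨insert a (c.filter fun i => (v : GolayPt → ℤ) i = -2), ?_, ?_⟩
        · have h3 : O ∩ insert a (c.filter fun i => (v : GolayPt → ℤ) i = -2) =
              insert a (O ∩ (c.filter fun i => (v : GolayPt → ℤ) i = -2)) := by
            ext i
            simp only [mem_inter, mem_insert]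
            constructor
            · rintro ⟨h3, h4 | h4⟩
              · exact Or.inl h4
              · exact Or.inr ⟨h3, h4⟩
            · rintro (h3 | h3)
              · subst h3; exact ⟨ha.1, Or.inl rfl⟩
              · exact ⟨h3.1, Or.inr h3.2⟩
          rw [h3, card_insert_of_notMem (by simp [ha.2])]
          rw [Nat.not_even_iff_odd] at he
          exact he.add_one
        · intro i hi
          rw [mem_inter] at hi
          have hia : i ≠ a := fun hh => ha.2 (hh ▸ hi.2)
          simp [hia, hi.2]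
    refine ⟨signed8 O hO T hT, norm_signed8 hO hT, ?_, ?_⟩
    · rw [dotB, coe_signed8, coe_signed8, if_neg hPO, if_neg hQO]; norm_num
    · unfold dotInt
      have : ∀ i, (signed8 O hO T hT : GolayPt → ℤ) i * (v : GolayPt → ℤ) i = 4 * ind (O ∩ c) i := by
        intro i
        rw [coe_signed8]
        by_cases hiO : i ∈ O
        · rw [if_pos hiO]
          by_cases hic : i ∈ c
          · have hi := mem_inter.2 ⟨hiO, hic⟩
            rw [ind_in hi]
            have h5 := hTc i hi
            rcases h1 i hic with h6 | h6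
            · rw [if_neg (fun hh => by have := h5.1 hh; omega), h6]; norm_num
            · rw [if_pos (h5.2 h6), h6]; norm_num
          · rw [h2 i hic, ind_out (fun hh => hic (mem_inter.1 hh).2)]; norm_num
        · rw [if_neg hiO, ind_out (fun hh => hiO (mem_inter.1 hh).1)]; norm_num
      rw [sum_congr rfl fun i _ => this i, ← mul_sum, sum_ind, h6]; norm_num
  · have hval : ∀ i, (v : GolayPt → ℤ) i = 0 ∨ ((v : GolayPt → ℤ) i = 2 ∧ i ∈ c) ∨ ((v : GolayPt → ℤ) i = -2 ∧ i ∈ c) ∨
        i = j := by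
      intro i
      by_cases hi : i ∈ c
      · rcases h1 i hi with h | h <;> tauto
      · by_cases hij : i = j
        · tauto
        · left; exact h2 i hi hij
    have hdich : (P ∈ c ∧ Q ∈ c) ∨ (P = j ∧ Q ∉ c) ∨ (Q = j ∧ P ∉ c) := by
      have hP := hval P
      have hQ := hval Q
      by_cases hPc : P ∈ c
      · have hP' := h1 P hPc
        by_cases hQc : Q ∈ c
        · exact Or.inl ⟨hPc, hQc⟩
        · exfalso
          by_cases hQj : Q = j
          · rw [← hQj] at hj; omega
          · have := h2 Q hQc hQj; omega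
      · by_cases hQc : Q ∈ c
        · exfalso
          have hQ' := h1 Q hQc
          by_cases hPj : P = j
          · rw [← hPj] at hj; omega
          · have := h2 P hPc hPj; omega
        · by_cases hPj : P = j
          · exact Or.inr (Or.inl ⟨hPj, hQc⟩)
          · by_cases hQj : Q = j
            · exact Or.inr (Or.inr ⟨hQj, hPc⟩)
            · exfalso
              have h3 := h2 P hPc hPj
              have h5 := h2 Q hQc hQj
              omega
    have hc4 : 4 ≤ c.card := by rw [hc.2]; norm_num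
    obtain ⟨i, hi, i', hi', hii, hiPQ, hiPQ'⟩ := exists_two_mem hc4
    rcases hdich with ⟨hPc, hQc⟩ | hd
    · have hij : i ≠ j := fun hh => hjc (hh ▸ hi)
      have hjP : j ≠ P := fun hh => hjc (hh ▸ hPc)
      have hjQ : j ≠ Q := fun hh => hjc (hh ▸ hQc)
      obtain ⟨⟨x, hx, -, h5, h6⟩, -⟩ := exists_E v hij hiPQ ⟨hjP, hjQ⟩ (n := 6) (by
        rcases h1 i hi with h | h <;> rcases hj with h' | h' <;> rw [h, h'] <;> rfl)
      exact ⟨x, hx, h5, by rw [h6]; norm_num⟩
    · have hij : j ≠ i := fun hh => hjc (hh ▸ hi)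
      obtain ⟨s, hs, hs'⟩ : ∃ s : ℤ, (s = 1 ∨ s = -1) ∧ (v : GolayPt → ℤ) j = 4 * s := by
        rcases hj with h | h
        · exact ⟨1, Or.inl rfl, h⟩
        · exact ⟨-1, Or.inr rfl, by rw [h]; norm_num⟩
      obtain ⟨t, ht, ht'⟩ : ∃ t : ℤ, (t = 1 ∨ t = -1) ∧ (v : GolayPt → ℤ) i = 2 * t := by
        rcases h1 i hi with h | h
        · exact ⟨1, Or.inl rfl, h⟩
        · exact ⟨-1, Or.inr rfl, by rw [h]; norm_num⟩
      have hn1 : s ^ 2 = 1 := by rcases hs with rfl | rfl <;> norm_num
      have hn2 : t ^ 2 = 1 := by rcases ht with rfl | rfl <;> norm_num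
      set e := E j i s t (two_dvd_signs hs ht) with he
      have hne : sqNorm (e : GolayPt → ℤ) = 32 := by rw [he, norm_E hij, hn1, hn2]; norm_num
      have hve : dotInt (e : GolayPt → ℤ) v = 24 := by
        rw [he, dot_E, hs', ht']
        linear_combination 16 * hn1 + 8 * hn2
      have heP : ∀ p : GolayPt, p ≠ i → (e : GolayPt → ℤ) p = if p = j then 4 * s else 0 := by
        intro p hpi
        rw [he, coe_E, Pi.add_apply, Pi.single_eq_of_ne hpi]
        by_cases hpj : p = j
        · subst hpj; rw [if_pos rfl, Pi.single_eq_same]; norm_num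
        · rw [if_neg hpj, Pi.single_eq_of_ne hpj]; norm_num
      refine ⟨v - e, ?_, ?_, ?_⟩
      · rw [AddSubgroup.coe_sub, ← dot_self, dot_sub, dot_comm (v : GolayPt → ℤ), dot_comm (e : GolayPt → ℤ) ((v : GolayPt → ℤ) - e),
          dot_sub, dot_sub, dot_self, dot_self, hv, hne, hve, dot_comm, hve]
        norm_num
      · rw [dotB, AddSubgroup.coe_sub, Pi.sub_apply, Pi.sub_apply, heP P hiPQ.1.symm, heP Q hiPQ.2.symm]
        rcases hd with ⟨hPj, hQc⟩ | ⟨hQj, hPc⟩
        · have hQj : Q ≠ j := fun hh => PQ (hPj.trans hh.symm)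
          rw [if_pos hPj, if_neg hQj]
          rw [← hPj] at hs'
          have := h2 Q hQc hQj
          omega
        · have hPj : P ≠ j := fun hh => PQ (hh.trans hQj.symm)
          rw [if_pos hQj, if_neg hPj]
          rw [← hQj] at hs'
          have := h2 P hPc hPj
          omega
      · rw [AddSubgroup.coe_sub, dot_sub, dot_self, hv, hve]; norm_num
  · have hP := h P
    have hQ := h Q
    have e1 : eps c P = 1 ∨ eps c P = -1 := by unfold eps; split_ifs <;> simp
    have e2 : eps c Q = 1 ∨ eps c Q = -1 := by unfold eps; split_ifs <;> simp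
    by_cases hPj : P = j
    · have hQj : Q ≠ j := fun hh => PQ (hPj.trans hh.symm)
      rw [if_pos hPj] at hP
      rw [if_neg hQj] at hQ
      exact ⟨A, normA, BdotA, by rw [dotA]; omega⟩
    · by_cases hQj : Q = j
      · rw [if_neg hPj] at hP
        rw [if_pos hQj] at hQ
        refine ⟨-A, by rw [AddSubgroup.coe_neg, sqNorm_neg, normA], ?_, ?_⟩
        · rw [dot_comm, AddSubgroup.coe_neg, dot_neg, AdotB]; norm_num
        · rw [AddSubgroup.coe_neg, dot_neg, dotA]; omega
      · exfalso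
        rw [if_neg hPj] at hP
        rw [if_neg hQj] at hQ
        omega
  · have hP := h P
    have hQ := h Q
    have e1 : eps c P = 1 ∨ eps c P = -1 := by unfold eps; split_ifs <;> simp
    have e2 : eps c Q = 1 ∨ eps c Q = -1 := by unfold eps; split_ifs <;> simp
    have hone : (P ∈ J ∧ Q ∉ J) ∨ (P ∉ J ∧ Q ∈ J) := by
      by_cases hPJ : P ∈ J <;> by_cases hQJ : Q ∈ J
      · exfalso; rw [if_pos hPJ] at hP; rw [if_pos hQJ] at hQ; omega
      · exact Or.inl ⟨hPJ, hQJ⟩
      · exact Or.inr ⟨hPJ, hQJ⟩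
      · exfalso; rw [if_neg hPJ] at hP; rw [if_neg hQJ] at hQ; omega
    have hcard : 2 ≤ ((J.erase P).erase Q).card := by
      rcases hone with ⟨h1, h2⟩ | ⟨h1, h2⟩
      · rw [erase_eq_of_notMem (s := J.erase P) (fun hh => h2 (mem_of_mem_erase hh)), card_erase_of_mem h1, hJ]
      · rw [erase_eq_of_notMem h1, card_erase_of_mem h2, hJ]
    obtain ⟨i, hi, j, hj, hij⟩ := Finset.one_lt_card.1 (by omega : 1 < ((J.erase P).erase Q).card)
    simp only [mem_erase] at hi hj
    obtain ⟨⟨x, hx, -, h5, h6⟩, -⟩ := exists_E v hij ⟨hi.2.1, hi.1⟩ ⟨hj.2.1, hj.1⟩ (n := 6) (by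
      rw [h i, h j, if_pos hi.2.2, if_pos hj.2.2, abs_mul, abs_mul, abs_eps, abs_eps]; rfl)
    exact ⟨x, hx, h5, by rw [h6]; norm_num⟩

/-- the standard vector of norm 48 -/
def V5 : leechLattice := e8 P + W0

theorem coe_V5 (i : GolayPt) : (V5 : GolayPt → ℤ) i = if i = P then 5 else 1 := by
  unfold V5
  rw [AddSubgroup.coe_add, Pi.add_apply, coe_e8, coe_W0]
  by_cases h : i = P
  · subst h; rw [Pi.single_eq_same, if_pos rfl, if_pos rfl]; norm_num
  · rw [Pi.single_eq_of_ne h, if_neg h, if_neg h]; norm_num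

/-- canonical form of the triples (point, sum, vector) -/
theorem canonH {v : leechLattice} (hv : sqNorm (v : GolayPt → ℤ) = 48) (hP : (v : GolayPt → ℤ) P = 5)
    (hQ : (v : GolayPt → ℤ) Q = 1) : ∃ g : Co0, g • A = A ∧ g • B = B ∧ g • v = V5 := by
  rcases classify48 v.2 hv with ⟨c, hc, h1, h2⟩ | ⟨c, hc, j, hjc, hj, h1, h2⟩ | ⟨c, hc, j, h⟩ | ⟨c, hc, J, hJ, h⟩
  · exfalso
    by_cases hPc : P ∈ c
    · have := h1 P hPc; omega
    · have := h2 P hPc; omega
  · exfalso
    by_cases hPc : P ∈ c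
    · have := h1 P hPc; omega
    · by_cases hPj : P = j
      · subst hPj; omega
      · have := h2 P hPc hPj; omega
  · have e1 : eps c P = 1 ∨ eps c P = -1 := by unfold eps; split_ifs <;> simp
    have e2 : eps c Q = 1 ∨ eps c Q = -1 := by unfold eps; split_ifs <;> simp
    have hPj : P = j := by
      by_contra hne
      have := h P
      rw [if_neg hne] at this
      omega
    subst hPj
    have h3 := h P
    have h4 := h Q
    rw [if_pos rfl] at h3
    rw [if_neg PQ.symm] at h4
    have hPc : P ∉ c := by intro hh; rw [eps_in hh] at h3; omega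
    have hQc : Q ∉ c := by intro hh; rw [eps_in hh] at h4; omega
    refine ⟨mono 1 one_mem c hc, sign_A hc hPc hQc, sign_B hc hPc hQc, ?_⟩
    apply Subtype.ext
    rw [coe_sign]
    funext i
    rw [h i, coe_V5, ← mul_assoc, eps_sq, one_mul]
  · exfalso
    have := h P
    have e1 : eps c P = 1 ∨ eps c P = -1 := by unfold eps; split_ifs <;> simp
    split_ifs at this <;> omega

/-- hypotheses on the pair `(v, w)` -/
structure PairH (v w : leechLattice) : Prop where
  nv : sqNorm (v : GolayPt → ℤ) = 48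
  nw : sqNorm (w : GolayPt → ℤ) = 48
  vw : dotInt (v : GolayPt → ℤ) (w : GolayPt → ℤ) = -32

/-- hypotheses on the points -/
structure PtH (v w x : leechLattice) : Prop where
  n : sqNorm (x : GolayPt → ℤ) = 32
  dv : dotInt (v : GolayPt → ℤ) (x : GolayPt → ℤ) = 24
  dw : dotInt (w : GolayPt → ℤ) (x : GolayPt → ℤ) = -24

theorem norm_sum {v w : leechLattice} (h : PairH v w) : sqNorm ((v + w : leechLattice) : GolayPt → ℤ) = 32 := by
  rw [AddSubgroup.coe_add, ← dot_self, dot_add, dot_comm (v : GolayPt → ℤ), dot_comm (w : GolayPt → ℤ) ((v : GolayPt → ℤ) + w),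
    dot_add, dot_add, dot_self, dot_self, h.nv, h.nw, dot_comm (w : GolayPt → ℤ) v, h.vw]
  norm_num

theorem dot_sum_v {v w : leechLattice} (h : PairH v w) : dotInt ((v + w : leechLattice) : GolayPt → ℤ) v = 16 := by
  rw [AddSubgroup.coe_add, dot_add, dot_self, h.nv, dot_comm, h.vw]; norm_num

theorem tripleH {v w x : leechLattice} (h : PairH v w) (hx : PtH v w x) :
    ∃ g : Co0, g • x = A ∧ g • (v + w) = B ∧ g • v = V5 := by
  have h0 : dotInt (x : GolayPt → ℤ) ((v + w : leechLattice) : GolayPt → ℤ) = 0 := by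
    rw [dot_comm, AddSubgroup.coe_add, dot_add, hx.dv, hx.dw]; norm_num
  obtain ⟨g, h1, h2⟩ := pair0 hx.n (norm_sum h) h0
  have h3 : 4 * ((g • v : leechLattice) : GolayPt → ℤ) P + 4 * ((g • v : leechLattice) : GolayPt → ℤ) Q = 24 := by
    rw [← dotA, ← h1, co0_dot, dot_comm, hx.dv]
  have h4 : 4 * ((g • v : leechLattice) : GolayPt → ℤ) P - 4 * ((g • v : leechLattice) : GolayPt → ℤ) Q = 16 := by
    rw [← dotB, ← h2, co0_dot, dot_sum_v h]
  obtain ⟨g', k1, k2, k3⟩ := canonH (v := g • v) (by rw [co0_norm, h.nv]) (by omega) (by omega)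
  exact ⟨g' * g, by rw [mul_smul, h1, k1], by rw [mul_smul, h2, k2], by rw [mul_smul, k3]⟩

theorem exists_pt {v w : leechLattice} (h : PairH v w) : ∃ x, PtH v w x := by
  obtain ⟨g0, hg0⟩ := to_A (norm_sum h)
  have h1 : sqNorm (B : GolayPt → ℤ) = 32 := normB
  obtain ⟨g1, hg1, hg1'⟩ := pair0 normB normA BdotA
  -- g1 : B ↦ A, so g := g1⁻¹ g0 maps the sum to B
  have hgB : (g1⁻¹ * g0) • (v + w) = B := by rw [mul_smul, hg0, inv_smul_eq_iff, hg1]
  set g := g1⁻¹ * g0 with hg
  have h4 : 4 * ((g • v : leechLattice) : GolayPt → ℤ) P - 4 * ((g • v : leechLattice) : GolayPt → ℤ) Q = 16 := by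
    rw [← dotB, ← hgB, co0_dot, dot_sum_v h]
  obtain ⟨x, hx, hBx, hxv⟩ := exH (v := g • v) (by rw [co0_norm, h.nv]) (by omega)
  have hgx : g • (g⁻¹ • x) = x := smul_inv_smul g x
  have e1 : dotInt (v : GolayPt → ℤ) ((g⁻¹ • x : leechLattice) : GolayPt → ℤ) = 24 := by
    rw [← co0_dot g, hgx, dot_comm, hxv]
  have e2 : dotInt ((v + w : leechLattice) : GolayPt → ℤ) ((g⁻¹ • x : leechLattice) : GolayPt → ℤ) = 0 := by
    rw [← co0_dot g, hgx, hgB, hBx]
  refine ⟨g⁻¹ • x, by rw [co0_norm, hx], e1, ?_⟩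
  rw [AddSubgroup.coe_add, dot_add, e1] at e2
  linarith

/-- being in the Higman-Sims set relative to `B`, `V5` -/
structure InH (x : leechLattice) : Prop where
  n : sqNorm (x : GolayPt → ℤ) = 32
  b : dotInt (B : GolayPt → ℤ) x = 0
  v : dotInt (V5 : GolayPt → ℤ) x = 24

theorem dotV5 (x : GolayPt → ℤ) : dotInt (V5 : GolayPt → ℤ) x = ∑ i, x i + 4 * x P := by
  unfold V5
  rw [AddSubgroup.coe_add, dot_add, coe_e8, dot_single, dotW0]; ring

theorem shapesH {x : leechLattice} (h : InH x) : x = A ∨ (∃ j, j ≠ P ∧ j ≠ Q ∧ x = Wj j) ∨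
    (∃ O, ∃ hO : O ∈ octads, P ∈ O ∧ Q ∈ O ∧ x = twoInd O hO) := by
  have hB := h.b
  have hV := h.v
  rw [dotB] at hB
  rw [dotV5] at hV
  rcases classify32 x.2 h.n with ⟨i, j, hij, hi, hj, h0⟩ | ⟨O, hO, h1, h2⟩ | ⟨c, hc, j, h3⟩
  · left
    have hsum : ∑ k, (x : GolayPt → ℤ) k = (x : GolayPt → ℤ) i + (x : GolayPt → ℤ) j := by
      rw [← sum_pair hij, eq_comm]
      apply sum_subset (subset_univ _)
      intro k _ hk
      rw [mem_insert, mem_singleton, not_or] at hk
      exact h0 k hk.1 hk.2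
    rw [hsum] at hV
    have hPij : P = i ∨ P = j := by
      by_contra hc
      rw [not_or] at hc
      have := h0 P hc.1 hc.2
      omega
    have hQij : Q = i ∨ Q = j := by
      by_contra hc
      rw [not_or] at hc
      have h5 := h0 Q hc.1 hc.2
      rcases hPij with h6 | h6 <;> rw [← h6] at * <;> omega
    have hP4 : (x : GolayPt → ℤ) P = 4 := by
      rcases hPij with h6 | h6 <;> rcases hQij with h7 | h7
      · exact absurd (h6.trans h7.symm) PQ
      · rw [← h6, ← h7] at hV; rw [← h6] at hi; omega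
      · rw [← h6, ← h7] at hV; rw [← h6] at hj; omega
      · exact absurd (h6.trans h7.symm) PQ
    apply Subtype.ext
    rw [coe_A]
    funext k
    rw [Pi.add_apply]
    by_cases hkP : k = P
    · subst hkP; rw [Pi.single_eq_same, Pi.single_eq_of_ne PQ, hP4]; norm_num
    · by_cases hkQ : k = Q
      · subst hkQ; rw [Pi.single_eq_same, Pi.single_eq_of_ne PQ.symm]; omega
      · rw [Pi.single_eq_of_ne hkP, Pi.single_eq_of_ne hkQ, h0 k]
        · norm_num
        · intro hki
          rcases hPij with h6 | h6 <;> rcases hQij with h7 | h7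
          · exact PQ (h6.trans h7.symm)
          · exact hkP (hki.trans h6.symm)
          · exact hkQ (hki.trans h7.symm)
          · exact PQ (h6.trans h7.symm)
        · intro hki
          rcases hPij with h6 | h6 <;> rcases hQij with h7 | h7
          · exact PQ (h6.trans h7.symm)
          · exact hkQ (hki.trans h7.symm)
          · exact hkP (hki.trans h6.symm)
          · exact PQ (h6.trans h7.symm)
  · right; right
    have hle : ∀ k, 0 ≤ 2 * ind O k - (x : GolayPt → ℤ) k := by
      intro k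
      unfold ind
      split_ifs with hk
      · have := h1 k hk; omega
      · have := h2 k hk; omega
    have h7 : ∑ k, (2 * ind O k - (x : GolayPt → ℤ) k) = 16 - ∑ k, (x : GolayPt → ℤ) k := by
      rw [sum_sub_distrib, ← mul_sum, sum_ind, hO.2]
      norm_num
    have h8 : 0 ≤ ∑ k, (2 * ind O k - (x : GolayPt → ℤ) k) := sum_nonneg fun k _ => hle k
    have hP2 : (x : GolayPt → ℤ) P = 2 := by
      by_cases hPO : P ∈ O
      · have := h1 P hPO; omega
      · have := h2 P hPO; omega
    have hPO : P ∈ O := by by_contra hn; have := h2 P hn; omega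
    have hQO : Q ∈ O := by by_contra hn; have := h2 Q hn; omega
    have h9 := (sum_eq_zero_iff_of_nonneg fun k _ => hle k).1 (by rw [h7]; omega)
    refine ⟨O, hO, hPO, hQO, ?_⟩
    apply Subtype.ext
    funext k
    rw [coe_twoInd]
    have := h9 k (mem_univ k)
    linarith
  · right; left
    have hs : ∑ i, (x : GolayPt → ℤ) i = 24 - 2 * (c.card : ℤ) - 4 * eps c j := by
      rw [← sum_odd c j]; exact sum_congr rfl fun i _ => h3 i
    rw [hs] at hV
    have hP := h3 P
    have hQ := h3 Q
    have e1 : eps c P = 1 ∨ eps c P = -1 := by unfold eps; split_ifs <;> simp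
    have e2 : eps c Q = 1 ∨ eps c Q = -1 := by unfold eps; split_ifs <;> simp
    have e3 : eps c j = 1 ∨ eps c j = -1 := by unfold eps; split_ifs <;> simp
    have hPj : j ≠ P := by
      rintro rfl
      rw [if_pos rfl] at hP
      rw [if_neg PQ.symm] at hQ
      omega
    have hQj : j ≠ Q := by
      rintro rfl
      rw [if_neg PQ] at hP
      rw [if_pos rfl] at hQ
      omega
    rw [if_neg hPj.symm] at hP
    have hcard := weight_cases hc
    have hc0 : c = ∅ := by
      by_contra hne
      have hpos : 0 < c.card := card_pos.2 (nonempty_iff_ne_empty.2 hne)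
      omega
    subst hc0
    refine ⟨j, hPj, hQj, ?_⟩
    apply Subtype.ext
    funext k
    rw [h3 k, coe_Wj, eps_out (notMem_empty k), one_mul]

end H33.Leech11
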