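import Mathlib
import Cfsg.Agent.Lib.H33.Leech11
set_option autoImplicit false
open Cfsg

/-! Configurations of short vectors in the Leech lattice, XII: the Higman-Sims configuration, counts. -/

namespace H33.Leech12
open Finset H9.Leech H9.LeechGood H8.GolayCode H8.GolayCount H8.GolayBasic H33.Leech1 H33.Leech2 H33.Leech3 H33.Leech4 H33.Leech5 H33.Leech6 H33.Leech7 H33.Leech8 H33.Leech10 H33.Leech11

theorem dAA : dotInt (A : GolayPt → ℤ) A = 32 := by rw [dot_self, normA]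

theorem dAW {j : GolayPt} (h1 : j ≠ P) (h2 : j ≠ Q) : dotInt (A : GolayPt → ℤ) (Wj j) = 8 := by
  rw [dotA, coe_Wj, coe_Wj, if_neg h1.symm, if_neg h2.symm]; norm_num

theorem dAO {O : Finset GolayPt} (hO : O ∈ octads) (h1 : P ∈ O) (h2 : Q ∈ O) :
    dotInt (A : GolayPt → ℤ) (twoInd O hO) = 16 := by
  rw [dotA, coe_twoInd, coe_twoInd, ind_in h1, ind_in h2]; norm_num

theorem InH_A : InH A := by
  refine ⟨normA, BdotA, ?_⟩
  rw [dot_comm, dotA, coe_V5, coe_V5, if_pos rfl, if_neg PQ.symm]; norm_num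

theorem InH_W {j : GolayPt} (h1 : j ≠ P) (h2 : j ≠ Q) : InH (Wj j) := by
  have hs : ∑ i, (Wj j : GolayPt → ℤ) i = 20 := by
    have : ∀ i, (Wj j : GolayPt → ℤ) i = eps ∅ i * (if i = j then -3 else 1) := by
      intro i; rw [coe_Wj]; unfold eps; simp
    rw [sum_congr rfl fun i _ => this i, sum_odd]
    unfold eps; simp
  refine ⟨?_, by rw [dotB, coe_Wj, coe_Wj, if_neg h1.symm, if_neg h2.symm]; norm_num, ?_⟩
  · unfold sqNorm
    have : ∀ i, (Wj j : GolayPt → ℤ) i ^ 2 = 1 + 8 * (if i = j then 1 else 0) := by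
      intro i; rw [coe_Wj]; split_ifs <;> norm_num
    rw [sum_congr rfl fun i _ => this i, sum_add_distrib, ← mul_sum, sum_ite_eq' univ j, if_pos (mem_univ _),
      Finset.sum_const, card_univ, card_pt]; norm_num
  · rw [dotV5, hs, coe_Wj, if_neg h1.symm]; norm_num

theorem InH_O {O : Finset GolayPt} (hO : O ∈ octads) (h1 : P ∈ O) (h2 : Q ∈ O) : InH (twoInd O hO) := by
  refine ⟨(InM_B hO h1 h2).n, by rw [dotB, coe_twoInd, coe_twoInd, ind_in h1, ind_in h2]; norm_num, ?_⟩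
  rw [dotV5, sum_congr rfl fun i _ => coe_twoInd hO i, ← mul_sum, sum_ind, hO.2, coe_twoInd, ind_in h1]; norm_num

def fW (j : GolayPt) : GolayPt → ℤ := fun i => if i = j then -3 else 1

theorem setW : (fun x : leechLattice => (x : GolayPt → ℤ)) '' {x | InH x ∧ dotInt (A : GolayPt → ℤ) x = 8} =
    fW '' {j | j ≠ P ∧ j ≠ Q} := by
  ext y
  simp only [Set.mem_image, Set.mem_ofPred_eq]
  constructor
  · rintro ⟨x, ⟨hx, hd⟩, rfl⟩
    rcases shapesH hx with rfl | ⟨j, h1, h2, rfl⟩ | ⟨O, hO, h1, h2, rfl⟩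
    · rw [dAA] at hd; omega
    · exact ⟨j, ⟨h1, h2⟩, rfl⟩
    · rw [dAO hO h1 h2] at hd; omega
  · rintro ⟨j, ⟨h1, h2⟩, rfl⟩
    exact ⟨Wj j, ⟨InH_W h1 h2, dAW h1 h2⟩, rfl⟩

theorem setO : (fun x : leechLattice => (x : GolayPt → ℤ)) '' {x | InH x ∧ x ≠ A ∧ dotInt (A : GolayPt → ℤ) x ≠ 8} =
    fB '' {O | O ∈ octads ∧ P ∈ O ∧ Q ∈ O} := by
  ext y
  simp only [Set.mem_image, Set.mem_ofPred_eq]
  constructor
  · rintro ⟨x, ⟨hx, hne, hd⟩, rfl⟩
    rcases shapesH hx with h | ⟨j, h1, h2, rfl⟩ | ⟨O, hO, h1, h2, rfl⟩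
    · exact absurd h hne
    · exact absurd (dAW h1 h2) hd
    · exact ⟨O, ⟨hO, h1, h2⟩, rfl⟩
  · rintro ⟨O, ⟨hO, h1, h2⟩, rfl⟩
    refine ⟨twoInd O hO, ⟨InH_O hO h1 h2, ?_, by rw [dAO hO h1 h2]; norm_num⟩, rfl⟩
    intro h
    have h3 := dAO hO h1 h2
    rw [h, dAA] at h3
    omega

theorem count22 : {x | InH x ∧ dotInt (A : GolayPt → ℤ) x = 8}.ncard = 22 := by
  rw [← Set.ncard_image_of_injective _ (Subtype.val_injective (p := fun x => x ∈ leechLattice))]
  rw [show (Subtype.val '' {x | InH x ∧ dotInt (A : GolayPt → ℤ) x = 8} : Set (GolayPt → ℤ)) = _ from setW,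
    Set.ncard_image_of_injective, card_two]
  intro i j h
  have h1 := congrFun h i
  unfold fW at h1
  rw [if_pos rfl] at h1
  by_contra hne
  rw [if_neg hne] at h1
  omega

theorem count77 : {x | InH x ∧ x ≠ A ∧ dotInt (A : GolayPt → ℤ) x ≠ 8}.ncard = 77 := by
  rw [← Set.ncard_image_of_injective _ (Subtype.val_injective (p := fun x => x ∈ leechLattice))]
  rw [show (Subtype.val '' {x | InH x ∧ x ≠ A ∧ dotInt (A : GolayPt → ℤ) x ≠ 8} : Set (GolayPt → ℤ)) = _ from setO,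
    Set.ncard_image_of_injective, cB]
  intro O O' h
  ext i
  have h1 : 2 * ind O i = 2 * ind O' i := congrFun h i
  by_cases h2 : i ∈ O <;> by_cases h3 : i ∈ O'
  · simp [h2, h3]
  · rw [ind_in h2, ind_out h3] at h1; omega
  · rw [ind_out h2, ind_in h3] at h1; omega
  · simp [h2, h3]

theorem finW : {x | InH x ∧ dotInt (A : GolayPt → ℤ) x = 8}.Finite :=
  Set.finite_of_ncard_pos (by rw [count22]; norm_num)

theorem finO : {x | InH x ∧ x ≠ A ∧ dotInt (A : GolayPt → ℤ) x ≠ 8}.Finite :=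
  Set.finite_of_ncard_pos (by rw [count77]; norm_num)

theorem count100 : {x | InH x}.ncard = 100 := by
  have : {x | InH x} = ({A} ∪ {x | InH x ∧ dotInt (A : GolayPt → ℤ) x = 8}) ∪
      {x | InH x ∧ x ≠ A ∧ dotInt (A : GolayPt → ℤ) x ≠ 8} := by
    ext x
    simp only [Set.mem_union, Set.mem_singleton_iff, Set.mem_ofPred_eq]
    constructor
    · intro h
      by_cases h1 : x = A
      · exact Or.inl (Or.inl h1)
      · by_cases h2 : dotInt (A : GolayPt → ℤ) x = 8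
        · exact Or.inl (Or.inr ⟨h, h2⟩)
        · exact Or.inr ⟨h, h1, h2⟩
    · rintro ((rfl | h) | h)
      · exact InH_A
      · exact h.1
      · exact h.1
  rw [this, Set.ncard_union_eq _ ((Set.finite_singleton _).union finW) finO,
    Set.ncard_union_eq _ (Set.finite_singleton _) finW, Set.ncard_singleton, count22, count77]
  · rw [Set.disjoint_left]
    rintro x hx ⟨-, h⟩
    rw [Set.mem_singleton_iff] at hx
    rw [hx, dAA] at h
    omega
  · rw [Set.disjoint_left]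
    rintro x (hx | hx) ⟨-, h1, h2⟩
    · exact h1 hx
    · exact h2 hx.2

theorem pm_V5 {σ : Equiv.Perm GolayPt} (hσ : σ ∈ M24) (h1 : σ P = P) : pm σ hσ • V5 = V5 := by
  unfold V5
  rw [co0_add, pm_W0 hσ h1]
  congr 1
  have := mono_e8 hσ empty_mem (p := P) (notMem_empty _)
  rw [h1] at this
  exact this

theorem trans22 {x : leechLattice} (hx : InH x) (hd : dotInt (A : GolayPt → ℤ) x = 8) :
    ∃ g : Co0, g • A = A ∧ g • B = B ∧ g • V5 = V5 ∧ g • x = Wj R := by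
  rcases shapesH hx with rfl | ⟨j, h1, h2, rfl⟩ | ⟨O, hO, h1, h2, rfl⟩
  · rw [dAA] at hd; omega
  · obtain ⟨σ, hσ, hσl⟩ := trans_list [P, Q, j] [P, Q, R] (by simp [PQ, Ne.symm h1, Ne.symm h2])
      (by simp [PQ, PR, QR]) rfl (by simp)
    simp only [List.map_cons, List.map_nil, List.cons.injEq, and_true] at hσl
    obtain ⟨hσP, hσQ, hσj⟩ := hσl
    refine ⟨pm σ hσ, pm_A hσ hσP hσQ, pm_B hσ hσP hσQ, pm_V5 hσ hσP, ?_⟩
    apply Subtype.ext
    rw [coe_pm]
    funext i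
    rw [Function.comp_apply, coe_Wj, coe_Wj]
    congr 1
    rw [Equiv.symm_apply_eq, hσj]
  · rw [dAO hO h1 h2] at hd; omega

theorem trans77 {x : leechLattice} (hx : InH x) (hne : x ≠ A) (hd : dotInt (A : GolayPt → ℤ) x ≠ 8) :
    ∃ g : Co0, g • A = A ∧ g • B = B ∧ g • V5 = V5 ∧ g • x = twoInd O1 O1_mem := by
  rcases shapesH hx with h | ⟨j, h1, h2, rfl⟩ | ⟨O, hO, h1, h2, rfl⟩
  · exact absurd h hne
  · exact absurd (dAW h1 h2) hd
  · obtain ⟨σ, hσ, h3, h4, h5⟩ := moveB hO O1_mem h1 h2 P_O1 Q_O1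
    exact ⟨pm σ hσ, pm_A hσ h3 h4, pm_B hσ h3 h4, pm_V5 hσ h3, pm_twoInd hσ hO O1_mem h5⟩

/-- translation between the hypotheses -/
theorem InH_iff {v w : leechLattice} {g : Co0} (h1 : g • (v + w) = B) (h2 : g • v = V5) (x : leechLattice) :
    PtH v w x ↔ InH (g • x) := by
  have e1 : dotInt (B : GolayPt → ℤ) ((g • x : leechLattice) : GolayPt → ℤ) =
      dotInt (v : GolayPt → ℤ) x + dotInt (w : GolayPt → ℤ) x := by
    rw [← h1, co0_dot, AddSubgroup.coe_add, dot_add]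
  have e2 : dotInt (V5 : GolayPt → ℤ) ((g • x : leechLattice) : GolayPt → ℤ) = dotInt (v : GolayPt → ℤ) x := by
    rw [← h2, co0_dot]
  constructor
  · rintro ⟨a, b, c⟩
    exact ⟨by rw [co0_norm, a], by rw [e1, b, c]; norm_num, by rw [e2, b]⟩
  · rintro ⟨a, b, c⟩
    rw [co0_norm] at a
    rw [e1] at b
    rw [e2] at c
    exact ⟨a, c, by linarith⟩

theorem fix_w {v w : leechLattice} {g g' : Co0} (h1 : g • v = g' • v) (h2 : g • (v + w) = g' • (v + w)) :
    g • w = g' • w := by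
  rw [co0_add, co0_add, h1] at h2
  exact add_left_cancel h2

end H33.Leech12
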