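import Mathlib
import Cfsg.Agent.Lib.H33.Leech12
import Cfsg.Agent.Lib.H9.Trans
set_option autoImplicit false
open Cfsg

/-! Configurations of short vectors in the Leech lattice, XIII: 552 decompositions, and the census. -/

namespace H33.Leech13
open Finset H9.Leech H9.LeechGood H8.GolayCode H8.GolayCount H8.GolayBasic H33.Leech1 H33.Leech2 H33.Leech3 H33.Leech4 H33.Leech5 H33.Leech6 H33.Leech7 H33.Leech8 H33.Leech10 H33.Leech11 H33.Leech12

/-- the summands of `V5` -/
structure InS (x : leechLattice) : Prop where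
  n : sqNorm (x : GolayPt → ℤ) = 32
  v : dotInt (V5 : GolayPt → ℤ) x = 24

def gA (j : GolayPt) : GolayPt → ℤ := Pi.single P (4 * 1) + Pi.single j (4 * 1)
def gC (C : Finset GolayPt) : GolayPt → ℤ := fun i => eps C i * (if i = P then -3 else 1)

theorem shapesS {x : leechLattice} (h : InS x) :
    (∃ j, j ≠ P ∧ x = E P j 1 1 ⟨1, rfl⟩) ∨ (∃ j, j ≠ P ∧ x = Wj j) ∨
    (∃ O, ∃ hO : O ∈ octads, P ∈ O ∧ x = twoInd O hO) ∨
    (∃ C, ∃ hC : C ∈ octads, P ∈ C ∧ x = oddV C hC.1 P) := by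
  have hV := h.v
  rw [dotV5] at hV
  rcases classify32 x.2 h.n with ⟨i, j, hij, hi, hj, h0⟩ | ⟨O, hO, h1, h2⟩ | ⟨c, hc, j, h3⟩
  · left
    have hsum : ∑ k, (x : GolayPt → ℤ) k = (x : GolayPt → ℤ) i + (x : GolayPt → ℤ) j := by
      rw [← sum_pair hij, eq_comm]
      apply sum_subset (subset_univ _)
      intro k _ hk
      rw [mem_insert, mem_singleton, not_or] at hk
      exact h0 k hk.1 hk.2
    rw [hsum] at hV
    have fin : ∀ k l, k ≠ l → (∀ m, m ≠ k → m ≠ l → (x : GolayPt → ℤ) m = 0) → P = k →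
        (x : GolayPt → ℤ) k = 4 → (x : GolayPt → ℤ) l = 4 →
        ∃ j, j ≠ P ∧ x = E P j 1 1 ⟨1, rfl⟩ := by
      intro k l hkl hm hPk hk hl
      subst hPk
      refine ⟨l, hkl.symm, ?_⟩
      apply Subtype.ext
      rw [coe_E]
      funext m
      rw [Pi.add_apply]
      by_cases h3 : m = P
      · subst h3; rw [Pi.single_eq_same, Pi.single_eq_of_ne hkl, hk]; norm_num
      · by_cases h4 : m = l
        · subst h4; rw [Pi.single_eq_same, Pi.single_eq_of_ne h3, hl]; norm_num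
        · rw [Pi.single_eq_of_ne h3, Pi.single_eq_of_ne h4, hm m h3 h4]; norm_num
    by_cases hPi : P = i
    · refine fin i j hij h0 hPi ?_ ?_ <;> subst hPi <;> omega
    · by_cases hPj : P = j
      · refine fin j i hij.symm (fun m h3 h4 => h0 m h4 h3) hPj ?_ ?_ <;> subst hPj <;> omega
      · exfalso
        have := h0 P hPi hPj
        omega
  · right; right; left
    have hle : ∀ k, 0 ≤ 2 * ind O k - (x : GolayPt → ℤ) k := by
      intro k
      unfold ind
      split_ifs with hk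
      · have := h1 k hk; omega
      · have := h2 k hk; omega
    have h7 : ∑ k, (2 * ind O k - (x : GolayPt → ℤ) k) = 16 - ∑ k, (x : GolayPt → ℤ) k := by
      rw [sum_sub_distrib, ← mul_sum, sum_ind, hO.2]
      norm_num
    have h8 : 0 ≤ ∑ k, (2 * ind O k - (x : GolayPt → ℤ) k) := sum_nonneg fun k _ => hle k
    have hP2 : (x : GolayPt → ℤ) P = 2 := by
      by_cases hPO : P ∈ O
      · have := h1 P hPO; omega
      · have := h2 P hPO; omega
    have hPO : P ∈ O := by by_contra hn; have := h2 P hn; omega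
    have h9 := (sum_eq_zero_iff_of_nonneg fun k _ => hle k).1 (by rw [h7]; omega)
    refine ⟨O, hO, hPO, ?_⟩
    apply Subtype.ext
    funext k
    rw [coe_twoInd]
    have := h9 k (mem_univ k)
    linarith
  · have hs : ∑ i, (x : GolayPt → ℤ) i = 24 - 2 * (c.card : ℤ) - 4 * eps c j := by
      rw [← sum_odd c j]; exact sum_congr rfl fun i _ => h3 i
    rw [hs] at hV
    have hP := h3 P
    have e1 : eps c P = 1 ∨ eps c P = -1 := by unfold eps; split_ifs <;> simp
    have e3 : eps c j = 1 ∨ eps c j = -1 := by unfold eps; split_ifs <;> simp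
    have hcard := weight_cases hc
    by_cases hPj : P = j
    · right; right; right
      subst hPj
      rw [if_pos rfl] at hP
      have hPc : P ∈ c := by by_contra hh; rw [eps_out hh] at hP hV; omega
      have h8 : c.card = 8 := by rw [eps_in hPc] at hP hV; omega
      refine ⟨c, ⟨hc, h8⟩, hPc, ?_⟩
      apply Subtype.ext
      funext k
      rw [coe_oddV, h3 k]
    · right; left
      rw [if_neg hPj] at hP
      have hc0 : c = ∅ := by
        by_contra hne
        have hpos : 0 < c.card := card_pos.2 (nonempty_iff_ne_empty.2 hne)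
        omega
      subst hc0
      refine ⟨j, Ne.symm hPj, ?_⟩
      apply Subtype.ext
      funext k
      rw [h3 k, coe_Wj, eps_out (notMem_empty k), one_mul]

theorem Wj_norm (j : GolayPt) : sqNorm (Wj j : GolayPt → ℤ) = 32 := by
  unfold sqNorm
  have : ∀ i, (Wj j : GolayPt → ℤ) i ^ 2 = 1 + 8 * (if i = j then 1 else 0) := by
    intro i; rw [coe_Wj]; split_ifs <;> norm_num
  rw [sum_congr rfl fun i _ => this i, sum_add_distrib, ← mul_sum, sum_ite_eq' univ j, if_pos (mem_univ _),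
    Finset.sum_const, card_univ, card_pt]; norm_num

theorem sum_Wj (j : GolayPt) : ∑ i, (Wj j : GolayPt → ℤ) i = 20 := by
  have : ∀ i, (Wj j : GolayPt → ℤ) i = eps ∅ i * (if i = j then -3 else 1) := by
    intro i; rw [coe_Wj]; unfold eps; simp
  rw [sum_congr rfl fun i _ => this i, sum_odd]
  unfold eps; simp

theorem InS_A {j : GolayPt} (hj : j ≠ P) : InS (E P j 1 1 ⟨1, rfl⟩) := by
  refine ⟨by rw [norm_E (Ne.symm hj)]; norm_num, ?_⟩
  rw [dot_comm, dot_E, coe_V5, coe_V5, if_pos rfl, if_neg hj]; norm_num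

theorem InS_W {j : GolayPt} (hj : j ≠ P) : InS (Wj j) :=
  ⟨Wj_norm j, by rw [dotV5, sum_Wj, coe_Wj, if_neg hj.symm]; norm_num⟩

theorem twoInd_norm {O : Finset GolayPt} (hO : O ∈ octads) : sqNorm (twoInd O hO : GolayPt → ℤ) = 32 := by
  unfold sqNorm
  have : ∀ i, (twoInd O hO : GolayPt → ℤ) i ^ 2 = 4 * ind O i := by
    intro i; rw [coe_twoInd]; unfold ind; split_ifs <;> norm_num
  rw [sum_congr rfl fun i _ => this i, ← mul_sum, sum_ind, hO.2]; norm_num

theorem InS_O {O : Finset GolayPt} (hO : O ∈ octads) (h1 : P ∈ O) : InS (twoInd O hO) :=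
  ⟨twoInd_norm hO, by
    rw [dotV5, sum_congr rfl fun i _ => coe_twoInd hO i, ← mul_sum, sum_ind, hO.2, coe_twoInd, ind_in h1]; norm_num⟩

theorem InS_C {C : Finset GolayPt} (hC : C ∈ octads) (h1 : P ∈ C) : InS (oddV C hC.1 P) := by
  refine ⟨by unfold oddV; rw [co0_norm, Wj_norm], ?_⟩
  rw [dotV5, sum_congr rfl fun i _ => coe_oddV hC.1 P i, sum_odd, coe_oddV, eps_in h1, if_pos rfl, hC.2]
  norm_num

theorem setS : (fun x : leechLattice => (x : GolayPt → ℤ)) '' {x | InS x} =
    (gA '' {j | j ≠ P} ∪ fW '' {j | j ≠ P}) ∪ (fB '' {O | O ∈ octads ∧ P ∈ O} ∪ gC '' {O | O ∈ octads ∧ P ∈ O}) := by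
  ext y
  simp only [Set.mem_image, Set.mem_union, Set.mem_ofPred_eq]
  constructor
  · rintro ⟨x, hx, rfl⟩
    rcases shapesS hx with ⟨j, h1, rfl⟩ | ⟨j, h1, rfl⟩ | ⟨O, hO, h1, rfl⟩ | ⟨O, hO, h1, rfl⟩
    · exact Or.inl (Or.inl ⟨j, h1, rfl⟩)
    · exact Or.inl (Or.inr ⟨j, h1, rfl⟩)
    · exact Or.inr (Or.inl ⟨O, ⟨hO, h1⟩, rfl⟩)
    · exact Or.inr (Or.inr ⟨O, ⟨hO, h1⟩, funext fun i => (coe_oddV hO.1 P i).symm⟩)
  · rintro ((⟨j, h1, rfl⟩ | ⟨j, h1, rfl⟩) | (⟨O, ⟨hO, h1⟩, rfl⟩ | ⟨O, ⟨hO, h1⟩, rfl⟩))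
    · exact ⟨_, InS_A h1, rfl⟩
    · exact ⟨_, InS_W h1, rfl⟩
    · exact ⟨_, InS_O hO h1, rfl⟩
    · exact ⟨_, InS_C hO h1, funext fun i => coe_oddV hO.1 P i⟩

theorem card_one : {j : GolayPt | j ≠ P}.ncard = 23 := by
  have : {j : GolayPt | j ≠ P} = ↑(univ.erase P) := by ext j; simp
  rw [this, Set.ncard_coe_finset, card_erase_of_mem (mem_univ _), card_univ, card_pt]

def PP (n : ℕ) : Bool := Nat.testBit n 0 && Nat.beq (pop n) 8

theorem cP : {O : Finset GolayPt | O ∈ octads ∧ P ∈ O}.ncard = 253 := by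
  rw [H33.M24Cls.ncard_octads (fun O => P ∈ O) PP fun k => by
    rw [bit0]; simp only [PP, Bool.and_eq_true, Nat.beq_eq]; tauto]
  decide +kernel

theorem count552 : {x | InS x}.ncard = 552 := by
  rw [← Set.ncard_image_of_injective _ (Subtype.val_injective (p := fun x => x ∈ leechLattice))]
  rw [show (Subtype.val '' {x | InS x} : Set (GolayPt → ℤ)) = _ from setS]
  have vA : ∀ j, j ≠ P → gA j P = 4 := by
    intro j hj; unfold gA; rw [Pi.add_apply, Pi.single_eq_same, Pi.single_eq_of_ne (Ne.symm hj)]; norm_num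
  have vW : ∀ j, j ≠ P → fW j P = 1 := by intro j hj; unfold fW; rw [if_neg (Ne.symm hj)]
  have vB : ∀ O : Finset GolayPt, P ∈ O → fB O P = 2 := by intro O hO; unfold fB; rw [ind_in hO]; rfl
  have vC : ∀ O : Finset GolayPt, P ∈ O → gC O P = 3 := by intro O hO; unfold gC; rw [eps_in hO, if_pos rfl]; rfl
  have iA : Set.InjOn gA {j | j ≠ P} := by
    intro i hi j hj h
    have h1 := congrFun h i
    have h2 : gA i i = 4 := by
      unfold gA; rw [Pi.add_apply, Pi.single_eq_same, Pi.single_eq_of_ne hi]; norm_num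
    by_contra hne
    have h3 : gA j i = 0 := by
      unfold gA; rw [Pi.add_apply, Pi.single_eq_of_ne hi, Pi.single_eq_of_ne hne]; norm_num
    rw [h2, h3] at h1
    exact absurd h1 (by norm_num)
  have iW : Set.InjOn fW {j | j ≠ P} := by
    intro i _ j _ h
    have h1 := congrFun h i
    unfold fW at h1
    rw [if_pos rfl] at h1
    by_contra hne
    rw [if_neg hne] at h1
    omega
  have iB : Set.InjOn fB {O | O ∈ octads ∧ P ∈ O} := by
    intro O _ O' _ h
    ext i
    have h1 : 2 * ind O i = 2 * ind O' i := congrFun h i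
    by_cases h2 : i ∈ O <;> by_cases h3 : i ∈ O'
    · simp [h2, h3]
    · rw [ind_in h2, ind_out h3] at h1; omega
    · rw [ind_out h2, ind_in h3] at h1; omega
    · simp [h2, h3]
  have iC : Set.InjOn gC {O | O ∈ octads ∧ P ∈ O} := by
    intro O _ O' _ h
    ext i
    have h1 : eps O i * (if i = P then -3 else 1) = eps O' i * (if i = P then -3 else 1) := congrFun h i
    by_cases h2 : i ∈ O <;> by_cases h3 : i ∈ O'
    · simp [h2, h3]
    · rw [eps_in h2, eps_out h3] at h1; split_ifs at h1 <;> omega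
    · rw [eps_out h2, eps_in h3] at h1; split_ifs at h1 <;> omega
    · simp [h2, h3]
  have f1 : (gA '' {j | j ≠ P}).Finite := (Set.toFinite _).image _
  have f2 : (fW '' {j | j ≠ P}).Finite := (Set.toFinite _).image _
  have f3 : (fB '' {O | O ∈ octads ∧ P ∈ O}).Finite := (Set.toFinite _).image _
  have f4 : (gC '' {O | O ∈ octads ∧ P ∈ O}).Finite := (Set.toFinite _).image _
  rw [Set.ncard_union_eq _ (f1.union f2) (f3.union f4), Set.ncard_union_eq _ f1 f2, Set.ncard_union_eq _ f3 f4,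
    iA.ncard_image, iW.ncard_image, iB.ncard_image, iC.ncard_image, card_one, cP]
  · rw [Set.disjoint_left]
    rintro x ⟨O, hO, rfl⟩ ⟨C, hC, h⟩
    have := congrFun h P
    rw [vB O hO.2, vC C hC.2] at this
    omega
  · rw [Set.disjoint_left]
    rintro x ⟨j, hj, rfl⟩ ⟨k, hk, h⟩
    have := congrFun h P
    rw [vA j hj, vW k hk] at this
    omega
  · rw [Set.disjoint_left]
    rintro x (⟨j, hj, rfl⟩ | ⟨j, hj, rfl⟩) (⟨O, hO, h⟩ | ⟨O, hO, h⟩)
    all_goals
      have := congrFun h P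
      first
        | (rw [vA j hj, vB O hO.2] at this; omega)
        | (rw [vA j hj, vC O hO.2] at this; omega)
        | (rw [vW j hj, vB O hO.2] at this; omega)
        | (rw [vW j hj, vC O hO.2] at this; omega)

theorem norm_V5 : sqNorm (V5 : GolayPt → ℤ) = 48 := by
  unfold sqNorm
  have : ∀ i, (V5 : GolayPt → ℤ) i ^ 2 = 1 + 24 * (if i = P then 1 else 0) := by
    intro i; rw [coe_V5]; split_ifs <;> norm_num
  rw [sum_congr rfl fun i _ => this i, sum_add_distrib, ← mul_sum, sum_ite_eq' univ P, if_pos (mem_univ _),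
    Finset.sum_const, card_univ, card_pt]; norm_num

theorem norm_sub' (u x : GolayPt → ℤ) : sqNorm (u - x) = sqNorm u + sqNorm x - 2 * dotInt u x := by
  rw [← dot_self, dot_sub, dot_comm u, dot_comm x (u - x), dot_sub, dot_sub, dot_self, dot_self, dot_comm x u]
  ring

/-- the 552 decompositions of a vector of norm 48 -/
theorem decomp552 {u : leechLattice} (hu : sqNorm (u : GolayPt → ℤ) = 48) :
    {v : leechLattice | sqNorm (v : GolayPt → ℤ) = 32 ∧ sqNorm ((u - v) : GolayPt → ℤ) = 32}.ncard = 552 := by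
  obtain ⟨g, hg⟩ := H9.Trans.trans48 hu norm_V5
  refine (ncard_smul g _ {x | InS x} ?_).trans count552
  intro x
  rw [Set.mem_ofPred_eq, Set.mem_ofPred_eq, norm_sub', hu]
  have h1 : dotInt (V5 : GolayPt → ℤ) ((g • x : leechLattice) : GolayPt → ℤ) = dotInt (u : GolayPt → ℤ) x := by
    rw [← hg, co0_dot]
  constructor
  · rintro ⟨a, b⟩
    exact ⟨by rw [co0_norm, a], by rw [h1]; rw [a] at b; linarith⟩
  · rintro ⟨a, b⟩
    rw [co0_norm] at a
    rw [h1] at b
    exact ⟨a, by rw [a, b]; norm_num⟩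

end H33.Leech13
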