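import Mathlib
import Cfsg.Agent.Lib.H33.Leech13
set_option autoImplicit false
open Cfsg

/-! Configurations of short vectors in the Leech lattice, XIV: the census of minimal vectors. -/

namespace H33.Leech14
open Finset H9.Leech H9.LeechGood H8.GolayCode H8.GolayCount H8.GolayBasic H33.Leech1 H33.Leech2 H33.Leech3 H33.Leech4 H33.Leech5 H33.Leech6 H33.Leech7 H33.Leech8 H33.Leech10 H33.Leech11 H33.Leech12 H33.Leech13

theorem ncard_sub (p : (GolayPt → ℤ) → Prop) : {x : leechLattice | p (x : GolayPt → ℤ)}.ncard =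
    {x : GolayPt → ℤ | x ∈ leechLattice ∧ p x}.ncard := by
  rw [← Set.ncard_image_of_injective _ (Subtype.val_injective (p := fun x => x ∈ leechLattice))]
  congr 1
  ext x
  simp only [Set.mem_image, Set.mem_ofPred_eq]
  constructor
  · rintro ⟨y, hy, rfl⟩; exact ⟨y.2, hy⟩
  · rintro ⟨h1, h2⟩; exact ⟨⟨x, h1⟩, h2, rfl⟩

theorem n32 : {x : leechLattice | sqNorm (x : GolayPt → ℤ) = 32}.ncard = 196560 := by
  rw [ncard_sub (fun x => sqNorm x = 32)]; exact H9.LeechCount.count32
theorem n48 : {x : leechLattice | sqNorm (x : GolayPt → ℤ) = 48}.ncard = 16773120 := by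
  rw [ncard_sub (fun x => sqNorm x = 48)]; exact H9.LeechCount.count48
theorem n64 : {x : leechLattice | sqNorm (x : GolayPt → ℤ) = 64}.ncard = 398034000 := by
  rw [ncard_sub (fun x => sqNorm x = 64)]; exact H9.LeechCount.count64

/-- counting pairs of minimal vectors with given inner product in two ways -/
theorem double {s m : ℤ} (hm : m = 64 + 2 * s) {M N K : ℕ}
    (hM : {x : leechLattice | sqNorm (x : GolayPt → ℤ) = m}.ncard = M) (hM0 : 0 < M)
    (hK : ∀ f : leechLattice, sqNorm (f : GolayPt → ℤ) = m →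
      {v : leechLattice | sqNorm (v : GolayPt → ℤ) = 32 ∧ sqNorm ((f - v) : GolayPt → ℤ) = 32}.ncard = K)
    (hN : ∀ v : leechLattice, sqNorm (v : GolayPt → ℤ) = 32 →
      {w : leechLattice | sqNorm (w : GolayPt → ℤ) = 32 ∧ dotInt (v : GolayPt → ℤ) w = s}.ncard = N) :
    196560 * N = M * K := by
  classical
  have f32 : {x : leechLattice | sqNorm (x : GolayPt → ℤ) = 32}.Finite :=
    Set.finite_of_ncard_pos (by rw [n32]; norm_num)
  have fm : {x : leechLattice | sqNorm (x : GolayPt → ℤ) = m}.Finite :=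
    Set.finite_of_ncard_pos (by rw [hM]; exact hM0)
  set S := f32.toFinset with hS
  set T := fm.toFinset with hT
  have mS : ∀ x : leechLattice, x ∈ S ↔ sqNorm (x : GolayPt → ℤ) = 32 := by intro x; simp [hS]
  have mT : ∀ x : leechLattice, x ∈ T ↔ sqNorm (x : GolayPt → ℤ) = m := by intro x; simp [hT]
  have cS : S.card = 196560 := by rw [hS, ← Set.ncard_eq_toFinset_card _ f32, n32]
  have cT : T.card = M := by rw [hT, ← Set.ncard_eq_toFinset_card _ fm, hM]
  have e1 : ∑ v ∈ S, (S.filter fun w : leechLattice => dotInt (v : GolayPt → ℤ) w = s).card = 196560 * N := by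
    rw [sum_const_nat (m := N), cS]
    intro v hv
    rw [← hN v ((mS v).1 hv), ← Set.ncard_coe_finset]
    congr 1
    ext w
    simp [mS]
  have e2 : ∑ f ∈ T, (S.filter fun v : leechLattice => sqNorm ((f - v) : GolayPt → ℤ) = 32).card = M * K := by
    rw [sum_const_nat (m := K), cT]
    intro f hf
    rw [← hK f ((mT f).1 hf), ← Set.ncard_coe_finset]
    congr 1
    ext w
    simp [mS]
  rw [← e1, ← e2]
  have h1 : ∑ v ∈ S, (S.filter fun w : leechLattice => dotInt (v : GolayPt → ℤ) w = s).card =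
      ((S ×ˢ S).filter fun p : leechLattice × leechLattice => dotInt (p.1 : GolayPt → ℤ) p.2 = s).card := by
    rw [card_filter, sum_product]
    exact sum_congr rfl fun v _ => card_filter _ _
  have h2 : ∑ f ∈ T, (S.filter fun v : leechLattice => sqNorm ((f - v) : GolayPt → ℤ) = 32).card =
      ((T ×ˢ S).filter fun p : leechLattice × leechLattice => sqNorm ((p.1 - p.2) : GolayPt → ℤ) = 32).card := by
    rw [card_filter, sum_product]
    exact sum_congr rfl fun v _ => card_filter _ _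
  rw [h1, h2]
  refine card_nbij' (fun p => (p.1 + p.2, p.1)) (fun p => (p.2, p.1 - p.2)) ?_ ?_ ?_ ?_
  · rintro ⟨v, w⟩ hp
    simp only [coe_filter, mem_product, Set.mem_ofPred_eq, mS, mT] at hp ⊢
    obtain ⟨⟨h3, h4⟩, h5⟩ := hp
    refine ⟨⟨?_, h3⟩, ?_⟩
    · rw [AddSubgroup.coe_add, H9.Trans.sqNorm_add', h3, h4, h5, hm]; ring
    · rw [AddSubgroup.coe_add, add_sub_cancel_left, h4]
  · rintro ⟨f, v⟩ hp
    simp only [coe_filter, mem_product, Set.mem_ofPred_eq, mS, mT] at hp ⊢
    obtain ⟨⟨h3, h4⟩, h5⟩ := hp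
    refine ⟨⟨h4, by rw [AddSubgroup.coe_sub]; exact h5⟩, ?_⟩
    rw [norm_sub', h3, h4] at h5
    rw [dot_comm, AddSubgroup.coe_sub, dot_sub, dot_self, h4]
    linarith
  · rintro ⟨v, w⟩ _
    simp
  · rintro ⟨f, v⟩ _
    simp

/-- the number of vectors at inner product `s` does not depend on the vector -/
theorem const {v : leechLattice} (hv : sqNorm (v : GolayPt → ℤ) = 32) (s : ℤ) :
    {w : leechLattice | sqNorm (w : GolayPt → ℤ) = 32 ∧ dotInt (v : GolayPt → ℤ) w = s}.ncard =
      {w : leechLattice | sqNorm (w : GolayPt → ℤ) = 32 ∧ dotInt (A : GolayPt → ℤ) w = s}.ncard := by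
  obtain ⟨g, hg⟩ := to_A hv
  refine ncard_smul g _ _ ?_
  intro x
  rw [Set.mem_ofPred_eq, Set.mem_ofPred_eq, co0_norm, ← hg, co0_dot]

/-- decompositions of `8 e_P` -/
theorem decomp46 {f : leechLattice} (hf : sqNorm (f : GolayPt → ℤ) = 64) :
    {v : leechLattice | sqNorm (v : GolayPt → ℤ) = 32 ∧ sqNorm ((f - v) : GolayPt → ℤ) = 32}.ncard = 46 := by
  obtain ⟨g, hg⟩ := exists_to_e8 hf P
  have key : ∀ x : leechLattice, (sqNorm (x : GolayPt → ℤ) = 32 ∧ (x : GolayPt → ℤ) P = 4) ↔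
      (∃ j, j ≠ P ∧ (x = E P j 1 1 ⟨1, rfl⟩ ∨ x = E P j 1 (-1) ⟨0, rfl⟩)) := by
    intro x
    constructor
    · rintro ⟨hn, hP⟩
      have hs : ∑ i ∈ ({P} : Finset GolayPt)ᶜ, (x : GolayPt → ℤ) i ^ 2 = 16 := by
        have h1 := Finset.sum_compl_add_sum ({P} : Finset GolayPt) (fun i => (x : GolayPt → ℤ) i ^ 2)
        rw [sum_singleton, hP] at h1
        have h2 : ∑ i, (x : GolayPt → ℤ) i ^ 2 = 32 := hn
        rw [h2] at h1
        linarith
      obtain ⟨j, hj, hj4, hj0⟩ := four_lemma x.2 {P} (singleton_nonempty P) (by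
        intro i hi
        rw [mem_singleton] at hi
        subst hi
        exact ⟨1, hP⟩) hs
      rw [mem_singleton] at hj
      refine ⟨j, hj, ?_⟩
      have hxe : (x : GolayPt → ℤ) = Pi.single P 4 + Pi.single j ((x : GolayPt → ℤ) j) := by
        funext i
        rw [Pi.add_apply]
        by_cases hi : i = P
        · subst hi; rw [Pi.single_eq_same, Pi.single_eq_of_ne (Ne.symm hj), hP]; norm_num
        · by_cases hij : i = j
          · subst hij; rw [Pi.single_eq_same, Pi.single_eq_of_ne hi]; norm_num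
          · rw [Pi.single_eq_of_ne hi, Pi.single_eq_of_ne hij, hj0 i (by rwa [mem_singleton]) hij]; norm_num
      rcases hj4 with h4 | h4
      · left; apply Subtype.ext; rw [hxe, h4]; rfl
      · right; apply Subtype.ext; rw [hxe, h4]; rfl
    · rintro ⟨j, hj, rfl | rfl⟩
      · exact ⟨by rw [norm_E (Ne.symm hj)]; norm_num, by
          rw [coe_E, Pi.add_apply, Pi.single_eq_same, Pi.single_eq_of_ne (Ne.symm hj)]; norm_num⟩
      · exact ⟨by rw [norm_E (Ne.symm hj)]; norm_num, by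
          rw [coe_E, Pi.add_apply, Pi.single_eq_same, Pi.single_eq_of_ne (Ne.symm hj)]; norm_num⟩
  have h46 : {x : leechLattice | sqNorm (x : GolayPt → ℤ) = 32 ∧ (x : GolayPt → ℤ) P = 4}.ncard = 46 := by
    have hset : {x : leechLattice | sqNorm (x : GolayPt → ℤ) = 32 ∧ (x : GolayPt → ℤ) P = 4} =
        (fun j => E P j 1 1 ⟨1, rfl⟩) '' {j | j ≠ P} ∪ (fun j => E P j 1 (-1) ⟨0, rfl⟩) '' {j | j ≠ P} := by
      ext x
      rw [Set.mem_ofPred_eq, key x]
      simp only [Set.mem_union, Set.mem_image, Set.mem_ofPred_eq]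
      constructor
      · rintro ⟨j, hj, rfl | rfl⟩
        · exact Or.inl ⟨j, hj, rfl⟩
        · exact Or.inr ⟨j, hj, rfl⟩
      · rintro (⟨j, hj, rfl⟩ | ⟨j, hj, rfl⟩)
        · exact ⟨j, hj, Or.inl rfl⟩
        · exact ⟨j, hj, Or.inr rfl⟩
    have val : ∀ (b : ℤ) (h : ∃ k, 1 + b = 2 * k) (i j : GolayPt), i ≠ P →
        ((E P j 1 b h : leechLattice) : GolayPt → ℤ) i = if i = j then 4 * b else 0 := by
      intro b h i j hi
      rw [coe_E, Pi.add_apply, Pi.single_eq_of_ne hi]
      by_cases hij : i = j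
      · subst hij; rw [Pi.single_eq_same, if_pos rfl]; ring
      · rw [Pi.single_eq_of_ne hij, if_neg hij]; norm_num
    have i1 : Set.InjOn (fun j => E P j 1 1 ⟨1, rfl⟩) {j | j ≠ P} := by
      intro i hi j _ h
      have h1 := congrFun (congrArg Subtype.val h) i
      have h2 := val 1 ⟨1, rfl⟩ i i hi
      have h3 := val 1 ⟨1, rfl⟩ i j hi
      rw [if_pos rfl] at h2
      by_contra hne
      rw [if_neg hne] at h3
      have h1' : ((E P i 1 1 ⟨1, rfl⟩ : leechLattice) : GolayPt → ℤ) i = ((E P j 1 1 ⟨1, rfl⟩ : leechLattice) : GolayPt → ℤ) i := h1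
      rw [h2, h3] at h1'
      omega
    have i2 : Set.InjOn (fun j => E P j 1 (-1) ⟨0, rfl⟩) {j | j ≠ P} := by
      intro i hi j _ h
      have h1 := congrFun (congrArg Subtype.val h) i
      have h2 := val (-1) ⟨0, rfl⟩ i i hi
      have h3 := val (-1) ⟨0, rfl⟩ i j hi
      rw [if_pos rfl] at h2
      by_contra hne
      rw [if_neg hne] at h3
      have h1' : ((E P i 1 (-1) ⟨0, rfl⟩ : leechLattice) : GolayPt → ℤ) i = ((E P j 1 (-1) ⟨0, rfl⟩ : leechLattice) : GolayPt → ℤ) i := h1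
      rw [h2, h3] at h1'
      omega
    rw [hset, Set.ncard_union_eq _ ((Set.toFinite _).image _) ((Set.toFinite _).image _), i1.ncard_image,
      i2.ncard_image, card_one]
    rw [Set.disjoint_left]
    rintro x ⟨j, hj, rfl⟩ ⟨k, hk, h⟩
    have h1 : ((E P k 1 (-1) ⟨0, rfl⟩ : leechLattice) : GolayPt → ℤ) j = ((E P j 1 1 ⟨1, rfl⟩ : leechLattice) : GolayPt → ℤ) j :=
      congrFun (congrArg Subtype.val h) j
    rw [val (-1) ⟨0, rfl⟩ j k hj, val 1 ⟨1, rfl⟩ j j hj, if_pos rfl] at h1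
    split_ifs at h1 <;> omega
  refine (ncard_smul g _ {x : leechLattice | sqNorm (x : GolayPt → ℤ) = 32 ∧ (x : GolayPt → ℤ) P = 4} ?_).trans h46
  intro x
  rw [Set.mem_ofPred_eq, Set.mem_ofPred_eq, norm_sub', hf, co0_norm]
  have h1 : 8 * ((g • x : leechLattice) : GolayPt → ℤ) P = dotInt (f : GolayPt → ℤ) x := by
    rw [← co0_dot g, hg, coe_e8, dot_single]
  constructor
  · rintro ⟨a, b⟩
    exact ⟨a, by rw [a] at b; omega⟩
  · rintro ⟨a, b⟩
    exact ⟨a, by rw [a]; omega⟩

theorem N0 {v : leechLattice} (hv : sqNorm (v : GolayPt → ℤ) = 32) :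
    {w : leechLattice | sqNorm (w : GolayPt → ℤ) = 32 ∧ dotInt (v : GolayPt → ℤ) w = 0}.ncard = 93150 := by
  have h := double (s := 0) (m := 64) (by norm_num) n64 (by norm_num) (fun f hf => decomp46 hf)
    (fun w hw => const hw 0)
  rw [const hv]
  omega

theorem N8 {v : leechLattice} (hv : sqNorm (v : GolayPt → ℤ) = 32) :
    {w : leechLattice | sqNorm (w : GolayPt → ℤ) = 32 ∧ dotInt (v : GolayPt → ℤ) w = -8}.ncard = 47104 := by
  have h := double (s := -8) (m := 48) (by norm_num) n48 (by norm_num) (fun f hf => decomp552 hf)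
    (fun w hw => const hw (-8))
  rw [const hv]
  omega

theorem neg_count {v : leechLattice} (s : ℤ) :
    {w : leechLattice | sqNorm (w : GolayPt → ℤ) = 32 ∧ dotInt (v : GolayPt → ℤ) w = -s}.ncard =
    {w : leechLattice | sqNorm (w : GolayPt → ℤ) = 32 ∧ dotInt (v : GolayPt → ℤ) w = s}.ncard := by
  have : {w : leechLattice | sqNorm (w : GolayPt → ℤ) = 32 ∧ dotInt (v : GolayPt → ℤ) w = -s} =
      (fun w => -w) '' {w : leechLattice | sqNorm (w : GolayPt → ℤ) = 32 ∧ dotInt (v : GolayPt → ℤ) w = s} := by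
    ext w
    simp only [Set.mem_image, Set.mem_ofPred_eq]
    constructor
    · rintro ⟨h1, h2⟩
      refine ⟨-w, ⟨by rw [AddSubgroup.coe_neg, sqNorm_neg, h1], ?_⟩, neg_neg w⟩
      rw [dot_comm, AddSubgroup.coe_neg, dot_neg, dot_comm, h2, neg_neg]
    · rintro ⟨u, ⟨h1, h2⟩, rfl⟩
      refine ⟨by rw [AddSubgroup.coe_neg, sqNorm_neg, h1], ?_⟩
      rw [dot_comm, AddSubgroup.coe_neg, dot_neg, dot_comm, h2]
  rw [this, Set.ncard_image_of_injective _ neg_injective]

/-- possible inner products of minimal vectors -/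
theorem dot_cases {v w : leechLattice} (hv : sqNorm (v : GolayPt → ℤ) = 32) (hw : sqNorm (w : GolayPt → ℤ) = 32) :
    w = v ∨ w = -v ∨ dotInt (v : GolayPt → ℤ) w = 16 ∨ dotInt (v : GolayPt → ℤ) w = -16 ∨
      dotInt (v : GolayPt → ℤ) w = 8 ∨ dotInt (v : GolayPt → ℤ) w = -8 ∨ dotInt (v : GolayPt → ℤ) w = 0 := by
  by_cases h1 : w = v
  · exact Or.inl h1
  by_cases h2 : w = -v
  · exact Or.inr (Or.inl h2)
  have h3 : 32 ≤ sqNorm ((v - w : leechLattice) : GolayPt → ℤ) :=
    min_norm (v - w).2 (fun h => h1 (sub_eq_zero.1 (Subtype.ext h : v - w = 0)).symm)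
  have h4 : 32 ≤ sqNorm ((v + w : leechLattice) : GolayPt → ℤ) :=
    min_norm (v + w).2 (fun h => h2 (neg_eq_of_add_eq_zero_right (Subtype.ext h : v + w = 0)).symm)
  rw [AddSubgroup.coe_sub, norm_sub', hv, hw] at h3
  rw [AddSubgroup.coe_add, H9.Trans.sqNorm_add', hv, hw] at h4
  have h5 := eight_dvd v.2 w.2
  omega

theorem N16 {v : leechLattice} (hv : sqNorm (v : GolayPt → ℤ) = 32) :
    {w : leechLattice | sqNorm (w : GolayPt → ℤ) = 32 ∧ dotInt (v : GolayPt → ℤ) w = -16}.ncard = 4600 := by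
  classical
  have f32 : {x : leechLattice | sqNorm (x : GolayPt → ℤ) = 32}.Finite :=
    Set.finite_of_ncard_pos (by rw [n32]; norm_num)
  set S := f32.toFinset with hS
  have mS : ∀ x : leechLattice, x ∈ S ↔ sqNorm (x : GolayPt → ℤ) = 32 := by intro x; simp [hS]
  have cS : S.card = 196560 := by rw [hS, ← Set.ncard_eq_toFinset_card _ f32, n32]
  have cs : ∀ s : ℤ, (S.filter fun w : leechLattice => dotInt (v : GolayPt → ℤ) w = s).card =
      {w : leechLattice | sqNorm (w : GolayPt → ℤ) = 32 ∧ dotInt (v : GolayPt → ℤ) w = s}.ncard := by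
    intro s
    rw [← Set.ncard_coe_finset]
    congr 1
    ext w
    simp [mS]
  have hmaps : ∀ w ∈ S, dotInt (v : GolayPt → ℤ) w ∈ ({32, -32, 16, -16, 8, -8, 0} : Finset ℤ) := by
    intro w hw
    rw [mS] at hw
    have hvv : dotInt (v : GolayPt → ℤ) v = 32 := by rw [dot_self, hv]
    rcases dot_cases hv hw with rfl | rfl | h | h | h | h | h
    · rw [hvv]; decide
    · rw [dot_comm, AddSubgroup.coe_neg, dot_neg, hvv]; decide
    all_goals (rw [h]; decide)
  have htot := card_eq_sum_card_fiberwise hmaps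
  have c32 : (S.filter fun w : leechLattice => dotInt (v : GolayPt → ℤ) w = 32).card = 1 := by
    rw [card_eq_one]
    refine ⟨v, ?_⟩
    ext w
    rw [mem_filter, mS, mem_singleton]
    constructor
    · rintro ⟨h1, h2⟩
      rcases dot_cases hv h1 with h | h | h | h | h | h | h
      · exact h
      · exfalso
        rw [h, dot_comm, AddSubgroup.coe_neg, dot_neg, dot_self, hv] at h2
        omega
      all_goals (exfalso; omega)
    · rintro rfl
      exact ⟨hv, by rw [dot_self, hv]⟩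
  have c32' : (S.filter fun w : leechLattice => dotInt (v : GolayPt → ℤ) w = -32).card = 1 := by
    rw [cs, neg_count, ← cs, c32]
  have h8 := N8 hv
  have h0 := N0 hv
  have h8' := neg_count (v := v) 8
  have h16' := neg_count (v := v) 16
  rw [cS] at htot
  rw [sum_insert (by decide), sum_insert (by decide), sum_insert (by decide), sum_insert (by decide),
    sum_insert (by decide), sum_insert (by decide), sum_singleton, c32, c32', cs, cs, cs, cs, cs] at htot
  omega

end H33.Leech14
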