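import Mathlib
import Cfsg.Agent.Lib.H33.Leech12
import Cfsg.Agent.Lib.H33.M24Fin
import Cfsg.Agent.Lib.H9.Aut22
set_option autoImplicit false
open Cfsg

/-! The graph on the 100 vectors of the Higman-Sims configuration is the point-block graph of S(3,6,22). -/

namespace H33.Leech15
open Finset H9.Leech H9.LeechGood H8.GolayCode H8.GolayCount H8.GolayBasic H33.Leech1 H33.Leech2 H33.Leech3 H33.Leech4 H33.Leech5 H33.Leech6 H33.Leech7 H33.Leech8 H33.Leech10 H33.Leech11 H33.Leech12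

theorem dot_Wj (j : GolayPt) (x : GolayPt → ℤ) : dotInt (Wj j : GolayPt → ℤ) x = ∑ i, x i - 4 * x j := by
  unfold dotInt
  have : ∀ i, (Wj j : GolayPt → ℤ) i * x i = x i - (if i = j then 4 * x j else 0) := by
    intro i
    rw [coe_Wj]
    split_ifs with h
    · subst h; ring
    · ring
  rw [sum_congr rfl fun i _ => this i, sum_sub_distrib, sum_ite_eq' univ j, if_pos (mem_univ _)]

theorem dot_twoInd {O : Finset GolayPt} (hO : O ∈ octads) (x : GolayPt → ℤ) :
    dotInt (twoInd O hO : GolayPt → ℤ) x = 2 * ∑ i ∈ O, x i := by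
  unfold dotInt
  have : ∀ i, (twoInd O hO : GolayPt → ℤ) i * x i = 2 * (if i ∈ O then x i else 0) := by
    intro i
    rw [coe_twoInd]
    unfold ind
    split_ifs <;> ring
  rw [sum_congr rfl fun i _ => this i, ← mul_sum, sum_ite_mem, univ_inter]

theorem sum_Wj (j : GolayPt) : ∑ i, (Wj j : GolayPt → ℤ) i = 20 := by
  have : ∀ i, (Wj j : GolayPt → ℤ) i = eps ∅ i * (if i = j then -3 else 1) := by
    intro i; rw [coe_Wj]; unfold eps; simp
  rw [sum_congr rfl fun i _ => this i, sum_odd]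
  unfold eps; simp

theorem dWW {j k : GolayPt} (h : j ≠ k) : dotInt (Wj j : GolayPt → ℤ) (Wj k) = 16 := by
  rw [dot_Wj, sum_Wj, coe_Wj, if_neg h]; norm_num

theorem sum_twoInd {O : Finset GolayPt} (hO : O ∈ octads) : ∑ i, (twoInd O hO : GolayPt → ℤ) i = 16 := by
  rw [sum_congr rfl fun i _ => coe_twoInd hO i, ← mul_sum, sum_ind, hO.2]; norm_num

theorem dWO {j : GolayPt} {O : Finset GolayPt} (hO : O ∈ octads) :
    dotInt (Wj j : GolayPt → ℤ) (twoInd O hO) = if j ∈ O then 8 else 16 := by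
  rw [dot_Wj, sum_twoInd, coe_twoInd]
  unfold ind
  split_ifs <;> norm_num

theorem dOO {O O' : Finset GolayPt} (hO : O ∈ octads) (hO' : O' ∈ octads) :
    dotInt (twoInd O hO : GolayPt → ℤ) (twoInd O' hO') = 4 * ((O ∩ O').card : ℤ) := by
  rw [dot_twoInd, sum_congr rfl fun i _ => coe_twoInd hO' i, ← mul_sum]
  unfold ind
  rw [sum_ite_mem, Finset.sum_const, nsmul_eq_mul, mul_one, ← mul_assoc]
  norm_num

section
variable {α : Type*} [Fintype α] [DecidableEq α] {𝓑 : Set (Finset α)} (E : H9.Aut22.Emb 𝓑 P Q)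

/-- the octad of a block -/
def oc (b : Finset α) : Finset GolayPt := insert P (insert Q (b.image E.j))

theorem oc_mem (b : 𝓑) : oc E b ∈ octads := (E.hB b).1 b.2

theorem P_oc (b : Finset α) : P ∈ oc E b := by unfold oc; simp
theorem Q_oc (b : Finset α) : Q ∈ oc E b := by unfold oc; simp
theorem j_oc (b : Finset α) (a : α) : E.j a ∈ oc E b ↔ a ∈ b := by
  unfold oc
  rw [mem_insert, mem_insert, mem_image]
  constructor
  · rintro (h | h | ⟨c, hc, h⟩)
    · exact absurd h (E.jp a)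
    · exact absurd h (E.jq a)
    · rwa [← E.inj h]
  · intro h; exact Or.inr (Or.inr ⟨a, h, rfl⟩)

theorem oc_inj {b c : Finset α} (h : oc E b = oc E c) : b = c := by
  ext a
  rw [← j_oc E b, ← j_oc E c, h]

theorem card_oc_inter (b c : Finset α) : (oc E b ∩ oc E c).card = (b ∩ c).card + 2 := by
  have h1 : oc E b ∩ oc E c = insert P (insert Q ((b ∩ c).image E.j)) := by
    ext x
    rw [mem_inter, mem_insert, mem_insert, mem_image]
    by_cases hP : x = P
    · subst hP; simp [P_oc]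
    by_cases hQ : x = Q
    · subst hQ; simp [Q_oc]
    obtain ⟨a, rfl⟩ := E.rng x hP hQ
    rw [j_oc, j_oc]
    constructor
    · intro h; exact Or.inr (Or.inr ⟨a, mem_inter.2 h, rfl⟩)
    · rintro (h | h | ⟨c, hc, h⟩)
      · exact absurd h hP
      · exact absurd h hQ
      · rw [← E.inj h]; exact mem_inter.1 hc
  have h2 : Q ∉ (b ∩ c).image E.j := by
    intro h
    obtain ⟨a, _, ha⟩ := mem_image.1 h
    exact E.jq a ha
  have h3 : P ∉ insert Q ((b ∩ c).image E.j) := by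
    intro h
    rcases mem_insert.1 h with h | h
    · exact PQ h
    · obtain ⟨a, _, ha⟩ := mem_image.1 h
      exact E.jp a ha
  rw [h1, card_insert_of_notMem h3, card_insert_of_notMem h2, card_image_of_injective _ E.inj]

/-- the embedding of the vertices in the Leech lattice -/
def F : Option (α ⊕ 𝓑) → leechLattice
  | none => A
  | some (Sum.inl a) => Wj (E.j a)
  | some (Sum.inr b) => twoInd (oc E b) (oc_mem E b)

theorem F_InH (u : Option (α ⊕ 𝓑)) : InH (F E u) := by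
  rcases u with _ | a | b
  · exact InH_A
  · exact InH_W (E.jp a) (E.jq a)
  · exact InH_O (oc_mem E b) (P_oc E b) (Q_oc E b)

theorem F_self (u : Option (α ⊕ 𝓑)) : dotInt (F E u : GolayPt → ℤ) (F E u) = 32 := by
  rw [dot_self, (F_InH E u).n]

theorem adj_symm_dot {u v : Option (α ⊕ 𝓑)}
    (h : (dotInt (F E u : GolayPt → ℤ) (F E v) = 8 ∧ (pointBlockGraph 𝓑).Adj u v) ∨
      (dotInt (F E u : GolayPt → ℤ) (F E v) = 16 ∧ ¬ (pointBlockGraph 𝓑).Adj u v)) :
    (dotInt (F E v : GolayPt → ℤ) (F E u) = 8 ∧ (pointBlockGraph 𝓑).Adj v u) ∨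
      (dotInt (F E v : GolayPt → ℤ) (F E u) = 16 ∧ ¬ (pointBlockGraph 𝓑).Adj v u) := by
  rw [dot_comm, (pointBlockGraph 𝓑).adj_comm]; exact h

/-- the two possible relations of different vertices -/
theorem rel {u v : Option (α ⊕ 𝓑)} (huv : u ≠ v) :
    (dotInt (F E u : GolayPt → ℤ) (F E v) = 8 ∧ (pointBlockGraph 𝓑).Adj u v) ∨
      (dotInt (F E u : GolayPt → ℤ) (F E v) = 16 ∧ ¬ (pointBlockGraph 𝓑).Adj u v) := by
  have key0 : ∀ a : α, dotInt (F E none : GolayPt → ℤ) (F E (some (Sum.inl a))) = 8 ∧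
      (pointBlockGraph 𝓑).Adj none (some (Sum.inl a)) := fun a =>
    ⟨dAW (E.jp a) (E.jq a), by
      unfold pointBlockGraph
      rw [SimpleGraph.fromRel_adj]
      exact ⟨by simp, Or.inl trivial⟩⟩
  have key1 : ∀ b : 𝓑, dotInt (F E none : GolayPt → ℤ) (F E (some (Sum.inr b))) = 16 ∧
      ¬ (pointBlockGraph 𝓑).Adj none (some (Sum.inr b)) := fun b =>
    ⟨dAO (oc_mem E b) (P_oc E b) (Q_oc E b), by
      unfold pointBlockGraph
      rw [SimpleGraph.fromRel_adj]
      rintro ⟨-, h | h⟩ <;> exact h⟩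
  have key2 : ∀ (a : α) (b : 𝓑), (dotInt (F E (some (Sum.inl a)) : GolayPt → ℤ) (F E (some (Sum.inr b))) = 8 ∧
      (pointBlockGraph 𝓑).Adj (some (Sum.inl a)) (some (Sum.inr b))) ∨
      (dotInt (F E (some (Sum.inl a)) : GolayPt → ℤ) (F E (some (Sum.inr b))) = 16 ∧
      ¬ (pointBlockGraph 𝓑).Adj (some (Sum.inl a)) (some (Sum.inr b))) := by
    intro a b
    have h1 : dotInt (F E (some (Sum.inl a)) : GolayPt → ℤ) (F E (some (Sum.inr b))) = if E.j a ∈ oc E b then 8 else 16 :=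
      dWO (oc_mem E b)
    have h2 : (pointBlockGraph 𝓑).Adj (some (Sum.inl a)) (some (Sum.inr b)) ↔ a ∈ (b : Finset α) := by
      unfold pointBlockGraph
      rw [SimpleGraph.fromRel_adj]
      constructor
      · rintro ⟨-, h | h⟩
        · exact h
        · exact absurd h id
      · intro h; exact ⟨by simp, Or.inl h⟩
    by_cases h : a ∈ (b : Finset α)
    · left; rw [if_pos ((j_oc E b a).2 h)] at h1; exact ⟨h1, h2.2 h⟩
    · right; rw [if_neg (fun h' => h ((j_oc E b a).1 h'))] at h1; exact ⟨h1, fun h' => h (h2.1 h')⟩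
  rcases u with _ | a | b <;> rcases v with _ | a' | b'
  · exact absurd rfl huv
  · exact Or.inl (key0 a')
  · exact Or.inr (key1 b')
  · exact adj_symm_dot E (Or.inl (key0 a))
  · right
    have hne : a ≠ a' := fun h => huv (by rw [h])
    refine ⟨dWW (fun h => hne (E.inj h)), ?_⟩
    unfold pointBlockGraph
    rw [SimpleGraph.fromRel_adj]
    rintro ⟨-, h | h⟩ <;> exact h
  · exact key2 a b'
  · exact adj_symm_dot E (Or.inr (key1 b))
  · exact adj_symm_dot E (key2 a' b)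
  · have hne : (b : Finset α) ≠ b' := fun h => huv (by rw [Subtype.ext h])
    have h1 : dotInt (F E (some (Sum.inr b)) : GolayPt → ℤ) (F E (some (Sum.inr b'))) =
      4 * ((oc E b ∩ oc E b').card : ℤ) := dOO (oc_mem E b) (oc_mem E b')
    have h2 : (pointBlockGraph 𝓑).Adj (some (Sum.inr b)) (some (Sum.inr b')) ↔ Disjoint (b : Finset α) b' := by
      unfold pointBlockGraph
      rw [SimpleGraph.fromRel_adj]
      constructor
      · rintro ⟨-, h | h⟩
        · exact h
        · exact (show Disjoint (b' : Finset α) b from h).symm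
      · intro h; exact ⟨huv, Or.inl h⟩
    have h3 := card_oc_inter E (b : Finset α) b'
    have h4 : (b ∩ b' : Finset α).card ≠ 6 := by
      intro h6
      apply hne
      apply oc_inj E
      exact H33.M24Fin.eq_of_card_eight (oc_mem E b) (oc_mem E b') (by omega)
    rcases H33.M24Fin.inter_cases (oc_mem E b) (oc_mem E b') with h5 | h5 | h5 | h5
    · exact absurd (oc_inj E h5) hne
    · omega
    · left
      refine ⟨by rw [h1, h5]; norm_num, h2.2 ?_⟩
      rw [disjoint_iff_inter_eq_empty, ← card_eq_zero]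
      omega
    · right
      refine ⟨by rw [h1, h5]; norm_num, fun h => ?_⟩
      rw [h2, disjoint_iff_inter_eq_empty, ← card_eq_zero] at h
      omega

theorem F_inj : Function.Injective (F E) := by
  intro u v h
  by_contra hne
  have h1 := F_self E u
  rcases rel E hne with ⟨h2, -⟩ | ⟨h2, -⟩
  · rw [← h, h1] at h2; omega
  · rw [← h, h1] at h2; omega

theorem adj_iff {u v : Option (α ⊕ 𝓑)} : (pointBlockGraph 𝓑).Adj u v ↔ dotInt (F E u : GolayPt → ℤ) (F E v) = 8 := by
  by_cases h : u = v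
  · subst h
    rw [F_self]
    simp
  · rcases rel E h with ⟨h2, h3⟩ | ⟨h2, h3⟩
    · exact ⟨fun _ => h2, fun _ => h3⟩
    · rw [h2]; exact ⟨fun h4 => absurd h4 h3, fun h4 => absurd h4 (by norm_num)⟩

theorem F_surj {x : leechLattice} (hx : InH x) : ∃ u, F E u = x := by
  rcases shapesH hx with rfl | ⟨j, h1, h2, rfl⟩ | ⟨O, hO, h1, h2, rfl⟩
  · exact ⟨none, rfl⟩
  · obtain ⟨a, rfl⟩ := E.rng j h1 h2
    exact ⟨some (Sum.inl a), rfl⟩
  · set b : Finset α := univ.filter fun a => E.j a ∈ O with hb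
    have hob : oc E b = O := by
      ext x
      by_cases hP : x = P
      · subst hP; simp [P_oc, h1]
      by_cases hQ : x = Q
      · subst hQ; simp [Q_oc, h2]
      obtain ⟨a, rfl⟩ := E.rng x hP hQ
      rw [j_oc, hb, mem_filter]
      simp
    have hbB : b ∈ 𝓑 := (E.hB b).2 (by
      have : insert P (insert Q (b.image E.j)) = O := hob
      rw [this]; exact hO)
    refine ⟨some (Sum.inr ⟨b, hbB⟩), ?_⟩
    apply Subtype.ext
    funext i
    show (twoInd (oc E b) (oc_mem E ⟨b, hbB⟩) : GolayPt → ℤ) i = _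
    rw [coe_twoInd, coe_twoInd, hob]

/-- vertices and vectors -/
noncomputable def eqv : Option (α ⊕ 𝓑) ≃ {x : leechLattice // InH x} :=
  Equiv.ofBijective (fun u => ⟨F E u, F_InH E u⟩) ⟨fun u v h => F_inj E (congrArg Subtype.val h), fun x => by
    obtain ⟨u, hu⟩ := F_surj E x.2
    exact ⟨u, Subtype.ext hu⟩⟩

/-- the group fixing the two vectors -/
def HSg : Subgroup Co0 := MulAction.stabilizer Co0 V5 ⊓ MulAction.stabilizer Co0 B

theorem smul_InH {g : Co0} (hg : g ∈ HSg) {x : leechLattice} (hx : InH x) : InH (g • x) := by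
  obtain ⟨h1, h2⟩ := hg
  have h1' : g • V5 = V5 := h1
  have h2' : g • B = B := h2
  refine ⟨by rw [co0_norm, hx.n], ?_, ?_⟩
  · have := co0_dot g B x
    rw [h2'] at this
    rw [this, hx.b]
  · have := co0_dot g V5 x
    rw [h1'] at this
    rw [this, hx.v]

/-- the action on the vectors -/
def actE (g : HSg) : Equiv.Perm {x : leechLattice // InH x} where
  toFun x := ⟨g.1 • x.1, smul_InH g.2 x.2⟩
  invFun x := ⟨g.1⁻¹ • x.1, smul_InH (HSg.inv_mem g.2) x.2⟩
  left_inv x := Subtype.ext (inv_smul_smul g.1 x.1)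
  right_inv x := Subtype.ext (smul_inv_smul g.1 x.1)

theorem F_eqv_symm (y : {x : leechLattice // InH x}) : F E ((eqv E).symm y) = y.1 :=
  congrArg Subtype.val ((eqv E).apply_symm_apply y)

/-- the automorphism of the graph -/
noncomputable def autG (g : HSg) : pointBlockGraph 𝓑 ≃g pointBlockGraph 𝓑 where
  toEquiv := ((eqv E).trans (actE g)).trans (eqv E).symm
  map_rel_iff' := by
    intro u v
    rw [adj_iff E, adj_iff E]
    show dotInt (F E ((eqv E).symm (actE g (eqv E u))) : GolayPt → ℤ) (F E ((eqv E).symm (actE g (eqv E v)))) = 8 ↔ _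
    rw [F_eqv_symm, F_eqv_symm]
    show dotInt ((g.1 • F E u : leechLattice) : GolayPt → ℤ) ((g.1 • F E v : leechLattice) : GolayPt → ℤ) = 8 ↔ _
    rw [co0_dot]

theorem F_autG (g : HSg) (u : Option (α ⊕ 𝓑)) : F E (autG E g u) = g.1 • F E u := by
  show F E ((eqv E).symm (actE g (eqv E u))) = _
  rw [F_eqv_symm]
  rfl

end

theorem pairHs : PairH V5 (B - V5) := by
  have h1 : sqNorm (V5 : GolayPt → ℤ) = 48 := by
    rw [← dot_self, dotV5]
    have : ∑ i, (V5 : GolayPt → ℤ) i = 28 := by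
      have : ∀ i, (V5 : GolayPt → ℤ) i = 1 + (if i = P then 4 else 0) := by
        intro i; rw [coe_V5]; split_ifs <;> norm_num
      rw [sum_congr rfl fun i _ => this i, sum_add_distrib, sum_ite_eq' univ P, if_pos (mem_univ _), Finset.sum_const, card_univ,
        card_pt]; norm_num
    rw [this, coe_V5, if_pos rfl]; norm_num
  have h2 : dotInt (V5 : GolayPt → ℤ) B = 16 := by
    rw [dot_comm, dotB, coe_V5, coe_V5, if_pos rfl, if_neg PQ.symm]; norm_num
  have e1 : dotInt ((B : GolayPt → ℤ) - (V5 : GolayPt → ℤ)) B = 16 := by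
    rw [dot_sub, dot_self, normB, h2]; norm_num
  have e2 : dotInt ((B : GolayPt → ℤ) - (V5 : GolayPt → ℤ)) V5 = -32 := by
    rw [dot_sub, dot_self, h1, dot_comm, h2]; norm_num
  refine ⟨h1, ?_, ?_⟩
  · rw [AddSubgroup.coe_sub, ← dot_self, dot_sub, dot_comm, e1, dot_comm, e2]; norm_num
  · rw [AddSubgroup.coe_sub, dot_comm, e2]

/-- transitivity of the group on the vectors -/
theorem to_A' {x : leechLattice} (hx : InH x) : ∃ g ∈ HSg, g • x = A := by
  have h1 : (1 : Co0) • (V5 + (B - V5)) = B := by rw [one_smul]; abel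
  have h2 : (1 : Co0) • V5 = V5 := one_smul _ _
  have hp : PtH V5 (B - V5) x := (InH_iff h1 h2 x).2 (by rwa [one_smul])
  obtain ⟨g, k1, k2, k3⟩ := tripleH pairHs hp
  have e : V5 + (B - V5) = B := by abel
  rw [e] at k2
  exact ⟨g, ⟨k3, k2⟩, k1⟩

section
variable {α : Type*} [Fintype α] [DecidableEq α] {𝓑 : Set (Finset α)} (E : H9.Aut22.Emb 𝓑 P Q)
include E

theorem trans_none (u : Option (α ⊕ 𝓑)) : ∃ φ : pointBlockGraph 𝓑 ≃g pointBlockGraph 𝓑, φ u = none := by
  obtain ⟨g, hg, h⟩ := to_A' (F_InH E u)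
  refine ⟨autG E ⟨g, hg⟩, F_inj E ?_⟩
  rw [F_autG]
  exact h

end

/-! the stabiliser of the extra vertex -/

section
variable {α : Type*} [Fintype α] [DecidableEq α] {𝓑 : Set (Finset α)}

omit [Fintype α] [DecidableEq α] in
theorem adj_none {u : Option (α ⊕ 𝓑)} : (pointBlockGraph 𝓑).Adj none u ↔ ∃ a, u = some (Sum.inl a) := by
  unfold pointBlockGraph
  rw [SimpleGraph.fromRel_adj]
  rcases u with _ | a | b
  · simp
  · exact ⟨fun _ => ⟨a, rfl⟩, fun _ => ⟨by simp, Or.inl trivial⟩⟩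
  · constructor
    · rintro ⟨-, h | h⟩ <;> exact h.elim
    · rintro ⟨a, h⟩; simp at h

omit [Fintype α] [DecidableEq α] in
theorem adj_inl_inr {a : α} {b : 𝓑} : (pointBlockGraph 𝓑).Adj (some (Sum.inl a)) (some (Sum.inr b)) ↔ a ∈ (b : Finset α) := by
  unfold pointBlockGraph
  rw [SimpleGraph.fromRel_adj]
  constructor
  · rintro ⟨-, h | h⟩
    · exact h
    · exact absurd h id
  · intro h; exact ⟨by simp, Or.inl h⟩

omit [Fintype α] [DecidableEq α] in
theorem adj_inr_inr {b c : 𝓑} : (pointBlockGraph 𝓑).Adj (some (Sum.inr b)) (some (Sum.inr c)) ↔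
    b ≠ c ∧ Disjoint (b : Finset α) (c : Finset α) := by
  unfold pointBlockGraph
  rw [SimpleGraph.fromRel_adj]
  constructor
  · rintro ⟨h1, h | h⟩
    · exact ⟨fun h' => h1 (by rw [h']), h⟩
    · exact ⟨fun h' => h1 (by rw [h']), (show Disjoint (c : Finset α) b from h).symm⟩
  · rintro ⟨h1, h⟩
    exact ⟨fun h' => h1 (by simpa using h'), Or.inl h⟩

abbrev GA (𝓑 : Set (Finset α)) := pointBlockGraph 𝓑 ≃g pointBlockGraph 𝓑

omit [DecidableEq α] in
theorem exists_sigma (φ : GA 𝓑) (h0 : φ none = none) : ∃ σ : Equiv.Perm α, (∀ a, φ (some (Sum.inl a)) = some (Sum.inl (σ a))) ∧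
    ∀ b : 𝓑, ∃ c : 𝓑, φ (some (Sum.inr b)) = some (Sum.inr c) ∧ ∀ a, a ∈ (b : Finset α) ↔ σ a ∈ (c : Finset α) := by
  have h1 : ∀ a, ∃ a', φ (some (Sum.inl a)) = some (Sum.inl a') := by
    intro a
    rw [← adj_none (𝓑 := 𝓑), ← h0, φ.map_adj_iff, adj_none]
    exact ⟨a, rfl⟩
  choose f hf using h1
  have hinj : Function.Injective f := by
    intro a a' h
    have : φ (some (Sum.inl a)) = φ (some (Sum.inl a')) := by rw [hf, hf, h]
    simpa using φ.injective this
  refine ⟨Equiv.ofBijective f (Finite.injective_iff_bijective.1 hinj), hf, ?_⟩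
  intro b
  rcases h : φ (some (Sum.inr b)) with _ | a | c
  · exfalso
    have := φ.injective (h.trans h0.symm)
    simp at this
  · exfalso
    have h2 : (pointBlockGraph 𝓑).Adj (φ none) (φ (some (Sum.inr b))) := by
      rw [h0, h]; exact adj_none.2 ⟨a, rfl⟩
    rw [φ.map_adj_iff, adj_none] at h2
    obtain ⟨a, ha⟩ := h2
    simp at ha
  · refine ⟨c, rfl, fun a => ?_⟩
    show _ ↔ f a ∈ (c : Finset α)
    rw [← adj_inl_inr, ← adj_inl_inr (a := f a), ← hf, ← h, φ.map_adj_iff]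

noncomputable def sg (φ : MulAction.stabilizer (GA 𝓑) (none : Option (α ⊕ 𝓑))) : Equiv.Perm α :=
  (exists_sigma φ.1 φ.2).choose

theorem sg_inl (φ : MulAction.stabilizer (GA 𝓑) (none : Option (α ⊕ 𝓑))) (a : α) :
    φ.1 (some (Sum.inl a)) = some (Sum.inl (sg φ a)) := (exists_sigma φ.1 φ.2).choose_spec.1 a

theorem sg_inr (φ : MulAction.stabilizer (GA 𝓑) (none : Option (α ⊕ 𝓑))) (b : 𝓑) :
    ∃ c : 𝓑, φ.1 (some (Sum.inr b)) = some (Sum.inr c) ∧ (c : Finset α) = (b : Finset α).map (sg φ).toEmbedding := by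
  obtain ⟨c, h1, h2⟩ := (exists_sigma φ.1 φ.2).choose_spec.2 b
  refine ⟨c, h1, ?_⟩
  ext a
  rw [mem_map_equiv]
  have := h2 ((sg φ).symm a)
  rw [this]
  show a ∈ (c : Finset α) ↔ sg φ ((sg φ).symm a) ∈ (c : Finset α)
  rw [Equiv.apply_symm_apply]

theorem sg_mem (φ : MulAction.stabilizer (GA 𝓑) (none : Option (α ⊕ 𝓑))) : sg φ ∈ setSystemAut 𝓑 := by
  have h1 : ∀ b ∈ 𝓑, b.map (sg φ).toEmbedding ∈ 𝓑 := by
    intro b hb
    obtain ⟨c, -, h2⟩ := sg_inr φ ⟨b, hb⟩
    rw [← h2]; exact c.2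
  rw [H9.Aut24.mem_aut]
  intro b
  refine ⟨h1 b, fun hb => ?_⟩
  have hinj : Function.Injective (fun b : 𝓑 => (⟨(b : Finset α).map (sg φ).toEmbedding, h1 b b.2⟩ : 𝓑)) := by
    intro b c h
    have := congrArg Subtype.val h
    exact Subtype.ext (Finset.map_injective _ this)
  obtain ⟨c, hc⟩ := (Finite.injective_iff_surjective.1 hinj) ⟨_, hb⟩
  have h2 := Finset.map_injective _ (congrArg Subtype.val hc)
  rw [← h2]; exact c.2

theorem card_stab_le : Nat.card (MulAction.stabilizer (GA 𝓑) (none : Option (α ⊕ 𝓑))) ≤ Nat.card (setSystemAut 𝓑) := by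
  have : Finite (setSystemAut 𝓑) := inferInstance
  apply Nat.card_le_card_of_injective (fun φ => (⟨sg φ, sg_mem φ⟩ : setSystemAut 𝓑))
  intro φ ψ h
  have h1 : sg φ = sg ψ := congrArg Subtype.val h
  apply Subtype.ext
  apply RelIso.ext
  intro u
  rcases u with _ | a | b
  · rw [show φ.1 none = none from φ.2, show ψ.1 none = none from ψ.2]
  · rw [sg_inl, sg_inl, h1]
  · obtain ⟨c, h2, h3⟩ := sg_inr φ b
    obtain ⟨c', h2', h3'⟩ := sg_inr ψ b
    rw [h2, h2']
    have : c = c' := Subtype.ext (by rw [h3, h3', h1])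
    rw [this]

/-- the map of vertices induced by an automorphism of the set system -/
def vm (σ : setSystemAut 𝓑) : Option (α ⊕ 𝓑) → Option (α ⊕ 𝓑)
  | none => none
  | some (Sum.inl a) => some (Sum.inl (σ.1 a))
  | some (Sum.inr b) => some (Sum.inr ⟨(b : Finset α).map σ.1.toEmbedding, (H9.Aut24.mem_aut.1 σ.2 b).1 b.2⟩)

theorem vm_inv (σ τ : setSystemAut 𝓑) (h : ∀ a, τ.1 (σ.1 a) = a) (u : Option (α ⊕ 𝓑)) : vm τ (vm σ u) = u := by
  rcases u with _ | a | b
  · rfl
  · show some (Sum.inl (τ.1 (σ.1 a))) = _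
    rw [h]
  · show some (Sum.inr _) = _
    congr 2
    apply Subtype.ext
    show ((b : Finset α).map σ.1.toEmbedding).map τ.1.toEmbedding = b
    ext a
    rw [mem_map_equiv, mem_map_equiv]
    have h2 : σ.1.symm (τ.1.symm a) = a := by
      rw [Equiv.symm_apply_eq, Equiv.symm_apply_eq, h]
    rw [h2]

theorem vm_adj (σ : setSystemAut 𝓑) {u v : Option (α ⊕ 𝓑)} (h : (pointBlockGraph 𝓑).Adj u v) :
    (pointBlockGraph 𝓑).Adj (vm σ u) (vm σ v) := by
  have key : ∀ (u v : Option (α ⊕ 𝓑)), pointBlockRel 𝓑 u v → pointBlockRel 𝓑 (vm σ u) (vm σ v) := by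
    intro u v h
    rcases u with _ | a | b <;> rcases v with _ | a' | b' <;> try exact h
    · show σ.1 a ∈ (b' : Finset α).map σ.1.toEmbedding
      rw [mem_map_equiv, Equiv.symm_apply_apply]; exact h
    · show Disjoint ((b : Finset α).map σ.1.toEmbedding) ((b' : Finset α).map σ.1.toEmbedding)
      exact (Finset.disjoint_map _).2 h
  have hi : Function.Injective (vm σ) := by
    intro u v h
    have := congrArg (vm σ⁻¹) h
    rwa [vm_inv σ σ⁻¹ (fun a => σ.1.symm_apply_apply a), vm_inv σ σ⁻¹ (fun a => σ.1.symm_apply_apply a)] at this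
  unfold pointBlockGraph at h ⊢
  rw [SimpleGraph.fromRel_adj] at h ⊢
  exact ⟨fun h' => h.1 (hi h'), h.2.imp (key _ _) (key _ _)⟩

def vmG (σ : setSystemAut 𝓑) : GA 𝓑 where
  toFun := vm σ
  invFun := vm σ⁻¹
  left_inv := vm_inv σ σ⁻¹ (fun a => σ.1.symm_apply_apply a)
  right_inv := vm_inv σ⁻¹ σ (fun a => σ.1.apply_symm_apply a)
  map_rel_iff' := by
    intro u v
    refine ⟨fun h => ?_, vm_adj σ⟩
    have := vm_adj σ⁻¹ h
    have e : ∀ u, vm σ⁻¹ (vm σ u) = u := vm_inv σ σ⁻¹ (fun a => σ.1.symm_apply_apply a)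
    change (pointBlockGraph 𝓑).Adj (vm σ⁻¹ (vm σ u)) (vm σ⁻¹ (vm σ v)) at this
    rwa [e, e] at this

theorem card_stab_ge [Finite (GA 𝓑)] : Nat.card (setSystemAut 𝓑) ≤ Nat.card (MulAction.stabilizer (GA 𝓑) (none : Option (α ⊕ 𝓑))) := by
  apply Nat.card_le_card_of_injective (fun σ => (⟨vmG σ, rfl⟩ : MulAction.stabilizer (GA 𝓑) (none : Option (α ⊕ 𝓑))))
  intro σ τ h
  apply Subtype.ext
  apply Equiv.ext
  intro a
  have h1 : vmG σ = vmG τ := congrArg Subtype.val h
  have h2 := DFunLike.congr_fun h1 (some (Sum.inl a))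
  have h3 : (some (Sum.inl (σ.1 a)) : Option (α ⊕ 𝓑)) = some (Sum.inl (τ.1 a)) := h2
  simpa using h3

theorem finite_GA : Finite (GA 𝓑) := by
  classical
  have : Finite (Option (α ⊕ 𝓑)) := inferInstance
  exact Finite.of_injective (fun φ : GA 𝓑 => (φ : Option (α ⊕ 𝓑) → Option (α ⊕ 𝓑))) (fun φ ψ h => RelIso.ext (fun u => congrFun h u))

theorem card_GA (hα : Fintype.card α = 22) (hB : IsSteinerSystem 3 6 𝓑) : Nat.card (GA 𝓑) = 88704000 := by
  have := finite_GA (𝓑 := 𝓑)
  obtain ⟨E⟩ := H9.Aut22.exists_emb hα hB PQ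
  have h1 : MulAction.IsPretransitive (GA 𝓑) (Option (α ⊕ 𝓑)) := by
    refine ⟨fun u v => ?_⟩
    obtain ⟨φ, hφ⟩ := trans_none E u
    obtain ⟨ψ, hψ⟩ := trans_none E v
    refine ⟨ψ⁻¹ * φ, ?_⟩
    rw [mul_smul]
    have h2 : φ • u = none := hφ
    have h3 : ψ • v = none := hψ
    rw [h2, inv_smul_eq_iff, h3]
  have h2 := MulAction.index_stabilizer_of_transitive (GA 𝓑) (none : Option (α ⊕ 𝓑))
  have h3 := (MulAction.stabilizer (GA 𝓑) (none : Option (α ⊕ 𝓑))).card_mul_index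
  have h4 : Nat.card (MulAction.stabilizer (GA 𝓑) (none : Option (α ⊕ 𝓑))) = 887040 := by
    rw [← (H9.Aut22.main PQ hα hB).1]
    exact le_antisymm card_stab_le card_stab_ge
  have h5 : Nat.card (Option (α ⊕ 𝓑)) = 100 := by
    rw [Nat.card_congr (eqv E)]
    rw [← count100]
    exact (Nat.card_coe_set_eq _)
  rw [h2, h4, h5] at h3
  omega

end

end H33.Leech15
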