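import Mathlib
import Cfsg.Agent.Lib.H33.Leech15
import Cfsg.Agent.S0405
set_option autoImplicit false
open Cfsg

/-! The Higman-Sims group inside the automorphism group of the point-block graph. -/

namespace H33.Leech16
open Finset H9.Leech H9.LeechGood H8.GolayCode H8.GolayCount H8.GolayBasic H33.Leech1 H33.Leech2 H33.Leech6 H33.Leech11 H33.Leech12 H33.Leech15

theorem isHS_HSg : IsHS HSg := by
  have h := Cfsg.Agent.S0405.result V5 (B - V5) pairHs.nv pairHs.nw pairHs.vw
  have e : (MulAction.stabilizer Co0 V5 ⊓ MulAction.stabilizer Co0 (B - V5) : Subgroup Co0) = HSg := by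
    ext g
    unfold HSg
    rw [Subgroup.mem_inf, Subgroup.mem_inf, MulAction.mem_stabilizer_iff, MulAction.mem_stabilizer_iff,
      MulAction.mem_stabilizer_iff]
    constructor
    · rintro ⟨h1, h2⟩
      refine ⟨h1, ?_⟩
      have e1 : B = V5 + (B - V5) := by abel
      rw [e1, co0_add, h1, h2]
    · rintro ⟨h1, h2⟩
      refine ⟨h1, ?_⟩
      have e1 : g • V5 + g • (B - V5) = V5 + (B - V5) := by
        rw [← co0_add]
        have e2 : V5 + (B - V5) = B := by abel
        rw [e2, h2]
      rw [h1] at e1
      exact add_left_cancel e1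
  rw [e] at h
  exact h

section
variable {α : Type*} [Fintype α] [DecidableEq α] {𝓑 : Set (Finset α)} (E : H9.Aut22.Emb 𝓑 P Q)

noncomputable def hm : HSg →* GA 𝓑 where
  toFun := autG E
  map_one' := by
    apply RelIso.ext
    intro u
    apply F_inj E
    rw [F_autG]
    exact one_smul _ _
  map_mul' g h := by
    apply RelIso.ext
    intro u
    apply F_inj E
    show F E (autG E (g * h) u) = F E (autG E g (autG E h u))
    rw [F_autG, F_autG, F_autG]
    exact mul_smul _ _ _

include E in
theorem exists_HS (a : α) : ∃ H : Subgroup (GA 𝓑), IsHS H := by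
  have hs := isHS_HSg
  have := hs.1
  have hinj : Function.Injective (hm E) := by
    rw [← MonoidHom.ker_eq_bot_iff]
    rcases this.eq_bot_or_eq_top_of_normal (hm E).ker inferInstance with h | h
    · exact h
    · exfalso
      obtain ⟨g, hg, hgA⟩ := to_A' (F_InH E (some (Sum.inl a)))
      have h1 : (⟨g, hg⟩ : HSg) ∈ (hm E).ker := by rw [h]; trivial
      have h2 : autG E ⟨g, hg⟩ = 1 := h1
      have h3 := F_autG E ⟨g, hg⟩ (some (Sum.inl a))
      rw [h2] at h3
      have h4 : F E (some (Sum.inl a)) = F E none := h3.trans hgA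
      have := F_inj E h4
      simp at this
  let e : HSg ≃* (hm E).range := MonoidHom.ofInjective hinj
  refine ⟨(hm E).range, ?_, ?_⟩
  · exact H63.LeechHS.isSimple_of_equiv e
  · rw [← Nat.card_congr e.toEquiv, hs.2]

end

end H33.Leech16
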