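import Mathlib
import Cfsg.Agent.Lib.H33.M12c
set_option autoImplicit false
open Cfsg

/-! The stabiliser in M11 of a pair outside the dodecad is the symmetric group of degree 5. -/

namespace H33.M11a
open H8.GolayCode H8.GolayCount H8.GolayBasic H8.M24Mem H8.M24Chain H8.M24Trans H33.M24Tab H33.M24Cls H33.M24Pts H33.M12 H33.M12b H33.M12c
open scoped Pointwise

theorem oct_check : allB (fun n => !(Nat.beq (pop n) 8 && Nat.beq (Nat.land n 0x50efe0) 0x60 && Nat.testBit n 0) ||
    Nat.beq n 0x21007b) basisL 0 = true := by decide +kernel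

theorem compl_d0 : ∀ x : GolayPt, x ∉ d0 ↔ x ∈ D 0x50efe0 := by
  intro x
  rw [d0, mem_support_wd, mem_support_wd]
  have : ∀ i < 24, (¬ Nat.testBit m0 i = true) ↔ Nat.testBit 0x50efe0 i = true := by decide +kernel
  exact this _ (idx_lt x)

theorem pair_std : ({pt 5, pt 6} : Finset GolayPt) = D 0x60 := by
  ext x
  rw [mem_support_wd]
  simp only [Finset.mem_insert, Finset.mem_singleton]
  have : ∀ i < 24, Nat.testBit 0x60 i = true ↔ (i = 5 ∨ i = 6) := by decide +kernel
  rw [this _ (idx_lt x)]
  constructor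
  · rintro (h | h)
    · left; rw [h, idx_pt _ (by norm_num)]
    · right; rw [h, idx_pt _ (by norm_num)]
  · rintro (h | h)
    · exact Or.inl (pt_eq h)
    · exact Or.inr (pt_eq h)

/-- the octad through `p` meeting the complement of `d` in `s` -/
def IsO (d : Finset GolayPt) (p : GolayPt) (s o : Finset GolayPt) : Prop := o ∈ octads ∧ p ∈ o ∧ o \ d = s

theorem isO_image {g : Equiv.Perm GolayPt} (hg : g ∈ M24) {d s o : Finset GolayPt} {p : GolayPt} (h : IsO d p s o) :
    IsO (d.image g) (g p) (s.image g) (o.image g) := by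
  obtain ⟨h1, h2, h3⟩ := h
  refine ⟨image_octad hg h1, Finset.mem_image_of_mem _ h2, ?_⟩
  rw [← h3]
  ext x
  simp only [Finset.mem_sdiff, Finset.mem_image]
  constructor
  · rintro ⟨⟨y, hy, rfl⟩, h⟩
    exact ⟨y, ⟨hy, fun h' => h ⟨y, h', rfl⟩⟩, rfl⟩
  · rintro ⟨y, ⟨hy, hyd⟩, rfl⟩
    exact ⟨⟨y, hy, rfl⟩, fun ⟨z, hz, hzy⟩ => hyd (g.injective hzy ▸ hz)⟩

theorem std_exists : IsO d0 (pt 0) {pt 5, pt 6} (D 0x21007b) := by
  refine ⟨octad_of_mask (by norm_num) (by decide +kernel) (by decide +kernel),
    (pt_mem_D (by norm_num)).2 (by decide), ?_⟩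
  rw [pair_std]
  ext x
  rw [Finset.mem_sdiff, compl_d0, mem_support_wd, mem_support_wd, mem_support_wd]
  have : ∀ i < 24, (Nat.testBit 0x21007b i = true ∧ Nat.testBit 0x50efe0 i = true) ↔ Nat.testBit 0x60 i = true := by
    decide +kernel
  exact this _ (idx_lt x)

theorem std_unique {o : Finset GolayPt} (h : IsO d0 (pt 0) {pt 5, pt 6} o) : o = D 0x21007b := by
  obtain ⟨h1, h2, h3⟩ := h
  obtain ⟨k, _, h8, rfl⟩ := (octad_iff o).1 h1
  have hc := allCode oct_check k
  have h4 : Nat.land (cw k) 0x50efe0 = 0x60 := by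
    apply D_inj (lt_of_le_of_lt Nat.and_le_left (cw_lt k)) (by norm_num)
    show D (cw k &&& 0x50efe0) = D 0x60
    rw [D_inter, ← pair_std, ← h3]
    ext x
    rw [Finset.mem_inter, Finset.mem_sdiff, compl_d0]
  have h5 : Nat.testBit (cw k) 0 = true := (pt_mem_D (by norm_num)).1 h2
  rw [h4, h5, h8] at hc
  have : cw k = 0x21007b := by simpa using hc
  rw [this]

section
variable {d : Finset GolayPt} (hd : d ∈ dodecads) {p q q' : GolayPt} (hp : p ∈ d) (hq : q ∉ d) (hq' : q' ∉ d)
  (hqq : q ≠ q')
include hd hp hq hq' hqq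

theorem exists_move : ∃ g ∈ M24, d.image g = d0 ∧ g p = pt 0 ∧ ({q, q'} : Finset GolayPt).image g = {pt 5, pt 6} := by
  obtain ⟨g, hg, hgp, hgl, hgd⟩ := move11 hd d0_mem hp ((pt_mem_D (n := m0) (i := 0) (by norm_num)).2 (by decide))
    [q, q'] [pt 5, pt 6] (by simpa using hqq)
    (by decide) rfl (by simp)
    (by intro a ha; simp only [List.mem_cons, List.not_mem_nil, or_false] at ha; rcases ha with rfl | rfl <;> assumption)
    (by
      intro a ha
      simp only [List.mem_cons, List.not_mem_nil, or_false] at ha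
      rcases ha with rfl | rfl
      · rw [compl_d0, pt_mem_D (by norm_num)]; decide
      · rw [compl_d0, pt_mem_D (by norm_num)]; decide)
  simp only [List.map_cons, List.map_nil, List.cons.injEq, and_true] at hgl
  refine ⟨g, hg, hgd, hgp, ?_⟩
  rw [Finset.image_insert, Finset.image_singleton, hgl.1, hgl.2]

theorem isO_exists : ∃ o, IsO d p {q, q'} o := by
  obtain ⟨g, hg, hgd, hgp, hgq⟩ := exists_move hd hp hq hq' hqq
  refine ⟨(D 0x21007b).image ⇑g⁻¹, ?_⟩
  have h := isO_image (M24.inv_mem hg) std_exists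
  rw [image_inv hgd, ← hgp, ← hgq, inv_image_image] at h
  have e : g⁻¹ (g p) = p := g.symm_apply_apply p
  rwa [e] at h

theorem isO_unique {o o' : Finset GolayPt} (h : IsO d p {q, q'} o) (h' : IsO d p {q, q'} o') : o = o' := by
  obtain ⟨g, hg, hgd, hgp, hgq⟩ := exists_move hd hp hq hq' hqq
  have h1 := isO_image hg h
  have h2 := isO_image hg h'
  rw [hgd, hgp, hgq] at h1 h2
  exact Finset.image_injective g.injective ((std_unique h1).trans (std_unique h2).symm)

/-- the order -/
theorem card_pair : Nat.card ↥(MulAction.stabilizer M24 d ⊓ MulAction.stabilizer M24 p ⊓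
    MulAction.stabilizer M24 ({q, q'} : Finset GolayPt)) = 120 := by
  classical
  set H := MulAction.stabilizer M24 d ⊓ MulAction.stabilizer M24 p with hH
  have horb : MulAction.orbit H ({q, q'} : Finset GolayPt) = (dᶜ.powersetCard 2 : Finset (Finset GolayPt)) := by
    ext s
    rw [Finset.mem_coe, Finset.mem_powersetCard]
    constructor
    · rintro ⟨g, rfl⟩
      refine ⟨?_, ?_⟩
      · intro x hx
        obtain ⟨y, hy, rfl⟩ := Finset.mem_image.1 (show x ∈ ({q, q'} : Finset GolayPt).image g.1.1 from hx)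
        rw [Finset.mem_compl]
        intro hc
        have h2 : d.image g.1.1 = d := g.2.1
        rw [← h2, mem_image_g] at hc
        simp only [Finset.mem_insert, Finset.mem_singleton] at hy
        rcases hy with rfl | rfl
        · exact hq hc
        · exact hq' hc
      · show (({q, q'} : Finset GolayPt).image g.1.1).card = 2
        rw [Finset.card_image_of_injective _ g.1.1.injective, Finset.card_pair hqq]
    · rintro ⟨hs, h2⟩
      obtain ⟨a, b, hab, rfl⟩ := Finset.card_eq_two.1 h2
      obtain ⟨g, hg, hgp, hgl, hgd⟩ := move11 hd hd hp hp [q, q'] [a, b] (by simpa using hqq) (by simpa using hab) rfl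
        (by simp) (by intro c hc; simp only [List.mem_cons, List.not_mem_nil, or_false] at hc; rcases hc with rfl | rfl <;> assumption)
        (by intro c hc; simp only [List.mem_cons, List.not_mem_nil, or_false] at hc
            rcases hc with rfl | rfl
            · exact Finset.mem_compl.1 (hs (by simp))
            · exact Finset.mem_compl.1 (hs (by simp)))
      simp only [List.map_cons, List.map_nil, List.cons.injEq, and_true] at hgl
      refine ⟨⟨⟨g, hg⟩, ⟨hgd, hgp⟩⟩, ?_⟩
      show ({q, q'} : Finset GolayPt).image g = {a, b}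
      rw [Finset.image_insert, Finset.image_singleton, hgl.1, hgl.2]
  have h1 := MulAction.index_stabilizer H ({q, q'} : Finset GolayPt)
  rw [horb] at h1
  have h1' : (MulAction.stabilizer H ({q, q'} : Finset GolayPt)).index = 66 := by
    rw [h1, Set.ncard_coe_finset, Finset.card_powersetCard, Finset.card_compl, hd.2, card_pt]
    decide
  have h2 := (MulAction.stabilizer H ({q, q'} : Finset GolayPt)).card_mul_index
  rw [h1', card_one hd hp] at h2
  have h3 : Nat.card (MulAction.stabilizer H ({q, q'} : Finset GolayPt)) =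
      Nat.card ↥(H ⊓ MulAction.stabilizer M24 ({q, q'} : Finset GolayPt)) := by
    apply Nat.card_congr
    exact ⟨fun g => ⟨g.1.1, g.1.2, g.2⟩, fun g => ⟨⟨g.1, g.2.1⟩, g.2.2⟩, fun g => rfl, fun g => rfl⟩
  rw [h3] at h2
  omega

theorem iso : Nonempty (↥(MulAction.stabilizer M24 d ⊓ MulAction.stabilizer M24 p ⊓
    MulAction.stabilizer M24 ({q, q'} : Finset GolayPt)) ≃* Equiv.Perm (Fin 5)) := by
  classical
  obtain ⟨o, ho⟩ := isO_exists hd hp hq hq' hqq
  set H := MulAction.stabilizer M24 d ⊓ MulAction.stabilizer M24 p ⊓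
    MulAction.stabilizer M24 ({q, q'} : Finset GolayPt) with hH
  set s : Finset GolayPt := (o ∩ d).erase p with hs
  have hs5 : s.card = 5 := by
    have h1 : (o \ d).card = 2 := by rw [ho.2.2, Finset.card_pair hqq]
    have h2 := Finset.card_inter_add_card_sdiff o d
    rw [ho.1.2, h1] at h2
    rw [hs, Finset.card_erase_of_mem (Finset.mem_inter.2 ⟨ho.2.1, hp⟩)]
    omega
  have hdg : ∀ g : H, d.image g.1.1 = d := fun g => g.2.1.1
  have hpg : ∀ g : H, g.1.1 p = p := fun g => g.2.1.2
  have hog : ∀ g : H, o.image g.1.1 = o := by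
    intro g
    have h1 := isO_image g.1.2 ho
    have h2 : ({q, q'} : Finset GolayPt).image g.1.1 = {q, q'} := g.2.2
    rw [hdg g, hpg g, h2] at h1
    exact isO_unique hd hp hq hq' hqq h1 ho
  have hsg : ∀ g : H, ∀ x, x ∈ s ↔ g.1.1 x ∈ s := by
    intro g x
    rw [hs, Finset.mem_erase, Finset.mem_erase, Finset.mem_inter, Finset.mem_inter]
    have e1 : g.1.1 x ∈ o ↔ x ∈ o := by
      have := mem_image_g g.1.1 o x
      rwa [hog g] at this
    have e2 : g.1.1 x ∈ d ↔ x ∈ d := by
      have := mem_image_g g.1.1 d x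
      rwa [hdg g] at this
    have e3 : g.1.1 x = p ↔ x = p := by
      constructor
      · intro h; exact g.1.1.injective (h.trans (hpg g).symm)
      · rintro rfl; exact hpg g
    rw [e1, e2, Ne, Ne, e3]
  let f : H →* Equiv.Perm {x // x ∈ s} :=
    { toFun := fun g => g.1.1.subtypePerm (fun x => (hsg g x).symm)
      map_one' := by ext x; rfl
      map_mul' := fun g h => by ext x; rfl }
  have hf : Function.Injective f := by
    rw [injective_iff_map_eq_one]
    intro g hg
    have h1 : ∀ x ∈ s, g.1.1 x = x := by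
      intro x hx
      have := DFunLike.congr_fun hg ⟨x, hx⟩
      exact congrArg Subtype.val this
    have h2 := sharp12 hd s.toList s.nodup_toList (by rw [Finset.length_toList, hs5])
      (by intro a ha
          have h3 := Finset.mem_toList.1 ha
          rw [hs, Finset.mem_erase, Finset.mem_inter] at h3
          exact h3.2.2) g.1.2 (hdg g)
      (by intro a ha; exact h1 a (Finset.mem_toList.1 ha))
    exact Subtype.ext (Subtype.ext h2)
  have hbij : Function.Bijective f := by
    rw [Nat.bijective_iff_injective_and_card]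
    refine ⟨hf, ?_⟩
    rw [card_pair hd hp hq hq' hqq, Nat.card_perm, Nat.card_eq_fintype_card, Fintype.card_coe, hs5]
    rfl
  have e1 : {x // x ∈ s} ≃ Fin 5 := Fintype.equivFinOfCardEq (by rw [Fintype.card_coe, hs5])
  exact ⟨(MulEquiv.ofBijective f hbij).trans (Equiv.permCongrHom e1)⟩

end

end H33.M11a
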