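import Mathlib
import Cfsg.Agent.Lib.H33.M12c
import Cfsg.Prelude.Def_SporadicCombinatorics
set_option autoImplicit false
open Cfsg

/-! Quartets of a dodecad. -/

namespace H33.Quart
open H8.GolayCode H8.GolayCount H8.GolayBasic H8.M24Mem H8.M24Chain H8.M24Trans H33.M24Tab H33.M24Cls H33.M24Pts H33.M12 H33.M12b
open scoped Pointwise

def UL : List ℕ := [0x1018, 0x70000, 0x90008, 0xc0010, 0x211000, 0x220010, 0x240008, 0xa1000, 0x820008, 0x841000, 0xa80000, 0x810010]
/-- the four quartets through `{0,1,2}`, with the octads giving the six hexads -/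
def QL : List (List ℕ × List ℕ) := [([0x7, 0x1018, 0x70000, 0xa80000], [0x149f, 0x70447, 0xa800c7, 0x710d8, 0xa81458, 0xaf0480]), ([0x7, 0x90008, 0x220010, 0x841000], [0x9810f, 0x228817, 0x841907, 0x2b0918, 0x8d9808, 0xa69110]), ([0x7, 0xc0010, 0x211000, 0x820008], [0xc0237, 0x215207, 0x82402f, 0x2d5030, 0x8e4218, 0xa31228]), ([0x7, 0xa1000, 0x240008, 0x810010], [0x5a1007, 0x34200f, 0xc12017, 0x6e3008, 0x9b3010, 0xf50018])]
/-- elements moving the first quartet to the others -/
def EL : List ℕ := [0xbdab49ca307b9ac5a928398a418820, 0x1427132f233684b2d4943dd1ace03, 0x25a4898041a35575a4c72b9f11b2b0, 0x99e2b64aa373ca0359486d1220de04]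

/-- image of a set of sets -/
def im (g : Equiv.Perm GolayPt) (Q : Finset (Finset GolayPt)) : Finset (Finset GolayPt) := Q.image fun t => t.image g

theorem im_eq_smul (g : Equiv.Perm GolayPt) (Q : Finset (Finset GolayPt)) : g • Q = im g Q := rfl

theorem im_mul (g h : Equiv.Perm GolayPt) (Q : Finset (Finset GolayPt)) : im (g * h) Q = im g (im h Q) :=
  mul_smul g h Q

theorem im_one (Q : Finset (Finset GolayPt)) : im 1 Q = Q := one_smul (Equiv.Perm GolayPt) Q

theorem im_inv {g : Equiv.Perm GolayPt} {Q Q' : Finset (Finset GolayPt)} (h : im g Q = Q') : im g⁻¹ Q' = Q := by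
  rw [← h, ← im_mul, inv_mul_cancel, im_one]

theorem mem_im {g : Equiv.Perm GolayPt} {Q : Finset (Finset GolayPt)} {t : Finset GolayPt} :
    t.image g ∈ im g Q ↔ t ∈ Q := by
  unfold im
  rw [Finset.mem_image]
  constructor
  · rintro ⟨u, hu, h⟩
    rwa [← Finset.image_injective g.injective h]
  · intro h; exact ⟨t, h, rfl⟩

theorem hexads_image {g : Equiv.Perm GolayPt} (hg : g ∈ M24) {d h : Finset GolayPt} (hh : h ∈ hexadsOn d) :
    h.image g ∈ hexadsOn (d.image g) := by
  obtain ⟨h6, o, ho, hod⟩ := hh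
  refine ⟨by rw [Finset.card_image_of_injective _ g.injective, h6], o.image g, image_octad hg ho, ?_⟩
  rw [← Finset.image_inter _ _ g.injective, hod]

theorem quartets_image {g : Equiv.Perm GolayPt} (hg : g ∈ M24) {d : Finset GolayPt} {Q : Finset (Finset GolayPt)}
    (hQ : Q ∈ quartets d) : im g Q ∈ quartets (d.image g) := by
  obtain ⟨h1, h2, h3⟩ := hQ
  refine ⟨?_, ?_, ?_⟩
  · unfold im; rw [Finset.card_image_of_injective _ (Finset.image_injective g.injective), h1]
  · intro t ht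
    obtain ⟨t', ht', rfl⟩ := Finset.mem_image.1 ht
    exact ⟨by rw [Finset.card_image_of_injective _ g.injective]; exact (h2 t' ht').1,
      Finset.image_subset_image (h2 t' ht').2⟩
  · intro t ht u hu htu
    obtain ⟨t', ht', rfl⟩ := Finset.mem_image.1 ht
    obtain ⟨u', hu', rfl⟩ := Finset.mem_image.1 hu
    rw [← Finset.image_union]
    exact hexads_image hg (h3 t' ht' u' hu' (fun h => htu (by rw [h])))

/-- the standard triple -/
def t0 : Finset GolayPt := D 7

theorem D_or (m n : ℕ) : D (m ||| n) = D m ∪ D n := by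
  ext p
  rw [Finset.mem_union, mem_support_wd, mem_support_wd, mem_support_wd, Nat.testBit_or, Bool.or_eq_true]

theorem U_check : allB (fun n => !(Nat.beq (pop n) 8 && Nat.beq (Nat.land n 7) 7 && Nat.beq (pop (Nat.land n 0xaf101f)) 6) ||
    H33.BitSet.memB UL (Nat.land n 0xaf1018)) basisL 0 = true := by decide +kernel

theorem U_spec {u : Finset GolayPt} (hdis : Disjoint t0 u) (hh : t0 ∪ u ∈ hexadsOn d0) : ∃ m ∈ UL, u = D m := by
  obtain ⟨h6, o, ho, hod⟩ := hh
  obtain ⟨k, _, h8, rfl⟩ := (octad_iff o).1 ho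
  have h1 := allCode U_check k
  have h7 : Nat.land (cw k) 7 = 7 := by
    apply D_inj (lt_of_le_of_lt Nat.and_le_left (cw_lt k)) (by norm_num)
    show D (cw k &&& 7) = D 7
    rw [D_inter]
    apply Finset.inter_eq_right.2
    have : t0 ⊆ D (cw k) := fun x hx => by
      have : x ∈ D (cw k) ∩ d0 := hod ▸ Finset.mem_union_left _ hx
      exact (Finset.mem_inter.1 this).1
    exact this
  have h66 : pop (Nat.land (cw k) 0xaf101f) = 6 := by
    rw [← card_inter (cw_lt k), ← h6, ← hod]; rfl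
  have h2 : Nat.land (cw k) 0xaf1018 ∈ UL := by
    rw [← H33.BitSet.memB_iff]
    rw [h7, h66, h8] at h1
    simpa using h1
  refine ⟨_, h2, ?_⟩
  show u = D (cw k &&& 0xaf1018)
  rw [D_inter]
  have h3 : D 0xaf1018 = d0 \ t0 := by
    ext x
    rw [Finset.mem_sdiff, d0, t0, mem_support_wd, mem_support_wd, mem_support_wd]
    have : ∀ i < 24, (Nat.testBit 0xaf1018 i = true) ↔ (Nat.testBit m0 i = true ∧ ¬ Nat.testBit 7 i = true) := by
      decide +kernel
    exact this _ (idx_lt x)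
  rw [h3, ← Finset.inter_sdiff_assoc, hod, Finset.union_sdiff_left]
  exact (Finset.sdiff_eq_self_of_disjoint hdis.symm).symm

/-- the quartet with given masks -/
def qF (l : List ℕ) : Finset (Finset GolayPt) := (l.map D).toFinset

theorem mem_qF {l : List ℕ} {t : Finset GolayPt} : t ∈ qF l ↔ ∃ m ∈ l, D m = t := by
  unfold qF; rw [List.mem_toFinset, List.mem_map]

theorem QL_0 : ∀ q ∈ QL, 7 ∈ q.1 ∧ q.1.length = 4 ∧ q.1.Nodup := by decide +kernel
theorem QL_1 : ∀ q ∈ QL, ∀ a ∈ q.1, pop a = 3 ∧ Nat.land a 0xaf101f = a ∧ a < 2 ^ 24 := by decide +kernel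
theorem QL_2 : ∀ q ∈ QL, ∀ a ∈ q.1, ∀ b ∈ q.1, a ≠ b → ∃ o ∈ q.2, o < 2 ^ 24 ∧ cw (o % 4096) = o ∧ pop o = 8 ∧
    Nat.land o 0xaf101f = Nat.lor a b ∧ pop (Nat.lor a b) = 6 := by decide +kernel
theorem QL_3 : ∀ m ∈ UL, ∃ q ∈ QL, m ∈ q.1 := by decide +kernel
theorem QL_4 : ∀ m ∈ UL, ∀ m' ∈ UL, Nat.land m m' = 0 → ∀ q ∈ QL, m ∈ q.1 → m' ∈ q.1 := by decide +kernel
theorem UL_lt : ∀ m ∈ UL, m < 2 ^ 24 := by decide +kernel

theorem card_qF {l : List ℕ} (hn : l.Nodup) (hlt : ∀ a ∈ l, a < 2 ^ 24) : (qF l).card = l.length := by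
  unfold qF
  rw [List.toFinset_card_of_nodup, List.length_map]
  exact hn.map_on fun a ha b hb h => D_inj (hlt a ha) (hlt b hb) h

theorem qF_quartet {q : List ℕ × List ℕ} (hq : q ∈ QL) : qF q.1 ∈ quartets d0 := by
  obtain ⟨h0, h1, h2⟩ := QL_0 q hq
  have h3 := QL_1 q hq
  refine ⟨by rw [card_qF h2 (fun a ha => (h3 a ha).2.2), h1], ?_, ?_⟩
  · intro t ht
    obtain ⟨m, hm, rfl⟩ := mem_qF.1 ht
    obtain ⟨h4, h5, h6⟩ := h3 m hm
    refine ⟨by rw [card_D h6, h4], ?_⟩
    have : D m = D m ∩ d0 := by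
      rw [d0, ← D_inter]
      exact congrArg D h5.symm
    rw [this]
    exact Finset.inter_subset_right
  · intro t ht u hu htu
    obtain ⟨a, ha, rfl⟩ := mem_qF.1 ht
    obtain ⟨b, hb, rfl⟩ := mem_qF.1 hu
    obtain ⟨o, ho, h4, h5, h6, h7, h8⟩ := QL_2 q hq a ha b hb (fun h => htu (by rw [h]))
    have hor : D a ∪ D b = D (Nat.lor a b) := (D_or a b).symm
    have hlt : Nat.lor a b < 2 ^ 24 := by
      rw [← h7]; exact lt_of_le_of_lt Nat.and_le_left h4
    refine ⟨by rw [hor, card_D hlt, h8], D o, octad_of_mask h4 h5 h6, ?_⟩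
    rw [hor, d0, ← D_inter]
    exact congrArg D h7

/-- in a quartet distinct triples are disjoint -/
theorem quartet_disj {d : Finset GolayPt} {Q : Finset (Finset GolayPt)} (hQ : Q ∈ quartets d) {t u : Finset GolayPt}
    (ht : t ∈ Q) (hu : u ∈ Q) (htu : t ≠ u) : Disjoint t u := by
  have h1 := (hQ.2.2 t ht u hu htu).1
  have h2 := (hQ.2.1 t ht).1
  have h3 := (hQ.2.1 u hu).1
  rw [← Finset.card_union_eq_card_add_card, h1, h2, h3]

theorem t0_card : t0.card = 3 := by
  show (D 7).card = 3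
  rw [card_D (by norm_num)]; decide +kernel

/-- a quartet through the standard triple is determined by another member -/
theorem unique_std {Q : Finset (Finset GolayPt)} (hQ : Q ∈ quartets d0) (h0 : t0 ∈ Q) {m : ℕ} (hm : m ∈ UL)
    (hmQ : D m ∈ Q) {q : List ℕ × List ℕ} (hq : q ∈ QL) (hmq : m ∈ q.1) : Q = qF q.1 := by
  have hne : t0 ≠ D m := by
    intro h
    have h1 : (7 : ℕ) = m := D_inj (by norm_num) (UL_lt m hm) h
    have : ∀ m ∈ UL, m ≠ 7 := by decide +kernel
    exact this m hm h1.symm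
  have hsub : Q ⊆ qF q.1 := by
    intro w hw
    rw [mem_qF]
    by_cases h1 : w = t0
    · exact ⟨7, (QL_0 q hq).1, h1.symm⟩
    by_cases h2 : w = D m
    · exact ⟨m, hmq, h2.symm⟩
    obtain ⟨m', hm', rfl⟩ := U_spec (quartet_disj hQ h0 hw (Ne.symm h1)) (hQ.2.2 t0 h0 w hw (Ne.symm h1))
    have h3 := quartet_disj hQ hmQ hw (Ne.symm h2)
    have h4 : Nat.land m m' = 0 := by
      have h5 : pop (Nat.land m m') = 0 := by
        rw [← card_inter (UL_lt m hm), Finset.card_eq_zero]
        exact Finset.disjoint_iff_inter_eq_empty.1 h3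
      have h6 : Nat.land m m' < 2 ^ 24 := lt_of_le_of_lt Nat.and_le_left (UL_lt m hm)
      apply D_inj h6 (by norm_num)
      have h7 : D (Nat.land m m') = ∅ := by
        show D (m &&& m') = ∅
        rw [D_inter]; exact Finset.disjoint_iff_inter_eq_empty.1 h3
      rw [h7]
      symm
      rw [Finset.eq_empty_iff_forall_notMem]
      intro x hx
      rw [mem_support_wd] at hx
      simp at hx
    exact ⟨m', QL_4 m hm m' hm' h4 q hq hmq, rfl⟩
  apply Finset.eq_of_subset_of_card_le hsub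
  rw [card_qF (QL_0 q hq).2.2 (fun a ha => (QL_1 q hq a ha).2.2), (QL_0 q hq).2.1, hQ.1]

theorem list_of_card_three {t : Finset GolayPt} (ht : t.card = 3) : ∃ x y z, [x, y, z].Nodup ∧ t = {x, y, z} := by
  obtain ⟨x, y, z, hxy, hxz, hyz, h⟩ := Finset.card_eq_three.1 ht
  exact ⟨x, y, z, by simp [hxy, hxz, hyz], h⟩

theorem t0_eq : t0 = {pt 0, pt 1, pt 2} := by
  ext x
  rw [t0, mem_support_wd]
  simp only [Finset.mem_insert, Finset.mem_singleton]
  have : ∀ i < 24, Nat.testBit 7 i = true ↔ (i = 0 ∨ i = 1 ∨ i = 2) := by decide +kernel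
  rw [this _ (idx_lt x)]
  constructor
  · rintro (h | h | h)
    · exact Or.inl (pt_eq h)
    · exact Or.inr (Or.inl (pt_eq h))
    · exact Or.inr (Or.inr (pt_eq h))
  · rintro (h | h | h)
    · left; rw [h, idx_pt _ (by norm_num)]
    · right; left; rw [h, idx_pt _ (by norm_num)]
    · right; right; rw [h, idx_pt _ (by norm_num)]

/-- moving a dodecad and a triple to the standard position -/
theorem triple_std {d t : Finset GolayPt} (hd : d ∈ dodecads) (ht : t.card = 3) (htd : t ⊆ d) :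
    ∃ g ∈ M24, d.image g = d0 ∧ t.image g = t0 := by
  obtain ⟨x, y, z, hn, rfl⟩ := list_of_card_three ht
  have d0p : ∀ i < 3, pt i ∈ d0 := by
    intro i hi
    rw [d0, pt_mem_D (by omega)]
    interval_cases i <;> decide
  obtain ⟨g, hg, hgl, hgd⟩ := move12 hd d0_mem [x, y, z] [pt 0, pt 1, pt 2] hn (by decide) rfl (by simp)
    (by intro b hb; simp only [List.mem_cons, List.not_mem_nil, or_false] at hb
        rcases hb with rfl | rfl | rfl <;> exact htd (by simp))
    (by intro b hb; simp only [List.mem_cons, List.not_mem_nil, or_false] at hb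
        rcases hb with rfl | rfl | rfl
        · exact d0p 0 (by norm_num)
        · exact d0p 1 (by norm_num)
        · exact d0p 2 (by norm_num))
  simp only [List.map_cons, List.map_nil, List.cons.injEq, and_true] at hgl
  refine ⟨g, hg, hgd, ?_⟩
  rw [t0_eq, Finset.image_insert, Finset.image_insert, Finset.image_singleton, hgl.1, hgl.2.1, hgl.2.2]

end H33.Quart
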