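import Mathlib
import Cfsg.Agent.Lib.H33.Quart
set_option autoImplicit false
open Cfsg

/-! Quartets of a dodecad: existence, uniqueness, number, transitivity. -/

namespace H33.Quart2
open H8.GolayCode H8.GolayCount H8.GolayBasic H8.M24Mem H8.M24Chain H8.M24Trans H33.M24Tab H33.M24Cls H33.M24Pts H33.M12 H33.M12b H33.Quart
open scoped Pointwise

theorem inv_image {g : Equiv.Perm GolayPt} {x y : Finset GolayPt} (h : x.image g = y) : y.image ⇑g⁻¹ = x := by
  rw [← h]; exact inv_image_image g x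

/-- the quartets through the standard triple -/
theorem through_std {Q : Finset (Finset GolayPt)} (hQ : Q ∈ quartets d0) (h0 : t0 ∈ Q) :
    ∃ q ∈ QL, Q = qF q.1 := by
  have hne : ∃ w ∈ Q, w ≠ t0 := by
    by_contra hcon
    push Not at hcon
    have h1 : Q ⊆ {t0} := fun w hw => Finset.mem_singleton.2 (hcon w hw)
    have h2 := Finset.card_le_card h1
    rw [hQ.1, Finset.card_singleton] at h2
    omega
  obtain ⟨w, hw, hwt⟩ := hne
  obtain ⟨m, hm, rfl⟩ := U_spec (quartet_disj hQ h0 hw (Ne.symm hwt)) (hQ.2.2 t0 h0 w hw (Ne.symm hwt))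
  obtain ⟨q, hq, hmq⟩ := QL_3 m hm
  exact ⟨q, hq, unique_std hQ h0 hm hw hq hmq⟩

theorem t0_mem {q : List ℕ × List ℕ} (hq : q ∈ QL) : t0 ∈ qF q.1 := mem_qF.2 ⟨7, (QL_0 q hq).1, rfl⟩

theorem exists_unique_quartet {d : Finset GolayPt} (hd : d ∈ dodecads) {t u : Finset GolayPt} (ht : t.card = 3)
    (htu : Disjoint t u) (hh : t ∪ u ∈ hexadsOn d) :
    ∃! Q : Finset (Finset GolayPt), Q ∈ quartets d ∧ t ∈ Q ∧ u ∈ Q := by
  have htd : t ⊆ d := by
    obtain ⟨_, o, _, ho⟩ := hh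
    intro x hx
    have : x ∈ o ∩ d := by rw [ho]; exact Finset.mem_union_left _ hx
    exact (Finset.mem_inter.1 this).2
  obtain ⟨g, hg, hgd, hgt⟩ := triple_std hd ht htd
  have hdis : Disjoint t0 (u.image g) := by
    rw [← hgt, Finset.disjoint_image g.injective]; exact htu
  have hh' : t0 ∪ u.image g ∈ hexadsOn d0 := by
    rw [← hgt, ← Finset.image_union, ← hgd]
    exact hexads_image hg hh
  obtain ⟨m, hm, hum⟩ := U_spec hdis hh'
  obtain ⟨q, hq, hmq⟩ := QL_3 m hm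
  refine ⟨im g⁻¹ (qF q.1), ⟨?_, ?_, ?_⟩, ?_⟩
  · have := quartets_image (M24.inv_mem hg) (qF_quartet hq)
    rwa [inv_image hgd] at this
  · have h1 : t0.image ⇑g⁻¹ ∈ im g⁻¹ (qF q.1) := mem_im.2 (t0_mem hq)
    rwa [inv_image hgt] at h1
  · have h1 : (D m).image ⇑g⁻¹ ∈ im g⁻¹ (qF q.1) := mem_im.2 (mem_qF.2 ⟨m, hmq, rfl⟩)
    rwa [inv_image hum] at h1
  · rintro Q ⟨hQ, htQ, huQ⟩
    have h1 := quartets_image hg hQ
    rw [hgd] at h1
    have h2 : t0 ∈ im g Q := by rw [← hgt]; exact mem_im.2 htQ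
    have h3 : D m ∈ im g Q := by rw [← hum]; exact mem_im.2 huQ
    exact (im_inv (unique_std h1 h2 hm h3 hq hmq)).symm

theorem EL_ok : H33.BitSet.allL EL (okS [] [m0]) = true := by decide +kernel

theorem EL_QL : ∀ q ∈ QL, ∃ c ∈ EL, ∀ a ∈ (QL.getD 0 ([], [])).1, actT c a ∈ q.1 := by decide +kernel

/-- the first standard quartet -/
def q0 : List ℕ × List ℕ := QL.getD 0 ([], [])
theorem q0_mem : q0 ∈ QL := by decide +kernel

theorem to_q0 {q : List ℕ × List ℕ} (hq : q ∈ QL) : ∃ g ∈ M24, d0.image g = d0 ∧ im g (qF q0.1) = qF q.1 := by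
  obtain ⟨c, hc, hc2⟩ := EL_QL q hq
  have h1 := EL_ok
  rw [H33.BitSet.allL_iff] at h1
  obtain ⟨h2, h3⟩ := okS_spec (h1 c hc)
  have h4 : im (elt c) (qF q0.1) ⊆ qF q.1 := by
    intro t ht
    obtain ⟨t', ht', rfl⟩ := Finset.mem_image.1 ht
    obtain ⟨a, ha, rfl⟩ := mem_qF.1 ht'
    rw [elt_image h2]
    exact mem_qF.2 ⟨_, hc2 a ha, rfl⟩
  refine ⟨elt c, elt_mem c, h3.2.2 m0 (by simp), Finset.eq_of_subset_of_card_le h4 ?_⟩
  have h5 : (im (elt c) (qF q0.1)).card = (qF q0.1).card :=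
    Finset.card_image_of_injective _ (Finset.image_injective (elt c).injective)
  rw [h5, (qF_quartet q0_mem).1, (qF_quartet hq).1]

theorem im_comp_std {d : Finset GolayPt} (hd : d ∈ dodecads) {Q : Finset (Finset GolayPt)} (hQ : Q ∈ quartets d)
    {t : Finset GolayPt} (ht : t ∈ Q) :
    ∃ g ∈ M24, d.image g = d0 ∧ im g Q = qF q0.1 := by
  obtain ⟨g, hg, hgd, hgt⟩ := triple_std hd (hQ.2.1 t ht).1 (hQ.2.1 t ht).2
  have h1 := quartets_image hg hQ
  rw [hgd] at h1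
  have h2 : t0 ∈ im g Q := by rw [← hgt]; exact mem_im.2 ht
  obtain ⟨q, hq, hqe⟩ := through_std h1 h2
  obtain ⟨h, hh, hhd, hhq⟩ := to_q0 hq
  refine ⟨h⁻¹ * g, M24.mul_mem (M24.inv_mem hh) hg, ?_, ?_⟩
  · rw [image_mul, hgd]; exact inv_image hhd
  · rw [im_mul, hqe]; exact im_inv hhq

theorem quartet_nonempty {d : Finset GolayPt} {Q : Finset (Finset GolayPt)} (hQ : Q ∈ quartets d) : ∃ t, t ∈ Q := by
  have h : Q.Nonempty := by
    rw [← Finset.card_pos, hQ.1]; norm_num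
  exact h

/-- pairs (dodecad, quartet) are conjugate -/
theorem to_std {d : Finset GolayPt} (hd : d ∈ dodecads) {Q : Finset (Finset GolayPt)} (hQ : Q ∈ quartets d) :
    ∃ g ∈ M24, d.image g = d0 ∧ im g Q = qF q0.1 := by
  obtain ⟨t, ht⟩ := quartet_nonempty hQ
  exact im_comp_std hd hQ ht

theorem trans {d : Finset GolayPt} (hd : d ∈ dodecads) {Q Q' : Finset (Finset GolayPt)} (hQ : Q ∈ quartets d)
    (hQ' : Q' ∈ quartets d) : ∃ g ∈ M24, d.image g = d ∧ im g Q = Q' := by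
  obtain ⟨g, hg, hgd, hgQ⟩ := to_std hd hQ
  obtain ⟨h, hh, hhd, hhQ⟩ := to_std hd hQ'
  refine ⟨h⁻¹ * g, M24.mul_mem (M24.inv_mem hh) hg, ?_, ?_⟩
  · rw [image_mul, hgd]; exact inv_image hhd
  · rw [im_mul, hgQ]; exact im_inv hhQ

theorem QL_nodup : (QL.map fun q => q.1).Pairwise (fun a b => ∃ m ∈ a, m ∉ b) := by decide +kernel

theorem card_through_std : ({Q | Q ∈ quartets d0 ∧ t0 ∈ Q} : Set (Finset (Finset GolayPt))).ncard = 4 := by
  have h1 : ({Q | Q ∈ quartets d0 ∧ t0 ∈ Q} : Set (Finset (Finset GolayPt))) =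
      ((QL.map fun q => q.1).map qF).toFinset := by
    ext Q
    simp only [Set.mem_setOf_eq, List.coe_toFinset, List.mem_map, exists_exists_and_eq_and]
    constructor
    · rintro ⟨hQ, h0⟩
      obtain ⟨q, hq, rfl⟩ := through_std hQ h0
      exact ⟨q, hq, rfl⟩
    · rintro ⟨q, hq, rfl⟩
      exact ⟨qF_quartet hq, t0_mem hq⟩
  rw [h1, Set.ncard_coe_finset, List.toFinset_card_of_nodup]
  · rfl
  · rw [List.Nodup, List.pairwise_map, List.pairwise_map]
    have h2 := QL_nodup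
    rw [List.pairwise_map] at h2
    refine h2.imp_of_mem ?_
    intro a b ha hb ⟨m, hm, hmb⟩ h
    have h3 : D m ∈ qF a.1 := mem_qF.2 ⟨m, hm, rfl⟩
    rw [h] at h3
    obtain ⟨m', hm', h4⟩ := mem_qF.1 h3
    have h5 : m' = m := D_inj (QL_1 b hb m' hm').2.2 (QL_1 a ha m hm).2.2 h4
    exact hmb (h5 ▸ hm')

theorem card_through {d : Finset GolayPt} (hd : d ∈ dodecads) {t : Finset GolayPt} (ht : t.card = 3) (htd : t ⊆ d) :
    ({Q | Q ∈ quartets d ∧ t ∈ Q} : Set (Finset (Finset GolayPt))).ncard = 4 := by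
  obtain ⟨g, hg, hgd, hgt⟩ := triple_std hd ht htd
  rw [← card_through_std]
  have hinj : Function.Injective (im g) := by
    intro Q Q' h
    have h1 := im_inv h
    have h2 : im g⁻¹ (im g Q') = Q' := by rw [← im_mul, inv_mul_cancel, im_one]
    rw [← h1, h2]
  rw [← Set.ncard_image_of_injective _ hinj]
  congr 1
  ext Q
  constructor
  · rintro ⟨Q', ⟨hQ', htQ'⟩, rfl⟩
    refine ⟨?_, ?_⟩
    · rw [← hgd]; exact quartets_image hg hQ'
    · rw [← hgt]; exact mem_im.2 htQ'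
  · rintro ⟨hQ, h0⟩
    refine ⟨im g⁻¹ Q, ⟨?_, ?_⟩, ?_⟩
    · have := quartets_image (M24.inv_mem hg) hQ
      rwa [inv_image hgd] at this
    · have h1 : t0.image ⇑g⁻¹ ∈ im g⁻¹ Q := mem_im.2 h0
      rwa [inv_image hgt] at h1
    · rw [← im_mul, mul_inv_cancel, im_one]

theorem card_quartets {d : Finset GolayPt} (hd : d ∈ dodecads) : (quartets d).ncard = 220 := by
  classical
  set QS : Finset (Finset (Finset GolayPt)) := (Set.toFinite (quartets d)).toFinset with hQS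
  have h1 := Finset.card_mul_eq_card_mul (fun (Q : Finset (Finset GolayPt)) (t : Finset GolayPt) => t ∈ Q)
    (s := QS) (t := d.powersetCard 3) (m := 4) (n := 4) (by
      intro Q hQ
      rw [hQS, Set.Finite.mem_toFinset] at hQ
      rw [← hQ.1]
      congr 1
      ext t
      rw [Finset.mem_bipartiteAbove, Finset.mem_powersetCard]
      exact ⟨fun h => h.2, fun h => ⟨⟨(hQ.2.1 t h).2, (hQ.2.1 t h).1⟩, h⟩⟩) (by
      intro t ht
      rw [Finset.mem_powersetCard] at ht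
      rw [← card_through hd ht.2 ht.1, ← Set.ncard_coe_finset]
      congr 1
      ext Q
      rw [Finset.mem_coe, Finset.mem_bipartiteBelow, hQS, Set.Finite.mem_toFinset]
      rfl)
  rw [Finset.card_powersetCard, hd.2] at h1
  have h2 : QS.card = (quartets d).ncard := by
    rw [← Set.ncard_coe_finset, hQS, Set.Finite.coe_toFinset]
  have h3 : Nat.choose 12 3 = 220 := by decide
  rw [h3] at h1
  omega

end H33.Quart2
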