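import Mathlib
import Cfsg.Agent.Lib.H33.Quart2
import Cfsg.Agent.Lib.H33.GL23
set_option autoImplicit false
open Cfsg

/-! The stabiliser of a quartet: order 432, structure 3²:GL(2,3), transitivity on the dodecad. -/

namespace H33.Quart4
open H8.GolayCode H8.GolayCount H8.GolayBasic H8.M24Mem H8.M24Chain H8.M24Trans H33.M24Tab H33.M24Cls H33.M24Pts H33.M12 H33.M12b H33.Quart H33.Quart2
open scoped Pointwise

def EF : List ℕ := [0xbdab49ca307b9ac5a928398a418820, 0x9a46e85d92550b53ada67a2c488820, 0x622af8447769d73a14d64b95220820, 0x22ae684e2c72cf22d1096d9e3a8820]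
def N1 : ℕ := 0x9a6eeac6126a0acb2974399e418041
def N2 : ℕ := 0x9d2edac251596c3429cf3992c20820

theorem EF_ok : H33.BitSet.allL EF (okS [0, 1, 2] [m0]) = true := by decide +kernel
theorem EF_QL : ∀ q ∈ QL, ∃ c ∈ EF, ∀ a ∈ (QL.getD 0 ([], [])).1, actT c a ∈ q.1 := by decide +kernel

theorem to_q0F {q : List ℕ × List ℕ} (hq : q ∈ QL) :
    ∃ g ∈ Stb [0, 1, 2] [m0], im g (qF q0.1) = qF q.1 := by
  obtain ⟨c, hc, hc2⟩ := EF_QL q hq
  have h1 := EF_ok
  rw [H33.BitSet.allL_iff] at h1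
  obtain ⟨h2, h3⟩ := okS_spec (h1 c hc)
  have h4 : im (elt c) (qF q0.1) ⊆ qF q.1 := by
    intro t ht
    obtain ⟨t', ht', rfl⟩ := Finset.mem_image.1 ht
    obtain ⟨a, ha, rfl⟩ := mem_qF.1 ht'
    rw [elt_image h2]
    exact mem_qF.2 ⟨_, hc2 a ha, rfl⟩
  refine ⟨elt c, h3, Finset.eq_of_subset_of_card_le h4 ?_⟩
  have h5 : (im (elt c) (qF q0.1)).card = (qF q0.1).card :=
    Finset.card_image_of_injective _ (Finset.image_injective (elt c).injective)
  rw [h5, (qF_quartet q0_mem).1, (qF_quartet hq).1]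

theorem biUnion_eq {d : Finset GolayPt} (hd : d ∈ dodecads) {Q : Finset (Finset GolayPt)} (hQ : Q ∈ quartets d) :
    Q.biUnion id = d := by
  classical
  apply Finset.eq_of_subset_of_card_le
  · intro x hx
    obtain ⟨t, ht, hxt⟩ := Finset.mem_biUnion.1 hx
    exact (hQ.2.1 t ht).2 hxt
  · rw [hd.2, Finset.card_biUnion]
    · have h1 : ∑ t ∈ Q, (id t : Finset GolayPt).card = ∑ t ∈ Q, 3 := Finset.sum_congr rfl fun t ht => (hQ.2.1 t ht).1
      rw [h1, Finset.sum_const, hQ.1]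
      norm_num
    · intro t ht u hu htu
      exact quartet_disj hQ ht hu htu

/-- pairs (quartet, point of the dodecad) are conjugate -/
theorem to_std_pt {d : Finset GolayPt} (hd : d ∈ dodecads) {Q : Finset (Finset GolayPt)} (hQ : Q ∈ quartets d)
    {p : GolayPt} (hp : p ∈ d) : ∃ g ∈ M24, d.image g = d0 ∧ im g Q = qF q0.1 ∧ g p = pt 0 := by
  rw [← biUnion_eq hd hQ] at hp
  obtain ⟨t, ht, hpt⟩ := Finset.mem_biUnion.1 hp
  obtain ⟨ht3, htd⟩ := hQ.2.1 t ht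
  have hpt' : p ∈ t := hpt
  obtain ⟨y, z, hyz, hE⟩ := Finset.card_eq_two.1 (show (t.erase p).card = 2 by rw [Finset.card_erase_of_mem hpt', ht3])
  have hpy : y ∈ t.erase p := by rw [hE]; simp
  have hpz : z ∈ t.erase p := by rw [hE]; simp
  have hte : t = {p, y, z} := by rw [← Finset.insert_erase hpt', hE]
  rw [Finset.mem_erase] at hpy hpz
  have d0p : ∀ i < 3, pt i ∈ d0 := by
    intro i hi
    rw [d0, pt_mem_D (by omega)]
    interval_cases i <;> decide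
  obtain ⟨g, hg, hgl, hgd⟩ := move12 hd d0_mem [p, y, z] [pt 0, pt 1, pt 2]
    (by simp [hyz, hpy.1.symm, hpz.1.symm]) (by decide) rfl (by simp)
    (by intro b hb; simp only [List.mem_cons, List.not_mem_nil, or_false] at hb
        rcases hb with rfl | rfl | rfl
        · exact htd hpt'
        · exact htd hpy.2
        · exact htd hpz.2)
    (by intro b hb; simp only [List.mem_cons, List.not_mem_nil, or_false] at hb
        rcases hb with rfl | rfl | rfl
        · exact d0p 0 (by norm_num)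
        · exact d0p 1 (by norm_num)
        · exact d0p 2 (by norm_num))
  simp only [List.map_cons, List.map_nil, List.cons.injEq, and_true] at hgl
  have hgt : t.image g = t0 := by
    rw [hte, t0_eq, Finset.image_insert, Finset.image_insert, Finset.image_singleton, hgl.1, hgl.2.1, hgl.2.2]
  have h1 := quartets_image hg hQ
  rw [hgd] at h1
  have h2 : t0 ∈ im g Q := by rw [← hgt]; exact mem_im.2 ht
  obtain ⟨q, hq, hqe⟩ := through_std h1 h2
  obtain ⟨h, hh, hhq⟩ := to_q0F hq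
  refine ⟨h⁻¹ * g, M24.mul_mem (M24.inv_mem hh.1) hg, ?_, ?_, ?_⟩
  · rw [image_mul, hgd]; exact inv_image (image_d0 hh)
  · rw [im_mul, hqe]; exact im_inv hhq
  · have h0 : h (pt 0) = pt 0 := hh.2.1 0 (by simp)
    rw [Equiv.Perm.mul_apply, hgl.1]
    exact (Equiv.Perm.inv_eq_iff_eq.2 h0.symm)

theorem trans_pt {d : Finset GolayPt} (hd : d ∈ dodecads) {Q : Finset (Finset GolayPt)} (hQ : Q ∈ quartets d)
    {p q : GolayPt} (hp : p ∈ d) (hq : q ∈ d) : ∃ g ∈ M24, d.image g = d ∧ im g Q = Q ∧ g p = q := by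
  obtain ⟨g, hg, hgd, hgQ, hgp⟩ := to_std_pt hd hQ hp
  obtain ⟨h, hh, hhd, hhQ, hhp⟩ := to_std_pt hd hQ hq
  refine ⟨h⁻¹ * g, M24.mul_mem (M24.inv_mem hh) hg, ?_, ?_, ?_⟩
  · rw [image_mul, hgd]; exact inv_image hhd
  · rw [im_mul, hgQ]; exact im_inv hhQ
  · rw [Equiv.Perm.mul_apply, hgp, ← hhp]; exact h.symm_apply_apply q

theorem card_quartet_stab {d : Finset GolayPt} (hd : d ∈ dodecads) {Q : Finset (Finset GolayPt)} (hQ : Q ∈ quartets d) :
    Nat.card ↥(MulAction.stabilizer M24 d ⊓ MulAction.stabilizer M24 Q) = 432 := by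
  set H := MulAction.stabilizer M24 d with hH
  have horb : MulAction.orbit H Q = quartets d := by
    ext Q'
    constructor
    · rintro ⟨g, rfl⟩
      have h1 := quartets_image g.1.2 hQ
      rwa [show d.image (g.1.1 : Equiv.Perm GolayPt) = d from g.2] at h1
    · intro hQ'
      obtain ⟨g, hg, hgd, hgQ⟩ := trans hd hQ hQ'
      exact ⟨⟨⟨g, hg⟩, hgd⟩, hgQ⟩
  have h1 := MulAction.index_stabilizer H Q
  rw [horb, card_quartets hd] at h1
  have h2 := (MulAction.stabilizer H Q).card_mul_index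
  rw [h1, card_stab hd] at h2
  have h3 : Nat.card (MulAction.stabilizer H Q) = Nat.card ↥(H ⊓ MulAction.stabilizer M24 Q) := by
    apply Nat.card_congr
    exact ⟨fun g => ⟨g.1.1, g.1.2, g.2⟩, fun g => ⟨⟨g.1, g.2.1⟩, g.2.2⟩, fun g => rfl, fun g => rfl⟩
  rw [h3] at h2
  omega

/-! the two commuting elements of order 3 -/

noncomputable def n1 : Equiv.Perm GolayPt := elt N1
noncomputable def n2 : Equiv.Perm GolayPt := elt N2
def P0 : ZMod 3 → ℕ := ![0, 1, 2]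
def P1 : ZMod 3 → ℕ := ![3, 4, 12]
def p0 (x : ZMod 3) : GolayPt := pt (P0 x)
def p1 (x : ZMod 3) : GolayPt := pt (P1 x)

theorem N1_ok : okS [3, 4, 12] (m0 :: q0.1) N1 = true := by decide +kernel
theorem N2_ok : okS [0, 1, 2] (m0 :: q0.1) N2 = true := by decide +kernel

theorem P_lt : ∀ x, P0 x < 24 ∧ P1 x < 24 := by decide

theorem n1_p0 (x : ZMod 3) : n1 (p0 x) = p0 (x + 1) := by
  have h := elt_pt (okS_spec N1_ok).1 (P_lt x).1
  have h2 : ∀ x, tab N1 (P0 x) = P0 (x + 1) := by decide +kernel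
  rw [h2] at h
  exact h

theorem n1_p1 (x : ZMod 3) : n1 (p1 x) = p1 x := by
  have h := elt_pt (okS_spec N1_ok).1 (P_lt x).2
  have h2 : ∀ x, tab N1 (P1 x) = P1 x := by decide +kernel
  rw [h2] at h
  exact h

theorem n2_p0 (x : ZMod 3) : n2 (p0 x) = p0 x := by
  have h := elt_pt (okS_spec N2_ok).1 (P_lt x).1
  have h2 : ∀ x, tab N2 (P0 x) = P0 x := by decide +kernel
  rw [h2] at h
  exact h

theorem n2_p1 (x : ZMod 3) : n2 (p1 x) = p1 (x + 1) := by
  have h := elt_pt (okS_spec N2_ok).1 (P_lt x).2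
  have h2 : ∀ x, tab N2 (P1 x) = P1 (x + 1) := by decide +kernel
  rw [h2] at h
  exact h

theorem n1_mem : n1 ∈ Stb [3, 4, 12] (m0 :: q0.1) := (okS_spec N1_ok).2
theorem n2_mem : n2 ∈ Stb [0, 1, 2] (m0 :: q0.1) := (okS_spec N2_ok).2

theorem fix1 {y : GolayPt} (hy : y ∈ d0) (h : n1 y = y) : ∃ x, y = p1 x := by
  have h1 := elt_idx (okS_spec N1_ok).1 y
  rw [show elt N1 y = y from h] at h1
  have h2 : ∀ i < 24, Nat.testBit m0 i = true → tab N1 i = i → ∃ x, i = P1 x := by decide +kernel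
  obtain ⟨x, hx⟩ := h2 _ (idx_lt y) (idx_mem_d0 hy) h1.symm
  exact ⟨x, pt_eq hx⟩

theorem fix2 {y : GolayPt} (hy : y ∈ d0) (h : n2 y = y) : ∃ x, y = p0 x := by
  have h1 := elt_idx (okS_spec N2_ok).1 y
  rw [show elt N2 y = y from h] at h1
  have h2 : ∀ i < 24, Nat.testBit m0 i = true → tab N2 i = i → ∃ x, i = P0 x := by decide +kernel
  obtain ⟨x, hx⟩ := h2 _ (idx_lt y) (idx_mem_d0 hy) h1.symm
  exact ⟨x, pt_eq hx⟩

theorem p_mem_d0 (x : ZMod 3) : p0 x ∈ d0 ∧ p1 x ∈ d0 := by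
  refine ⟨(pt_mem_D (P_lt x).1).2 ?_, (pt_mem_D (P_lt x).2).2 ?_⟩
  · revert x; decide
  · revert x; decide

theorem p0_inj : Function.Injective p0 := by decide
theorem p1_inj : Function.Injective p1 := by decide

theorem pow_act (i : ℕ) (x : ZMod 3) : (n1 ^ i) (p0 x) = p0 (x + i) ∧ (n1 ^ i) (p1 x) = p1 x ∧
    (n2 ^ i) (p0 x) = p0 x ∧ (n2 ^ i) (p1 x) = p1 (x + i) := by
  induction i with
  | zero => simp
  | succ i ih =>
    obtain ⟨h1, h2, h3, h4⟩ := ih
    refine ⟨?_, ?_, ?_, ?_⟩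
    · rw [pow_succ', Equiv.Perm.mul_apply, h1, n1_p0, Nat.cast_succ, add_assoc]
    · rw [pow_succ', Equiv.Perm.mul_apply, h2, n1_p1]
    · rw [pow_succ', Equiv.Perm.mul_apply, h3, n2_p0]
    · rw [pow_succ', Equiv.Perm.mul_apply, h4, n2_p1, Nat.cast_succ, add_assoc]

theorem act0 (i j : ℕ) (x : ZMod 3) : (n1 ^ i * n2 ^ j) (p0 x) = p0 (x + i) := by
  rw [Equiv.Perm.mul_apply, (pow_act j x).2.2.1, (pow_act i x).1]
theorem act1 (i j : ℕ) (x : ZMod 3) : (n1 ^ i * n2 ^ j) (p1 x) = p1 (x + j) := by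
  rw [Equiv.Perm.mul_apply, (pow_act j x).2.2.2, (pow_act i _).2.1]

theorem n1_d0 : d0.image n1 = d0 := n1_mem.2.2 m0 (by simp)
theorem n2_d0 : d0.image n2 = d0 := n2_mem.2.2 m0 (by simp)

/-- sharpness in the form of agreement on two triples -/
theorem eq_of_agree {a b : Equiv.Perm GolayPt} (ha : a ∈ M24) (hb : b ∈ M24) (had : d0.image a = d0)
    (hbd : d0.image b = d0) (h0 : ∀ x, a (p0 x) = b (p0 x)) (h1 : ∀ x, a (p1 x) = b (p1 x)) : a = b := by
  have h2 : b⁻¹ * a = 1 := by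
    apply sharp12 d0_mem [p0 0, p0 1, p0 2, p1 0, p1 1] (by decide) (by simp) ?_ (M24.mul_mem (M24.inv_mem hb) ha) ?_ ?_
    · intro c hc
      simp only [List.mem_cons, List.not_mem_nil, or_false] at hc
      rcases hc with rfl | rfl | rfl | rfl | rfl
      exacts [(p_mem_d0 _).1, (p_mem_d0 _).1, (p_mem_d0 _).1, (p_mem_d0 _).2, (p_mem_d0 _).2]
    · rw [image_mul, had]; exact image_inv hbd
    · have k0 : ∀ x, (b⁻¹ * a) (p0 x) = p0 x := fun x => by
        rw [Equiv.Perm.mul_apply, h0]; exact b.symm_apply_apply _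
      have k1 : ∀ x, (b⁻¹ * a) (p1 x) = p1 x := fun x => by
        rw [Equiv.Perm.mul_apply, h1]; exact b.symm_apply_apply _
      intro c hc
      simp only [List.mem_cons, List.not_mem_nil, or_false] at hc
      rcases hc with rfl | rfl | rfl | rfl | rfl
      exacts [k0 _, k0 _, k0 _, k1 _, k1 _]
  exact (inv_mul_eq_one.1 h2).symm

theorem nn_mem (i j : ℕ) : n1 ^ i * n2 ^ j ∈ M24 :=
  M24.mul_mem (M24.pow_mem n1_mem.1 i) (M24.pow_mem n2_mem.1 j)

theorem nn_d0 (i j : ℕ) : d0.image ⇑(n1 ^ i * n2 ^ j) = d0 := by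
  have h1 : n1 ^ i * n2 ^ j ∈ Stb [] [m0] := by
    have k1 : n1 ∈ Stb [] [m0] := ⟨n1_mem.1, by simp, by
      intro m hm; rw [List.mem_singleton] at hm; subst hm; exact n1_d0⟩
    have k2 : n2 ∈ Stb [] [m0] := ⟨n2_mem.1, by simp, by
      intro m hm; rw [List.mem_singleton] at hm; subst hm; exact n2_d0⟩
    exact Subgroup.mul_mem _ (Subgroup.pow_mem _ k1 i) (Subgroup.pow_mem _ k2 j)
  exact h1.2.2 m0 (by simp)

theorem comm : n1 * n2 = n2 * n1 := by
  apply eq_of_agree (M24.mul_mem n1_mem.1 n2_mem.1) (M24.mul_mem n2_mem.1 n1_mem.1)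
  · rw [image_mul, n2_d0, n1_d0]
  · rw [image_mul, n1_d0, n2_d0]
  · intro x
    rw [Equiv.Perm.mul_apply, Equiv.Perm.mul_apply, n2_p0, n1_p0, n2_p0]
  · intro x
    rw [Equiv.Perm.mul_apply, Equiv.Perm.mul_apply, n2_p1, n1_p1, n1_p1, n2_p1]

theorem cube1 : n1 ^ 3 = 1 := by
  apply eq_of_agree (M24.pow_mem n1_mem.1 3) M24.one_mem
  · have := nn_d0 3 0; rwa [pow_zero, mul_one] at this
  · simp
  · intro x; rw [(pow_act 3 x).1]; revert x; decide
  · intro x; rw [(pow_act 3 x).2.1]; rfl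

theorem cube2 : n2 ^ 3 = 1 := by
  apply eq_of_agree (M24.pow_mem n2_mem.1 3) M24.one_mem
  · have := nn_d0 0 3; rwa [pow_zero, one_mul] at this
  · simp
  · intro x; rw [(pow_act 3 x).2.2.1]; rfl
  · intro x; rw [(pow_act 3 x).2.2.2]; revert x; decide

/-- elements commuting with `n1`, `n2` -/
theorem of_commute {a : Equiv.Perm GolayPt} (ha : a ∈ M24) (had : d0.image a = d0) (c1 : a * n1 = n1 * a)
    (c2 : a * n2 = n2 * a) : ∃ i j : ZMod 3, a = n1 ^ i.val * n2 ^ j.val := by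
  have hm : ∀ {y}, y ∈ d0 → a y ∈ d0 := fun hy => by rw [← had]; exact Finset.mem_image_of_mem _ hy
  have e1 : ∀ y, a (n1 y) = n1 (a y) := fun y => DFunLike.congr_fun c1 y
  have e2 : ∀ y, a (n2 y) = n2 (a y) := fun y => DFunLike.congr_fun c2 y
  obtain ⟨i, hi⟩ := fix2 (hm (p_mem_d0 0).1) (by rw [← e2, n2_p0])
  obtain ⟨j, hj⟩ := fix1 (hm (p_mem_d0 0).2) (by rw [← e1, n1_p1])
  refine ⟨i, j, eq_of_agree ha (nn_mem _ _) had (nn_d0 _ _) ?_ ?_⟩
  · intro x
    rw [act0]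
    have h1 : ∀ k : ℕ, a (p0 (k : ZMod 3)) = p0 (i + k) := by
      intro k
      induction k with
      | zero => simpa using hi
      | succ k ih => rw [Nat.cast_succ, ← n1_p0, e1, ih, n1_p0, add_assoc]
    have h2 := h1 x.val
    rw [ZMod.natCast_zmod_val] at h2
    rw [h2, ZMod.natCast_zmod_val, add_comm]
  · intro x
    rw [act1]
    have h1 : ∀ k : ℕ, a (p1 (k : ZMod 3)) = p1 (j + k) := by
      intro k
      induction k with
      | zero => simpa using hj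
      | succ k ih => rw [Nat.cast_succ, ← n2_p1, e2, ih, n2_p1, add_assoc]
    have h2 := h1 x.val
    rw [ZMod.natCast_zmod_val] at h2
    rw [h2, ZMod.natCast_zmod_val, add_comm]

theorem fin3 : ∀ f : ZMod 3 → ZMod 3, Function.Injective f → (∀ x, f (f (f x)) = x) → ∃ i, ∀ x, f x = x + i := by
  decide

theorem t0_iff (y : GolayPt) : y ∈ t0 ↔ ∃ x, y = p0 x := by
  rw [t0, mem_support_wd]
  have : ∀ i < 24, Nat.testBit 7 i = true ↔ ∃ x, i = P0 x := by decide +kernel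
  rw [this _ (idx_lt y)]
  constructor
  · rintro ⟨x, hx⟩; exact ⟨x, pt_eq hx⟩
  · rintro ⟨x, rfl⟩; exact ⟨x, idx_pt _ (P_lt x).1⟩

theorem t1_iff (y : GolayPt) : y ∈ D 0x1018 ↔ ∃ x, y = p1 x := by
  rw [mem_support_wd]
  have : ∀ i < 24, Nat.testBit 0x1018 i = true ↔ ∃ x, i = P1 x := by decide +kernel
  rw [this _ (idx_lt y)]
  constructor
  · rintro ⟨x, hx⟩; exact ⟨x, pt_eq hx⟩
  · rintro ⟨x, rfl⟩; exact ⟨x, idx_pt _ (P_lt x).2⟩

/-- elements of order 3 fixing all triples -/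
theorem of_cube {g : Equiv.Perm GolayPt} (hg : g ∈ M24) (hgd : d0.image g = d0) (h0 : t0.image g = t0)
    (h1 : (D 0x1018).image g = D 0x1018) (h3 : g ^ 3 = 1) : ∃ i j : ZMod 3, g = n1 ^ i.val * n2 ^ j.val := by
  have k0 : ∀ x, ∃ y, g (p0 x) = p0 y := by
    intro x
    rw [← t0_iff, ← h0]
    exact Finset.mem_image_of_mem _ ((t0_iff _).2 ⟨x, rfl⟩)
  have k1 : ∀ x, ∃ y, g (p1 x) = p1 y := by
    intro x
    rw [← t1_iff, ← h1]
    exact Finset.mem_image_of_mem _ ((t1_iff _).2 ⟨x, rfl⟩)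
  choose f0 hf0 using k0
  choose f1 hf1 using k1
  have hc : ∀ y, g (g (g y)) = y := fun y => by
    have := DFunLike.congr_fun h3 y
    rwa [pow_succ, pow_two, Equiv.Perm.mul_apply, Equiv.Perm.mul_apply] at this
  obtain ⟨i, hi⟩ := fin3 f0 (fun x y h => p0_inj (g.injective (by rw [hf0, hf0, h])))
    (fun x => p0_inj (by rw [← hf0, ← hf0, ← hf0, hc]))
  obtain ⟨j, hj⟩ := fin3 f1 (fun x y h => p1_inj (g.injective (by rw [hf1, hf1, h])))
    (fun x => p1_inj (by rw [← hf1, ← hf1, ← hf1, hc]))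
  refine ⟨i, j, eq_of_agree hg (nn_mem _ _) hgd (nn_d0 _ _) ?_ ?_⟩
  · intro x; rw [act0, hf0, hi, ZMod.natCast_zmod_val]
  · intro x; rw [act1, hf1, hj, ZMod.natCast_zmod_val]

end H33.Quart4
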