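import Mathlib
import Cfsg.Agent.Lib.H33.Quart4
set_option autoImplicit false
open Cfsg

/-! The structure of the stabiliser of a quartet. -/

namespace H33.Quart5
open H8.GolayCode H8.GolayCount H8.GolayBasic H8.M24Mem H8.M24Chain H8.M24Trans H33.M24Tab H33.M24Cls H33.M24Pts H33.M12 H33.M12b H33.Quart H33.Quart2 H33.Quart4
open scoped Pointwise

/-- conjugation equivalence of subgroups -/
def conjE {M : Type*} [Group M] (A B : Subgroup M) (γ : M) (h : ∀ x, x ∈ A ↔ γ * x * γ⁻¹ ∈ B) : A ≃* B where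
  toFun x := ⟨γ * x * γ⁻¹, (h x).1 x.2⟩
  invFun y := ⟨γ⁻¹ * y * γ, (h _).2 (by
    have : γ * (γ⁻¹ * (y : M) * γ) * γ⁻¹ = y := by group
    rw [this]; exact y.2)⟩
  left_inv x := Subtype.ext (by change γ⁻¹ * (γ * (x : M) * γ⁻¹) * γ = x; group)
  right_inv y := Subtype.ext (by change γ * (γ⁻¹ * (y : M) * γ) * γ⁻¹ = y; group)
  map_mul' x y := Subtype.ext (by
    change γ * ((x : M) * y) * γ⁻¹ = (γ * x * γ⁻¹) * (γ * y * γ⁻¹); group)

/-- the standard group -/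
abbrev Hs : Subgroup M24 := MulAction.stabilizer M24 d0 ⊓ MulAction.stabilizer M24 (qF q0.1)

theorem fixQ {ps : List ℕ} {g : Equiv.Perm GolayPt} (hg : g ∈ Stb ps (m0 :: q0.1)) {t : Finset GolayPt}
    (ht : t ∈ qF q0.1) : t.image g = t := by
  obtain ⟨m, hm, rfl⟩ := mem_qF.1 ht
  exact hg.2.2 m (List.mem_cons_of_mem _ hm)

theorem im_fix {ps : List ℕ} {g : Equiv.Perm GolayPt} (hg : g ∈ Stb ps (m0 :: q0.1)) : im g (qF q0.1) = qF q0.1 := by
  unfold im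
  ext t
  rw [Finset.mem_image]
  constructor
  · rintro ⟨u, hu, rfl⟩; rwa [fixQ hg hu]
  · intro ht; exact ⟨t, ht, fixQ hg ht⟩

noncomputable def a1 : Hs := ⟨⟨n1, n1_mem.1⟩, n1_d0, im_fix n1_mem⟩
noncomputable def a2 : Hs := ⟨⟨n2, n2_mem.1⟩, n2_d0, im_fix n2_mem⟩

theorem coe_inj {a b : Hs} (h : (a.1.1 : Equiv.Perm GolayPt) = b.1.1) : a = b := Subtype.ext (Subtype.ext h)

theorem t1_mem : D 0x1018 ∈ qF q0.1 := mem_qF.2 ⟨_, by decide +kernel, rfl⟩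

theorem a_comm : a1 * a2 = a2 * a1 := coe_inj comm
theorem a1_cube : a1 ^ 3 = 1 := coe_inj cube1
theorem a2_cube : a2 ^ 3 = 1 := coe_inj cube2

theorem ab_mem {a : Hs} (h1 : a * a1 = a1 * a) (h2 : a * a2 = a2 * a) :
    ∃ i j : ZMod 3, a = a1 ^ i.val * a2 ^ j.val := by
  obtain ⟨i, j, h⟩ := of_commute a.1.2 a.2.1 (congrArg (fun x : Hs => x.1.1) h1) (congrArg (fun x : Hs => x.1.1) h2)
  exact ⟨i, j, coe_inj h⟩

theorem conj_mem (h : Hs) {n : Hs} (hn3 : n ^ 3 = 1) (hnf : ∀ t ∈ qF q0.1, t.image (n.1.1 : Equiv.Perm GolayPt) = t) :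
    ∃ i j : ZMod 3, h * n * h⁻¹ = a1 ^ i.val * a2 ^ j.val := by
  have key : ∀ t ∈ qF q0.1, t.image (((h * n * h⁻¹ : Hs) : M24) : Equiv.Perm GolayPt) = t := by
    intro t ht
    have h1 : t.image ⇑((h⁻¹ : Hs) : M24).1 ∈ qF q0.1 := by
      have h2 : im ((h⁻¹ : Hs) : M24).1 (qF q0.1) = qF q0.1 := (h⁻¹).2.2
      rw [← h2]; exact mem_im.2 ht
    show t.image ⇑(h.1.1 * n.1.1 * ((h⁻¹ : Hs) : M24).1) = t
    rw [image_mul, image_mul, hnf _ h1, ← image_mul]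
    have h3 : h.1.1 * ((h⁻¹ : Hs) : M24).1 = 1 := mul_inv_cancel h.1.1
    rw [h3]
    simp
  obtain ⟨i, j, hh⟩ := of_cube (h * n * h⁻¹).1.2 (h * n * h⁻¹).2.1 (key _ (t0_mem q0_mem)) (key _ t1_mem) (by
    have h1 : (h * n * h⁻¹) ^ 3 = 1 := by
      rw [conj_pow, hn3]; group
    exact congrArg (fun x : Hs => x.1.1) h1)
  exact ⟨i, j, coe_inj hh⟩

/-- the normal subgroup of order 9 -/
noncomputable def N9 : Subgroup Hs := Subgroup.centralizer {a1, a2}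

theorem mem_N9 {a : Hs} : a ∈ N9 ↔ a * a1 = a1 * a ∧ a * a2 = a2 * a := by
  unfold N9
  rw [Subgroup.mem_centralizer_iff]
  constructor
  · intro h; exact ⟨(h a1 (by simp)).symm, (h a2 (by simp)).symm⟩
  · rintro ⟨h1, h2⟩ x (rfl | rfl)
    · exact h1.symm
    · exact h2.symm

theorem nn_comm (i j : ℕ) : (a1 ^ i * a2 ^ j) * a1 = a1 * (a1 ^ i * a2 ^ j) ∧
    (a1 ^ i * a2 ^ j) * a2 = a2 * (a1 ^ i * a2 ^ j) := by
  have hc : Commute a1 a2 := a_comm
  exact ⟨(((Commute.refl a1).pow_left i).mul_left (hc.symm.pow_left j)).eq,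
    ((hc.pow_left i).mul_left ((Commute.refl a2).pow_left j)).eq⟩

theorem N9_iff {a : Hs} : a ∈ N9 ↔ ∃ i j : ZMod 3, a = a1 ^ i.val * a2 ^ j.val := by
  constructor
  · intro h
    obtain ⟨h1, h2⟩ := mem_N9.1 h
    exact ab_mem h1 h2
  · rintro ⟨i, j, rfl⟩
    exact mem_N9.2 (nn_comm _ _)

theorem N9_normal : N9.Normal := by
  constructor
  intro a ha h
  rw [mem_N9]
  have key : ∀ n : Hs, n ^ 3 = 1 → (∀ t ∈ qF q0.1, t.image (n.1.1 : Equiv.Perm GolayPt) = t) →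
      h * a * h⁻¹ * n = n * (h * a * h⁻¹) := by
    intro n hn hnf
    obtain ⟨i, j, hij⟩ := conj_mem h⁻¹ hn hnf
    obtain ⟨h1, h2⟩ := mem_N9.1 ha
    have hc : Commute a (a1 ^ i.val * a2 ^ j.val) :=
      ((show Commute a a1 from h1).pow_right _).mul_right ((show Commute a a2 from h2).pow_right _)
    rw [← hij, inv_inv] at hc
    have e := hc.eq
    calc h * a * h⁻¹ * n = h * (a * (h⁻¹ * n * h)) * h⁻¹ := by group
      _ = h * ((h⁻¹ * n * h) * a) * h⁻¹ := by rw [e]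
      _ = n * (h * a * h⁻¹) := by group
  exact ⟨key a1 a1_cube (fun t ht => fixQ n1_mem ht), key a2 a2_cube (fun t ht => fixQ n2_mem ht)⟩

theorem N9_card : Nat.card N9 = 9 := by
  have e : (ZMod 3 × ZMod 3) ≃ N9 := by
    refine Equiv.ofBijective (fun x => ⟨a1 ^ x.1.val * a2 ^ x.2.val, N9_iff.2 ⟨x.1, x.2, rfl⟩⟩) ⟨?_, ?_⟩
    · rintro ⟨i, j⟩ ⟨k, l⟩ h
      have h1 : n1 ^ i.val * n2 ^ j.val = n1 ^ k.val * n2 ^ l.val :=
        congrArg (fun x : N9 => x.1.1.1) h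
      have h2 := DFunLike.congr_fun h1 (p0 0)
      have h3 := DFunLike.congr_fun h1 (p1 0)
      rw [act0, act0] at h2
      rw [act1, act1] at h3
      have h4 := p0_inj h2
      have h5 := p1_inj h3
      rw [ZMod.natCast_zmod_val, ZMod.natCast_zmod_val, zero_add, zero_add] at h4 h5
      rw [h4, h5]
    · rintro ⟨a, ha⟩
      obtain ⟨i, j, rfl⟩ := N9_iff.1 ha
      exact ⟨(i, j), rfl⟩
  rw [← Nat.card_congr e, Nat.card_prod, Nat.card_zmod]

theorem std_quot : ∃ (N : Subgroup Hs) (_ : N.Normal), Nat.card N = 9 ∧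
    Nonempty (Hs ⧸ N ≃* GL (Fin 2) (ZMod 3)) := by
  have := N9_normal
  refine ⟨N9, N9_normal, N9_card, ?_⟩
  apply H33.GL23.quotient_iso N9
  · intro a ha b hb
    obtain ⟨i, j, rfl⟩ := N9_iff.1 hb
    obtain ⟨h1, h2⟩ := mem_N9.1 ha
    exact (((show Commute a a1 from h1).pow_right _).mul_right ((show Commute a a2 from h2).pow_right _)).eq
  · intro a ha
    obtain ⟨i, j, rfl⟩ := N9_iff.1 ha
    have hc : Commute (a1 ^ i.val) (a2 ^ j.val) := (show Commute a1 a2 from a_comm).pow_pow _ _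
    rw [hc.mul_pow, ← pow_mul, ← pow_mul, mul_comm, pow_mul, a1_cube, one_pow, one_mul, mul_comm, pow_mul, a2_cube,
      one_pow]
  · exact N9_card
  · intro g hg
    have m1 : a1 ∈ N9 := mem_N9.2 ⟨rfl, a_comm⟩
    have m2 : a2 ∈ N9 := mem_N9.2 ⟨a_comm.symm, rfl⟩
    exact mem_N9.2 ⟨hg a1 m1, hg a2 m2⟩
  · exact card_quartet_stab d0_mem (qF_quartet q0_mem)

theorem main {d : Finset GolayPt} (hd : d ∈ dodecads) {Q : Finset (Finset GolayPt)} (hQ : Q ∈ quartets d) :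
    Nat.card ↥(MulAction.stabilizer M24 d ⊓ MulAction.stabilizer M24 Q) = 432 ∧
    (∃ (N : Subgroup ↥(MulAction.stabilizer M24 d ⊓ MulAction.stabilizer M24 Q)) (_ : N.Normal), Nat.card N = 9 ∧
      Nonempty (↥(MulAction.stabilizer M24 d ⊓ MulAction.stabilizer M24 Q) ⧸ N ≃* GL (Fin 2) (ZMod 3))) ∧
    ∀ p ∈ d, ∀ q ∈ d, ∃ g ∈ (MulAction.stabilizer M24 d ⊓ MulAction.stabilizer M24 Q),
      ((g : ↥M24) : Equiv.Perm GolayPt) p = q := by
  refine ⟨card_quartet_stab hd hQ, ?_, ?_⟩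
  · obtain ⟨g, hg, hgd, hgQ⟩ := to_std hd hQ
    let γ : M24 := ⟨g, hg⟩
    have hγd : γ • d = d0 := hgd
    have hγQ : γ • Q = qF q0.1 := hgQ
    let e : ↥(MulAction.stabilizer M24 d ⊓ MulAction.stabilizer M24 Q) ≃* Hs := conjE _ _ γ (by
      intro x
      rw [Subgroup.mem_inf, Subgroup.mem_inf, MulAction.mem_stabilizer_iff, MulAction.mem_stabilizer_iff,
        MulAction.mem_stabilizer_iff, MulAction.mem_stabilizer_iff, ← hγd, ← hγQ]
      rw [smul_smul, smul_smul, inv_mul_cancel_right, mul_smul, mul_smul,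
        (MulAction.injective γ).eq_iff, (MulAction.injective γ).eq_iff])
    obtain ⟨N, hN, hN9, ⟨f⟩⟩ := std_quot
    refine ⟨N.comap e.toMonoidHom, hN.comap _, ?_, ?_⟩
    · rw [← hN9]
      exact Nat.card_congr
        ⟨fun x => ⟨e x.1, x.2⟩, fun y => ⟨e.symm y.1, by
          change e (e.symm y.1) ∈ N
          rw [e.apply_symm_apply]; exact y.2⟩,
          fun x => Subtype.ext (e.symm_apply_apply _), fun y => Subtype.ext (e.apply_symm_apply _)⟩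
    · have : (N.comap e.toMonoidHom).Normal := hN.comap _
      refine ⟨(QuotientGroup.congr (N.comap e.toMonoidHom) N e ?_).trans f⟩
      rw [show (N.comap e.toMonoidHom).map (e : _ →* _) = N from ?_]
      exact Subgroup.map_comap_eq_self_of_surjective (f := e.toMonoidHom) e.surjective N
  · intro p hp q hq
    obtain ⟨g, hg, hgd, hgQ, hgp⟩ := trans_pt hd hQ hp hq
    exact ⟨⟨g, hg⟩, ⟨hgd, hgQ⟩, hgp⟩

end H33.Quart5
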