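import Mathlib
import Cfsg.Agent.Lib.H33.M12c
import Cfsg.Agent.Lib.H33.DM11
import Cfsg.Agent.Lib.H33.Quart5
set_option autoImplicit false
open Cfsg

/-! The centralizer of an involution of M11 is GL(2,3). -/

namespace H33.M11b
open H8.GolayCode H8.GolayCount H8.GolayBasic H8.M24Mem H8.M24Chain H8.M24Trans H33.M24Tab H33.M24Cls H33.M24Pts H33.M12 H33.M12b H33.M12c H33.DM11
open scoped Pointwise

/-- two elements agreeing on five points of a dodecad are equal -/
theorem agree {d : Finset GolayPt} (hd : d ∈ dodecads) {a b : Equiv.Perm GolayPt} (ha : a ∈ M24) (hb : b ∈ M24)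
    (hab : d.image a = d.image b) (l : List GolayPt) (hl : l.Nodup) (h5 : 5 ≤ l.length) (hs : ∀ c ∈ l, c ∈ d)
    (h : ∀ c ∈ l, a c = b c) : a = b := by
  have h2 : b⁻¹ * a = 1 := by
    apply sharp12 hd l hl h5 hs (M24.mul_mem (M24.inv_mem hb) ha)
    · rw [image_mul, hab]; exact image_inv rfl
    · intro c hc
      rw [Equiv.Perm.mul_apply, h c hc]; exact b.symm_apply_apply _
  exact (inv_mul_eq_one.1 h2).symm

noncomputable def x0 : Equiv.Perm GolayPt := elt X0
theorem X0_ok : okS [0] [m0] X0 = true := by decide +kernel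

def bb (x y : ZMod 3) : GolayPt := pt (B x y)

theorem B_lt : ∀ x y : ZMod 3, (x ≠ 0 ∨ y ≠ 0) → B x y < 24 ∧ Nat.testBit m0 (B x y) = true ∧ tab X0 (B x y) = B (-x) (-y) := by
  decide +kernel

theorem B_inj : ∀ x y z w : ZMod 3, (x ≠ 0 ∨ y ≠ 0) → (z ≠ 0 ∨ w ≠ 0) → B x y = B z w → x = z ∧ y = w := by
  decide +kernel

theorem bb_inj {x y z w : ZMod 3} (h : x ≠ 0 ∨ y ≠ 0) (h' : z ≠ 0 ∨ w ≠ 0) (he : bb x y = bb z w) : x = z ∧ y = w := by
  apply B_inj x y z w h h'
  have := congrArg idx he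
  rwa [bb, bb, idx_pt _ (B_lt x y h).1, idx_pt _ (B_lt z w h').1] at this

theorem bb_mem {x y : ZMod 3} (h : x ≠ 0 ∨ y ≠ 0) : bb x y ∈ d0 := (pt_mem_D (B_lt x y h).1).2 (B_lt x y h).2.1

theorem x0_bb {x y : ZMod 3} (h : x ≠ 0 ∨ y ≠ 0) : x0 (bb x y) = bb (-x) (-y) := by
  have h1 := elt_pt (okS_spec X0_ok).1 (B_lt x y h).1
  rw [(B_lt x y h).2.2] at h1
  exact h1

theorem x0_mem : x0 ∈ Stb [0] [m0] := (okS_spec X0_ok).2

theorem moved {y : GolayPt} (hy : y ∈ d0) (h : x0 y ≠ y) : ∃ a b : ZMod 3, (a ≠ 0 ∨ b ≠ 0) ∧ y = bb a b := by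
  have h1 := elt_idx (okS_spec X0_ok).1 y
  have h2 : ∀ i < 24, (Nat.testBit m0 i = true ∧ ¬ (tab X0 i = i)) → ∃ a b : ZMod 3, (a ≠ 0 ∨ b ≠ 0) ∧ i = B a b := by
    decide +kernel
  obtain ⟨a, b, h3, h4⟩ := h2 _ (idx_lt y) ⟨idx_mem_d0 hy, by
    intro h5
    apply h
    apply idx_injective
    rw [← h5, ← h1]; rfl⟩
  exact ⟨a, b, h3, pt_eq h4⟩

theorem TL_ok : ∀ a b c d : ZMod 3, a * d - b * c ≠ 0 → okS [0] [m0] (TL a b c d) = true ∧
    ∀ x y : ZMod 3, (x ≠ 0 ∨ y ≠ 0) → tab (TL a b c d) (B x y) = B (a * x + b * y) (c * x + d * y) := by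
  decide +kernel

theorem ne_of_det : ∀ a b c d : ZMod 3, a * d - b * c ≠ 0 → ∀ x y : ZMod 3, (x ≠ 0 ∨ y ≠ 0) →
    (a * x + b * y ≠ 0 ∨ c * x + d * y ≠ 0) := by decide

noncomputable def gg (M : GL (Fin 2) (ZMod 3)) : Equiv.Perm GolayPt := elt (TL (M 0 0) (M 0 1) (M 1 0) (M 1 1))

theorem det_ne (M : GL (Fin 2) (ZMod 3)) : M 0 0 * M 1 1 - M 0 1 * M 1 0 ≠ 0 := by
  have : Fact (Nat.Prime 3) := ⟨Nat.prime_three⟩
  rw [← Matrix.det_fin_two]
  exact (Matrix.isUnits_det_units M).ne_zero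

theorem gg_mem (M : GL (Fin 2) (ZMod 3)) : gg M ∈ Stb [0] [m0] := (okS_spec (TL_ok _ _ _ _ (det_ne M)).1).2

theorem gg_bb (M : GL (Fin 2) (ZMod 3)) {x y : ZMod 3} (h : x ≠ 0 ∨ y ≠ 0) :
    gg M (bb x y) = bb (M 0 0 * x + M 0 1 * y) (M 1 0 * x + M 1 1 * y) := by
  obtain ⟨h1, h2⟩ := TL_ok _ _ _ _ (det_ne M)
  have h3 := elt_pt (okS_spec h1).1 (B_lt x y h).1
  rw [h2 x y h] at h3
  exact h3

/-- elements agreeing on the eight moved points -/
theorem eq_of_bb {a b : Equiv.Perm GolayPt} (ha : a ∈ Stb [0] [m0]) (hb : b ∈ Stb [0] [m0])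
    (h : ∀ x y : ZMod 3, (x ≠ 0 ∨ y ≠ 0) → a (bb x y) = b (bb x y)) : a = b := by
  apply agree d0_mem ha.1 hb.1 (by rw [image_d0 ha, image_d0 hb]) [pt 0, bb 1 0, bb 2 0, bb 0 1, bb 0 2] (by decide)
    (by simp)
  · intro c hc
    simp only [List.mem_cons, List.not_mem_nil, or_false] at hc
    rcases hc with rfl | rfl | rfl | rfl | rfl
    · exact (pt_mem_D (by norm_num)).2 (by decide)
    all_goals exact bb_mem (by decide)
  · intro c hc
    simp only [List.mem_cons, List.not_mem_nil, or_false] at hc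
    rcases hc with rfl | rfl | rfl | rfl | rfl
    · rw [ha.2.1 0 (by simp), hb.2.1 0 (by simp)]
    all_goals exact h _ _ (by decide)

abbrev Gs : Subgroup M24 := MulAction.stabilizer M24 d0 ⊓ MulAction.stabilizer M24 (pt 0)

theorem stb_of {g : Gs} : (g.1.1 : Equiv.Perm GolayPt) ∈ Stb [0] [m0] := by
  refine ⟨g.1.2, ?_, ?_⟩
  · intro i hi
    rw [List.mem_singleton] at hi
    subst hi
    exact g.2.2
  · intro m hm
    rw [List.mem_singleton] at hm
    subst hm
    exact g.2.1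

noncomputable def mk (g : Equiv.Perm GolayPt) (hg : g ∈ Stb [0] [m0]) : Gs := ⟨⟨g, hg.1⟩, image_d0 hg, hg.2.1 0 (by simp)⟩

noncomputable def x0' : Gs := mk x0 x0_mem

theorem coe_inj {a b : Gs} (h : (a.1.1 : Equiv.Perm GolayPt) = b.1.1) : a = b := Subtype.ext (Subtype.ext h)

theorem gg_one : gg 1 = 1 := by
  apply eq_of_bb (gg_mem 1) (Subgroup.one_mem _)
  intro x y h
  rw [gg_bb 1 h]
  simp

theorem gg_mul (M N : GL (Fin 2) (ZMod 3)) : gg (M * N) = gg M * gg N := by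
  apply eq_of_bb (gg_mem _) (Subgroup.mul_mem _ (gg_mem M) (gg_mem N))
  intro x y h
  rw [gg_bb _ h, Equiv.Perm.mul_apply, gg_bb N h, gg_bb M (ne_of_det _ _ _ _ (det_ne N) _ _ h)]
  congr 1
  · simp only [Units.val_mul, Matrix.mul_apply, Fin.sum_univ_two]; ring
  · simp only [Units.val_mul, Matrix.mul_apply, Fin.sum_univ_two]; ring

theorem gg_comm (M : GL (Fin 2) (ZMod 3)) : x0 * gg M = gg M * x0 := by
  apply eq_of_bb (Subgroup.mul_mem _ x0_mem (gg_mem M)) (Subgroup.mul_mem _ (gg_mem M) x0_mem)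
  intro x y h
  have h' : -x ≠ 0 ∨ -y ≠ 0 := by simpa using h
  rw [Equiv.Perm.mul_apply, Equiv.Perm.mul_apply, gg_bb M h, x0_bb h, gg_bb M h',
    x0_bb (ne_of_det _ _ _ _ (det_ne M) _ _ h)]
  congr 1 <;> ring

noncomputable def θ : GL (Fin 2) (ZMod 3) →* ↥(Subgroup.centralizer ({x0'} : Set Gs)) where
  toFun M := ⟨mk (gg M) (gg_mem M), by
    rw [Subgroup.mem_centralizer_singleton_iff]
    exact coe_inj (gg_comm M).symm⟩
  map_one' := Subtype.ext (coe_inj gg_one)
  map_mul' M N := Subtype.ext (coe_inj (gg_mul M N))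

theorem θ_inj : Function.Injective θ := by
  rw [injective_iff_map_eq_one]
  intro M hM
  have h1 : gg M = 1 := congrArg (fun x : ↥(Subgroup.centralizer ({x0'} : Set Gs)) => (x.1.1.1 : Equiv.Perm GolayPt)) hM
  have h2 := gg_bb M (x := 1) (y := 0) (by decide)
  have h3 := gg_bb M (x := 0) (y := 1) (by decide)
  rw [h1, Equiv.Perm.one_apply] at h2 h3
  have h4 := bb_inj (by decide) (ne_of_det _ _ _ _ (det_ne M) 1 0 (by decide)) h2
  have h5 := bb_inj (by decide) (ne_of_det _ _ _ _ (det_ne M) 0 1 (by decide)) h3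
  simp only [mul_one, mul_zero, add_zero, zero_add] at h4 h5
  apply Units.ext
  ext i j
  fin_cases i <;> fin_cases j
  · exact h4.1.symm
  · exact h5.1.symm
  · exact h4.2.symm
  · exact h5.2.symm

theorem θ_surj : Function.Surjective θ := by
  rintro ⟨g, hg⟩
  rw [Subgroup.mem_centralizer_singleton_iff] at hg
  have hc : ∀ y, g.1.1 (x0 y) = x0 (g.1.1 y) := fun y =>
    DFunLike.congr_fun (congrArg (fun x : Gs => (x.1.1 : Equiv.Perm GolayPt)) hg) y
  have hgs := stb_of (g := g)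
  have key : ∀ x y : ZMod 3, (x ≠ 0 ∨ y ≠ 0) → ∃ a b : ZMod 3, (a ≠ 0 ∨ b ≠ 0) ∧ g.1.1 (bb x y) = bb a b := by
    intro x y h
    apply moved
    · exact mem_d0_image hgs (bb_mem h)
    · rw [← hc, x0_bb h]
      intro h2
      have h3 := bb_inj (by simpa using h) h (g.1.1.injective h2)
      have : ∀ x y : ZMod 3, (x ≠ 0 ∨ y ≠ 0) → ¬ (-x = x ∧ -y = y) := by decide
      exact this x y h h3
  obtain ⟨a, c, hac, e1⟩ := key 1 0 (by decide)
  obtain ⟨b, d, hbd, e2⟩ := key 0 1 (by decide)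
  have e1' : g.1.1 (bb 2 0) = bb (-a) (-c) := by
    have : bb 2 0 = x0 (bb 1 0) := by rw [x0_bb (by decide)]; rfl
    rw [this, hc, e1, x0_bb hac]
  have e2' : g.1.1 (bb 0 2) = bb (-b) (-d) := by
    have : bb 0 2 = x0 (bb 0 1) := by rw [x0_bb (by decide)]; rfl
    rw [this, hc, e2, x0_bb hbd]
  have hne1 : bb a c ≠ bb b d := by
    rw [← e1, ← e2]
    intro h
    have := bb_inj (by decide) (by decide) (g.1.1.injective h)
    exact absurd this.1 (by decide)
  have hne2 : bb a c ≠ bb (-b) (-d) := by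
    rw [← e1, ← e2']
    intro h
    have := bb_inj (by decide) (by decide) (g.1.1.injective h)
    exact absurd this.1 (by decide)
  have hdet : a * d - b * c ≠ 0 := by
    have : ∀ a b c d : ZMod 3, (a ≠ 0 ∨ c ≠ 0) → (b ≠ 0 ∨ d ≠ 0) → ¬ (a = b ∧ c = d) → ¬ (a = -b ∧ c = -d) →
      a * d - b * c ≠ 0 := by decide
    exact this a b c d hac hbd (fun h => hne1 (by rw [h.1, h.2])) (fun h => hne2 (by rw [h.1, h.2]))
  let M : GL (Fin 2) (ZMod 3) := Matrix.GeneralLinearGroup.mkOfDetNeZero !![a, b; c, d] (by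
    rw [Matrix.det_fin_two_of]; exact hdet)
  refine ⟨M, ?_⟩
  apply Subtype.ext
  apply coe_inj
  show gg M = g.1.1
  apply agree d0_mem (gg_mem M).1 g.1.2 (by rw [image_d0 (gg_mem M), image_d0 hgs])
    [pt 0, bb 1 0, bb 2 0, bb 0 1, bb 0 2] (by decide) (by simp)
  · intro c hc
    simp only [List.mem_cons, List.not_mem_nil, or_false] at hc
    rcases hc with rfl | rfl | rfl | rfl | rfl
    · exact (pt_mem_D (by norm_num)).2 (by decide)
    all_goals exact bb_mem (by decide)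
  · have hM : M 0 0 = a ∧ M 0 1 = b ∧ M 1 0 = c ∧ M 1 1 = d := ⟨rfl, rfl, rfl, rfl⟩
    obtain ⟨m1, m2, m3, m4⟩ := hM
    intro z hz
    simp only [List.mem_cons, List.not_mem_nil, or_false] at hz
    rcases hz with rfl | rfl | rfl | rfl | rfl
    · rw [(gg_mem M).2.1 0 (by simp), hgs.2.1 0 (by simp)]
    · rw [gg_bb M (by decide), e1, m1, m2, m3, m4]; simp
    · rw [gg_bb M (by decide), e1', m1, m2, m3, m4]
      have : ∀ a b : ZMod 3, a * 2 + b * 0 = -a := by decide
      rw [this, this]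
    · rw [gg_bb M (by decide), e2, m1, m2, m3, m4]; simp
    · rw [gg_bb M (by decide), e2', m1, m2, m3, m4]
      have : ∀ a b : ZMod 3, a * 0 + b * 2 = -b := by decide
      rw [this, this]

theorem std : Nonempty (↥(Subgroup.centralizer ({x0'} : Set Gs)) ≃* GL (Fin 2) (ZMod 3)) :=
  ⟨(MulEquiv.ofBijective θ ⟨θ_inj, θ_surj⟩).symm⟩

/-- equivalences of centralizers -/
theorem cent_congr {A B : Type*} [Group A] [Group B] (e : A ≃* B) (x : A) :
    Nonempty (↥(Subgroup.centralizer ({x} : Set A)) ≃* ↥(Subgroup.centralizer ({e x} : Set B))) := by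
  have h : ∀ y : A, y ∈ Subgroup.centralizer ({x} : Set A) ↔ e y ∈ Subgroup.centralizer ({e x} : Set B) := by
    intro y
    rw [Subgroup.mem_centralizer_singleton_iff, Subgroup.mem_centralizer_singleton_iff, ← map_mul, ← map_mul,
      e.injective.eq_iff]
  exact ⟨{ toFun := fun y => ⟨e y.1, (h y.1).1 y.2⟩
           invFun := fun y => ⟨e.symm y.1, (h _).2 (by rw [e.apply_symm_apply]; exact y.2)⟩
           left_inv := fun y => Subtype.ext (e.symm_apply_apply _)
           right_inv := fun y => Subtype.ext (e.apply_symm_apply _)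
           map_mul' := fun y z => Subtype.ext (map_mul e _ _) }⟩

section
variable {d : Finset GolayPt} (hd : d ∈ dodecads) {p : GolayPt} (hp : p ∈ d)
  (x : ↥(MulAction.stabilizer M24 d ⊓ MulAction.stabilizer M24 p)) (hx : orderOf x = 2)
include hd hp hx

theorem exists_conj : ∃ g ∈ M24, d.image g = d0 ∧ g p = pt 0 ∧ g * x.1.1 * g⁻¹ = x0 := by
  have hxd : d.image x.1.1 = d := x.2.1
  have hxp : x.1.1 p = p := x.2.2
  have hx1 : (x.1.1 : Equiv.Perm GolayPt) ≠ 1 := by
    intro h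
    have h1 : x = 1 := Subtype.ext (Subtype.ext h)
    rw [h1, orderOf_one] at hx
    exact absurd hx (by norm_num)
  have hxx : ∀ y, x.1.1 (x.1.1 y) = y := by
    intro y
    have h1 : x * x = 1 := by rw [← pow_two, ← hx]; exact pow_orderOf_eq_one x
    exact DFunLike.congr_fun (congrArg (fun z : ↥(MulAction.stabilizer M24 d ⊓ MulAction.stabilizer M24 p) =>
      (z.1.1 : Equiv.Perm GolayPt)) h1) y
  have hmem : ∀ {y}, y ∈ d → x.1.1 y ∈ d := fun hy => by
    have h1 := Finset.mem_image_of_mem x.1.1 hy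
    rwa [hxd] at h1
  have hsh : ∀ s : Finset GolayPt, s ⊆ d → 5 ≤ s.card → ∃ y ∈ s, x.1.1 y ≠ y := by
    intro s hs h5
    by_contra hcon
    push Not at hcon
    exact hx1 (sharp12 hd s.toList s.nodup_toList (by rwa [Finset.length_toList])
      (fun a ha => hs (Finset.mem_toList.1 ha)) x.1.2 hxd (fun a ha => hcon a (Finset.mem_toList.1 ha)))
  obtain ⟨a, had, ha⟩ := hsh d (Finset.Subset.refl d) (by rw [hd.2]; norm_num)
  obtain ⟨c, hcd, hc⟩ := hsh ((d.erase a).erase (x.1.1 a))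
    ((Finset.erase_subset _ _).trans (Finset.erase_subset _ _)) (by
      rw [Finset.card_erase_of_mem (Finset.mem_erase.2 ⟨ha, hmem had⟩), Finset.card_erase_of_mem had, hd.2]
      norm_num)
  rw [Finset.mem_erase, Finset.mem_erase] at hcd
  obtain ⟨hcxa, hca, hcd⟩ := hcd
  have hap : a ≠ p := by rintro rfl; exact ha hxp
  have hcp : c ≠ p := by rintro rfl; exact hc hxp
  have hxap : x.1.1 a ≠ p := fun h => hap (x.1.1.injective (h.trans hxp.symm))
  have hxcp : x.1.1 c ≠ p := fun h => hcp (x.1.1.injective (h.trans hxp.symm))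
  have hxca : x.1.1 c ≠ a := fun h => hcxa (by rw [← h, hxx])
  have hxcxa : x.1.1 c ≠ x.1.1 a := fun h => hca (x.1.1.injective h)
  have hn : [p, a, x.1.1 a, c, x.1.1 c].Nodup := by
    simp only [List.nodup_cons, List.mem_cons, List.not_mem_nil, or_false, not_or, List.nodup_nil, and_true,
      not_false_eq_true]
    exact ⟨⟨hap.symm, hxap.symm, hcp.symm, hxcp.symm⟩, ⟨ha.symm, hca.symm, hxca.symm⟩, ⟨hcxa.symm, hxcxa.symm⟩, hc.symm⟩
  have d0p : ∀ i < 5, pt i ∈ d0 := by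
    intro i hi
    rw [d0, pt_mem_D (by omega)]
    interval_cases i <;> decide
  obtain ⟨g, hg, hgl, hgd⟩ := move12 hd d0_mem [p, a, x.1.1 a, c, x.1.1 c] [pt 0, pt 1, pt 2, pt 3, pt 4] hn (by decide) rfl
    (by simp)
    (by intro b hb; simp only [List.mem_cons, List.not_mem_nil, or_false] at hb
        rcases hb with rfl | rfl | rfl | rfl | rfl
        exacts [hp, had, hmem had, hcd, hmem hcd])
    (by intro b hb; simp only [List.mem_cons, List.not_mem_nil, or_false] at hb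
        rcases hb with rfl | rfl | rfl | rfl | rfl
        · exact d0p 0 (by norm_num)
        · exact d0p 1 (by norm_num)
        · exact d0p 2 (by norm_num)
        · exact d0p 3 (by norm_num)
        · exact d0p 4 (by norm_num))
  simp only [List.map_cons, List.map_nil, List.cons.injEq, and_true] at hgl
  obtain ⟨g0, g1, g2, g3, g4⟩ := hgl
  refine ⟨g, hg, hgd, g0, ?_⟩
  have hginv : ∀ {y z}, g y = z → g⁻¹ z = y := fun h => by rw [← h]; exact g.symm_apply_apply _
  have b1 : x0 (pt 1) = pt 2 := x0_bb (x := 1) (y := 0) (by decide)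
  have b2 : x0 (pt 2) = pt 1 := x0_bb (x := 2) (y := 0) (by decide)
  have b3 : x0 (pt 3) = pt 4 := x0_bb (x := 0) (y := 1) (by decide)
  have b4 : x0 (pt 4) = pt 3 := x0_bb (x := 0) (y := 2) (by decide)
  apply agree d0_mem (M24.mul_mem (M24.mul_mem hg x.1.2) (M24.inv_mem hg)) x0_mem.1
    (by rw [image_mul, image_mul, image_d0 x0_mem, image_inv hgd, hxd, hgd]) [pt 0, pt 1, pt 2, pt 3, pt 4] (by decide) (by simp)
  · intro b hb; simp only [List.mem_cons, List.not_mem_nil, or_false] at hb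
    rcases hb with rfl | rfl | rfl | rfl | rfl
    · exact d0p 0 (by norm_num)
    · exact d0p 1 (by norm_num)
    · exact d0p 2 (by norm_num)
    · exact d0p 3 (by norm_num)
    · exact d0p 4 (by norm_num)
  · intro b hb; simp only [List.mem_cons, List.not_mem_nil, or_false] at hb
    rw [Equiv.Perm.mul_apply, Equiv.Perm.mul_apply]
    rcases hb with rfl | rfl | rfl | rfl | rfl
    · rw [hginv g0, hxp, g0, x0_mem.2.1 0 (by simp)]
    · rw [hginv g1, g2, b1]
    · rw [hginv g2, hxx, g1, b2]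
    · rw [hginv g3, g4, b3]
    · rw [hginv g4, hxx, g3, b4]

theorem main : Nonempty (↥(Subgroup.centralizer ({x} : Set ↥(MulAction.stabilizer M24 d ⊓ MulAction.stabilizer M24 p)))
    ≃* GL (Fin 2) (ZMod 3)) := by
  obtain ⟨g, hg, hgd, hgp, hgx⟩ := exists_conj hd hp x hx
  let γ : M24 := ⟨g, hg⟩
  have hγd : γ • d = d0 := hgd
  have hγp : γ • p = pt 0 := hgp
  let e : ↥(MulAction.stabilizer M24 d ⊓ MulAction.stabilizer M24 p) ≃* Gs := H33.Quart5.conjE _ _ γ (by
      intro x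
      rw [Subgroup.mem_inf, Subgroup.mem_inf, MulAction.mem_stabilizer_iff, MulAction.mem_stabilizer_iff,
        MulAction.mem_stabilizer_iff, MulAction.mem_stabilizer_iff, ← hγd, ← hγp]
      rw [smul_smul, smul_smul, inv_mul_cancel_right, mul_smul, mul_smul,
        (MulAction.injective γ).eq_iff, (MulAction.injective γ).eq_iff])
  have hex : e x = x0' := coe_inj hgx
  obtain ⟨f⟩ := cent_congr e x
  rw [hex] at f
  obtain ⟨f2⟩ := std
  exact ⟨f.trans f2⟩

end

end H33.M11b
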