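import Mathlib
import Cfsg.Agent.Lib.H33.M12c
import Cfsg.Agent.S0679
set_option autoImplicit false
open Cfsg

/-! The stabiliser in M11 of a point outside the dodecad is PSL(2,11). -/

namespace H33.M11c
open H8.GolayCode H8.GolayCount H8.GolayBasic H8.M24Mem H8.M24Chain H8.M24Trans H33.M24Tab H33.M24Cls H33.M24Pts H33.M12 H33.M12b H33.M12c
open scoped Pointwise

/-- a group of order 660, transitive of degree 11, is not solvable -/
theorem not_solvable {α : Type*} [Fintype α] [DecidableEq α] (hα : Fintype.card α = 11) (G : Subgroup (Equiv.Perm α))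
    [MulAction.IsPretransitive G α] (hc : Nat.card G = 660) : ¬ Group.IsSolvable G := by
  intro hs
  have : Fact (Nat.Prime 11) := ⟨by norm_num⟩
  have hnt : Nontrivial G := by
    rw [← Finite.one_lt_card_iff_nontrivial, hc]
    norm_num
  obtain ⟨r, hr, hcore⟩ := H1.Hall.exists_pCore_ne_bot hs
  have : Fact r.Prime := ⟨hr⟩
  have := H14.PrimeSylow.transitive_of_normal (p := 11) hα G (pCore r G) inferInstance hcore
  obtain ⟨a⟩ : Nonempty α := by
    rw [← Fintype.card_pos_iff, hα]; norm_num
  have h5 := MulAction.index_stabilizer_of_transitive (pCore r G) a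
  rw [Nat.card_eq_fintype_card, hα] at h5
  have h6 : 11 ∣ Nat.card (pCore r G) := (dvd_of_eq h5.symm).trans (Subgroup.index_dvd_card _)
  obtain ⟨k, hk⟩ := (H1.Cores.isPGroup_pCore (G := G) r).exists_card_eq
  rw [hk] at h6
  have h7 : 11 = r := (Nat.prime_dvd_prime_iff_eq Fact.out hr).mp ((by norm_num : Nat.Prime 11).dvd_of_dvd_pow h6)
  subst h7
  obtain ⟨P⟩ : Nonempty (Sylow 11 G) := inferInstance
  have h8 : pCore 11 G = P := by
    apply Subgroup.eq_of_le_of_card_ge (H1.Cores.pCore_le_sylow P)
    rw [H14.PrimeSylow.sylow_card hα G P]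
    refine Nat.le_of_dvd Nat.card_pos ?_
    rw [hk]
    exact h6
  obtain ⟨d, hd, hd2⟩ := H14.PrimeSylow.card_norm hα G P
  have hn : (P : Subgroup G).Normal := h8 ▸ inferInstance
  rw [Subgroup.normalizer_eq_top_iff.mpr hn] at hd2
  have h9 : Nat.card (⊤ : Subgroup G) = 660 := by rw [← hc]; exact Nat.card_congr Subgroup.topEquiv.toEquiv
  rw [h9] at hd2
  have h10 : d = 60 := by omega
  rw [h10] at hd
  exact absurd hd (by norm_num)

theorem iso_of_card {α : Type*} [Fintype α] [DecidableEq α] (hα : Fintype.card α = 11) (G : Subgroup (Equiv.Perm α))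
    [MulAction.IsPretransitive G α] (hc : Nat.card G = 660) :
    Nonempty (G ≃* Matrix.ProjectiveSpecialLinearGroup (Fin 2) (ZMod 11)) := by
  have hA : ¬ alternatingGroup α ≤ G := by
    intro h
    have h1 := Subgroup.card_le_of_le h
    have : Nontrivial α := by
      rw [← Fintype.one_lt_card_iff_nontrivial, hα]; norm_num
    have h2 := two_mul_nat_card_alternatingGroup (α := α)
    rw [Nat.card_perm, Nat.card_eq_fintype_card (α := α), hα] at h2
    have h3 : Nat.factorial 11 = 39916800 := by decide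
    rw [h3] at h2
    rw [hc] at h1
    omega
  rcases Cfsg.Agent.S0679.result hα G (not_solvable hα G hc) hA with ⟨h4, hst⟩ | h
  · exfalso
    have hne : Nonempty (Fin 4 ↪ α) := by
      rw [Function.Embedding.nonempty_iff_card_le, Fintype.card_fin, hα]; norm_num
    obtain ⟨x⟩ := hne
    have h1 : Function.Surjective (fun g : G => g • x) := fun y => h4.exists_smul_eq x y
    have h2 := Nat.card_le_card_of_surjective _ h1
    rw [hc, Nat.card_eq_fintype_card, Fintype.card_embedding_eq, hα, Fintype.card_fin] at h2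
    exact absurd h2 (by decide)
  · exact h

theorem canon3 {d : Finset GolayPt} (hd : d ∈ dodecads) {p b q : GolayPt} (hp : p ∈ d) (hb : b ∈ d) (hpb : p ≠ b)
    (hq : q ∉ d) : ∃ g ∈ M24, d.image g = d0 ∧ g p = pt 0 ∧ g b = pt 1 ∧ g q = pt 5 := by
  have d0p : ∀ i < 3, pt i ∈ d0 := by
    intro i hi
    rw [d0, pt_mem_D (by omega)]
    interval_cases i <;> decide
  obtain ⟨g, hg, hgl, hgd⟩ := move12 hd d0_mem [p, b] [pt 0, pt 1] (by simpa using hpb) (by decide) rfl (by simp)
    (by intro c hc; simp only [List.mem_cons, List.not_mem_nil, or_false] at hc; rcases hc with rfl | rfl <;> assumption)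
    (by intro c hc; simp only [List.mem_cons, List.not_mem_nil, or_false] at hc
        rcases hc with rfl | rfl
        · exact d0p 0 (by norm_num)
        · exact d0p 1 (by norm_num))
  simp only [List.map_cons, List.map_nil, List.cons.injEq, and_true] at hgl
  have hq' : g q ∉ d0 := by rw [← hgd, mem_image_g]; exact hq
  obtain ⟨h, hh, hhq⟩ := lvE hq'
  refine ⟨h * g, M24.mul_mem hh.1 hg, ?_, ?_, ?_, ?_⟩
  · rw [image_mul, hgd, image_d0 hh]
  · rw [Equiv.Perm.mul_apply, hgl.1, hh.2.1 0 (by simp)]
  · rw [Equiv.Perm.mul_apply, hgl.2, hh.2.1 1 (by simp)]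
  · rw [Equiv.Perm.mul_apply, hhq]

section
variable {d : Finset GolayPt} (hd : d ∈ dodecads) {p q : GolayPt} (hp : p ∈ d) (hq : q ∉ d)
include hd hp hq

theorem card660 : Nat.card ↥(MulAction.stabilizer M24 d ⊓ MulAction.stabilizer M24 p ⊓ MulAction.stabilizer M24 q) = 660 := by
  classical
  set H := MulAction.stabilizer M24 d ⊓ MulAction.stabilizer M24 p with hH
  have horb : MulAction.orbit H q = (dᶜ : Finset GolayPt) := by
    ext s
    rw [Finset.mem_coe, Finset.mem_compl]
    constructor
    · rintro ⟨g, rfl⟩ hc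
      have h2 : d.image g.1.1 = d := g.2.1
      have h3 : g.1.1 q ∈ d := hc
      have h4 := (mem_image_g g.1.1 d q).1 (by rw [h2]; exact h3)
      exact hq h4
    · intro hs
      obtain ⟨g, hg, hgp, hgl, hgd⟩ := move11 hd hd hp hp [q] [s] (List.nodup_singleton _) (List.nodup_singleton _) rfl
        (by simp) (by simpa using hq) (by simpa using hs)
      simp only [List.map_cons, List.map_nil, List.cons.injEq, and_true] at hgl
      exact ⟨⟨⟨g, hg⟩, ⟨hgd, hgp⟩⟩, hgl⟩
  have h1 := MulAction.index_stabilizer H q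
  rw [horb] at h1
  have h1' : (MulAction.stabilizer H q).index = 12 := by
    rw [h1, Set.ncard_coe_finset, Finset.card_compl, hd.2, card_pt]
  have h2 := (MulAction.stabilizer H q).card_mul_index
  rw [h1', card_one hd hp] at h2
  have h3 : Nat.card (MulAction.stabilizer H q) = Nat.card ↥(H ⊓ MulAction.stabilizer M24 q) := by
    apply Nat.card_congr
    exact ⟨fun g => ⟨g.1.1, g.1.2, g.2⟩, fun g => ⟨⟨g.1, g.2.1⟩, g.2.2⟩, fun g => rfl, fun g => rfl⟩
  rw [h3] at h2
  omega

theorem main : Nonempty (↥(MulAction.stabilizer M24 d ⊓ MulAction.stabilizer M24 p ⊓ MulAction.stabilizer M24 q) ≃*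
    Matrix.ProjectiveSpecialLinearGroup (Fin 2) (ZMod 11)) := by
  classical
  set H := MulAction.stabilizer M24 d ⊓ MulAction.stabilizer M24 p ⊓ MulAction.stabilizer M24 q with hH
  set s : Finset GolayPt := d.erase p with hs
  have hs11 : s.card = 11 := by rw [hs, Finset.card_erase_of_mem hp, hd.2]
  have hdg : ∀ g : H, d.image g.1.1 = d := fun g => g.2.1.1
  have hpg : ∀ g : H, g.1.1 p = p := fun g => g.2.1.2
  have hsg : ∀ g : H, ∀ x, x ∈ s ↔ g.1.1 x ∈ s := by
    intro g x
    rw [hs, Finset.mem_erase, Finset.mem_erase]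
    have e2 : g.1.1 x ∈ d ↔ x ∈ d := by
      have := mem_image_g g.1.1 d x
      rwa [hdg g] at this
    have e3 : g.1.1 x = p ↔ x = p := by
      constructor
      · intro h; exact g.1.1.injective (h.trans (hpg g).symm)
      · rintro rfl; exact hpg g
    rw [e2, Ne, Ne, e3]
  let f : H →* Equiv.Perm {x // x ∈ s} :=
    { toFun := fun g => g.1.1.subtypePerm (fun x => (hsg g x).symm)
      map_one' := by ext x; rfl
      map_mul' := fun g h => by ext x; rfl }
  have hf : Function.Injective f := by
    rw [injective_iff_map_eq_one]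
    intro g hg
    have h1 : ∀ x ∈ s, g.1.1 x = x := by
      intro x hx
      have := DFunLike.congr_fun hg ⟨x, hx⟩
      exact congrArg Subtype.val this
    have h2 := sharp12 hd s.toList s.nodup_toList (by rw [Finset.length_toList, hs11]; norm_num)
      (by intro a ha
          exact Finset.mem_of_mem_erase (Finset.mem_toList.1 ha)) g.1.2 (hdg g)
      (by intro a ha; exact h1 a (Finset.mem_toList.1 ha))
    exact Subtype.ext (Subtype.ext h2)
  have hcard : Nat.card f.range = 660 := by
    rw [← card660 hd hp hq]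
    exact (Nat.card_congr (MonoidHom.ofInjective hf).toEquiv).symm
  have htrans : MulAction.IsPretransitive f.range {x // x ∈ s} := by
    refine ⟨fun a b => ?_⟩
    have ha := Finset.mem_erase.1 a.2
    have hb := Finset.mem_erase.1 b.2
    obtain ⟨g, hg, hgd, hgp, hga, hgq⟩ := canon3 hd hp ha.2 ha.1.symm hq
    obtain ⟨h, hh, hhd, hhp, hhb, hhq⟩ := canon3 hd hp hb.2 hb.1.symm hq
    have key : ∀ {x y z : GolayPt}, g x = z → h y = z → (h⁻¹ * g) x = y := by
      intro x y z h1 h2
      rw [Equiv.Perm.mul_apply, h1, ← h2]; exact h.symm_apply_apply y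
    let k : H := ⟨⟨h⁻¹ * g, M24.mul_mem (M24.inv_mem hh) hg⟩, ⟨by
      show d.image (h⁻¹ * g) = d
      rw [image_mul, hgd]; exact image_inv hhd, key hgp hhp⟩, key hgq hhq⟩
    exact ⟨⟨f k, ⟨k, rfl⟩⟩, Subtype.ext (key hga hhb)⟩
  obtain ⟨e⟩ := iso_of_card (by rw [Fintype.card_coe, hs11]) f.range hcard
  exact ⟨(MonoidHom.ofInjective hf).trans e⟩

end

end H33.M11c
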