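import Mathlib
import Cfsg.Agent.Lib.H33.MonLift

set_option autoImplicit false

/-! Perpendicular subgroups in extraspecial groups. -/

namespace H33.MonFus

open Cfsg H91.MonData H91.MonType H91.LargePair H91.LeechTools H91.InvForm H91.MonConj H91.MonCross H33.MonRed H33.MonCo

section
variable {G : Type*} [Group G]

open Classical in
noncomputable def chi (a x : G) : ℤ := if a * x = x * a then 1 else -1

theorem chi_symm (a x : G) : chi a x = chi x a := by
  unfold chi
  by_cases h : a * x = x * a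
  · rw [if_pos h, if_pos h.symm]
  · rw [if_neg h, if_neg (fun h' => h h'.symm)]

variable {Q : Subgroup G} {s : G} (P : Pack Q s)
include P

theorem chi_mul {a0 a x : G} (h0 : a0 ∈ Q) (ha : a ∈ Q) (hx : x ∈ Q) (h : a0 * x ≠ x * a0) : chi (a0 * a) x = - chi a x := by
  have key : ∀ u ∈ Q, u * x ≠ x * u → u * x = s * (x * u) := by
    intro u hu h1
    rcases P.comm u hu x hx with h2 | h2
    · exact absurd (by
        calc u * x = (u * x * u⁻¹ * x⁻¹) * (x * u) := by group
          _ = x * u := by rw [h2, one_mul]) h1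
    · calc u * x = (u * x * u⁻¹ * x⁻¹) * (x * u) := by group
        _ = _ := by rw [h2]
  unfold chi
  by_cases h1 : a * x = x * a
  · rw [if_pos h1, if_neg]
    intro h2
    apply h
    have : a0 * x * a = x * a0 * a := by rw [mul_assoc, ← h1, ← mul_assoc, h2, mul_assoc]
    exact mul_right_cancel this
  · rw [if_neg h1, if_pos, neg_neg]
    calc a0 * a * x = a0 * (a * x) := by group
      _ = a0 * (s * (x * a)) := by rw [key a ha h1]
      _ = (a0 * s) * x * a := by group
      _ = (s * a0) * x * a := by rw [P.zc a0 h0]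
      _ = s * (a0 * x) * a := by group
      _ = s * (s * (x * a0)) * a := by rw [key a0 h0 h]
      _ = (s * s) * x * a0 * a := by group
      _ = x * (a0 * a) := by rw [P.zz]; group

theorem sum_chi [Finite G] {A : Subgroup G} (hA : A ≤ Q) [Fintype A] {a0 x : G} (h0 : a0 ∈ A) (hx : x ∈ Q) (h : a0 * x ≠ x * a0) :
    ∑ a : A, chi (a : G) x = 0 := by
  have h1 : ∑ a : A, chi (((⟨a0, h0⟩ : A) * a : A) : G) x = ∑ a : A, chi (a : G) x :=
    Equiv.sum_comp (Equiv.mulLeft (⟨a0, h0⟩ : A)) (fun a : A => chi (a : G) x)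
  have h2 : ∑ a : A, chi (((⟨a0, h0⟩ : A) * a : A) : G) x = - ∑ a : A, chi (a : G) x := by
    rw [← Finset.sum_neg_distrib]
    apply Finset.sum_congr rfl
    intro a _
    exact chi_mul P (hA h0) (hA a.2) hx h
  rw [h1] at h2
  omega

theorem card_perp [Finite G] {A : Subgroup G} (hA : A ≤ Q) (hs : s ∈ A) :
    Nat.card A * Nat.card (Q ⊓ Subgroup.centralizer (A : Set G) : Subgroup G) = 2 * Nat.card Q := by
  classical
  have _ : Fintype G := Fintype.ofFinite G
  have e1 : ∑ a : A, ∑ x : Q, chi (a : G) (x : G) = 2 * (Nat.card Q : ℤ) := by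
    have h1 : ∀ a : A, ∑ x : Q, chi (a : G) (x : G) = if (a = 1 ∨ a = ⟨s, hs⟩) then (Nat.card Q : ℤ) else 0 := by
      intro a
      by_cases ha : a = 1 ∨ a = ⟨s, hs⟩
      · rw [if_pos ha]
        have h2 : ∀ x : Q, chi (a : G) (x : G) = 1 := by
          intro x
          unfold chi
          rw [if_pos]
          rcases ha with rfl | rfl
          · show (1 : G) * x = x * 1
            rw [one_mul, mul_one]
          · exact (P.zc x x.2).symm
        rw [Finset.sum_congr rfl fun x _ => h2 x, Finset.sum_const, Finset.card_univ, ← Nat.card_eq_fintype_card, nsmul_eq_mul, mul_one]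
      · rw [if_neg ha]
        have h2 : ¬ ∀ q ∈ Q, q * (a : G) = a * q := by
          intro h3
          rcases P.cen a (hA a.2) h3 with h4 | h4
          · exact ha (Or.inl (Subtype.ext h4))
          · exact ha (Or.inr (Subtype.ext h4))
        push Not at h2
        obtain ⟨x0, hx0, hne⟩ := h2
        rw [Finset.sum_congr rfl fun (x : Q) _ => chi_symm (a : G) (x : G)]
        exact sum_chi P le_rfl hx0 (hA a.2) hne
    rw [Finset.sum_congr rfl fun a _ => h1 a, ← Finset.sum_filter, Finset.sum_const, nsmul_eq_mul]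
    have h5 : (Finset.univ.filter fun a : A => a = 1 ∨ a = ⟨s, hs⟩) = {1, ⟨s, hs⟩} := by
      ext a; simp
    rw [h5, Finset.card_pair]
    · norm_num
    · intro h
      exact P.z1 (congrArg Subtype.val h).symm
  have e2 : ∑ x : Q, ∑ a : A, chi (a : G) (x : G) = (Nat.card A : ℤ) * Nat.card (Q ⊓ Subgroup.centralizer (A : Set G) : Subgroup G) := by
    have h1 : ∀ x : Q, ∑ a : A, chi (a : G) (x : G) = if (x : G) ∈ Subgroup.centralizer (A : Set G) then (Nat.card A : ℤ) else 0 := by
      intro x
      by_cases hx : (x : G) ∈ Subgroup.centralizer (A : Set G)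
      · rw [if_pos hx]
        have h2 : ∀ a : A, chi (a : G) (x : G) = 1 := by
          intro a
          unfold chi
          rw [if_pos]
          exact Subgroup.mem_centralizer_iff.1 hx a a.2
        rw [Finset.sum_congr rfl fun a _ => h2 a, Finset.sum_const, Finset.card_univ, ← Nat.card_eq_fintype_card, nsmul_eq_mul, mul_one]
      · rw [if_neg hx]
        have h2 : ¬ ∀ a ∈ A, a * (x : G) = x * a := fun h3 => hx (Subgroup.mem_centralizer_iff.2 h3)
        push Not at h2
        obtain ⟨a0, ha0, hne⟩ := h2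
        exact sum_chi P hA ha0 x.2 hne
    rw [Finset.sum_congr rfl fun x _ => h1 x, ← Finset.sum_filter, Finset.sum_const, nsmul_eq_mul, mul_comm]
    congr 1
    rw [← Fintype.card_subtype, ← Nat.card_eq_fintype_card]
    norm_cast
    apply Nat.card_congr
    exact
      { toFun := fun x => ⟨x.1.1, x.1.2, x.2⟩
        invFun := fun x => ⟨⟨x.1, x.2.1⟩, x.2.2⟩
        left_inv := fun x => rfl
        right_inv := fun x => rfl }
  rw [Finset.sum_comm, e2] at e1
  exact_mod_cast e1
end

section
variable {G : Type*} [Group G] [Finite G] {z : G} {Q : Subgroup G} {Lab : leechLattice → G → Prop} {R : G → Co0 → Prop}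
  {q : leechLattice → ZMod 2} {b : leechLattice → leechLattice → ZMod 2}

/-- an involution over every conjugate of a sign change -/
theorem exists_invol (L : LF) (M : MonData z Q Lab R q b) {g : G} (hsQ : g * z * g⁻¹ ∈ Q) (hsz : g * z * g⁻¹ ≠ z)
    {ε : Co0} (hε : H91.Cross.P ε 1) (n : Co0) : ∃ t, t * t = 1 ∧ R t (n * ε * n⁻¹) := by
  obtain ⟨h1, h2, h3, h4⟩ := basic M hsQ hsz
  set s := g * z * g⁻¹ with hs
  set Q1 := Q.map (MulAut.conj g).toMonoidHom with hQ1
  have hcard1 : Nat.card Q1 = 2 ^ 25 := by rw [hQ1, card_conj, M.card]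
  obtain ⟨v, hv, hv64⟩ := conj_label L M (isConj_iff.2 ⟨g, rfl⟩) hsQ hsz
  obtain ⟨k, u0, hk'⟩ := L.h64 v (fr none) hv64 (norm_fr none)
  have hA : Nat.card (Q ⊓ Q1 : Subgroup G) = 2 ^ 13 := card_inter M h1 h2 hcard1 h4 hsz hv hk'
  have hsA : s ∈ Q ⊓ Q1 := ⟨hsQ, h1.zQ⟩
  have hE : (k⁻¹ * ε * k) ∈ H91.MonPair.EE M Q1 := by
    rw [EE_eq M h1 h2 h3 h4 hsz hv hk']
    have : k * (k⁻¹ * ε * k) * k⁻¹ = ε := by group
    rw [this]; exact hε
  obtain ⟨t', ht'Q, ht'⟩ := (H91.MonPair.mem_EE M).1 hE
  -- an involution in `Q1`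
  have hinv : ∃ t, t * t = 1 ∧ R t (k⁻¹ * ε * k) := by
    rcases h1.sq t' ht'Q with h5 | h5
    · exact ⟨t', h5, ht'⟩
    by_cases hc : ∀ a ∈ Q ⊓ Q1, a * t' = t' * a
    · -- then `t'` is in `Q`, so over `±1`
      have h6 := card_perp h1 (A := Q ⊓ Q1) inf_le_right hsA
      rw [hA, hcard1] at h6
      have h7 : (Q ⊓ Q1 : Subgroup G) = (Q1 ⊓ Subgroup.centralizer ((Q ⊓ Q1 : Subgroup G) : Set G) : Subgroup G) := by
        apply Subgroup.eq_of_le_of_card_ge
        · intro x hx
          refine ⟨hx.2, Subgroup.mem_centralizer_iff.2 ?_⟩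
          intro y hy
          have hy' : y ∈ Q ⊓ Q1 := hy
          have c1 := M.pack.comm y hy'.1 x hx.1
          have c2 := h1.comm y hy'.2 x hx.2
          have c3 : y * x * y⁻¹ * x⁻¹ = 1 := by
            rcases c1 with c1 | c1
            · exact c1
            · rcases c2 with c2 | c2
              · exact c2
              · exact absurd (c2.symm.trans c1) hsz
          calc y * x = (y * x * y⁻¹ * x⁻¹) * (x * y) := by group
            _ = x * y := by rw [c3, one_mul]
        · rw [hA]
          have : Nat.card (Q1 ⊓ Subgroup.centralizer ((Q ⊓ Q1 : Subgroup G) : Set G) : Subgroup G) = 2 ^ 13 := by omega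
          rw [this]
      have h8 : t' ∈ Q ⊓ Q1 := by
        rw [h7]
        exact ⟨ht'Q, Subgroup.mem_centralizer_iff.2 fun y hy => hc y hy⟩
      -- `t'` in `Q ∩ Q1` has square one
      rcases M.pack.sq t' h8.1 with h9 | h9
      · exact ⟨t', h9, ht'⟩
      · exact absurd (h5.symm.trans h9) hsz
    · push Not at hc
      obtain ⟨r, hr, hrt⟩ := hc
      have hrr : r * r = 1 := by
        rcases M.pack.sq r hr.1 with h6 | h6
        · exact h6
        · rcases h1.sq r hr.2 with h7 | h7
          · exact h7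
          · exact absurd (h7.symm.trans h6) hsz
      have h6 : r * t' = s * (t' * r) := by
        rcases h1.comm r hr.2 t' ht'Q with h7 | h7
        · exact absurd (by
            calc r * t' = (r * t' * r⁻¹ * t'⁻¹) * (t' * r) := by group
              _ = t' * r := by rw [h7, one_mul]) hrt
        · calc r * t' = (r * t' * r⁻¹ * t'⁻¹) * (t' * r) := by group
            _ = _ := by rw [h7]
      refine ⟨t' * r, ?_, ?_⟩
      · calc t' * r * (t' * r) = t' * (r * t') * r := by group
          _ = t' * (s * (t' * r)) * r := by rw [h6]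
          _ = (t' * s) * t' * (r * r) := by group
          _ = (s * t') * t' * (r * r) := by rw [h1.zc t' ht'Q]
          _ = s * (t' * t') * (r * r) := by group
          _ = 1 := by rw [h5, hrr, mul_one, h1.zz]
      · have := M.R_mul ht' (M.R_one hr.1)
        rwa [mul_one] at this
  obtain ⟨t, htt, ht⟩ := hinv
  obtain ⟨d, hd⟩ := M.R_ex (n * k)
  refine ⟨d * t * d⁻¹, ?_, ?_⟩
  · calc d * t * d⁻¹ * (d * t * d⁻¹) = d * (t * t) * d⁻¹ := by group
      _ = 1 := by rw [htt]; group
  · have h5 := M.R_mul (M.R_mul hd ht) (M.R_inv hd)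
    have : n * k * (k⁻¹ * ε * k) * (n * k)⁻¹ = n * ε * n⁻¹ := by group
    rwa [this] at h5
end

end H33.MonFus
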