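import Mathlib
import Cfsg.Agent.Lib.H33.MonAB

set_option autoImplicit false

/-! An involution inverting an element of order 7. -/

namespace H33.MonFus

open Cfsg H91.MonData H91.MonType H91.LargePair H91.LeechTools H91.InvForm H91.MonConj H91.MonCross H33.MonRed H33.MonCo
open H9.LeechGood (e8 co0_add co0_neg co0_sub co0_zero)

section
variable {γ δ : Co0}

theorem av7 (γ : Co0) (v : leechLattice) :
    av γ 7 v = v + γ • v + γ ^ 2 • v + γ ^ 3 • v + γ ^ 4 • v + γ ^ 5 • v + γ ^ 6 • v := by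
  unfold av
  simp only [Finset.sum_range_succ, Finset.sum_range_zero, zero_add, pow_zero, pow_one, one_smul]

theorem dg_pow (h7 : γ ^ 7 = 1) (hd : δ * γ = γ ^ 6 * δ) : ∀ i j : ℕ, i + j = 7 → δ * γ ^ i = γ ^ j * δ := by
  have h1 : ∀ i, δ * γ ^ i = γ ^ (6 * i) * δ := by
    intro i
    induction i with
    | zero => simp
    | succ i ih => rw [pow_succ, ← mul_assoc, ih, mul_assoc, hd, ← mul_assoc, ← pow_add]; congr 1
  intro i j hij
  rw [h1]
  congr 1
  have h2 : ∀ k m : ℕ, γ ^ (7 * m + k) = γ ^ k := by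
    intro k m
    rw [pow_add, pow_mul, h7, one_pow, one_mul]
  have hj : j ≤ 7 := by omega
  interval_cases j
  all_goals first
    | (obtain rfl : i = 7 := by omega
       exact h2 0 6)
    | (obtain rfl : i = 6 := by omega
       exact h2 1 5)
    | (obtain rfl : i = 5 := by omega
       exact h2 2 4)
    | (obtain rfl : i = 4 := by omega
       exact h2 3 3)
    | (obtain rfl : i = 3 := by omega
       exact h2 4 2)
    | (obtain rfl : i = 2 := by omega
       exact h2 5 1)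
    | (obtain rfl : i = 1 := by omega
       exact h2 6 0)
    | (obtain rfl : i = 0 := by omega
       simp [h7])

theorem dg_smul (h7 : γ ^ 7 = 1) (hd : δ * γ = γ ^ 6 * δ) (v : leechLattice) (i j : ℕ) (hij : i + j = 7) :
    δ • (γ ^ i • v) = γ ^ j • (δ • v) := by
  rw [← mul_smul, dg_pow h7 hd i j hij, mul_smul]

theorem av_delta (h7 : γ ^ 7 = 1) (hd : δ * γ = γ ^ 6 * δ) (v : leechLattice) : av γ 7 (δ • v) = δ • av γ 7 v := by
  rw [av7, av7]
  simp only [co0_add]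
  have h1 : δ • (γ • v) = γ ^ 6 • (δ • v) := by
    have := dg_smul h7 hd v 1 6 rfl
    rwa [pow_one] at this
  have h6 : δ • (γ ^ 6 • v) = γ • (δ • v) := by
    have := dg_smul h7 hd v 6 1 rfl
    rwa [pow_one] at this
  rw [h1, dg_smul h7 hd v 2 5 rfl, dg_smul h7 hd v 3 4 rfl, dg_smul h7 hd v 4 3 rfl, dg_smul h7 hd v 5 2 rfl, h6]
  abel

theorem av_add (γ : Co0) (v w : leechLattice) : av γ 7 (v + w) = av γ 7 v + av γ 7 w := by
  rw [av7, av7, av7]
  simp only [co0_add]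
  abel
end

section
variable {G : Type*} [Group G] [Finite G] {z : G} {Q : Subgroup G} {Lab : leechLattice → G → Prop} {R : G → Co0 → Prop}
  {q : leechLattice → ZMod 2} {b : leechLattice → leechLattice → ZMod 2}
variable {S A : Type} [Group S] [AddCommGroup A] {γ : Co0} {Φ : CC γ →* S} {κ : Fx γ →+ A}

theorem exists_inverting (M : MonData z Q Lab R q b) (D : CoD γ 7 Φ κ) {c : G} (hc : orderOf c = 7) (hγ : R c γ)
    {δ : Co0} (hδ : δ * γ = γ ^ 6 * δ) (hδ2 : δ * δ = 1) {t : G} (htt : t * t = 1) (ht : R t δ) :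
    ∃ t1, t1 * t1 = 1 ∧ R t1 δ ∧ t1 * c = c ^ 6 * t1 := by
  have h7 : γ ^ 7 = 1 := D.pow
  have hc7 : c ^ 7 = 1 := by rw [← hc]; exact pow_orderOf_eq_one c
  obtain ⟨t0, ht0, ht0c⟩ := lift_pow M (p := 7) (by norm_num) (by norm_num) hc hγ (a := 6) (by norm_num) hδ
  have hδi : δ⁻¹ = δ := inv_eq_of_mul_eq_one_left hδ2
  -- the difference
  have hyQ : t0⁻¹ * t ∈ Q := by
    have h1 := M.R_mul (M.R_inv ht0) ht
    exact (M.R_Q h1).2 (Or.inl (inv_mul_cancel δ))
  obtain ⟨a, ha⟩ := M.lab_surj hyQ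
  set y := t0⁻¹ * t with hy
  set a0 := av γ 7 a with ha0
  have ha0F : a0 ∈ Fx γ := av_mem γ 7 h7 a
  obtain ⟨q0, hq0⟩ := M.lab_ex a0
  have hq0c : q0 * c = c * q0 := comm_of_fixed M D hc7 hγ ha0F hq0
  -- `t0²`
  have hwQ : t0 * t0 ∈ Q := (M.R_Q (M.R_mul ht0 ht0)).2 (Or.inl hδ2)
  have hcon : t0 * c * t0⁻¹ = c ^ 6 := by rw [ht0c, mul_inv_cancel_right]
  have h36 : c ^ 36 = c := by
    rw [show 36 = 7 * 5 + 1 by norm_num, pow_add, pow_mul, hc7, one_pow, one_mul, pow_one]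
  have hwc : (t0 * t0) * c = c * (t0 * t0) := by
    have : t0 * t0 * c * (t0 * t0)⁻¹ = c := by
      calc t0 * t0 * c * (t0 * t0)⁻¹ = t0 * (t0 * c * t0⁻¹) * t0⁻¹ := by group
        _ = (t0 * c * t0⁻¹) ^ 6 := by rw [hcon, ← conj_pow, hcon]
        _ = c := by rw [hcon, ← pow_mul, h36]
    calc (t0 * t0) * c = (t0 * t0 * c * (t0 * t0)⁻¹) * (t0 * t0) := by group
      _ = _ := by rw [this]
  obtain ⟨w, hwF, hw⟩ := fixed_label M D hγ hwc hwQ
  have lcon : ∀ {v : leechLattice} {x : G}, Lab v x → Lab (δ • v) (t0⁻¹ * x * t0) := by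
    intro v x h
    have := M.R_conj (M.R_inv ht0) h
    rwa [hδi, inv_inv] at this
  -- first relation
  have ht0y : t = t0 * y := by rw [hy, mul_inv_cancel_left]
  obtain ⟨u, hu⟩ : ∃ u, w + δ • a + a = u + u := by
    have h1 := M.lab_mul (M.lab_mul hw (lcon ha)) ha
    have h2 : t0 * t0 * (t0⁻¹ * y * t0) * y = 1 := by
      calc t0 * t0 * (t0⁻¹ * y * t0) * y = (t0 * y) * (t0 * y) := by group
        _ = 1 := by rw [← ht0y, htt]
    rw [h2] at h1
    exact M.lab_one.1 h1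
  have hav : 7 • w + δ • a0 + a0 = av γ 7 u + av γ 7 u := by
    have h1 := congrArg (av γ 7) hu
    rw [av_add, av_add, av_add, av_delta h7 hδ, av_Fx γ 7 hwF] at h1
    exact h1
  set t1 := t0 * q0 with ht1
  have hRt1 : R t1 δ := by
    have := M.R_mul ht0 (M.R_one (M.lab_mem hq0))
    rwa [mul_one] at this
  have ht1c : t1 * c = c ^ 6 * t1 := by
    rw [ht1, mul_assoc, hq0c, ← mul_assoc, ht0c, mul_assoc]
  have l1 : Lab (w + δ • a0 + a0) (t1 * t1) := by
    have h1 := M.lab_mul (M.lab_mul hw (lcon hq0)) hq0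
    have h2 : t0 * t0 * (t0⁻¹ * q0 * t0) * q0 = t1 * t1 := by rw [ht1]; group
    rwa [h2] at h1
  have e1 : w + δ • a0 + a0 = (av γ 7 u - 3 • w) + (av γ 7 u - 3 • w) := by
    have h3 : w + δ • a0 + a0 = (7 • w + δ • a0 + a0) - 6 • w := by abel
    rw [h3, hav]; abel
  have hsq : t1 * t1 = 1 ∨ t1 * t1 = z := by
    rw [e1] at l1
    have l2 : Lab ((av γ 7 u - 3 • w) + (av γ 7 u - 3 • w)) 1 := M.lab_one.2 ⟨_, rfl⟩
    rcases lab_eq M l2 l1 with h | h
    · exact Or.inl h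
    · right; rw [h, one_mul]
  -- second step
  set q1 := q0⁻¹ * y with hq1
  set a1 := -a0 + a with ha1
  have lq1 : Lab a1 q1 := M.lab_mul (lab_inv M hq0) ha
  have lcon1 : ∀ {v : leechLattice} {x : G}, Lab v x → Lab (δ • v) (t1⁻¹ * x * t1) := by
    intro v x h
    have := M.R_conj (M.R_inv hRt1) h
    rwa [hδi, inv_inv] at this
  set e := u - av γ 7 u + 3 • w with he
  have hδa1 : δ • a1 = (e + e) - a1 := by
    have h3 : δ • a1 = -(δ • a0) + δ • a := by rw [ha1, co0_add, co0_neg]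
    have h4 : δ • a0 = av γ 7 u + av γ 7 u - 7 • w - a0 := by rw [← hav]; abel
    have h5 : δ • a = u + u - w - a := by rw [← hu]; abel
    rw [h3, h4, h5, he, ha1]
    abel
  set x := γ • a1 + γ ^ 2 • a1 + γ ^ 3 • a1 with hx
  obtain ⟨X, hX⟩ := M.lab_ex x
  have hdx : δ • x = γ ^ 6 • (δ • a1) + γ ^ 5 • (δ • a1) + γ ^ 4 • (δ • a1) := by
    have h1 : δ • (γ • a1) = γ ^ 6 • (δ • a1) := by
      have := dg_smul h7 hδ a1 1 6 rfl
      rwa [pow_one] at this
    rw [hx, co0_add, co0_add, h1, dg_smul h7 hδ a1 2 5 rfl, dg_smul h7 hδ a1 3 4 rfl]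
  have hav1 : av γ 7 a1 = -(6 • a0) := by
    rw [ha1, av_add]
    have h1 : av γ 7 (-a0) = -(7 • a0) := by
      rw [av_Fx γ 7 ((Fx γ).neg_mem ha0F), _root_.smul_neg]
    rw [h1, ← ha0]
    abel
  set f := γ ^ 6 • e + γ ^ 5 • e + γ ^ 4 • e + 3 • a0 with hf
  have e2 : δ • x + -x = a1 + (f + f) := by
    have h1 := hav1
    rw [av7] at h1
    have h2 : γ ^ 6 • a1 + γ ^ 5 • a1 + γ ^ 4 • a1 + x = -(6 • a0) - a1 := by
      rw [← h1, hx]; abel
    have h3 : ∀ i : ℕ, γ ^ i • (δ • a1) = γ ^ i • e + γ ^ i • e - γ ^ i • a1 := by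
      intro i
      rw [hδa1, co0_sub, co0_add]
    have h4 : δ • x + -x = (γ ^ 6 • e + γ ^ 6 • e) + (γ ^ 5 • e + γ ^ 5 • e) + (γ ^ 4 • e + γ ^ 4 • e)
        - (γ ^ 6 • a1 + γ ^ 5 • a1 + γ ^ 4 • a1 + x) := by
      rw [hdx, h3, h3, h3]; abel
    rw [h4, h2, hf]
    abel
  have lY : Lab (a1 + (f + f)) ((t1⁻¹ * X * t1) * X⁻¹) := by
    rw [← e2]
    exact M.lab_mul (lcon1 hX) (lab_inv M hX)
  have lq1' : Lab (a1 + (f + f)) q1 := lab_add_double M lq1
  have htq : t = t1 * q1 := by rw [ht1, hq1, ht0y]; group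
  have hzz := M.pack.zz
  have hcomm : ∀ g : G, ∀ γ', R g γ' → g * z = z * g := fun g γ' h => M.R_comm h
  have t1z : t1 * z = z * t1 := M.R_comm hRt1
  have Xz : X * z = z * X := M.pack.zc X (M.lab_mem hX)
  have key : ∀ T : G, (T = 1 ∨ T = z) → X * T * X⁻¹ = T := by
    rintro T (rfl | rfl)
    · group
    · rw [Xz]; group
  refine ⟨t1, ?_, hRt1, ht1c⟩
  rcases lab_eq M lY lq1' with h | h
  · have h1 : t = X * t1 * X⁻¹ := by rw [htq, h]; group
    have h2 : t * t = X * (t1 * t1) * X⁻¹ := by rw [h1]; group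
    rw [key _ hsq, htt] at h2
    exact h2.symm
  · have h1 : t = X * t1 * X⁻¹ * z := by rw [htq, h]; group
    have h3 : z * (X * t1 * X⁻¹) = (X * t1 * X⁻¹) * z := by
      have c1 : Commute z X := Xz.symm
      have c2 : Commute z t1 := t1z.symm
      exact ((c1.mul_right c2).mul_right c1.inv_right).eq
    have h2 : t * t = X * (t1 * t1) * X⁻¹ := by
      calc t * t = (X * t1 * X⁻¹) * (z * (X * t1 * X⁻¹)) * z := by rw [h1]; group
        _ = (X * t1 * X⁻¹) * (X * t1 * X⁻¹) * (z * z) := by rw [h3]; group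
        _ = _ := by rw [hzz]; group
    rw [key _ hsq, htt] at h2
    exact h2.symm
end

end H33.MonFus
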