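import Mathlib
import Cfsg.Agent.Lib.H33.MonSet
import Cfsg.Agent.Lib.H91.Setting
import Cfsg.Agent.Lib.H91.LargeLayer
import Cfsg.Agent.Lib.H91.LargePair2

set_option autoImplicit false

/-! The layer of the centralizer of an element of odd prime order in a group of Monster type. -/

namespace H33.MonLay

open Cfsg H91.LargePair H91.LargeNormal

/-- the setting gives a large extraspecial subgroup -/
theorem lpack {H : Type*} [Group H] [Finite H] {z : H} {Q : Subgroup (Subgroup.centralizer ({z} : Set H))} {w : ℕ} (hw : 2 ≤ w)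
    (h : IsExtraspecialCentralizerSetting z Q w) : LPack (Q.map (Subgroup.centralizer ({z} : Set H)).subtype) z := by
  obtain ⟨P, -⟩ := H91.Setting.pack_of_setting h
  obtain ⟨hz2, hF, hQ, hcard, g, ⟨hgC, hgQ⟩, hgz⟩ := h
  set Q' := Q.map (Subgroup.centralizer ({z} : Set H)).subtype with hQ'
  have hc : Nat.card Q' = 2 ^ (2 * w + 1) := by rw [hQ', H91.Setting.card_map, hcard]
  have h2 : IsPGroup 2 Q' := H91.MonConj.isPGroup_of_card hc
  have h8 : 8 < Nat.card Q' := by
    rw [hc]
    calc 8 < 2 ^ (2 * 2 + 1) := by norm_num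
      _ ≤ 2 ^ (2 * w + 1) := Nat.pow_le_pow_right (by norm_num) (by omega)
  have hsQ : g * z * g⁻¹ ∈ Q' := ⟨_, hgQ, rfl⟩
  have P1 : Pack (Q'.map (MulAut.conj g).toMonoidHom) (g * z * g⁻¹) := P.conj g
  have hz1 : z ∈ Q'.map (MulAut.conj g).toMonoidHom := key P P1 (H91.MonConj.hconj_of P g) hsQ hgz h8
  have hp1 : IsPGroup 2 (Q'.map (MulAut.conj g).toMonoidHom) :=
    H91.MonConj.isPGroup_of_card (n := 2 * w + 1) (by rw [H91.MonConj.card_conj, hc])
  refine { toPack := P, p2 := h2, odd := ?_ }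
  intro K hK hQK
  have hKz := H91.LargePair2.large_of_conj P P1 hsQ hgz hz1 hp1 hK hQK
  rw [eq_bot_iff]
  intro k hk
  have hcom : ∀ q ∈ Q', q * k = k * q := by
    intro q hq
    have h3 : q * k * q⁻¹ * k⁻¹ ∈ K := K.mul_mem ((Subgroup.mem_normalizer_iff.1 (hQK hq) k).1 hk) (K.inv_mem hk)
    have h4 : q * k * q⁻¹ * k⁻¹ ∈ Q' := by
      have e : q * k * q⁻¹ * k⁻¹ = q * (k * q⁻¹ * k⁻¹) := by group
      rw [e]
      exact Q'.mul_mem hq (P.N k (hKz k hk).symm _ (Q'.inv_mem hq))
    have h5 := H91.LargeExtra.eq_one_of_odd_of_two hK h2 h3 h4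
    rw [mul_inv_eq_one, mul_inv_eq_iff_eq_mul] at h5
    exact h5
  rcases P.C k hcom with h3 | h3
  · exact h3
  · exfalso
    rw [h3] at hk
    exact P.z1 (H91.LargeExtra.eq_one_of_odd_of_two hK h2 hk P.zQ)

theorem mem_layer {H : Type*} [Group H] [Finite H] (N : Subgroup H) [hNn : N.Normal] (hN : ∀ n ∈ N, ∀ x, n * x = x * n) {z : H}
    (hzz : z * z = 1) {p : ℕ} (hp : Odd p) (hNp : ∀ n ∈ N, n ^ p = 1) (hzN : z ∉ N) {Q' : Subgroup (H ⧸ N)}
    (L : LPack Q' (QuotientGroup.mk z)) (hcore : (QuotientGroup.mk z : H ⧸ N) ∉ pCore 2 (H ⧸ N)) : z ∈ layer H := by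
  set π := QuotientGroup.mk' N with hπ
  have hs : Function.Surjective π := QuotientGroup.mk'_surjective N
  have hmk : ∀ x, π x = 1 ↔ x ∈ N := fun x => QuotientGroup.eq_one_iff x
  have hfit := H91.LargeLayer.fitting_eq_bot L hcore
  -- the Fitting subgroup is in `N`
  have hF : fittingSubgroup H ≤ N := by
    have h1 : Group.IsNilpotent (fittingSubgroup H) := H1.Cores.isNilpotent_fittingSubgroup
    have h2 := H1.Cores.fittingSubgroup_normal (G := H)
    have h3 : ((fittingSubgroup H).map π).Normal := h2.map π hs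
    have h4 : Group.IsNilpotent ((fittingSubgroup H).map π) :=
      Group.nilpotent_of_surjective (π.subgroupMap (fittingSubgroup H)) (π.subgroupMap_surjective _)
    have h5 : (fittingSubgroup H).map π ≤ fittingSubgroup (H ⧸ N) := le_sSup ⟨h3, h4⟩
    rw [hfit] at h5
    intro x hx
    rw [← hmk]
    exact Subgroup.mem_bot.1 (h5 ⟨x, hx, rfl⟩)
  have hlay : layer H ≠ ⊥ := by
    intro h
    have h1 : generalizedFittingSubgroup H ≤ N := by
      show layer H ⊔ fittingSubgroup H ≤ N
      rw [h, bot_sup_eq]; exact hF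
    apply hzN
    apply h1
    apply H26.Components.centralizer_gFitting_le
    rw [Subgroup.mem_centralizer_iff]
    intro x hx
    exact hN x (h1 hx) z
  have hlN : (layer H).map π ≠ ⊥ := by
    intro h
    apply hlay
    have h1 : layer H ≤ N := by
      intro x hx
      rw [← hmk]
      exact Subgroup.mem_bot.1 (by rw [← h]; exact ⟨x, hx, rfl⟩)
    have h2 : ⁅layer H, layer H⁆ = ⊥ := by
      rw [eq_bot_iff, Subgroup.commutator_le]
      intro x hx y _
      rw [Subgroup.mem_bot, commutatorElement_eq_one_iff_mul_comm]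
      exact hN x (h1 hx) y
    rw [← H26.Components.commutator_layer_self, h2]
  have hln : (layer H).Normal := by
    have := H26.Components.layer_characteristic (G := H)
    infer_instance
  have hlQ : Q' ≤ Subgroup.normalizer ((layer H).map π : Set (H ⧸ N)) := by
    have : ((layer H).map π).Normal := hln.map π hs
    rw [Subgroup.normalizer_eq_top]; exact le_top
  obtain ⟨e, he, hez⟩ := L.mem_of_norm hlQ hlN
  have h1 : e⁻¹ * z ∈ N := by
    rw [← hmk, map_mul, map_inv, hez]
    exact inv_mul_cancel _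
  set n := e⁻¹ * z with hn
  have h2 : z = e * n := by rw [hn, mul_inv_cancel_left]
  have h3 : Commute e n := (hN n h1 e).symm
  have h4 : z ^ p = e ^ p := by
    rw [h2, h3.mul_pow, hNp n h1, mul_one]
  have h5 : z ^ p = z := by
    obtain ⟨m, rfl⟩ := hp
    rw [pow_succ, pow_mul, pow_two, hzz, one_pow, one_mul]
  rw [← h5, h4]
  exact (layer H).pow_mem he p

end H33.MonLay
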