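import Mathlib
import Cfsg.Prelude.Def_MonsterType
import Cfsg.Agent.Lib.H33.MonCo7
import Cfsg.Agent.Lib.H1.Cores

set_option autoImplicit false

/-! The wreath product of the alternating group of degree five by a group of order two. -/

namespace H33.Wr5

open Cfsg Equiv.Perm

abbrev A5 := alternatingGroup (Fin 5)
abbrev P10 := Equiv.Perm (Fin 5 ⊕ Fin 5)

/-- a pair of permutations -/
def pr (a b : Equiv.Perm (Fin 5)) : P10 := sumCongr a b
def sw : P10 := Equiv.sumComm (Fin 5) (Fin 5)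

theorem pr_mul (a b c d : Equiv.Perm (Fin 5)) : pr a b * pr c d = pr (a * c) (b * d) := sumCongr_mul _ _ _ _
theorem pr_inv (a b : Equiv.Perm (Fin 5)) : (pr a b)⁻¹ = pr a⁻¹ b⁻¹ := sumCongr_inv _ _
theorem pr_one : pr 1 1 = 1 := sumCongr_one
theorem sw_sw : sw * sw = 1 := by ext x; rcases x with x | x <;> rfl
theorem pr_sw (a b : Equiv.Perm (Fin 5)) : pr a b * sw = sw * pr b a := by ext x; rcases x with x | x <;> rfl
theorem pr_inj {a b c d : Equiv.Perm (Fin 5)} (h : pr a b = pr c d) : a = c ∧ b = d := by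
  constructor
  · ext i : 1
    have := congrArg (fun f : P10 => f (Sum.inl i)) h
    exact Sum.inl.inj this
  · ext i : 1
    have := congrArg (fun f : P10 => f (Sum.inr i)) h
    exact Sum.inr.inj this
theorem sw_ne (a b c d : Equiv.Perm (Fin 5)) : sw * pr a b ≠ pr c d := by
  intro h
  have := congrArg (fun f : P10 => f (Sum.inl 0)) h
  have h2 : (Sum.inr (a 0) : Fin 5 ⊕ Fin 5) = Sum.inl (c 0) := this
  exact absurd h2 Sum.inr_ne_inl

theorem pr_mem (a b : A5) : pr a b ∈ alternatingFiveWreathTwo :=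
  Subgroup.subset_closure (Or.inl ⟨a, b, rfl⟩)

theorem sw_mem : sw ∈ alternatingFiveWreathTwo := Subgroup.subset_closure (Or.inr rfl)

theorem form {x : P10} (hx : x ∈ alternatingFiveWreathTwo) : ∃ a b : A5, x = pr a b ∨ x = sw * pr a b := by
  unfold alternatingFiveWreathTwo at hx
  induction hx using Subgroup.closure_induction with
  | mem x hx =>
    rcases hx with ⟨a, b, rfl⟩ | hx
    · exact ⟨a, b, Or.inl rfl⟩
    · refine ⟨1, 1, Or.inr ?_⟩
      rw [hx]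
      show sw = sw * pr 1 1
      rw [pr_one, mul_one]
  | one => exact ⟨1, 1, Or.inl pr_one.symm⟩
  | mul x y _ _ h1 h2 =>
    obtain ⟨a, b, h1⟩ := h1
    obtain ⟨c, d, h2⟩ := h2
    rcases h1 with rfl | rfl <;> rcases h2 with rfl | rfl
    · exact ⟨a * c, b * d, Or.inl (pr_mul _ _ _ _)⟩
    · refine ⟨b * c, a * d, Or.inr ?_⟩
      rw [← mul_assoc, pr_sw, mul_assoc, pr_mul]; rfl
    · refine ⟨a * c, b * d, Or.inr ?_⟩
      rw [mul_assoc, pr_mul]; rfl
    · refine ⟨b * c, a * d, Or.inl ?_⟩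
      rw [mul_assoc, ← mul_assoc (pr _ _), pr_sw, mul_assoc, pr_mul, ← mul_assoc, sw_sw, one_mul]; rfl
  | inv x _ h =>
    obtain ⟨a, b, rfl | rfl⟩ := h
    · exact ⟨a⁻¹, b⁻¹, Or.inl (pr_inv _ _)⟩
    · refine ⟨b⁻¹, a⁻¹, Or.inr ?_⟩
      have : sw⁻¹ = sw := inv_eq_of_mul_eq_one_right sw_sw
      rw [mul_inv_rev, this, pr_inv, pr_sw]; rfl

theorem card_A5 : Nat.card A5 = 60 := by
  rw [nat_card_alternatingGroup]
  simp [Nat.factorial]

theorem card_ge : 7200 ≤ Nat.card alternatingFiveWreathTwo := by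
  let F : A5 × A5 × Bool → alternatingFiveWreathTwo := fun x =>
    if x.2.2 then ⟨sw * pr x.1 x.2.1, Subgroup.mul_mem _ sw_mem (pr_mem _ _)⟩ else ⟨pr x.1 x.2.1, pr_mem _ _⟩
  have hF : Function.Injective F := by
    rintro ⟨a, b, x⟩ ⟨c, d, y⟩ h
    have h1 := congrArg Subtype.val h
    cases x <;> cases y
    · obtain ⟨h2, h3⟩ := pr_inj (show pr a b = pr c d from h1)
      rw [Subtype.ext h2, Subtype.ext h3]
    · exact absurd (show sw * pr c d = pr a b from h1.symm) (sw_ne _ _ _ _)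
    · exact absurd (show sw * pr a b = pr c d from h1) (sw_ne _ _ _ _)
    · have h4 : sw * pr a b = sw * pr c d := h1
      obtain ⟨h2, h3⟩ := pr_inj (mul_left_cancel h4)
      rw [Subtype.ext h2, Subtype.ext h3]
  have h1 := Nat.card_le_card_of_injective F hF
  rw [Nat.card_prod, Nat.card_prod, card_A5, Nat.card_eq_fintype_card (α := Bool), Fintype.card_bool] at h1
  exact h1

theorem le_of {H : Subgroup P10} (h1 : sw ∈ H) (h2 : ∀ x : Fin 5, x ≠ 0 → pr (Equiv.swap 0 1 * Equiv.swap 0 x) 1 ∈ H) :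
    alternatingFiveWreathTwo ≤ H := by
  let L : Equiv.Perm (Fin 5) →* P10 :=
    { toFun := fun a => pr a 1
      map_one' := pr_one
      map_mul' := fun a b => by rw [pr_mul, one_mul] }
  have h3 : A5 ≤ H.comap L := H33.MonCo.alt_le _ 0 1 h2
  unfold alternatingFiveWreathTwo
  rw [Subgroup.closure_le]
  rintro x (⟨a, b, rfl⟩ | hx)
  · have h4 : pr a b = pr a 1 * (sw * pr b 1 * sw) := by
      rw [mul_assoc sw, pr_sw, ← mul_assoc sw, sw_sw, one_mul, pr_mul, one_mul, mul_one]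
    show pr a b ∈ H
    rw [h4]
    exact H.mul_mem (h3 a.2) (H.mul_mem (H.mul_mem h1 (h3 b.2)) h1)
  · rw [hx]; exact h1

theorem comm_triv {a : Equiv.Perm (Fin 5)} (h : ∀ σ : A5, a * σ * a⁻¹ * (σ : Equiv.Perm (Fin 5))⁻¹ = 1) : a = 1 := by
  have h1 : ∀ σ : Equiv.Perm (Fin 5), Equiv.Perm.sign σ = 1 → a * σ * a⁻¹ * σ⁻¹ = 1 := fun σ hσ => h ⟨σ, hσ⟩
  revert a
  decide +kernel

theorem not_p {K : Subgroup A5} (hK : IsPGroup 2 K) [K.Normal] : K = ⊥ := by
  have hs : IsSimpleGroup A5 := alternatingGroup.isSimpleGroup_five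
  rcases (inferInstance : K.Normal).eq_bot_or_eq_top with h | h
  · exact h
  · exfalso
    have hp : Fact (Nat.Prime 2) := ⟨Nat.prime_two⟩
    obtain ⟨k, hk⟩ := IsPGroup.iff_card.1 hK
    rw [h, Subgroup.card_top, card_A5] at hk
    have h3 : 3 ∣ 2 ^ k := by rw [← hk]; norm_num
    have := Nat.prime_three.dvd_of_dvd_pow h3
    omega

theorem pcore : pCore 2 alternatingFiveWreathTwo = ⊥ := by
  have hp : Fact (Nat.Prime 2) := ⟨Nat.prime_two⟩
  have hN : (pCore 2 alternatingFiveWreathTwo).Normal := inferInstance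
  have hK : IsPGroup 2 (pCore 2 alternatingFiveWreathTwo) := H1.Cores.isPGroup_pCore 2
  generalize pCore 2 alternatingFiveWreathTwo = K at hN hK
  let L1 : A5 →* alternatingFiveWreathTwo :=
    { toFun := fun a => ⟨pr a (1 : A5), pr_mem a 1⟩
      map_one' := Subtype.ext pr_one
      map_mul' := fun a b => Subtype.ext (by
        show pr (a * b : A5) (1 : A5) = pr a (1 : A5) * pr b (1 : A5)
        rw [pr_mul]; rfl) }
  let L2 : A5 →* alternatingFiveWreathTwo :=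
    { toFun := fun a => ⟨pr (1 : A5) a, pr_mem 1 a⟩
      map_one' := Subtype.ext pr_one
      map_mul' := fun a b => Subtype.ext (by
        show pr (1 : A5) (a * b : A5) = pr (1 : A5) a * pr (1 : A5) b
        rw [pr_mul]; rfl) }
  have i1 : Function.Injective L1 := fun a b h => Subtype.ext (pr_inj (congrArg Subtype.val h)).1
  have i2 : Function.Injective L2 := fun a b h => Subtype.ext (pr_inj (congrArg Subtype.val h)).2
  have k1 : K.comap L1 = ⊥ := not_p (hK.comap_of_injective L1 i1)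
  have k2 : K.comap L2 = ⊥ := not_p (hK.comap_of_injective L2 i2)
  have hcomm : ∀ x ∈ K, ∀ y, x * y * x⁻¹ * y⁻¹ ∈ K := by
    intro x hx y
    rw [mul_assoc, mul_assoc]
    refine K.mul_mem hx ?_
    rw [← mul_assoc]
    exact hN.conj_mem _ (K.inv_mem hx) y
  have key : ∀ (a b : A5) (hx : (⟨pr a b, pr_mem a b⟩ : alternatingFiveWreathTwo) ∈ K), a = 1 ∧ b = 1 := by
    intro a b hx
    constructor
    · apply Subtype.ext
      apply comm_triv
      intro σ
      have h1 := hcomm _ hx (L1 σ)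
      have h2 : (⟨pr a b, pr_mem a b⟩ : alternatingFiveWreathTwo) * L1 σ * (⟨pr a b, pr_mem a b⟩ : alternatingFiveWreathTwo)⁻¹ * (L1 σ)⁻¹ =
          L1 (a * σ * a⁻¹ * σ⁻¹) := by
        apply Subtype.ext
        show pr a b * pr σ (1 : A5) * (pr a b)⁻¹ * (pr σ (1 : A5))⁻¹ = pr (a * σ * a⁻¹ * σ⁻¹ : A5) (1 : A5)
        rw [pr_mul, pr_inv, pr_mul, pr_inv, pr_mul]
        have h4 : (b : Equiv.Perm (Fin 5)) * (1 : A5) * (b : Equiv.Perm (Fin 5))⁻¹ * ((1 : A5) : Equiv.Perm (Fin 5))⁻¹ = (1 : A5) := by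
          simp
        rw [h4]; rfl
      rw [h2] at h1
      have h3 : a * σ * a⁻¹ * σ⁻¹ ∈ K.comap L1 := h1
      rw [k1, Subgroup.mem_bot] at h3
      exact congrArg Subtype.val h3
    · apply Subtype.ext
      apply comm_triv
      intro σ
      have h1 := hcomm _ hx (L2 σ)
      have h2 : (⟨pr a b, pr_mem a b⟩ : alternatingFiveWreathTwo) * L2 σ * (⟨pr a b, pr_mem a b⟩ : alternatingFiveWreathTwo)⁻¹ * (L2 σ)⁻¹ =
          L2 (b * σ * b⁻¹ * σ⁻¹) := by
        apply Subtype.ext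
        show pr a b * pr (1 : A5) σ * (pr a b)⁻¹ * (pr (1 : A5) σ)⁻¹ = pr (1 : A5) (b * σ * b⁻¹ * σ⁻¹ : A5)
        rw [pr_mul, pr_inv, pr_mul, pr_inv, pr_mul]
        have h4 : (a : Equiv.Perm (Fin 5)) * (1 : A5) * (a : Equiv.Perm (Fin 5))⁻¹ * ((1 : A5) : Equiv.Perm (Fin 5))⁻¹ = (1 : A5) := by
          simp
        rw [h4]; rfl
      rw [h2] at h1
      have h3 : b * σ * b⁻¹ * σ⁻¹ ∈ K.comap L2 := h1
      rw [k2, Subgroup.mem_bot] at h3
      exact congrArg Subtype.val h3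
  rw [eq_bot_iff]
  intro x hx
  rw [Subgroup.mem_bot]
  obtain ⟨a, b, h | h⟩ := form x.2
  · have h1 : x = ⟨pr a b, pr_mem a b⟩ := Subtype.ext h
    rw [h1] at hx ⊢
    obtain ⟨rfl, rfl⟩ := key a b hx
    exact Subtype.ext pr_one
  · exfalso
    -- a nontrivial element of the first factor
    obtain ⟨σ, hσ⟩ : ∃ σ : A5, σ ≠ 1 := by
      have : Nontrivial A5 := by
        rw [← Finite.one_lt_card_iff_nontrivial, card_A5]; norm_num
      exact exists_ne 1
    have h1 := hcomm _ hx (L1 σ)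
    have h2 : x * L1 σ * x⁻¹ * (L1 σ)⁻¹ = ⟨pr (σ⁻¹ : A5) (a * σ * a⁻¹ : A5), pr_mem _ _⟩ := by
      apply Subtype.ext
      show x.1 * pr σ (1 : A5) * x.1⁻¹ * (pr σ (1 : A5))⁻¹ = pr (σ⁻¹ : A5) (a * σ * a⁻¹ : A5)
      have hs : sw⁻¹ = sw := inv_eq_of_mul_eq_one_right sw_sw
      rw [h, mul_inv_rev, hs]
      have e1 : sw * pr a b * pr σ (1 : A5) * ((pr a b)⁻¹ * sw) = pr (b * (1 : A5) * (b : Equiv.Perm (Fin 5))⁻¹) (a * σ * (a : Equiv.Perm (Fin 5))⁻¹) := by
        rw [mul_assoc sw, pr_mul, pr_inv, mul_assoc sw, ← mul_assoc (pr _ _) (pr _ _) sw, pr_mul, pr_sw, ← mul_assoc, sw_sw, one_mul]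
      rw [e1, pr_inv, pr_mul]
      have e2 : (b : Equiv.Perm (Fin 5)) * (1 : A5) * (b : Equiv.Perm (Fin 5))⁻¹ * (σ : Equiv.Perm (Fin 5))⁻¹ = (σ⁻¹ : A5) := by
        simp
      have e3 : (a : Equiv.Perm (Fin 5)) * σ * (a : Equiv.Perm (Fin 5))⁻¹ * ((1 : A5) : Equiv.Perm (Fin 5))⁻¹ = (a * σ * a⁻¹ : A5) := by
        simp
      rw [e2, e3]
    rw [h2] at h1
    obtain ⟨h3, -⟩ := key _ _ h1
    exact hσ (inv_eq_one.1 h3)

end H33.Wr5
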