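import Mathlib
import Cfsg.Agent.Lib.H33.MonP5c
import Cfsg.Agent.Lib.H33.Wr5

set_option autoImplicit false

/-! The centralizer of an element of order 5 of `Co0`: the main theorem. -/

namespace H33.MonP5

open Cfsg H8.GolayCode H8.GolayCount H8.GolayBasic H9.Leech H9.LeechGood H9.Trans H9.Cross H9.CoOrder H9.CoMat
open H33.MonRed H33.MonCo H91.LeechTools H40.PermCode H33.Wr5
open H32.M24Kit (okTab pm pm_mem pm_idx pm_pt fs)
open H32.M24Five (X5 okX5)

/-- a generator carries the blocks as prescribed -/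
def blkChk (ms : List ℕ) (f : Fin 5 ⊕ Fin 5 → Fin 5 ⊕ Fin 5) : Prop :=
  ∀ x, ((List.range 256).all fun z => !(BM.getD (bk x) 0).testBit z || (BM.getD (bk (f x)) 0).testBit (lin ms z)) = true

theorem lin_lt : ∀ z < 256, lin mW z < 256 ∧ lin m2 z < 256 ∧ lin m3 z < 256 ∧ lin m4 z < 256 := by decide +kernel

theorem cW : ∀ x, ((List.range 256).all fun z => !(BM.getD (bk x) 0).testBit z || (BM.getD (bk (sw x)) 0).testBit (lin mW z)) = true := by
  decide +kernel
theorem c2 : ∀ x, ((List.range 256).all fun z => !(BM.getD (bk x) 0).testBit z ||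
    (BM.getD (bk (pr (Equiv.swap 0 1 * Equiv.swap 0 2)⁻¹ 1 x)) 0).testBit (lin m2 z)) = true := by
  decide +kernel
theorem c3 : ∀ x, ((List.range 256).all fun z => !(BM.getD (bk x) 0).testBit z ||
    (BM.getD (bk (pr (Equiv.swap 0 1 * Equiv.swap 0 3)⁻¹ 1 x)) 0).testBit (lin m3 z)) = true := by
  decide +kernel
theorem c4 : ∀ x, ((List.range 256).all fun z => !(BM.getD (bk x) 0).testBit z ||
    (BM.getD (bk (pr (Equiv.swap 0 1 * Equiv.swap 0 4)⁻¹ 1 x)) 0).testBit (lin m4 z)) = true := by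
  decide +kernel

/-- the frame vector -/
noncomputable def v0 : Fx (gm X5) := ⟨e8 (pt 7), by
  rw [mem_Fx, gm_e8, pm_pt okX5 7 (by norm_num)]
  congr 1⟩

theorem kv0 {κ : Fx (gm X5) →+ (Fin 8 → ZMod 2)} (C : Crd X5 8 cs bs κ) : κ v0 = bv 8 88 := by
  have h : (v0.1 : GolayPt → ℤ) = vec (row idM 7) := by
    rw [vec_idM (by norm_num)]
    exact coe_e8 (pt 7)
  rw [C.val v0 _ h, show kmask cs (row idM 7) = 88 by decide +kernel]

theorem card_CC {κ : Fx (gm X5) →+ (Fin 8 → ZMod 2)} (C : Crd X5 8 cs bs κ) {act : CC (gm X5) →* Equiv.Perm (Fin 8 → ZMod 2)}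
    (hact : ∀ σ v, act σ (κ v) = κ (sm σ v)) : Nat.card (CC (gm X5)) ≤ 7200 * (2 * 5) := by
  have h1 : ({a | ∃ m ∈ T4, a = bv 8 m} : Set (Fin 8 → ZMod 2)) = ((T4.map (bv 8)).toFinset : Set _) := by
    ext a
    simp only [Set.mem_ofPred_eq, List.coe_toFinset, List.mem_map]
    constructor
    · rintro ⟨m, hm, rfl⟩; exact ⟨m, hm, rfl⟩
    · rintro ⟨m, hm, rfl⟩; exact ⟨m, hm, rfl⟩
  have h2 := card_le C.ker hact (v0 := v0) (p := pt 7) ⟨0, by rw [add_zero, add_zero]; rfl⟩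
    (T := {a | ∃ m ∈ T4, a = bv 8 m}) (Set.toFinite _) (by
      intro σ
      rw [hact]
      have h2 : Four (sm σ v0).1 := (four_e8 (pt 7)).smul σ.1
      exact (four_iff C _).1 h2)
  have h3 : ({a | ∃ m ∈ T4, a = bv 8 m} : Set (Fin 8 → ZMod 2)).ncard ≤ 75 := by
    rw [h1, Set.ncard_coe_finset]
    exact (List.toFinset_card_le _).trans (by rw [List.length_map]; rfl)
  calc Nat.card (CC (gm X5)) ≤ _ := h2
    _ ≤ 75 * (60 * 16) := Nat.mul_le_mul h3 card_st
    _ = _ := by norm_num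

theorem main5 : ∃ (Φ : CC (gm X5) →* alternatingFiveWreathTwo) (κ : Fx (gm X5) →+ (Fin 8 → ZMod 2)), CoD (gm X5) 5 Φ κ := by
  obtain ⟨κ, C⟩ := exists_crd5
  obtain ⟨act, hact, hadd⟩ := exists_act κ C.surj C.ker
  obtain ⟨Φ, hΦ⟩ := exists_blk act BB BB_inj (act_blk C hact hadd)
  have htriv : ∀ σ, act σ = 1 → Φ σ = 1 := by
    intro σ h
    ext x : 1
    apply BB_inj
    rw [← hΦ, h]
    exact Set.image_id _
  have hgen : ∀ {B B' ms : List ℕ} (f : P10), genChk X5 cs bs B B' ms = true → (∀ z < 256, lin ms z < 256) →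
      (∀ x, ((List.range 256).all fun z => !(BM.getD (bk x) 0).testBit z || (BM.getD (bk (f x)) 0).testBit (lin ms z)) = true) →
      f ∈ Φ.range := by
    intro B B' ms f hc hlt hf
    obtain ⟨σ, -, h⟩ := gen_spec okX5 C hact hadd hc
    refine ⟨σ, ?_⟩
    ext x : 1
    apply BB_sub
    rw [← hΦ]
    rintro _ ⟨a, ⟨z, hz, hz1, rfl⟩, rfl⟩
    rw [h z hz]
    have h1 := List.all_eq_true.1 (hf x) z (List.mem_range.2 hz)
    rw [hz1, Bool.or_eq_true] at h1
    rcases h1 with h1 | h1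
    · exact Bool.noConfusion h1
    · exact (mem_MS (hlt z hz)).2 h1
  have hle : alternatingFiveWreathTwo ≤ Φ.range := by
    apply le_of
    · exact hgen sw chkW (fun z hz => (lin_lt z hz).1) cW
    · have h2 := hgen _ chk2 (fun z hz => (lin_lt z hz).2.1) c2
      have h3 := hgen _ chk3 (fun z hz => (lin_lt z hz).2.2.1) c3
      have h4 := hgen _ chk4 (fun z hz => (lin_lt z hz).2.2.2) c4
      have hinv : ∀ a : Equiv.Perm (Fin 5), pr a⁻¹ 1 ∈ Φ.range → pr a 1 ∈ Φ.range := by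
        intro a h
        have := Φ.range.inv_mem h
        rwa [pr_inv, inv_inv, inv_one] at this
      intro x hx
      fin_cases x
      · exact absurd rfl hx
      · show pr (Equiv.swap 0 1 * Equiv.swap 0 1) 1 ∈ Φ.range
        rw [Equiv.swap_mul_self, pr_one]
        exact Φ.range.one_mem
      · exact hinv _ h2
      · exact hinv _ h3
      · exact hinv _ h4
  have hge : 7200 ≤ Nat.card Φ.range := card_ge.trans (Subgroup.card_le_of_le hle)
  obtain ⟨hker, hr⟩ := ker_exact (r := 7200) (p := 5) (by norm_num) (by decide) gm5 gm_ne Φ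
    (fun k => htriv _ (act_triv C.surj C.ker hact (pow_triv _ k)))
    (htriv _ (act_triv C.surj C.ker hact (neg_triv _))) (by norm_num) hge (card_CC C hact)
  have heq : alternatingFiveWreathTwo = Φ.range := Subgroup.eq_of_le_of_card_ge hle (by rw [hr]; exact card_ge)
  have hmem : ∀ σ, Φ σ ∈ alternatingFiveWreathTwo := fun σ => by rw [heq]; exact ⟨σ, rfl⟩
  refine ⟨Φ.codRestrict _ hmem, κ, ⟨by norm_num, by decide, gm5, gm_ne, ?_, ?_, C.surj, C.ker, ?_⟩⟩
  · rintro ⟨y, hy⟩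
    rw [heq] at hy
    obtain ⟨σ, rfl⟩ := hy
    exact ⟨σ, rfl⟩
  · intro δ
    rw [← hker δ]
    constructor
    · intro h; exact congrArg Subtype.val h
    · intro h; exact Subtype.ext h
  · intro δ h
    exact Subtype.ext (htriv _ (act_triv C.surj C.ker hact h))

end H33.MonP5
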