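import Mathlib
import Cfsg.Agent.Lib.H33.MonQ6
import Cfsg.Agent.Lib.H33.MonP7b

set_option autoImplicit false

/-! The centralizer of an element of order 3 (with fixed points) of `Co0`: coordinates. -/

namespace H33.MonQ6

open Cfsg H8.GolayCode H8.GolayCount H8.GolayBasic H9.Leech H9.LeechGood H9.Trans H9.Cross H9.CoOrder H9.CoMat
open H33.MonRed H33.MonCo H91.LeechTools H40.PermCode
open H32.M24Kit (okTab pm pm_mem pm_idx pm_pt fs)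
open H94.M24Cls (X6 okX6)
open H94.M24Fix (WX6 okWX6)

def ib (n r : ℕ) : ℤ := if n.testBit r then 1 else 0

theorem words_blk : ∀ n ∈ words, (ib n 4 - ib n 6 - (ib n 6 + ib n 11 + ib n 14 + ib n 15 + ib n 16 + ib n 17)) % 2 = 0 ∧
    (ib n 7 - ib n 11 - (ib n 6 + ib n 11 + ib n 14 + ib n 15 + ib n 16 + ib n 17)) % 2 = 0 ∧
    (ib n 2 - ib n 14 - (ib n 6 + ib n 11 + ib n 14 + ib n 15 + ib n 16 + ib n 17)) % 2 = 0 ∧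
    (ib n 13 - ib n 15 - (ib n 6 + ib n 11 + ib n 14 + ib n 15 + ib n 16 + ib n 17)) % 2 = 0 ∧
    (ib n 8 - ib n 16 - (ib n 6 + ib n 11 + ib n 14 + ib n 15 + ib n 16 + ib n 17)) % 2 = 0 ∧
    (ib n 0 - ib n 17 - (ib n 6 + ib n 11 + ib n 14 + ib n 15 + ib n 16 + ib n 17)) % 2 = 0 ∧
    ((ib n 4 + ib n 7 + ib n 2 + ib n 13 + ib n 8 + ib n 0) - 5 * (ib n 6 + ib n 11 + ib n 14 + ib n 15 + ib n 16 + ib n 17)) % 4 = 0 := by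
  decide +kernel

theorem sum12 (g : Fin 12 → ℤ) : ∑ j : Fin 12, g j = g 0 + g 1 + g 2 + g 3 + g 4 + g 5 + g 6 + g 7 + g 8 + g 9 + g 10 + g 11 := by
  rw [Fin.sum_univ_castSucc, Fin.sum_univ_castSucc, Fin.sum_univ_castSucc, Fin.sum_univ_castSucc, Fin.sum_univ_eight]; rfl

/-- the arithmetic of the coordinates -/
theorem arith6 (m f0 f1 f2 f3 f4 f5 t0 t1 t2 t3 t4 t5 a0 a1 a2 a3 a4 a5 b0 b1 b2 b3 b4 b5 x0 x1 x2 x3 x4 x5 y0 y1 y2 y3 y4 y5 k : ℤ)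
    (w0 : (t0 - f0 - (f0 + f1 + f2 + f3 + f4 + f5)) % 2 = 0)
    (w1 : (t1 - f1 - (f0 + f1 + f2 + f3 + f4 + f5)) % 2 = 0)
    (w2 : (t2 - f2 - (f0 + f1 + f2 + f3 + f4 + f5)) % 2 = 0)
    (w3 : (t3 - f3 - (f0 + f1 + f2 + f3 + f4 + f5)) % 2 = 0)
    (w4 : (t4 - f4 - (f0 + f1 + f2 + f3 + f4 + f5)) % 2 = 0)
    (w5 : (t5 - f5 - (f0 + f1 + f2 + f3 + f4 + f5)) % 2 = 0)
    (w : ((t0 + t1 + t2 + t3 + t4 + t5) - 5 * (f0 + f1 + f2 + f3 + f4 + f5)) % 4 = 0)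
    (e0 : x0 = m + 2 * f0 + 4 * a0)
    (e1 : x1 = m + 2 * f1 + 4 * a1)
    (e2 : x2 = m + 2 * f2 + 4 * a2)
    (e3 : x3 = m + 2 * f3 + 4 * a3)
    (e4 : x4 = m + 2 * f4 + 4 * a4)
    (e5 : x5 = m + 2 * f5 + 4 * a5)
    (g0 : y0 = m + 2 * t0 + 4 * b0)
    (g1 : y1 = m + 2 * t1 + 4 * b1)
    (g2 : y2 = m + 2 * t2 + 4 * b2)
    (g3 : y3 = m + 2 * t3 + 4 * b3)
    (g4 : y4 = m + 2 * t4 + 4 * b4)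
    (g5 : y5 = m + 2 * t5 + 4 * b5)
    (hk : (a0 + a1 + a2 + a3 + a4 + a5) + 3 * (b0 + b1 + b2 + b3 + b4 + b5) = m + 2 * k) :
    ∃ s d1 d2 d3 d4 d5 r0 r1 r2 r3 r4 r5 : ℤ, x0 = 2 * s + (d1 + d2 + d3 + d4 + d5) + (r0 + r1 + r2 + r3 + r4 + r5) ∧ x1 = x0 + 2 * d1 ∧ x2 = x0 + 2 * d2 ∧ x3 = x0 + 2 * d3 ∧ x4 = x0 + 2 * d4 ∧ x5 = x0 + 2 * d5 ∧
      y0 = x0 + 2 * (d1 + d2 + d3 + d4 + d5) + 4 * r0 ∧ y1 = x1 + 2 * (d1 + d2 + d3 + d4 + d5) + 4 * r1 ∧ y2 = x2 + 2 * (d1 + d2 + d3 + d4 + d5) + 4 * r2 ∧ y3 = x3 + 2 * (d1 + d2 + d3 + d4 + d5) + 4 * r3 ∧ y4 = x4 + 2 * (d1 + d2 + d3 + d4 + d5) + 4 * r4 ∧ y5 = x5 + 2 * (d1 + d2 + d3 + d4 + d5) + 4 * r5 := by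
  obtain ⟨u0, hu0⟩ := Int.dvd_of_emod_eq_zero w0
  obtain ⟨u1, hu1⟩ := Int.dvd_of_emod_eq_zero w1
  obtain ⟨u2, hu2⟩ := Int.dvd_of_emod_eq_zero w2
  obtain ⟨u3, hu3⟩ := Int.dvd_of_emod_eq_zero w3
  obtain ⟨u4, hu4⟩ := Int.dvd_of_emod_eq_zero w4
  obtain ⟨u5, hu5⟩ := Int.dvd_of_emod_eq_zero w5
  obtain ⟨q, hq⟩ := Int.dvd_of_emod_eq_zero w
  clear w0 w1 w2 w3 w4 w5 w
  refine ⟨3 * (a0 + a1 + a2 + a3 + a4 + a5) + (b0 + b1 + b2 + b3 + b4 + b5) - k - 5 * f0 - 10 * a0 - q, (f1 - f0) + 2 * (a1 - a0), (f2 - f0) + 2 * (a2 - a0), (f3 - f0) + 2 * (a3 - a0), (f4 - f0) + 2 * (a4 - a0), (f5 - f0) + 2 * (a5 - a0),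
    u0 + b0 - a0 + 3 * f0 - (a0 + a1 + a2 + a3 + a4 + a5) + 6 * a0, u1 + b1 - a1 + 3 * f0 - (a0 + a1 + a2 + a3 + a4 + a5) + 6 * a0, u2 + b2 - a2 + 3 * f0 - (a0 + a1 + a2 + a3 + a4 + a5) + 6 * a0, u3 + b3 - a3 + 3 * f0 - (a0 + a1 + a2 + a3 + a4 + a5) + 6 * a0, u4 + b4 - a4 + 3 * f0 - (a0 + a1 + a2 + a3 + a4 + a5) + 6 * a0, u5 + b5 - a5 + 3 * f0 - (a0 + a1 + a2 + a3 + a4 + a5) + 6 * a0, ?_, ?_, ?_, ?_, ?_, ?_, ?_, ?_, ?_, ?_, ?_, ?_⟩ <;>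
  linarith

theorem fin6 (x0 x1 x2 x3 x4 x5 y0 y1 y2 y3 y4 y5 s d1 d2 d3 d4 d5 t0 t1 t2 t3 t4 t5 : ℤ)
    (hs : x0 = 2 * s + (d1 + d2 + d3 + d4 + d5) + (t0 + t1 + t2 + t3 + t4 + t5))
    (h1 : x1 = x0 + 2 * d1)
    (h2 : x2 = x0 + 2 * d2)
    (h3 : x3 = x0 + 2 * d3)
    (h4 : x4 = x0 + 2 * d4)
    (h5 : x5 = x0 + 2 * d5)
    (g0 : y0 = x0 + 2 * (d1 + d2 + d3 + d4 + d5) + 4 * t0)
    (g1 : y1 = x1 + 2 * (d1 + d2 + d3 + d4 + d5) + 4 * t1)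
    (g2 : y2 = x2 + 2 * (d1 + d2 + d3 + d4 + d5) + 4 * t2)
    (g3 : y3 = x3 + 2 * (d1 + d2 + d3 + d4 + d5) + 4 * t3)
    (g4 : y4 = x4 + 2 * (d1 + d2 + d3 + d4 + d5) + 4 * t4)
    (g5 : y5 = x5 + 2 * (d1 + d2 + d3 + d4 + d5) + 4 * t5)
    (f : Fin 12 → ℤ)
    (hf : f = ![-3 * s - 6 * d1 - 4 * d2 - 4 * d3 - 5 * d4 - 4 * d5 - 2 * t0 - 4 * t1 - 2 * t2 - t3 - 3 * t4 - 2 * t5, -4 * s - 9 * d1 - 6 * d2 - 5 * d3 - 6 * d4 - 6 * d5 - 2 * t0 - 7 * t1 - 4 * t2 - 3 * t4 - 3 * t5, 8 * s + 20 * d1 + 12 * d2 + 10 * d3 + 13 * d4 + 13 * d5 + 3 * t0 + 15 * t1 + 8 * t2 - t3 + 7 * t4 + 7 * t5, -2 * s - 5 * d1 - 2 * d2 - 2 * d3 - 3 * d4 - 3 * d5 - t0 - 4 * t1 - t2 + t3 - 2 * t4 - 2 * t5, -5 * s - 15 * d1 - 7 * d2 - 6 * d3 - 9 * d4 - 8 * d5 - t0 - 12 * t1 - 5 * t2 + 2 * t3 - 5 * t4 - 4 * t5, 2 * d1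 + d5 + 2 * t1 - t3 - t4 + t5, d1 - d2 + t1 - t2, -2 * d1 + d3 + t0 - 2 * t1 - t2 + 2 * t3, 4 * s + 10 * d1 + 6 * d2 + 5 * d3 + 7 * d4 + 7 * d5 + 2 * t0 + 7 * t1 + 4 * t2 - t3 + 4 * t4 + 4 * t5, -2 * d1 - d4 - 2 * t1 + t3 - t4 + t5, s + 3 * d1 + 2 * d2 + 2 * d3 + 2 * d4 + 2 * d5 + t0 + 2 * t1 + t2 + t4 + t5, 2 * s + 4 * d1 + 3 * d2 + 2 * d3 + 3 * d4 + 3 * d5 + 3 * t1 + 2 * t2 + 2 * t4 + 2 * t5]) :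
    ∀ i < 12, [x0, x1, x2, x3, x4, x5, y0, y1, y2, y3, y4, y5].getD i 0 = ∑ j : Fin 12, f j * (tbl.getD i []).getD j 0 := by
  have v0 : f 0 = -3 * s - 6 * d1 - 4 * d2 - 4 * d3 - 5 * d4 - 4 * d5 - 2 * t0 - 4 * t1 - 2 * t2 - t3 - 3 * t4 - 2 * t5 := by rw [hf]; rfl
  have v1 : f 1 = -4 * s - 9 * d1 - 6 * d2 - 5 * d3 - 6 * d4 - 6 * d5 - 2 * t0 - 7 * t1 - 4 * t2 - 3 * t4 - 3 * t5 := by rw [hf]; rfl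
  have v2 : f 2 = 8 * s + 20 * d1 + 12 * d2 + 10 * d3 + 13 * d4 + 13 * d5 + 3 * t0 + 15 * t1 + 8 * t2 - t3 + 7 * t4 + 7 * t5 := by rw [hf]; rfl
  have v3 : f 3 = -2 * s - 5 * d1 - 2 * d2 - 2 * d3 - 3 * d4 - 3 * d5 - t0 - 4 * t1 - t2 + t3 - 2 * t4 - 2 * t5 := by rw [hf]; rfl
  have v4 : f 4 = -5 * s - 15 * d1 - 7 * d2 - 6 * d3 - 9 * d4 - 8 * d5 - t0 - 12 * t1 - 5 * t2 + 2 * t3 - 5 * t4 - 4 * t5 := by rw [hf]; rfl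
  have v5 : f 5 = 2 * d1 + d5 + 2 * t1 - t3 - t4 + t5 := by rw [hf]; rfl
  have v6 : f 6 = d1 - d2 + t1 - t2 := by rw [hf]; rfl
  have v7 : f 7 = -2 * d1 + d3 + t0 - 2 * t1 - t2 + 2 * t3 := by rw [hf]; rfl
  have v8 : f 8 = 4 * s + 10 * d1 + 6 * d2 + 5 * d3 + 7 * d4 + 7 * d5 + 2 * t0 + 7 * t1 + 4 * t2 - t3 + 4 * t4 + 4 * t5 := by rw [hf]; rfl
  have v9 : f 9 = -2 * d1 - d4 - 2 * t1 + t3 - t4 + t5 := by rw [hf]; rfl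
  have v10 : f 10 = s + 3 * d1 + 2 * d2 + 2 * d3 + 2 * d4 + 2 * d5 + t0 + 2 * t1 + t2 + t4 + t5 := by rw [hf]; rfl
  have v11 : f 11 = 2 * s + 4 * d1 + 3 * d2 + 2 * d3 + 3 * d4 + 3 * d5 + 3 * t1 + 2 * t2 + 2 * t4 + 2 * t5 := by rw [hf]; rfl
  clear hf
  intro i hi
  rw [sum12, v0, v1, v2, v3, v4, v5, v6, v7, v8, v9, v10, v11]
  clear v0 v1 v2 v3 v4 v5 v6 v7 v8 v9 v10 v11
  interval_cases i
  · show x0 = _ * 0 + _ * (-3) + _ * (-2) + _ * 0 + _ * 0 + _ * (-1) + _ * 2 + _ * (-1) + _ * 1 + _ * 1 + _ * 0 + _ * 1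
    linarith
  · show x1 = _ * (-2) + _ * 1 + _ * 2 + _ * 0 + _ * 2 + _ * (-1) + _ * 2 + _ * (-3) + _ * (-1) + _ * 1 + _ * 0 + _ * (-1)
    linarith
  · show x2 = _ * (-2) + _ * 1 + _ * 2 + _ * (-2) + _ * 2 + _ * 1 + _ * (-2) + _ * (-1) + _ * (-3) + _ * (-1) + _ * 0 + _ * 1
    linarith
  · show x3 = _ * 2 + _ * (-1) + _ * 0 + _ * (-2) + _ * (-2) + _ * (-3) + _ * 0 + _ * 1 + _ * (-1) + _ * 3 + _ * 0 + _ * (-3)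
    linarith
  · show x4 = _ * (-2) + _ * (-1) + _ * (-2) + _ * 0 + _ * (-2) + _ * 1 + _ * (-2) + _ * 1 + _ * 1 + _ * 1 + _ * (-4) + _ * (-1)
    linarith
  · show x5 = _ * 2 + _ * (-1) + _ * 2 + _ * 0 + _ * 2 + _ * (-1) + _ * 2 + _ * 1 + _ * 1 + _ * (-1) + _ * (-4) + _ * (-1)
    linarith
  · show y0 = _ * (-2) + _ * (-1) + _ * 0 + _ * 0 + _ * 2 + _ * 1 + _ * 0 + _ * (-1) + _ * 1 + _ * (-1) + _ * 0 + _ * (-1)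
    linarith
  · show y1 = _ * 0 + _ * (-1) + _ * 0 + _ * 0 + _ * 0 + _ * 1 + _ * 0 + _ * 1 + _ * (-1) + _ * (-1) + _ * 0 + _ * 1
    linarith
  · show y2 = _ * 0 + _ * (-1) + _ * 0 + _ * 2 + _ * 0 + _ * (-1) + _ * 0 + _ * (-1) + _ * 1 + _ * 1 + _ * 0 + _ * (-1)
    linarith
  · show y3 = _ * 0 + _ * 1 + _ * 2 + _ * 2 + _ * 0 + _ * (-1) + _ * 2 + _ * 1 + _ * (-1) + _ * 1 + _ * 0 + _ * (-1)
    linarith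
  · show y4 = _ * 0 + _ * 1 + _ * 0 + _ * 0 + _ * 0 + _ * (-1) + _ * 0 + _ * 1 + _ * 1 + _ * (-1) + _ * 0 + _ * 1
    linarith
  · show y5 = _ * 0 + _ * 1 + _ * 0 + _ * 0 + _ * 0 + _ * 1 + _ * 0 + _ * 1 + _ * 1 + _ * 1 + _ * 0 + _ * 1
    linarith

theorem span6 : ∀ v ∈ Fx (gm X6), ∃ r : Fin 12 → ℤ, v = ∑ j : Fin 12, r j • lv (bs.getD j 0) := by
  intro v hv
  obtain ⟨m, c, y, hm, hR, hc, hy⟩ := fx_rep hv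
  obtain ⟨n, hn, rfl⟩ := inv_list okWX6 words inv_cert c hR.mem hc
  obtain ⟨w0, w1, w2, w3, w4, w5, w6⟩ := words_blk n hn
  have hrep : ∀ i < 24, y (pt i) = y (pt (repL.getD i 0)) := by
    intro i hi
    obtain ⟨h1, k, -, h2⟩ := hrepL i hi
    have := (const_on okX6 hy (repL.getD i 0) h1 k).1
    rwa [h2] at this
  obtain ⟨k, hk⟩ := hR.par
  rw [H9.CoMat.sum_pt, Finset.sum_congr rfl fun i hi => hrep i (Finset.mem_range.1 hi)] at hk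
  simp only [Finset.sum_range_succ, Finset.sum_range_zero, repL, List.getD_cons_zero, List.getD_cons_succ] at hk
  have ei : ∀ r < 24, (v : GolayPt → ℤ) (pt r) = m + 2 * ib n r + 4 * y (pt r) := by
    intro r hr
    rw [hR.eq, ind_fs _ _ hr]; rfl
  obtain ⟨s, d1, d2, d3, d4, d5, r0, r1, r2, r3, r4, r5, hs, h1, h2, h3, h4, h5, g0, g1, g2, g3, g4, g5⟩ :=
    arith6 m (ib n 6) (ib n 11) (ib n 14) (ib n 15) (ib n 16) (ib n 17) (ib n 4) (ib n 7) (ib n 2) (ib n 13) (ib n 8) (ib n 0) (y (pt 6)) (y (pt 11)) (y (pt 14)) (y (pt 15)) (y (pt 16)) (y (pt 17)) (y (pt 4)) (y (pt 7)) (y (pt 2)) (y (pt 13)) (y (pt 8)) (y (pt 0))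
      _ _ _ _ _ _ _ _ _ _ _ _ k w0 w1 w2 w3 w4 w5 w6
      (ei 6 (by norm_num)) (ei 11 (by norm_num)) (ei 14 (by norm_num)) (ei 15 (by norm_num)) (ei 16 (by norm_num)) (ei 17 (by norm_num)) (ei 4 (by norm_num)) (ei 7 (by norm_num)) (ei 2 (by norm_num)) (ei 13 (by norm_num)) (ei 8 (by norm_num)) (ei 0 (by norm_num)) (by linarith)
  obtain ⟨f, hf⟩ : ∃ f : Fin 12 → ℤ, f = ![-3 * s - 6 * d1 - 4 * d2 - 4 * d3 - 5 * d4 - 4 * d5 - 2 * r0 - 4 * r1 - 2 * r2 - r3 - 3 * r4 - 2 * r5, -4 * s - 9 * d1 - 6 * d2 - 5 * d3 - 6 * d4 - 6 * d5 - 2 * r0 - 7 * r1 - 4 * r2 - 3 * r4 - 3 * r5, 8 * s + 20 * d1 + 12 * d2 + 10 * d3 + 13 * d4 + 13 * d5 + 3 * r0 + 15 * r1 + 8 * r2 - r3 + 7 * r4 + 7 * r5, -2 * s - 5 * d1 - 2 * d2 - 2 * d3 - 3 * d4 - 3 * d5 - r0 - 4 * r1 - r2 + r3 - 2 * r4 - 2 * r5, -5 * s - 15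 * d1 - 7 * d2 - 6 * d3 - 9 * d4 - 8 * d5 - r0 - 12 * r1 - 5 * r2 + 2 * r3 - 5 * r4 - 4 * r5, 2 * d1 + d5 + 2 * r1 - r3 - r4 + r5, d1 - d2 + r1 - r2, -2 * d1 + d3 + r0 - 2 * r1 - r2 + 2 * r3, 4 * s + 10 * d1 + 6 * d2 + 5 * d3 + 7 * d4 + 7 * d5 + 2 * r0 + 7 * r1 + 4 * r2 - r3 + 4 * r4 + 4 * r5, -2 * d1 - d4 - 2 * r1 + r3 - r4 + r5, s + 3 * d1 + 2 * d2 + 2 * d3 + 2 * d4 + 2 * d5 + r0 + 2 * r1 + r2 + r4 + r5, 2 * s + 4 * d1 + 3 * d2 + 2 * d3 + 3 * d4 + 3 * d5 + 3 * r1 + 2 * r2 + 2 * r4 + 2 * r5] := ⟨_, rfl⟩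
  have hfin := fin6 _ _ _ _ _ _ _ _ _ _ _ _ s d1 d2 d3 d4 d5 r0 r1 r2 r3 r4 r5 hs h1 h2 h3 h4 h5 g0 g1 g2 g3 g4 g5 f hf
  refine ⟨f, ?_⟩
  have hbl : ∀ j < 12, inLat (bs.getD j 0) = true := fun j hj => (hbas j hj).1
  apply ext_fx okX6 hv (sum_mem_fx okX6 (fun j hj => ⟨(hbas j hj).1, (hbas j hj).2.2.1⟩) _) reps 3 hreps
  intro r hr
  obtain ⟨i, hi8, rfl⟩ : ∃ i < 12, reps.getD i 0 = r := by
    have : ∀ r ∈ reps, ∃ i < 12, reps.getD i 0 = r := by decide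
    exact this _ hr
  have hr24 : reps.getD i 0 < 24 := by
    have : ∀ i < 12, reps.getD i 0 < 24 := by decide
    exact this _ hi8
  have hxi : ∀ i < 12, (v : GolayPt → ℤ) (pt (reps.getD i 0)) =
      [(v : GolayPt → ℤ) (pt 6), (v : GolayPt → ℤ) (pt 11), (v : GolayPt → ℤ) (pt 14), (v : GolayPt → ℤ) (pt 15), (v : GolayPt → ℤ) (pt 16), (v : GolayPt → ℤ) (pt 17), (v : GolayPt → ℤ) (pt 4), (v : GolayPt → ℤ) (pt 7), (v : GolayPt → ℤ) (pt 2), (v : GolayPt → ℤ) (pt 13), (v : GolayPt → ℤ) (pt 8), (v : GolayPt → ℤ) (pt 0)].getD i 0 := by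
    intro i hi
    interval_cases i <;> rfl
  have e2 : ∑ j : Fin 12, f j * ((dg (bs.getD j 0) (reps.getD i 0) : ℤ) - 8) = ∑ j : Fin 12, f j * (tbl.getD i []).getD j 0 :=
    Finset.sum_congr rfl fun j _ => by rw [bvals i hi8 j]
  rw [sum_at hbl _ hr24, e2, hxi i hi8]
  exact hfin i hi8

theorem exists_crd6 : ∃ κ : Fx (gm X6) →+ (Fin 12 → ZMod 2), Crd X6 12 cs bs κ :=
  exists_crd okX6 rfl rfl hbas hD hphi span6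

end H33.MonQ6
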