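import Mathlib
import Cfsg.Agent.Lib.H33.MonQ6b
import Cfsg.Agent.Lib.H33.MonQ6s0
import Cfsg.Agent.Lib.H33.MonQ6s1
import Cfsg.Agent.Lib.H33.MonQ6s2
import Cfsg.Agent.Lib.H33.MonQ6s3
import Cfsg.Agent.Lib.H33.MonQ6s4
import Cfsg.Agent.Lib.H33.MonQ6s5
import Cfsg.Agent.Lib.H33.M24C6
import Cfsg.Agent.Lib.H32.M24Five

set_option autoImplicit false

/-! The centralizer of an element of order 3 (with fixed points) of `Co0`: the bound of its order. -/

namespace H33.MonQ6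

open Cfsg H8.GolayCode H8.GolayCount H8.GolayBasic H9.Leech H9.LeechGood H9.Trans H9.Cross H9.CoOrder H9.CoMat
open H33.MonRed H33.MonCo H91.LeechTools H40.PermCode
open H32.M24Kit (okTab pm pm_mem pm_idx pm_pt fs)
open H94.M24Cls (X6 okX6)
open H94.M24Fix (WX6 okWX6)

theorem card_wd : Nat.card {c : Finset GolayPt // c ∈ GS ∧ c.image (pm X6) = c} ≤ 64 :=
  card_inv_le (l := words) (inv_list okWX6 words inv_cert)

theorem card_st : Nat.card {σ : CC (gm X6) // Pres σ.1} ≤ 1080 * 64 :=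
  card_stab_le M24C6.card_CX card_wd

theorem gm_pow_e8 (t n : ℕ) (q : GolayPt) : (gm t) ^ n • e8 q = e8 ((pm t ^ n) q) := by
  induction n generalizing q with
  | zero => rw [pow_zero, one_smul, pow_zero, Equiv.Perm.one_apply]
  | succ n ih => rw [pow_succ, mul_smul, gm_e8, ih, pow_succ, Equiv.Perm.mul_apply]

theorem pX3 : pm X6 ^ 3 = 1 := H32.M24Five.pw okX6 (by decide +kernel)
theorem pX_ne : pm X6 ≠ 1 := H32.M24Five.ne_one okX6 (by decide +kernel)

theorem gm3 : gm X6 ^ 3 = 1 := by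
  apply ext8
  intro k _
  rw [gm_pow_e8, pX3, one_smul, Equiv.Perm.one_apply]

theorem gm_ne : gm X6 ≠ 1 := by
  intro h
  apply pX_ne
  ext q : 1
  have h1 : gm X6 • e8 q = e8 q := by rw [h, one_smul]
  rw [gm_e8] at h1
  have := congrArg (fun x : leechLattice => (x : GolayPt → ℤ) q) h1
  simp only [coe_e8, Pi.single_eq_same] at this
  by_contra hpp
  rw [Equiv.Perm.one_apply] at hpp
  rw [Pi.single_eq_of_ne (Ne.symm hpp)] at this
  norm_num at this

/-- the fixed points -/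
def fp (i : Fin 6) : ℕ := [6, 11, 14, 15, 16, 17].getD i 0

theorem fp_lt : ∀ i : Fin 6, fp i < 24 := by decide
theorem fp_fix : ∀ i : Fin 6, tb X6 (fp i) = fp i := by decide +kernel

theorem pm_fp (i : Fin 6) : pm X6 (pt (fp i)) = pt (fp i) := by
  rw [pm_pt okX6 _ (fp_lt i)]
  exact congrArg pt (fp_fix i)

theorem e8_fx (i : Fin 6) : e8 (pt (fp i)) ∈ Fx (gm X6) := by
  rw [mem_Fx, gm_e8, pm_fp]

/-- the frame vectors in the fixed lattice -/
noncomputable def ve (i : Fin 6) : Fx (gm X6) := ⟨e8 (pt (fp i)), e8_fx i⟩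

theorem k6 : kmask cs (row idM 6) = 1041 := by decide +kernel

variable {κ : Fx (gm X6) →+ (Fin 12 → ZMod 2)}

theorem kv0 (C : Crd X6 12 cs bs κ) : κ (ve 0) = bv 12 1041 := by
  rw [C.val (ve 0) (row idM 6) ?_, k6]
  show ((e8 (pt 6) : leechLattice) : GolayPt → ℤ) = _
  rw [coe_e8, ← vec_idM (by norm_num : (6 : ℕ) < 24)]

def GL1 : List ℕ := (List.range 4096).filter fun m => !(m == 0) && !SM0.testBit m && !SM1.testBit m && !SM2.testBit m &&
  !SM3.testBit m && !SM4.testBit m && !SM5.testBit m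

theorem GL1_len : GL1.length = 1701 := by decide +kernel

theorem sm_of {SM : ℕ} {shm : List ℕ} (hcv : ((List.range 4096).all fun m => !SM.testBit m || shm.contains m) = true) {m : ℕ}
    (hm : m < 4096) (h : m ∉ shm) : SM.testBit m = false := by
  have h1 := List.all_eq_true.1 hcv m (List.mem_range.2 hm)
  rw [Bool.or_eq_true, Bool.not_eq_true', List.contains_iff_mem] at h1
  rcases h1 with h1 | h1
  · exact h1
  · exact absurd h1 h

theorem four_GL (C : Crd X6 12 cs bs κ) {v : Fx (gm X6)} (h : Four v.1) : ∃ m ∈ GL1, κ v = bv 12 m := by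
  obtain ⟨m, hm, h1, h2, h3⟩ := C.four_mask okX6 ok0 h
  have key : ∀ (SM : ℕ) (shm sh : List ℕ), shOK X6 (fun z => decide (z = 32) || decide (z = 48)) sh = true →
      sh.map (kmask cs) = shm → ((List.range 4096).all fun m => !SM.testBit m || shm.contains m) = true → SM.testBit m = false := by
    intro SM shm sh hok heq hcv
    obtain ⟨m', hm', h1', h2', h3'⟩ := C.four_mask okX6 hok h
    have hmm : m' = m := bv_inj hm' hm (h1'.symm.trans h1)
    subst hmm
    rw [heq] at h3'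
    exact sm_of hcv hm' h3'
  refine ⟨m, ?_, h1⟩
  rw [GL1, List.mem_filter, List.mem_range]
  refine ⟨hm, ?_⟩
  rw [key SM0 shm0 sh0 ok0 eq0 cv0, key SM1 shm1 sh1 ok1 eq1 cv1, key SM2 shm2 sh2 ok2 eq2 cv2, key SM3 shm3 sh3 ok3 eq3 cv3,
    key SM4 shm4 sh4 ok4 eq4 cv4, key SM5 shm5 sh5 ok5 eq5 cv5]
  simp [h2]

theorem card_CC (C : Crd X6 12 cs bs κ) {act : CC (gm X6) →* Equiv.Perm (Fin 12 → ZMod 2)}
    (hact : ∀ σ v, act σ (κ v) = κ (sm σ v)) : Nat.card (CC (gm X6)) ≤ 117573120 := by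
  have h1 : ({a | ∃ m ∈ GL1, a = bv 12 m} : Set (Fin 12 → ZMod 2)) = ((GL1.map (bv 12)).toFinset : Set _) := by
    ext a
    simp only [Set.mem_ofPred_eq, List.coe_toFinset, List.mem_map]
    constructor
    · rintro ⟨m, hm, rfl⟩; exact ⟨m, hm, rfl⟩
    · rintro ⟨m, hm, rfl⟩; exact ⟨m, hm, rfl⟩
  have h2 := card_le C.ker hact (v0 := ve 0) (p := pt (fp 0)) ⟨0, by rw [add_zero, add_zero]; rfl⟩
    (T := {a | ∃ m ∈ GL1, a = bv 12 m}) (Set.toFinite _) (by
      intro σ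
      rw [hact]
      have h4 : Four (sm σ (ve 0)).1 := (four_e8 (pt (fp 0))).smul σ.1
      obtain ⟨m, hm, h⟩ := four_GL C h4
      exact ⟨m, hm, h⟩)
  have h3 : ({a | ∃ m ∈ GL1, a = bv 12 m} : Set (Fin 12 → ZMod 2)).ncard ≤ 1701 := by
    rw [h1, Set.ncard_coe_finset]
    exact (List.toFinset_card_le _).trans (by rw [List.length_map, GL1_len])
  calc Nat.card (CC (gm X6)) ≤ _ := h2
    _ ≤ 1701 * (1080 * 64) := Nat.mul_le_mul h3 card_st
    _ = _ := by norm_num

end H33.MonQ6
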