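import Mathlib
import Cfsg.Agent.Lib.H33.MonQ6d
import Cfsg.Agent.Lib.H33.MonP7d

set_option autoImplicit false

/-! The centralizer of an element of order 3 (with fixed points) of `Co0`: counting. -/

namespace H33.MonQ6

open Cfsg H8.GolayCode H8.GolayCount H8.GolayBasic H9.Leech H9.LeechGood H9.Trans H9.Cross H9.CoOrder H9.CoMat
open H33.MonRed H33.MonCo H91.LeechTools H40.PermCode
open H32.M24Kit (okTab pm pm_mem pm_idx pm_pt fs)
open H94.M24Cls (X6 okX6)
open H94.M24Fix (WX6 okWX6)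
open H33.U43 (OO Om6 M6 Q0 mt mkO rf negO h3 mt_inj mt_mul)
open scoped Matrix

def TRL : List (ℕ × ℕ × ℕ) := [(98, 1, 0), (2, 1, 1), (81, 1, 2), (3, 1, 3), (555, 98, 0), (97, 98, 1), (420, 98, 2), (142, 98, 3), (184, 2, 0), (162, 2, 2), (6, 2, 3), (307, 81, 0), (243, 81, 2), (438, 3, 0), (27, 3, 3), (612, 555, 0), (71, 555, 2), (559, 555, 3), (703, 97, 0), (339, 97, 2), (139, 97, 3), (208, 420, 0), (502, 420, 2), (226, 420, 3), (318, 142, 0), (143, 142, 1), (384, 142, 2), (624, 142, 3), (291, 184, 0), (185, 184, 1), (588, 184, 2), (194, 184, 3), (533, 162, 0), (486, 162, 2), (54, 6, 3), (70, 307, 0), (308, 307, 1), (145, 307, 2), (499, 307, 3), (106, 243, 0), (9, 243, 3), (150, 438, 0), (520, 438, 2), (468, 438, 3), (708, 27, 0), (335, 612, 0), (290, 612, 2), (344, 612, 3), (596, 71, 0), (231, 71, 2), (547, 71, 3), (579, 559, 0), (560, 559, 1), (155, 559, 2), (509, 559, 3), (147, 703, 0), (704, 703, 1), (623, 703, 2),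 (669, 703, 3), (711, 339, 0), (259, 339, 2), (132, 139, 0), (140, 139, 1), (381, 139, 2), (597, 139, 3), (561, 208, 0), (209, 208, 1), (410, 208, 3), (329, 502, 0), (503, 502, 1), (76, 502, 3), (659, 226, 0), (227, 226, 1), (630, 226, 2), (652, 226, 3), (123, 318, 0), (524, 318, 3), (380, 143, 0), (465, 143, 2), (627, 143, 3), (302, 384, 0), (304, 384, 2), (210, 624, 0), (49, 291, 2), (281, 291, 3), (353, 185, 0), (197, 185, 3), (146, 588, 0), (266, 588, 2), (128, 588, 3), (528, 194, 0), (193, 194, 1), (678, 194, 2), (50, 533, 0), (532, 533, 1), (269, 533, 3), (176, 486, 0), (18, 486, 3), (354, 54, 0), (534, 70, 0), (544, 70, 3), (156, 308, 0), (433, 145, 0), (387, 145, 2), (571, 145, 3), (224, 499, 0), (500, 499, 1), (95, 499, 2), (416, 106, 0), (107, 106, 1), (348, 106, 2), (523, 9, 0), (188, 150, 0), (312, 150, 2), (622, 150, 3), (289, 520, 0), (521, 520, 1), (116, 520, 2), (667, 468, 0), (550, 468, 2), (658, 468, 3),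 (595, 708, 0), (548, 708, 2), (720, 708, 3), (334, 335, 1), (415, 335, 2), (196, 290, 0), (260, 290, 3), (343, 344, 1), (424, 344, 2), (40, 596, 0), (434, 596, 2), (187, 547, 0), (352, 579, 0), (257, 579, 2), (127, 579, 3), (668, 560, 0), (236, 560, 2), (512, 560, 3), (79, 155, 0), (154, 155, 1), (477, 155, 2), (575, 155, 3), (508, 509, 1), (53, 509, 3), (309, 147, 2), (672, 704, 3), (461, 623, 2), (591, 623, 3), (369, 669, 0), (551, 711, 2), (67, 259, 3), (294, 132, 2), (462, 140, 2), (600, 140, 3), (301, 381, 2), (603, 381, 3), (321, 597, 0), (275, 597, 2), (77, 561, 2), (693, 209, 2), (413, 209, 3), (223, 410, 0), (409, 410, 1), (204, 410, 3), (328, 329, 1), (179, 503, 2), (115, 76, 0), (518, 76, 3), (511, 227, 0), (655, 227, 3), (277, 630, 0), (586, 630, 3), (653, 652, 1), (572, 652, 2), (285, 123, 2), (379, 123, 3), (256, 524, 0), (200, 524, 2), (268, 524, 3), (460, 380, 2), (582, 380, 3), (525, 465, 0), (396, 627,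 0), (305, 627, 2), (639, 627, 3), (220, 302, 2), (552, 304, 3), (94, 210, 0), (129, 49, 2), (429, 281, 0), (280, 281, 1), (199, 281, 2), (213, 353, 0), (228, 197, 0), (681, 197, 2), (574, 146, 3), (265, 266, 1), (44, 266, 3), (450, 128, 2), (332, 128, 3), (237, 528, 0), (316, 528, 3), (676, 193, 0), (435, 193, 3), (278, 50, 3), (112, 269, 0), (175, 176, 1), (660, 176, 2), (317, 18, 0), (274, 354, 2), (360, 354, 3), (545, 544, 1), (417, 433, 3), (441, 387, 0), (577, 387, 3), (656, 571, 0), (52, 500, 3), (178, 416, 3), (119, 523, 2), (357, 521, 0), (587, 667, 2), (578, 658, 2), (345, 595, 3), (564, 548, 3), (425, 424, 1), (41, 40, 1), (120, 40, 2), (412, 434, 0), (221, 187, 3), (118, 352, 0), (336, 352, 3), (240, 257, 0), (43, 257, 3), (235, 236, 1), (80, 512, 3), (159, 79, 2), (663, 508, 0), (104, 508, 2), (68, 67, 1), (517, 67, 3), (684, 462, 3), (705, 301, 0), (201, 77, 0), (537, 525, 0), (331, 220, 0), (426, 552, 0),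 (113, 574, 0), (103, 265, 2), (677, 237, 3), (282, 274, 3)]

/-- vectors from numbers -/
def dv (n : ℕ) : Fin 6 → ZMod 3 := fun i => ((n / 3 ^ i.1 % 3 : ℕ) : ZMod 3)

def AL (g : ℕ) : M6 := if g = 0 then AG else if g = 1 then AD else if g = 2 then AP else AR

def okTR : List ℕ → List (ℕ × ℕ × ℕ) → Bool
  | _, [] => true
  | seen, (c, p, g) :: t => (seen.contains p && decide (AL g *ᵥ dv p = dv c)) && okTR (c :: seen) t

theorem tr_ok : okTR [1] TRL = true := by decide +kernel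
theorem tr_cov : ∀ n < 729, Q0 (dv n) = 1 → n = 1 ∨ n ∈ TRL.map Prod.fst := by decide +kernel

theorem dv_surj (v : Fin 6 → ZMod 3) : ∃ n < 729, dv n = v := by
  have h0 := (v 0).val_lt
  have h1 := (v 1).val_lt
  have h2 := (v 2).val_lt
  have h4 := (v 3).val_lt
  have h5 := (v 4).val_lt
  have h6 := (v 5).val_lt
  refine ⟨(v 0).val + 3 * (v 1).val + 9 * (v 2).val + 27 * (v 3).val + 81 * (v 4).val + 243 * (v 5).val, by omega, ?_⟩
  funext i
  have key : ∀ (m : ℕ) (a : ZMod 3), m = a.val → ((m : ℕ) : ZMod 3) = a := by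
    intro m a h
    rw [h, ZMod.natCast_zmod_val]
  unfold dv
  apply key
  fin_cases i
  · show _ / 3 ^ 0 % 3 = (v 0).val
    norm_num only
    omega
  · show _ / 3 ^ 1 % 3 = (v 1).val
    norm_num only
    omega
  · show _ / 3 ^ 2 % 3 = (v 2).val
    norm_num only
    omega
  · show _ / 3 ^ 3 % 3 = (v 3).val
    norm_num only
    omega
  · show _ / 3 ^ 4 % 3 = (v 4).val
    norm_num only
    omega
  · show _ / 3 ^ 5 % 3 = (v 5).val
    norm_num only
    omega

theorem dv_one : dv 1 = Pi.single 0 1 := by decide +kernel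

theorem AD_eq : AD = H33.U43.rfm 0 := by decide +kernel

/-- reachable vectors -/
def GoodV (n : ℕ) : Prop := ∃ σ : CC (gm X6), mt (Th σ) *ᵥ Pi.single 0 1 = dv n

theorem good_tr (hg : ∀ g, ∃ σ : CC (gm X6), thM σ = AL g) : ∀ (l : List (ℕ × ℕ × ℕ)) (seen : List ℕ), okTR seen l = true →
    (∀ m ∈ seen, GoodV m) → ∀ m ∈ l.map Prod.fst, GoodV m := by
  intro l
  induction l with
  | nil => intro seen _ _ m hm; simp at hm
  | cons a t ih =>
    obtain ⟨c, p, g⟩ := a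
    intro seen hok hs m hm
    rw [okTR, Bool.and_eq_true, Bool.and_eq_true, List.contains_iff_mem, decide_eq_true_eq] at hok
    obtain ⟨⟨hp, hgp⟩, ht⟩ := hok
    obtain ⟨σ, hσ⟩ := hs p hp
    obtain ⟨τ, hτ⟩ := hg g
    have hc : GoodV c := by
      refine ⟨τ * σ, ?_⟩
      rw [map_mul, mt_mul, ← Matrix.mulVec_mulVec, hσ, mt_Th, hτ, hgp]
    rw [List.map_cons, List.mem_cons] at hm
    rcases hm with rfl | hm
    · exact hc
    · refine ih (c :: seen) ht ?_ m hm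
      intro m' hm'
      rw [List.mem_cons] at hm'
      rcases hm' with rfl | hm'
      · exact hc
      · exact hs m' hm'

theorem AL_eq (g : ℕ) : AL g = AG ∨ AL g = AD ∨ AL g = AP ∨ AL g = AR := by
  unfold AL
  split_ifs
  · exact Or.inl rfl
  · exact Or.inr (Or.inl rfl)
  · exact Or.inr (Or.inr (Or.inl rfl))
  · exact Or.inr (Or.inr (Or.inr rfl))

variable {κ : Fx (gm X6) →+ (Fin 12 → ZMod 2)}

section
variable (C : Crd X6 12 cs bs κ) {act : CC (gm X6) →* Equiv.Perm (Fin 12 → ZMod 2)} (hact : ∀ σ v, act σ (κ v) = κ (sm σ v))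
  (hadd : ∀ σ a b, act σ (a + b) = act σ a + act σ b)
include C hact hadd

theorem exG : ∃ σ : CC (gm X6), thM σ = AG ∧ ∀ m < 2 ^ 12, act σ (bv 12 m) = bv 12 (lin mG m) := by
  obtain ⟨σ, h, h'⟩ := gen_spec okX6 C hact hadd chkG
  exact ⟨σ, (thM_rep h).trans eqG, h'⟩
theorem exD : ∃ σ : CC (gm X6), thM σ = AD ∧ ∀ m < 2 ^ 12, act σ (bv 12 m) = bv 12 (lin mD m) := by
  obtain ⟨σ, h, h'⟩ := gen_spec okX6 C hact hadd chkD
  exact ⟨σ, (thM_rep h).trans eqD, h'⟩
theorem exP : ∃ σ : CC (gm X6), thM σ = AP ∧ ∀ m < 2 ^ 12, act σ (bv 12 m) = bv 12 (lin mP m) := by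
  obtain ⟨σ, h, h'⟩ := gen_spec okX6 C hact hadd chkP
  exact ⟨σ, (thM_rep h).trans eqP, h'⟩
theorem exR : ∃ σ : CC (gm X6), thM σ = AR ∧ ∀ m < 2 ^ 12, act σ (bv 12 m) = bv 12 (lin mR m) := by
  obtain ⟨σ, h, h'⟩ := gen_spec okX6 C hact hadd chkR
  exact ⟨σ, (thM_rep h).trans eqR, h'⟩
theorem exO : ∃ σ : CC (gm X6), thM σ = 1 ∧ ∀ m < 2 ^ 12, act σ (bv 12 m) = bv 12 (lin mO m) := by
  obtain ⟨σ, h, h'⟩ := gen_spec okX6 C hact hadd chkO
  exact ⟨σ, (thM_rep h).trans eqO, h'⟩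

theorem exAL (g : ℕ) : ∃ σ : CC (gm X6), thM σ = AL g := by
  rcases AL_eq g with h | h | h | h <;> rw [h]
  · obtain ⟨σ, h1, -⟩ := exG C hact hadd; exact ⟨σ, h1⟩
  · obtain ⟨σ, h1, -⟩ := exD C hact hadd; exact ⟨σ, h1⟩
  · obtain ⟨σ, h1, -⟩ := exP C hact hadd; exact ⟨σ, h1⟩
  · obtain ⟨σ, h1, -⟩ := exR C hact hadd; exact ⟨σ, h1⟩

theorem reach (v : Fin 6 → ZMod 3) (hv : Q0 v = 1) : ∃ σ : CC (gm X6), mt (Th σ) *ᵥ Pi.single 0 1 = v := by
  obtain ⟨n, hn, rfl⟩ := dv_surj v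
  have h1 : GoodV 1 := ⟨1, by rw [map_one, H33.U43.mt_one, Matrix.one_mulVec, dv_one]⟩
  rcases tr_cov n hn hv with rfl | h
  · exact h1
  · refine good_tr (exAL C hact hadd) TRL [1] tr_ok ?_ n h
    intro m hm
    rw [List.mem_singleton] at hm
    rw [hm]; exact h1

theorem refl_mem (v : Fin 6 → ZMod 3) (hv : Q0 v = 1) : rf v hv ∈ Th.range := by
  obtain ⟨σ, hσ⟩ := reach C hact hadd v hv
  obtain ⟨δ, hδ, -⟩ := exD C hact hadd
  have h1 : Th δ = rf (Pi.single 0 1) (H33.U43.rfm_eq 0).1 := by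
    apply mt_inj
    rw [mt_Th, hδ, AD_eq, H33.U43.mt_rf, (H33.U43.rfm_eq 0).2]
  refine ⟨σ * δ * σ⁻¹, ?_⟩
  rw [map_mul, map_mul, map_inv, h1, H33.U43.rf_conj]
  apply mt_inj
  rw [H33.U43.mt_rf, H33.U43.mt_rf, hσ]

theorem Om_le : Om6 ≤ Th.range := H33.U43.omega_le _ (refl_mem C hact hadd)

end

end H33.MonQ6
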