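import Mathlib
import Cfsg.Agent.Lib.H33.MonQ6e

set_option autoImplicit false

/-! The centralizer of an element of order 3 (with fixed points) of `Co0`: counting. -/

namespace H33.MonQ6

open Cfsg H8.GolayCode H8.GolayCount H8.GolayBasic H9.Leech H9.LeechGood H9.Trans H9.Cross H9.CoOrder H9.CoMat
open H33.MonRed H33.MonCo H91.LeechTools H40.PermCode
open H32.M24Kit (okTab pm pm_mem pm_idx pm_pt fs)
open H94.M24Cls (X6 okX6)
open H94.M24Fix (WX6 okWX6)
open H33.U43 (OO Om6 M6 Q0 mt mkO rf negO h3 mt_inj mt_mul)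
open scoped Matrix

/-- the determinant -/
noncomputable def dt : OO →* (ZMod 3)ˣ := Matrix.GeneralLinearGroup.det.comp (Subgroup.subtype _)

theorem rfm_diag : H33.U43.rfm 0 = Matrix.diagonal (fun a : Fin 6 => if a = 0 then (2 : ZMod 3) else 1) := by decide +kernel

theorem det_D : (H33.U43.rfm 0).det = 2 := by
  rw [rfm_diag, Matrix.det_diagonal]
  decide +kernel

theorem dt_coe (g : OO) : ((dt g : (ZMod 3)ˣ) : ZMod 3) = (mt g).det := by
  unfold dt
  rw [MonoidHom.comp_apply, Matrix.GeneralLinearGroup.val_det_apply]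
  rfl

theorem not_Om {δ : CC (gm X6)} (h : thM δ = AD) : Th δ ∉ Om6 := by
  intro h1
  have h2 : Th δ ∈ dt.ker := Abelianization.commutator_subset_ker dt h1
  have h4 := dt_coe (Th δ)
  rw [MonoidHom.mem_ker.1 h2, mt_Th, h, AD_eq, det_D] at h4
  exact absurd h4 (by decide)

theorem gm_mem : gm X6 ∈ CC (gm X6) := mem_CC.2 rfl
theorem neg_mem : neg ∈ CC (gm X6) := mem_CC.2 (neg_central _)

/-- the element itself -/
noncomputable def gc : CC (gm X6) := ⟨gm X6, gm_mem⟩
noncomputable def nc : CC (gm X6) := ⟨neg, neg_mem⟩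

theorem Th_gc : Th gc = 1 := by
  apply mt_inj
  rw [mt_Th, H33.U43.mt_one]
  ext i k
  show 2 * rho (sm gc (ve k)) i = _
  have h1 : sm gc (ve k) = ve k := Subtype.ext (ve k).2
  rw [h1, rho_ve, Matrix.one_apply]
  by_cases h : i = k
  · subst h
    rw [Pi.single_eq_same, if_pos rfl]; decide
  · rw [Pi.single_eq_of_ne h, if_neg h]; decide

theorem Th_nc : Th nc = negO := by
  apply mt_inj
  rw [mt_Th, H33.U43.mt_neg]
  ext i k
  show 2 * rho (sm nc (ve k)) i = _
  have h1 : sm nc (ve k) = -ve k := Subtype.ext (neg_smul _)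
  rw [h1, map_neg, Pi.neg_apply, rho_ve, Matrix.neg_apply, Matrix.one_apply]
  by_cases h : i = k
  · subst h
    rw [Pi.single_eq_same, if_pos rfl]
    show (2 : ZMod 3) * -2 = -1
    decide
  · rw [Pi.single_eq_of_ne h, if_neg h, neg_zero, mul_zero]

theorem ord_gc : orderOf gc = 3 := by
  haveI : Fact (Nat.Prime 3) := ⟨Nat.prime_three⟩
  apply orderOf_eq_prime
  · apply Subtype.ext
    exact gm3
  · intro h
    exact gm_ne (congrArg Subtype.val h)

theorem o1 : lin mO 1 ≠ 1 ∧ lin mO (lin mO 1) ≠ 1 ∧ lin mO (lin mO 1) ≠ lin mO 1 ∧ lin mO 1 < 4096 ∧ lin mO (lin mO 1) < 4096 := by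
  decide +kernel

theorem o3 : ((List.range 4096).all fun m => Nat.beq (lin mO (lin mO (lin mO m))) m && (Nat.blt (lin mO m) 4096 &&
    Nat.blt (lin mO (lin mO m)) 4096)) = true := by decide +kernel

section
variable {act : CC (gm X6) →* Equiv.Perm (Fin 12 → ZMod 2)} {w : CC (gm X6)} (hw : ∀ m < 2 ^ 12, act w (bv 12 m) = bv 12 (lin mO m))
include hw

theorem aw3 : (act w) ^ 3 = 1 := by
  ext a : 1
  obtain ⟨m, hm, rfl⟩ := bv_surj a
  have h1 := List.all_eq_true.1 o3 m (List.mem_range.2 hm)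
  rw [Bool.and_eq_true, Bool.and_eq_true] at h1
  obtain ⟨h1, h2, h4⟩ := h1
  have h1 := Nat.eq_of_beq_eq_true h1
  have h2 : lin mO m < 2 ^ 12 := Nat.blt_eq ▸ h2
  have h4 : lin mO (lin mO m) < 2 ^ 12 := Nat.blt_eq ▸ h4
  rw [pow_succ, pow_two, Equiv.Perm.mul_apply, Equiv.Perm.mul_apply, hw _ hm, hw _ h2, hw _ h4, h1, Equiv.Perm.one_apply]

theorem aw1 : act w ≠ 1 := by
  intro h
  have h1 := hw 1 (by norm_num)
  rw [h, Equiv.Perm.one_apply] at h1
  exact o1.1 (bv_inj (by norm_num) o1.2.2.2.1 h1).symm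

theorem aw_ord : orderOf (act w) = 3 := by
  haveI : Fact (Nat.Prime 3) := ⟨Nat.prime_three⟩
  exact orderOf_eq_prime (aw3 hw) (aw1 hw)
end

end H33.MonQ6
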