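import Mathlib
import Cfsg.Agent.Lib.H33.MonQ6f
import Cfsg.Agent.Lib.H1.Cores

set_option autoImplicit false

/-! The centralizer of an element of order 3 (with fixed points) of `Co0`: counting and kernels. -/

namespace H33.MonQ6

open Cfsg H8.GolayCode H8.GolayCount H8.GolayBasic H9.Leech H9.LeechGood H9.Trans H9.Cross H9.CoOrder H9.CoMat
open H33.MonRed H33.MonCo H91.LeechTools H40.PermCode
open H32.M24Kit (okTab pm pm_mem pm_idx pm_pt fs)
open H94.M24Cls (X6 okX6)
open H94.M24Fix (WX6 okWX6)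
open H33.U43 (OO Om6 M6 Q0 mt mkO rf negO h3 mt_inj mt_mul)
open scoped Matrix commutatorElement

variable {κ : Fx (gm X6) →+ (Fin 12 → ZMod 2)}

section
variable (C : Crd X6 12 cs bs κ) {act : CC (gm X6) →* Equiv.Perm (Fin 12 → ZMod 2)} (hact : ∀ σ v, act σ (κ v) = κ (sm σ v))
  (hadd : ∀ σ a b, act σ (a + b) = act σ a + act σ b) {w : CC (gm X6)} (hw1 : thM w = 1)
  (hw : ∀ m < 2 ^ 12, act w (bv 12 m) = bv 12 (lin mO m))
include C hact

omit hact in
theorem act_gc (hact : ∀ σ v, act σ (κ v) = κ (sm σ v)) : act gc = 1 := by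
  have h := act_triv (σ := gc) C.surj C.ker hact (by
    have := pow_triv (gm X6) 1
    rw [pow_one] at this
    exact this)
  exact h

theorem act_nc : act nc = 1 := act_triv (σ := nc) C.surj C.ker hact (by
    have := neg_triv (gm X6)
    rw [pow_zero, mul_one] at this
    exact this)

include hw1 hw

omit C hact hw in
theorem Th_w : Th w = 1 := mt_inj hw1

/-- nine elements of the kernel -/
theorem ker_card : 9 ≤ Nat.card Th.ker ∧ (Nat.card Th.ker = 9 → ∀ n, Th n = 1 → ∃ i j : ℕ, j < 3 ∧ n = gc ^ i * w ^ j) := by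
  have hTw := Th_w hw1
  let F : Fin 3 × Fin 3 → Th.ker := fun x => ⟨gc ^ (x.1 : ℕ) * w ^ (x.2 : ℕ), by
    rw [MonoidHom.mem_ker, map_mul, map_pow, map_pow, Th_gc, hTw, one_pow, one_pow, one_mul]⟩
  have hF : Function.Injective F := by
    rintro ⟨i, j⟩ ⟨i', j'⟩ h
    have h1 : gc ^ (i : ℕ) * w ^ (j : ℕ) = gc ^ (i' : ℕ) * w ^ (j' : ℕ) := congrArg Subtype.val h
    have h2 := congrArg act h1
    rw [map_mul, map_mul, map_pow, map_pow, map_pow, map_pow, act_gc C hact, one_pow, one_pow, one_mul, one_mul] at h2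
    have h5 : (j : ℕ) = j' := pow_injOn_Iio_orderOf (by rw [aw_ord hw]; exact j.2) (by rw [aw_ord hw]; exact j'.2) h2
    rw [h5] at h1
    have h6 := mul_right_cancel h1
    have h7 : (i : ℕ) = i' := pow_injOn_Iio_orderOf (by rw [ord_gc]; exact i.2) (by rw [ord_gc]; exact i'.2) h6
    rw [Fin.ext h5, Fin.ext h7]
  have h9 : Nat.card (Fin 3 × Fin 3) = 9 := by rw [Nat.card_prod, Nat.card_fin]
  constructor
  · rw [← h9]; exact Nat.card_le_card_of_injective F hF
  · intro hc n hn
    have hb : Function.Bijective F := (Nat.bijective_iff_injective_and_card F).2 ⟨hF, by rw [h9, hc]⟩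
    obtain ⟨x, hx⟩ := hb.2 ⟨n, hn⟩
    exact ⟨x.1, x.2, x.2.2, (congrArg Subtype.val hx).symm⟩

include hadd

theorem counts : Nat.card Th.ker = 9 ∧ Nat.card Th.range = 13063680 := by
  have h1 := (ker_card C hact hw1 hw).1
  have h2 : Nat.card (CC (gm X6)) = Nat.card Th.ker * Nat.card Th.range := by
    rw [mul_comm, ← Nat.card_congr (QuotientGroup.quotientKerEquivRange Th).toEquiv]
    exact Subgroup.card_eq_card_quotient_mul_card_subgroup _
  have h5 := card_CC C hact
  have h6 : 13063680 ≤ Nat.card Th.range := by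
    have hle := Om_le C hact hadd
    obtain ⟨δ, hδ, -⟩ := exD C hact hadd
    have hd : Nat.card Om6 ∣ Nat.card Th.range := Subgroup.card_dvd_of_le hle
    rw [H33.U43.card_Om] at hd
    obtain ⟨k, hk⟩ := hd
    have hne : Nat.card Th.range ≠ 6531840 := by
      intro h7
      have h8 : Om6 = Th.range := Subgroup.eq_of_le_of_card_ge hle (by rw [h7, H33.U43.card_Om])
      have h9 : Th δ ∈ Th.range := ⟨δ, rfl⟩
      rw [← h8] at h9
      exact not_Om hδ h9
    have hpos : 0 < Nat.card Th.range := Nat.card_pos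
    rcases k with _ | _ | k
    · omega
    · omega
    · omega
  rw [h2] at h5
  have ha : Nat.card Th.ker ≤ 9 := by
    by_contra hcon
    push Not at hcon
    have := Nat.mul_le_mul (Nat.succ_le_of_lt hcon) h6
    omega
  have ha' : Nat.card Th.ker = 9 := le_antisymm ha h1
  refine ⟨ha', ?_⟩
  rw [ha'] at h5
  omega

theorem ker_Th (n : CC (gm X6)) (h : Th n = 1 ∨ Th n = negO) : ∃ i j : ℕ, j < 3 ∧ (n = gc ^ i * w ^ j ∨ n = nc * (gc ^ i * w ^ j)) := by
  have key := (ker_card C hact hw1 hw).2 (counts C hact hadd hw1 hw).1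
  rcases h with h | h
  · obtain ⟨i, j, hj, h1⟩ := key n h
    exact ⟨i, j, hj, Or.inl h1⟩
  · have h2 : Th (nc⁻¹ * n) = 1 := by rw [map_mul, map_inv, Th_nc, h, inv_mul_cancel]
    obtain ⟨i, j, hj, h1⟩ := key _ h2
    exact ⟨i, j, hj, Or.inr (by rw [← h1, mul_inv_cancel_left])⟩

theorem act_of_ker (n : CC (gm X6)) (h : Th n = 1 ∨ Th n = negO) : ∃ j < 3, act n = act w ^ j := by
  obtain ⟨i, j, hj, h1⟩ := ker_Th C hact hadd hw1 hw n h
  refine ⟨j, hj, ?_⟩
  rcases h1 with h1 | h1
  · rw [h1, map_mul, map_pow, map_pow, act_gc C hact, one_pow, one_mul]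
  · rw [h1, map_mul, map_mul, map_pow, map_pow, act_gc C hact, act_nc C hact, one_pow, one_mul, one_mul]

omit C hact hadd hw1 hw in
theorem cmGD : lin mG (lin mD 1) ≠ lin mD (lin mG 1) ∧ lin mG (lin mD 1) ≠ lin mO (lin mD (lin mG 1)) ∧
    lin mG (lin mD 1) ≠ lin mO (lin mO (lin mD (lin mG 1))) ∧ lin mD 1 < 4096 ∧ lin mG (lin mD 1) < 4096 ∧ lin mG 1 < 4096 ∧
    lin mD (lin mG 1) < 4096 ∧ lin mO (lin mD (lin mG 1)) < 4096 ∧ lin mO (lin mO (lin mD (lin mG 1))) < 4096 := by
  decide +kernel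

omit C hact hadd hw1 hw in
theorem negO_inv : negO⁻¹ = negO := inv_eq_of_mul_eq_one_left H33.U43.neg_sq

/-- the kernel of the action modulo 2 -/
theorem act_ker (n : CC (gm X6)) (hn : act n = 1) : ∃ k : ℕ, n.1 = gm X6 ^ k ∨ n.1 = neg * gm X6 ^ k := by
  rcases H33.U43.AS Th (Om_le C hact hadd) act.ker with h | h
  · exfalso
    obtain ⟨a, ha1, ha⟩ := exG C hact hadd
    obtain ⟨b, hb1, hb⟩ := exD C hact hadd
    have hc : Th ⁅a, b⁆ ∈ Om6 := by
      rw [map_commutatorElement]
      exact Subgroup.commutator_mem_commutator (Subgroup.mem_top _) (Subgroup.mem_top _)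
    obtain ⟨m, hm, h1⟩ := h _ hc
    rw [MonoidHom.mem_ker] at hm
    have h2 : Th (⁅a, b⁆ * m⁻¹) = 1 ∨ Th (⁅a, b⁆ * m⁻¹) = negO := by
      rw [map_mul, map_inv]
      rcases h1 with h1 | h1 <;> rw [h1]
      · left; rw [mul_inv_cancel]
      · right; rw [mul_inv_rev, mul_inv_cancel_left, negO_inv]
    obtain ⟨j, hj, h5⟩ := act_of_ker C hact hadd hw1 hw _ h2
    rw [map_mul, map_inv, hm, inv_one, mul_one, map_commutatorElement, commutatorElement_def, mul_inv_eq_iff_eq_mul,
      mul_inv_eq_iff_eq_mul] at h5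
    obtain ⟨c1, c2, c4, l1, l2, l4, l5, l6, l7⟩ := cmGD
    have h6 := congrArg (fun f : Equiv.Perm (Fin 12 → ZMod 2) => f (bv 12 1)) h5
    simp only [Equiv.Perm.mul_apply] at h6
    rw [hb 1 (by norm_num), ha _ l1, ha 1 (by norm_num), hb _ l4] at h6
    interval_cases j
    · rw [pow_zero, Equiv.Perm.one_apply] at h6
      exact c1 (bv_inj l2 l5 h6)
    · rw [pow_one, hw _ l5] at h6
      exact c2 (bv_inj l2 l6 h6)
    · rw [pow_two, Equiv.Perm.mul_apply, hw _ l5, hw _ l6] at h6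
      exact c4 (bv_inj l2 l7 h6)
  · obtain ⟨i, j, hj, h1⟩ := ker_Th C hact hadd hw1 hw n (h n hn)
    have h2 : act n = act w ^ j := by
      rcases h1 with h1 | h1
      · rw [h1, map_mul, map_pow, map_pow, act_gc C hact, one_pow, one_mul]
      · rw [h1, map_mul, map_mul, map_pow, map_pow, act_gc C hact, act_nc C hact, one_pow, one_mul, one_mul]
    rw [hn] at h2
    have h5 := orderOf_dvd_of_pow_eq_one h2.symm
    rw [aw_ord hw] at h5
    have hj0 : j = 0 := by
      rcases Nat.eq_zero_or_pos j with h6 | h6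
      · exact h6
      · exact absurd (Nat.le_of_dvd h6 h5) (by omega)
    subst hj0
    refine ⟨i, ?_⟩
    rcases h1 with h1 | h1
    · left; rw [h1, pow_zero, mul_one]; rfl
    · right; rw [h1, pow_zero, mul_one]; rfl

/-- the data -/
theorem cod : CoD (gm X6) 3 act.rangeRestrict κ := by
  refine ⟨by norm_num, by decide, gm3, gm_ne, act.rangeRestrict_surjective, ?_, C.surj, C.ker, ?_⟩
  · intro δ
    constructor
    · intro h
      exact act_ker C hact hadd hw1 hw δ (congrArg Subtype.val h)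
    · rintro ⟨k, h | h⟩
      · apply Subtype.ext
        show act δ = 1
        apply act_triv C.surj C.ker hact
        rw [h]
        exact pow_triv _ k
      · have h1 : δ = nc * gc ^ k := Subtype.ext h
        apply Subtype.ext
        show act δ = 1
        rw [h1, map_mul, map_pow, act_gc C hact, act_nc C hact, one_pow, one_mul]
  · intro δ h
    apply Subtype.ext
    exact act_triv C.surj C.ker hact h

theorem pc : pCore 2 act.range = ⊥ := by
  have hp : Fact (Nat.Prime 2) := ⟨Nat.prime_two⟩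
  have hp7 : Fact (Nat.Prime 7) := ⟨by norm_num⟩
  have hN : (pCore 2 act.range).Normal := inferInstance
  have hP : IsPGroup 2 (pCore 2 act.range) := H1.Cores.isPGroup_pCore 2
  have hN' : ((pCore 2 act.range).comap act.rangeRestrict).Normal := hN.comap _
  have hpow : ∀ n ∈ (pCore 2 act.range).comap act.rangeRestrict, ∃ k, act n ^ 2 ^ k = 1 := by
    intro n hn
    obtain ⟨k, hk⟩ := hP ⟨act.rangeRestrict n, hn⟩
    exact ⟨k, congrArg (fun x => ((x : pCore 2 act.range) : act.range).1) hk⟩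
  rcases H33.U43.AS Th (Om_le C hact hadd) ((pCore 2 act.range).comap act.rangeRestrict) with h | h
  · exfalso
    obtain ⟨x, hx⟩ := exists_prime_orderOf_dvd_card' (G := Om6) 7 (by rw [H33.U43.card_Om]; norm_num)
    obtain ⟨n, hn, h1⟩ := h x.1 x.2
    obtain ⟨k, hk⟩ := hpow n hn
    rw [← map_pow] at hk
    obtain ⟨i, h2⟩ := act_ker C hact hadd hw1 hw _ hk
    have h5 : Th (n ^ 2 ^ k) ^ 2 = 1 := by
      rcases h2 with h2 | h2
      · have h6 : n ^ 2 ^ k = gc ^ i := Subtype.ext h2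
        rw [h6, map_pow, Th_gc, one_pow, one_pow]
      · have h6 : n ^ 2 ^ k = nc * gc ^ i := Subtype.ext h2
        rw [h6, map_mul, map_pow, Th_gc, Th_nc, one_pow, mul_one, pow_two, H33.U43.neg_sq]
    rw [map_pow, ← pow_mul, ← pow_succ] at h5
    have h6 : x.1 ^ 2 ^ (k + 1) = 1 := by
      rcases h1 with h1 | h1
      · rw [← h1]; exact h5
      · rw [h1] at h5
        have hcm : Commute negO x.1 := H33.U43.neg_comm _
        rw [hcm.mul_pow] at h5
        have h7 : negO ^ 2 ^ (k + 1) = 1 := by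
          rw [pow_succ, mul_comm, pow_mul, pow_two, H33.U43.neg_sq, one_pow]
        rwa [h7, one_mul] at h5
    have h7 : x ^ 2 ^ (k + 1) = 1 := Subtype.ext h6
    have h8 := orderOf_dvd_of_pow_eq_one h7
    rw [hx] at h8
    have h9 := (by norm_num : Nat.Prime 7).dvd_of_dvd_pow h8
    omega
  · rw [eq_bot_iff]
    intro s hs
    obtain ⟨n, rfl⟩ := act.rangeRestrict_surjective s
    obtain ⟨j, hj, h1⟩ := act_of_ker C hact hadd hw1 hw n (h n hs)
    obtain ⟨k, hk⟩ := hpow n hs
    have h2 : act n ^ 3 = 1 := by rw [h1, ← pow_mul, mul_comm, pow_mul, aw3 hw, one_pow]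
    have h5 : act n = 1 := by
      have h6 := Nat.dvd_gcd (orderOf_dvd_of_pow_eq_one hk) (orderOf_dvd_of_pow_eq_one h2)
      have h7 : Nat.gcd (2 ^ k) 3 = 1 := Nat.Coprime.pow_left _ (by norm_num)
      rw [h7, Nat.dvd_one] at h6
      exact orderOf_eq_one_iff.1 h6
    rw [Subgroup.mem_bot]
    exact Subtype.ext h5

end

end H33.MonQ6
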