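import Mathlib
import Cfsg.Agent.Lib.H33.MonQ6g

set_option autoImplicit false

/-! The centralizer of an element of order 3 (with fixed points) of `Co0`: the main theorem. -/

namespace H33.MonQ6

open Cfsg H8.GolayCode H8.GolayCount H8.GolayBasic H9.Leech H9.LeechGood H9.Trans H9.Cross H9.CoOrder H9.CoMat
open H33.MonRed H33.MonCo H91.LeechTools H40.PermCode
open H32.M24Kit (okTab pm pm_mem pm_idx pm_pt fs)
open H94.M24Cls (X6 okX6)
open H33.U43 (OO Om6 M6 Q0 mt mkO rf negO h3 mt_inj mt_mul)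

/-- the group `{1, -1}` -/
def Z2 : Subgroup OO where
  carrier := {x | x = 1 ∨ x = negO}
  one_mem' := Or.inl rfl
  mul_mem' := by
    rintro a b (rfl | rfl) (rfl | rfl)
    · left; rw [mul_one]
    · right; rw [one_mul]
    · right; rw [mul_one]
    · left; exact H33.U43.neg_sq
  inv_mem' := by
    rintro a (rfl | rfl)
    · left; rw [inv_one]
    · right; exact negO_inv

theorem mem_Z2 {x : OO} : x ∈ Z2 ↔ x = 1 ∨ x = negO := Iff.rfl

instance : Z2.Normal := ⟨by
  rintro n (rfl | rfl) g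
  · left; rw [mul_one, mul_inv_cancel]
  · right; rw [← H33.U43.neg_comm, mul_inv_cancel_right]⟩

/-- `Omega` modulo `{1, -1}` -/
def Ob : Subgroup (OO ⧸ Z2) := Om6.map (QuotientGroup.mk' Z2)

instance : Ob.Normal := (inferInstance : Om6.Normal).map _ (QuotientGroup.mk'_surjective _)

theorem Ob_equiv : Nonempty (Ob ≃* POmega (ZMod 3) Q0) := by
  have hs : Function.Surjective ((QuotientGroup.mk' Z2).subgroupMap Om6) := MonoidHom.subgroupMap_surjective _ _
  have hk : ((QuotientGroup.mk' Z2).subgroupMap Om6).ker = Subgroup.center Om6 := by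
    ext x
    rw [MonoidHom.mem_ker, H33.U43.center_iff', ← mem_Z2, ← QuotientGroup.eq_one_iff]
    constructor
    · intro h; exact congrArg Subtype.val h
    · intro h; exact Subtype.ext h
  exact ⟨(QuotientGroup.quotientKerEquivOfSurjective _ hs).symm.trans (QuotientGroup.quotientMulEquivOfEq hk)⟩

theorem comap_Ob : Ob.comap (QuotientGroup.mk' Z2) = Om6 := by
  apply le_antisymm
  · intro x hx
    obtain ⟨y, hy, hyx⟩ := hx
    have h1 : y⁻¹ * x ∈ Z2 := QuotientGroup.eq.1 hyx
    have h2 : x = y * (y⁻¹ * x) := by rw [mul_inv_cancel_left]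
    rw [h2]
    rcases h1 with h1 | h1 <;> rw [h1]
    · exact Om6.mul_mem hy Om6.one_mem
    · exact Om6.mul_mem hy H33.U43.neg_mem
  · exact Subgroup.le_comap_map _ _

/-- the main theorem on the centralizer -/
theorem main6 : ∃ (S : Type) (_ : Group S) (_ : Finite S) (Φ : CC (gm X6) →* S) (κ : Fx (gm X6) →+ (Fin 12 → ZMod 2)) (X : Type)
    (_ : Group X) (τ : S →* X) (W : Subgroup X), CoD (gm X6) 3 Φ κ ∧ pCore 2 S = ⊥ ∧ W.Normal ∧ Nat.card τ.ker = 3 ∧
      W ≤ τ.range ∧ (W.comap τ).index = 2 ∧ Nonempty (W ≃* POmega (ZMod 3) Q0) := by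
  obtain ⟨κ, C⟩ := exists_crd6
  obtain ⟨act, hact, hadd⟩ := exists_act κ C.surj C.ker
  obtain ⟨w, hw1, hw⟩ := exO C hact hadd
  let Φ : CC (gm X6) →* act.range := act.rangeRestrict
  have hΦ : Function.Surjective Φ := act.rangeRestrict_surjective
  let T0 : CC (gm X6) →* OO ⧸ Z2 := (QuotientGroup.mk' Z2).comp Th
  have hT0 : ∀ n, T0 n = 1 ↔ (Th n = 1 ∨ Th n = negO) := by
    intro n
    show ((Th n : OO) : OO ⧸ Z2) = 1 ↔ _
    rw [QuotientGroup.eq_one_iff, mem_Z2]
  have hle : Φ.ker ≤ T0.ker := by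
    intro n hn
    rw [MonoidHom.mem_ker] at hn ⊢
    rw [hT0]
    obtain ⟨k, h⟩ := act_ker C hact hadd hw1 hw n (congrArg Subtype.val hn)
    rcases h with h | h
    · left
      have h6 : n = gc ^ k := Subtype.ext h
      rw [h6, map_pow, Th_gc, one_pow]
    · right
      have h6 : n = nc * gc ^ k := Subtype.ext h
      rw [h6, map_mul, map_pow, Th_gc, Th_nc, one_pow, mul_one]
  let τ : act.range →* OO ⧸ Z2 := Φ.liftOfSurjective hΦ ⟨T0, hle⟩
  have hτ : ∀ n, τ (Φ n) = T0 n := fun n => MonoidHom.liftOfRightInverse_comp_apply Φ _ _ ⟨T0, hle⟩ n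
  have hrange : Ob ≤ τ.range := by
    rintro _ ⟨y, hy, rfl⟩
    obtain ⟨σ, rfl⟩ := Om_le C hact hadd hy
    exact ⟨Φ σ, hτ σ⟩
  refine ⟨act.range, inferInstance, inferInstance, Φ, κ, OO ⧸ Z2, inferInstance, τ, Ob, cod C hact hadd hw1 hw,
    pc C hact hadd hw1 hw, inferInstance, ?_, hrange, ?_, Ob_equiv⟩
  · -- the kernel
    have h1 : τ.ker = Subgroup.zpowers (Φ w) := by
      apply le_antisymm
      · intro s hs
        obtain ⟨n, rfl⟩ := hΦ s
        rw [MonoidHom.mem_ker, hτ, hT0] at hs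
        obtain ⟨j, -, h⟩ := act_of_ker C hact hadd hw1 hw n hs
        have : Φ n = Φ w ^ j := Subtype.ext h
        rw [this]
        exact Subgroup.npow_mem_zpowers _ _
      · rw [Subgroup.zpowers_le, MonoidHom.mem_ker, hτ, hT0]
        exact Or.inl (Th_w hw1)
    rw [h1, Nat.card_zpowers]
    have h2 : orderOf (Φ w) = orderOf (act w) := by
      rw [← orderOf_injective (Subgroup.subtype act.range) (Subgroup.subtype_injective _) (Φ w)]; rfl
    rw [h2, aw_ord hw]
  · -- the index
    have h1 : (Ob.comap τ).index = ((Ob.comap τ).comap Φ).index := (Subgroup.index_comap_of_surjective _ hΦ).symm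
    have h2 : (Ob.comap τ).comap Φ = Om6.comap Th := by
      rw [← comap_Ob, Subgroup.comap_comap, Subgroup.comap_comap]
      congr 1
      ext n : 1
      exact hτ n
    rw [h1, h2, Subgroup.index_comap]
    have hle' := Om_le C hact hadd
    have h5 := (Om6.subgroupOf Th.range).card_mul_index
    rw [Nat.card_congr (Subgroup.subgroupOfEquivOfLe hle').toEquiv, H33.U43.card_Om, (counts C hact hadd hw1 hw).2] at h5
    show (Om6.subgroupOf Th.range).index = 2
    omega

end H33.MonQ6
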