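import Mathlib
import Cfsg.Agent.Lib.H33.MonPsi

set_option autoImplicit false

/-! Fusion of elements of order 3 in a group of Monster type. -/

namespace H33.MonFus

open Cfsg H91.MonData H91.MonType H91.LargePair H91.LeechTools H91.InvForm H91.MonConj H91.MonCross H33.MonRed H33.MonCo
open H9.CoOrder (crossSub mem_crossSub card_crossSub pres_iff')
open H9.Cross (Pres mono_e8 pres_mono mono_of_pres)
open H9.LeechGood (e8 co0_add co0_neg co0_sub co0_zero coe_e8 mono)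
open H32.M24Kit (pm pm_mem)
open H8.GolayCode H8.GolayCount H8.GolayBasic
open H94.M24Cls (X0 X6 cls3)

theorem fact3 : (4096 * 244823040).factorization 3 = 3 := by
  rw [show 4096 * 244823040 = 3 ^ 3 * (4096 * 9067520) by norm_num, Nat.factorization_mul (by norm_num) (by norm_num), Finsupp.add_apply,
    Nat.Prime.factorization_pow (by norm_num), Finsupp.single_eq_same, Nat.factorization_eq_zero_of_not_dvd (by norm_num)]

section
variable {L : Type*} [Group L] [Finite L] (ψ : L →* Equiv.Perm GolayPt) (hM : ∀ x, ψ x ∈ M24) (hS : ∀ π ∈ M24, ∃ x, ψ x = π)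
  (hK : IsPGroup 2 ψ.ker)
include hS hK

/-- elements of order 3 of the same type generate conjugate subgroups -/
theorem conj_type {X : Equiv.Perm GolayPt} {c c' : L} (hc : orderOf c = 3) (hc' : orderOf c' = 3) {h h' : Equiv.Perm GolayPt}
    (hh : h ∈ M24) (hh' : h' ∈ M24) (e : h * ψ c * h⁻¹ = X) (e' : h' * ψ c' * h'⁻¹ = X) : ∃ l, l * c' * l⁻¹ ∈ Subgroup.zpowers c := by
  have hp : Fact (Nat.Prime 3) := ⟨by norm_num⟩
  obtain ⟨x, hx⟩ := hS (h⁻¹ * h') (M24.mul_mem (M24.inv_mem hh) hh')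
  have h1 : orderOf (x * c' * x⁻¹) = 3 := by rw [← hc']; exact (MulAut.conj x).orderOf_eq c'
  have h2 : x * c' * x⁻¹ * c⁻¹ ∈ ψ.ker := by
    rw [MonoidHom.mem_ker, map_mul, map_mul, map_mul, map_inv, map_inv, hx]
    have h3 : ψ c' = h'⁻¹ * X * h' := by rw [← e']; group
    have h4 : ψ c = h⁻¹ * X * h := by rw [← e]; group
    rw [h3, h4]; group
  obtain ⟨l, hl⟩ := conj_coset ψ.ker hK (p := 3) (by norm_num) hc h1 h2
  refine ⟨l * x, ?_⟩
  have : l * x * c' * (l * x)⁻¹ = l * (x * c' * x⁻¹) * l⁻¹ := by group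
  rw [this]; exact hl

omit hS [Finite L] in
theorem type_of {c : L} (hM : ∀ x, ψ x ∈ M24) (hc : orderOf c = 3) :
    ∃ k ∈ M24, k * ψ c * k⁻¹ = pm X6 ∨ k * ψ c * k⁻¹ = pm X0 := by
  have h3 : c ^ 3 = 1 := by rw [← hc]; exact pow_orderOf_eq_one c
  apply cls3 (hM c)
  · rw [← map_mul, ← map_mul, ← pow_two, ← pow_succ, h3, map_one]
  · intro h
    obtain ⟨m, hm⟩ := hK ⟨c, h⟩
    have h4 : c ^ 2 ^ m = 1 := congrArg Subtype.val hm
    have h5 := orderOf_dvd_of_pow_eq_one h4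
    rw [hc] at h5
    have := Nat.prime_three.dvd_of_dvd_pow h5
    omega

include hM in
/-- elements of order 3 which are not of the second type are 3-central -/
theorem central_of {c : L} (hc : orderOf c = 3) (hL : (Nat.card L).factorization 3 = 3) {k : Equiv.Perm GolayPt} (hk : k ∈ M24)
    (e : k * ψ c * k⁻¹ = pm X6) : ∃ T : Subgroup L, Nat.card T = 27 ∧ c ∈ T ∧ ∀ t ∈ T, t * c = c * t := by
  have hp : Fact (Nat.Prime 3) := ⟨by norm_num⟩
  obtain ⟨P⟩ : Nonempty (Sylow 3 L) := inferInstance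
  have hPc : Nat.card P = 27 := by rw [P.card_eq_multiplicity, hL]; norm_num
  have hnt : Nontrivial P := by
    rw [← Finite.one_lt_card_iff_nontrivial]
    show 1 < Nat.card P
    rw [hPc]; norm_num
  have hPp : IsPGroup 3 P := P.isPGroup'
  have hZ : Nontrivial (Subgroup.center P) := hPp.center_nontrivial
  obtain ⟨n, hn⟩ := IsPGroup.iff_card.1 (hPp.to_subgroup (Subgroup.center P))
  have h3 : 3 ∣ Nat.card (Subgroup.center P) := by
    rw [hn]
    apply dvd_pow_self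
    rintro rfl
    rw [pow_zero] at hn
    have := Finite.one_lt_card_iff_nontrivial.2 hZ
    omega
  obtain ⟨c₁, hc₁⟩ := exists_prime_orderOf_dvd_card' 3 h3
  have ho : orderOf (c₁.1.1 : L) = 3 := by rw [Subgroup.orderOf_coe, Subgroup.orderOf_coe, hc₁]
  have hcen : ∀ t ∈ (P : Subgroup L), t * c₁.1.1 = c₁.1.1 * t := fun t ht =>
    congrArg Subtype.val (Subgroup.mem_center_iff.1 c₁.2 ⟨t, ht⟩)
  obtain ⟨h, hh, h1 | h1⟩ := type_of ψ hK hM ho
  · -- same type as `c`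
    obtain ⟨l, hl⟩ := conj_type ψ hS hK hc ho hk hh e h1
    have h2 : orderOf (l * c₁.1.1 * l⁻¹) = 3 := by
      have h2' : orderOf (l * c₁.1.1 * l⁻¹) = orderOf c₁.1.1 := (MulAut.conj l).orderOf_eq _
      exact h2'.trans ho
    have h4 : Subgroup.zpowers (l * c₁.1.1 * l⁻¹) = Subgroup.zpowers c := by
      apply Subgroup.eq_of_le_of_card_ge
      · rw [Subgroup.zpowers_le]; exact hl
      · rw [Nat.card_zpowers, Nat.card_zpowers, h2, hc]
    have h5 : c ∈ Subgroup.zpowers (l * c₁.1.1 * l⁻¹) := by rw [h4]; exact Subgroup.mem_zpowers c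
    obtain ⟨m, hm⟩ := Subgroup.mem_zpowers_iff.1 h5
    refine ⟨(P : Subgroup L).map (MulAut.conj l).toMonoidHom, ?_, ?_, ?_⟩
    · rw [← hPc]
      exact Nat.card_congr ((P : Subgroup L).equivMapOfInjective _ (MulAut.conj l).injective).toEquiv.symm
    · refine ⟨c₁.1.1 ^ m, (P : Subgroup L).zpow_mem c₁.1.2 m, ?_⟩
      show l * c₁.1.1 ^ m * l⁻¹ = c
      rw [← hm, conj_zpow]
    · rintro _ ⟨t, ht, rfl⟩
      show l * t * l⁻¹ * c = c * (l * t * l⁻¹)
      rw [← hm, conj_zpow]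
      have h6 : Commute t (c₁.1.1 ^ m) := (show Commute t c₁.1.1 from hcen t ht).zpow_right m
      calc l * t * l⁻¹ * (l * c₁.1.1 ^ m * l⁻¹) = l * (t * c₁.1.1 ^ m) * l⁻¹ := by group
        _ = l * (c₁.1.1 ^ m * t) * l⁻¹ := by rw [h6.eq]
        _ = _ := by group
  · -- impossible by the order of the centralizer
    exfalso
    apply M24C3.not27
    let F : P →* M24C3.C := MonoidHom.mk' (fun t => ⟨h * ψ t.1 * h⁻¹, by
        rw [M24C3.mem_C]
        refine ⟨M24.mul_mem (M24.mul_mem hh (hM _)) (M24.inv_mem hh), ?_⟩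
        rw [← h1]
        have h6 : ψ t.1 * ψ c₁.1.1 = ψ c₁.1.1 * ψ t.1 := by rw [← map_mul, ← map_mul, hcen t.1 t.2]
        calc h * ψ t.1 * h⁻¹ * (h * ψ c₁.1.1 * h⁻¹) = h * (ψ t.1 * ψ c₁.1.1) * h⁻¹ := by group
          _ = h * (ψ c₁.1.1 * ψ t.1) * h⁻¹ := by rw [h6]
          _ = _ := by group⟩) (by
      intro a b
      apply Subtype.ext
      show h * ψ (a.1 * b.1) * h⁻¹ = h * ψ a.1 * h⁻¹ * (h * ψ b.1 * h⁻¹)
      rw [map_mul]; group)
    have hF : Function.Injective F := by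
      rw [injective_iff_map_eq_one]
      intro a ha
      have h6 : h * ψ a.1 * h⁻¹ = 1 := congrArg Subtype.val ha
      have h7 : ψ a.1 = 1 := by
        calc ψ a.1 = h⁻¹ * (h * ψ a.1 * h⁻¹) * h := by group
          _ = 1 := by rw [h6]; group
      obtain ⟨m, hm⟩ := hK ⟨a.1, h7⟩
      have h8 : a.1 ^ 2 ^ m = 1 := congrArg Subtype.val hm
      obtain ⟨j, hj⟩ := hPp a
      have h9 : a.1 ^ 3 ^ j = 1 := congrArg Subtype.val hj
      have h10 : orderOf a.1 ∣ Nat.gcd (2 ^ m) (3 ^ j) :=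
        Nat.dvd_gcd (orderOf_dvd_of_pow_eq_one h8) (orderOf_dvd_of_pow_eq_one h9)
      have h11 : Nat.gcd (2 ^ m) (3 ^ j) = 1 := Nat.Coprime.pow m j (by norm_num)
      rw [h11, Nat.dvd_one] at h10
      exact Subtype.ext (orderOf_eq_one_iff.1 h10)
    have := Subgroup.card_dvd_of_injective F hF
    rwa [hPc] at this
end

section
variable {G : Type*} [Group G] [Finite G] {z : G} {Q : Subgroup G} {Lab : leechLattice → G → Prop} {R : G → Co0 → Prop}
  {q : leechLattice → ZMod 2} {b : leechLattice → leechLattice → ZMod 2}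

/-- 3-central elements -/
def TC (z s c : G) : Prop := ∃ T : Subgroup G, T ≤ LL z s ∧ Nat.card T = 27 ∧ c ∈ T ∧ ∀ t ∈ T, t * c = c * t

omit [Finite G] in
theorem TC_conj {s c g : G} (hg : ∀ x, x ∈ LL z s ↔ g * x * g⁻¹ ∈ LL z s) (h : TC z s (g * c * g⁻¹)) : TC z s c := by
  obtain ⟨T, h1, h2, h3, h4⟩ := h
  refine ⟨T.map (MulAut.conj g⁻¹).toMonoidHom, ?_, ?_, ?_, ?_⟩
  · rintro _ ⟨t, ht, rfl⟩
    rw [hg]
    have : g * ((MulAut.conj g⁻¹).toMonoidHom t) * g⁻¹ = t := by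
      show g * (g⁻¹ * t * g⁻¹⁻¹) * g⁻¹ = t
      group
    rw [this]; exact h1 ht
  · rw [← h2]
    exact Nat.card_congr (T.equivMapOfInjective _ (MulAut.conj g⁻¹).injective).toEquiv.symm
  · exact ⟨_, h3, by show g⁻¹ * (g * c * g⁻¹) * g⁻¹⁻¹ = c; group⟩
  · rintro _ ⟨t, ht, rfl⟩
    show g⁻¹ * t * g⁻¹⁻¹ * c = c * (g⁻¹ * t * g⁻¹⁻¹)
    have h5 := h4 t ht
    calc g⁻¹ * t * g⁻¹⁻¹ * c = g⁻¹ * (t * (g * c * g⁻¹)) * g := by group
      _ = g⁻¹ * (g * c * g⁻¹ * t) * g := by rw [h5]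
      _ = _ := by group

/-- fusion of elements of order 3 which are not 3-central -/
theorem fuse3 (L : LF) (M : MonData z Q Lab R q b) {s c : G} (hsQ : s ∈ Q) (hzs : IsConj z s) (hsz : s ≠ z)
    (hcL : c ∈ LL z s) (hc : orderOf c = 3) (hnc : ¬ TC z s c) :
    (∃ k, k * c = c * k ∧ k * z * k⁻¹ = s) ∧ ∀ γ, R c γ → γ ^ 3 = 1 → γ ≠ 1 → ∃ (k : Co0) (j : ℕ), k * γ * k⁻¹ = gm X0 ^ j := by
  have hp : Fact (Nat.Prime 3) := ⟨by norm_num⟩
  obtain ⟨v, hv, hv64⟩ := conj_label L M hzs hsQ hsz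
  obtain ⟨k₀, hk₀⟩ := H9.LeechGood.exists_to_e8 hv64 none
  obtain ⟨ψ, hψ, hM, hS, hK⟩ := exists_psi M hv hv64 hk₀
  have hLf : (Nat.card (LL z s)).factorization 3 = 3 := by rw [fact_LL M hv hv64 (by norm_num) (by norm_num), fact3]
  have htype : ∀ c' : LL z s, orderOf c' = 3 → ¬ TC z s c'.1 → ∃ h ∈ M24, h * ψ c' * h⁻¹ = pm X0 := by
    intro c' ho hn
    obtain ⟨h, hh, h1 | h1⟩ := type_of ψ hK hM ho
    · exfalso
      apply hn
      obtain ⟨T, t1, t2, t3⟩ := central_of ψ hM hS hK ho hLf hh h1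
      refine ⟨T.map (LL z s).subtype, ?_, ?_, ⟨c', t2, rfl⟩, ?_⟩
      · rintro _ ⟨t, -, rfl⟩; exact t.2
      · rw [← t1]
        exact Nat.card_congr (T.equivMapOfInjective _ (Subgroup.subtype_injective _)).toEquiv.symm
      · rintro _ ⟨t, ht, rfl⟩
        exact congrArg Subtype.val (t3 t ht)
    · exact ⟨h, hh, h1⟩
  have hoc : orderOf (⟨c, hcL⟩ : LL z s) = 3 := by rw [Subgroup.orderOf_mk]; exact hc
  obtain ⟨h, hh, h1⟩ := htype ⟨c, hcL⟩ hoc hnc
  constructor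
  · apply fuse M hsQ hzs hsz (mem_LL.1 hcL).1 (mem_LL.1 hcL).2
    intro g hg
    have hcL' : g * c * g⁻¹ ∈ LL z s := (hg c).1 hcL
    have hoc' : orderOf (⟨g * c * g⁻¹, hcL'⟩ : LL z s) = 3 := by
      rw [Subgroup.orderOf_mk, ← hc]
      exact (MulAut.conj g).orderOf_eq c
    obtain ⟨h', hh', h1'⟩ := htype ⟨g * c * g⁻¹, hcL'⟩ hoc' (fun h => hnc (TC_conj hg h))
    obtain ⟨l, hl⟩ := conj_type ψ hS hK hoc hoc' hh hh' h1 h1'
    refine ⟨l.1, l.2, ?_⟩
    obtain ⟨n, hn⟩ := Subgroup.mem_zpowers_iff.1 hl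
    refine Subgroup.mem_zpowers_iff.2 ⟨n, ?_⟩
    have h3 := congrArg Subtype.val hn
    have h4 : c ^ n = l.1 * (g * c * g⁻¹) * l.1⁻¹ := h3
    rw [h4]; group
  · intro γ hγ hγ3 hγ1
    have h2 := hψ ⟨c, hcL⟩ γ hγ
    have h3 : k₀ * γ * k₀⁻¹ ∈ crossSub := (St_conj hk₀ γ).1 (mem_St_of M hv (mem_LL.1 hcL).2 hγ)
    -- the kernel of the action on the frame
    let E : Subgroup crossSub :=
      { carrier := {g | IsPm g.1 1}
        one_mem' := fun p => Or.inl (by show (1 : Co0) • _ = _; rw [one_smul]; rfl)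
        mul_mem' := by
          intro a b ha hb
          have h5 : IsPm (a.1 * b.1) (1 * 1) := IsPm.mul ha hb
          rwa [one_mul] at h5
        inv_mem' := by
          intro a ha
          have h5 : a.1 * a.1 = 1 := IsPm.sq ha
          have h6 : a.1⁻¹ = a.1 := inv_eq_of_mul_eq_one_right h5
          show IsPm a.1⁻¹ 1
          rw [h6]; exact ha }
    have hE : IsPGroup 2 E := by
      intro x
      refine ⟨1, ?_⟩
      apply Subtype.ext; apply Subtype.ext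
      show x.1.1 ^ 2 ^ 1 = 1
      rw [pow_one, pow_two]; exact IsPm.sq x.2
    have hEn : E.Normal := by
      constructor
      intro n hn g
      obtain ⟨π, -, hπ⟩ := exists_isPm g.2
      obtain ⟨ρ, -, hρ⟩ := exists_isPm (crossSub.inv_mem g.2)
      have h5 : IsPm (g.1 * g.1⁻¹) (π * ρ) := hπ.mul hρ
      rw [mul_inv_cancel] at h5
      have h6 : IsPm (1 : Co0) 1 := fun p => Or.inl (by rw [one_smul]; rfl)
      have h7 := h5.uniq h6
      have h8 : IsPm (g.1 * n.1 * g.1⁻¹) (π * 1 * ρ) := (hπ.mul hn).mul hρ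
      rw [mul_one, h7] at h8
      exact h8
    have hm1 : mono h hh ∅ H8.GolayBasic.empty_mem ∈ crossSub := pres_mono _ _
    set m := mono h hh ∅ H8.GolayBasic.empty_mem with hm
    have hg0 : gm X0 ∈ crossSub := pres_mono _ _
    have hmP : IsPm m h := isPm_mono _ _
    obtain ⟨ρ, -, hρ⟩ := exists_isPm (crossSub.inv_mem hm1)
    have hρ' : ρ = h⁻¹ := by
      have h5 : IsPm (m * m⁻¹) (h * ρ) := hmP.mul hρ
      rw [mul_inv_cancel] at h5
      have h6 : IsPm (1 : Co0) 1 := fun p => Or.inl (by rw [one_smul]; rfl)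
      exact (inv_eq_of_mul_eq_one_right (h5.uniq h6)).symm
    obtain ⟨τ, -, hτ⟩ := exists_isPm (crossSub.inv_mem hg0)
    have hτ' : τ = (pm X0)⁻¹ := by
      have h5 : IsPm (gm X0 * (gm X0)⁻¹) (pm X0 * τ) := (isPm_gm X0).mul hτ
      rw [mul_inv_cancel] at h5
      have h6 : IsPm (1 : Co0) 1 := fun p => Or.inl (by rw [one_smul]; rfl)
      exact (inv_eq_of_mul_eq_one_right (h5.uniq h6)).symm
    have h4 : IsPm (m * (k₀ * γ * k₀⁻¹) * m⁻¹ * (gm X0)⁻¹) 1 := by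
      have h5 := ((hmP.mul h2).mul hρ).mul hτ
      have h6 : h * ψ ⟨c, hcL⟩ * ρ * τ = 1 := by rw [hρ', hτ', h1, mul_inv_cancel]
      rwa [h6] at h5
    have hy : m * (k₀ * γ * k₀⁻¹) * m⁻¹ ∈ crossSub := crossSub.mul_mem (crossSub.mul_mem hm1 h3) (crossSub.inv_mem hm1)
    have ho1 : orderOf (⟨gm X0, hg0⟩ : crossSub) = 3 := by
      rw [Subgroup.orderOf_mk]; exact orderOf_eq_prime H33.MonP3.gm3 H33.MonP3.gm_ne
    have ho2 : orderOf (⟨m * (k₀ * γ * k₀⁻¹) * m⁻¹, hy⟩ : crossSub) = 3 := by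
      rw [Subgroup.orderOf_mk]
      have e1 : orderOf (m * (k₀ * γ * k₀⁻¹) * m⁻¹) = orderOf (k₀ * γ * k₀⁻¹) := (MulAut.conj m).orderOf_eq _
      have e2 : orderOf (k₀ * γ * k₀⁻¹) = orderOf γ := (MulAut.conj k₀).orderOf_eq _
      rw [e1, e2]; exact orderOf_eq_prime hγ3 hγ1
    obtain ⟨l, hl⟩ := conj_coset E hE (p := 3) (by norm_num) ho1 ho2 h4
    have hfo : IsOfFinOrder (⟨gm X0, hg0⟩ : crossSub) := isOfFinOrder_iff_pow_eq_one.2 ⟨3, by norm_num, by
      apply Subtype.ext; exact H33.MonP3.gm3⟩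
    obtain ⟨j, hj⟩ := hfo.mem_powers_iff_mem_zpowers.2 hl
    refine ⟨l.1 * m * k₀, j, ?_⟩
    have h6 : gm X0 ^ j = l.1 * (m * (k₀ * γ * k₀⁻¹) * m⁻¹) * l.1⁻¹ := congrArg Subtype.val hj
    rw [h6]; group
end

end H33.MonFus
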