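import Mathlib
import Cfsg.Agent.Lib.H33.MonThree
import Cfsg.Agent.Lib.H33.MonQ6c

set_option autoImplicit false

/-! Fusion of 3-central elements of order 3 in a group of Monster type. -/

namespace H33.MonFus

open Cfsg H91.MonData H91.MonType H91.LargePair H91.LeechTools H91.InvForm H91.MonConj H91.MonCross H33.MonRed H33.MonCo
open H9.CoOrder (crossSub mem_crossSub card_crossSub pres_iff')
open H9.Cross (Pres mono_e8 pres_mono mono_of_pres)
open H9.LeechGood (e8 co0_add co0_neg co0_sub co0_zero coe_e8 mono)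
open H32.M24Kit (pm pm_mem)
open H8.GolayCode H8.GolayCount H8.GolayBasic
open H94.M24Cls (X0 X6 cls3)

section
variable {L : Type*} [Group L] [Finite L] (ψ : L →* Equiv.Perm GolayPt) (hM : ∀ x, ψ x ∈ M24)
  (hK : IsPGroup 2 ψ.ker)
include hM hK

/-- 3-central elements are of the first type -/
theorem tc_type {c : L} (hc : orderOf c = 3) (hT : ∃ T : Subgroup L, Nat.card T = 27 ∧ ∀ t ∈ T, t * c = c * t) :
    ∃ h ∈ M24, h * ψ c * h⁻¹ = pm X6 := by
  obtain ⟨h, hh, h1 | h1⟩ := type_of ψ hK hM hc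
  · exact ⟨h, hh, h1⟩
  · exfalso
    obtain ⟨P, hPc, hcen⟩ := hT
    have hp : Fact (Nat.Prime 3) := ⟨by norm_num⟩
    have hPp : IsPGroup 3 P := IsPGroup.of_card (n := 3) (by rw [hPc]; norm_num)
    apply M24C3.not27
    let F : P →* M24C3.C := MonoidHom.mk' (fun t => ⟨h * ψ t.1 * h⁻¹, by
        rw [M24C3.mem_C]
        refine ⟨M24.mul_mem (M24.mul_mem hh (hM _)) (M24.inv_mem hh), ?_⟩
        rw [← h1]
        have h6 : ψ t.1 * ψ c = ψ c * ψ t.1 := by rw [← map_mul, ← map_mul, hcen t.1 t.2]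
        calc h * ψ t.1 * h⁻¹ * (h * ψ c * h⁻¹) = h * (ψ t.1 * ψ c) * h⁻¹ := by group
          _ = h * (ψ c * ψ t.1) * h⁻¹ := by rw [h6]
          _ = _ := by group⟩) (by
      intro a b
      apply Subtype.ext
      show h * ψ (a.1 * b.1) * h⁻¹ = h * ψ a.1 * h⁻¹ * (h * ψ b.1 * h⁻¹)
      rw [map_mul]; group)
    have hF : Function.Injective F := by
      rw [injective_iff_map_eq_one]
      intro a ha
      have h6 : h * ψ a.1 * h⁻¹ = 1 := congrArg Subtype.val ha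
      have h7 : ψ a.1 = 1 := by
        calc ψ a.1 = h⁻¹ * (h * ψ a.1 * h⁻¹) * h := by group
          _ = 1 := by rw [h6]; group
      obtain ⟨m, hm⟩ := hK ⟨a.1, h7⟩
      have h8 : a.1 ^ 2 ^ m = 1 := congrArg Subtype.val hm
      obtain ⟨j, hj⟩ := hPp a
      have h9 : a.1 ^ 3 ^ j = 1 := congrArg Subtype.val hj
      have h10 : orderOf a.1 ∣ Nat.gcd (2 ^ m) (3 ^ j) :=
        Nat.dvd_gcd (orderOf_dvd_of_pow_eq_one h8) (orderOf_dvd_of_pow_eq_one h9)
      have h11 : Nat.gcd (2 ^ m) (3 ^ j) = 1 := Nat.Coprime.pow m j (by norm_num)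
      rw [h11, Nat.dvd_one] at h10
      exact Subtype.ext (orderOf_eq_one_iff.1 h10)
    have := Subgroup.card_dvd_of_injective F hF
    rwa [hPc] at this
end

section
variable {G : Type*} [Group G] [Finite G] {z : G} {Q : Subgroup G} {Lab : leechLattice → G → Prop} {R : G → Co0 → Prop}
  {q : leechLattice → ZMod 2} {b : leechLattice → leechLattice → ZMod 2}

omit [Finite G] in
theorem TC_conj' {s c g : G} (hg : ∀ x, x ∈ LL z s ↔ g * x * g⁻¹ ∈ LL z s) (h : TC z s c) : TC z s (g * c * g⁻¹) := by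
  apply TC_conj (g := g⁻¹)
  · intro x
    have h1 := hg (g⁻¹ * x * g⁻¹⁻¹)
    have h2 : g * (g⁻¹ * x * g⁻¹⁻¹) * g⁻¹ = x := by group
    rw [h2] at h1
    exact h1.symm
  · have h2 : g⁻¹ * (g * c * g⁻¹) * g⁻¹⁻¹ = c := by group
    rw [h2]; exact h

/-- fusion of 3-central elements of order 3 -/
theorem fuse6 (L : LF) (M : MonData z Q Lab R q b) {s c : G} (hsQ : s ∈ Q) (hzs : IsConj z s) (hsz : s ≠ z)
    (hcL : c ∈ LL z s) (hc : orderOf c = 3) (hnc : TC z s c) :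
    (∃ k, k * c = c * k ∧ k * z * k⁻¹ = s) ∧ ∀ γ, R c γ → γ ^ 3 = 1 → γ ≠ 1 → ∃ (k : Co0) (j : ℕ), k * γ * k⁻¹ = gm X6 ^ j := by
  have hp : Fact (Nat.Prime 3) := ⟨by norm_num⟩
  obtain ⟨v, hv, hv64⟩ := conj_label L M hzs hsQ hsz
  obtain ⟨k₀, hk₀⟩ := H9.LeechGood.exists_to_e8 hv64 none
  obtain ⟨ψ, hψ, hM, hS, hK⟩ := exists_psi M hv hv64 hk₀
  have hLf : (Nat.card (LL z s)).factorization 3 = 3 := by rw [fact_LL M hv hv64 (by norm_num) (by norm_num), fact3]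
  have htype : ∀ c' : LL z s, orderOf c' = 3 → TC z s c'.1 → ∃ h ∈ M24, h * ψ c' * h⁻¹ = pm X6 := by
    intro c' ho hn
    obtain ⟨T, t1, t2, t3, t4⟩ := hn
    refine tc_type ψ hM hK ho ⟨T.subgroupOf (LL z s), ?_, ?_⟩
    · rw [Nat.card_congr (Subgroup.subgroupOfEquivOfLe t1).toEquiv, t2]
    · intro t ht
      exact Subtype.ext (t4 t.1 ht)
  have hoc : orderOf (⟨c, hcL⟩ : LL z s) = 3 := by rw [Subgroup.orderOf_mk]; exact hc
  obtain ⟨h, hh, h1⟩ := htype ⟨c, hcL⟩ hoc hnc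
  constructor
  · apply fuse M hsQ hzs hsz (mem_LL.1 hcL).1 (mem_LL.1 hcL).2
    intro g hg
    have hcL' : g * c * g⁻¹ ∈ LL z s := (hg c).1 hcL
    have hoc' : orderOf (⟨g * c * g⁻¹, hcL'⟩ : LL z s) = 3 := by
      rw [Subgroup.orderOf_mk, ← hc]
      exact (MulAut.conj g).orderOf_eq c
    obtain ⟨h', hh', h1'⟩ := htype ⟨g * c * g⁻¹, hcL'⟩ hoc' (TC_conj' hg hnc)
    obtain ⟨l, hl⟩ := conj_type ψ hS hK hoc hoc' hh hh' h1 h1'
    refine ⟨l.1, l.2, ?_⟩
    obtain ⟨n, hn⟩ := Subgroup.mem_zpowers_iff.1 hl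
    refine Subgroup.mem_zpowers_iff.2 ⟨n, ?_⟩
    have h3 := congrArg Subtype.val hn
    have h4 : c ^ n = l.1 * (g * c * g⁻¹) * l.1⁻¹ := h3
    rw [h4]; group
  · intro γ hγ hγ3 hγ1
    have h2 := hψ ⟨c, hcL⟩ γ hγ
    have h3 : k₀ * γ * k₀⁻¹ ∈ crossSub := (St_conj hk₀ γ).1 (mem_St_of M hv (mem_LL.1 hcL).2 hγ)
    -- the kernel of the action on the frame
    let E : Subgroup crossSub :=
      { carrier := {g | IsPm g.1 1}
        one_mem' := fun p => Or.inl (by show (1 : Co0) • _ = _; rw [one_smul]; rfl)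
        mul_mem' := by
          intro a b ha hb
          have h5 : IsPm (a.1 * b.1) (1 * 1) := IsPm.mul ha hb
          rwa [one_mul] at h5
        inv_mem' := by
          intro a ha
          have h5 : a.1 * a.1 = 1 := IsPm.sq ha
          have h6 : a.1⁻¹ = a.1 := inv_eq_of_mul_eq_one_right h5
          show IsPm a.1⁻¹ 1
          rw [h6]; exact ha }
    have hE : IsPGroup 2 E := by
      intro x
      refine ⟨1, ?_⟩
      apply Subtype.ext; apply Subtype.ext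
      show x.1.1 ^ 2 ^ 1 = 1
      rw [pow_one, pow_two]; exact IsPm.sq x.2
    have hEn : E.Normal := by
      constructor
      intro n hn g
      obtain ⟨π, -, hπ⟩ := exists_isPm g.2
      obtain ⟨ρ, -, hρ⟩ := exists_isPm (crossSub.inv_mem g.2)
      have h5 : IsPm (g.1 * g.1⁻¹) (π * ρ) := hπ.mul hρ
      rw [mul_inv_cancel] at h5
      have h6 : IsPm (1 : Co0) 1 := fun p => Or.inl (by rw [one_smul]; rfl)
      have h7 := h5.uniq h6
      have h8 : IsPm (g.1 * n.1 * g.1⁻¹) (π * 1 * ρ) := (hπ.mul hn).mul hρ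
      rw [mul_one, h7] at h8
      exact h8
    have hm1 : mono h hh ∅ H8.GolayBasic.empty_mem ∈ crossSub := pres_mono _ _
    set m := mono h hh ∅ H8.GolayBasic.empty_mem with hm
    have hg0 : gm X6 ∈ crossSub := pres_mono _ _
    have hmP : IsPm m h := isPm_mono _ _
    obtain ⟨ρ, -, hρ⟩ := exists_isPm (crossSub.inv_mem hm1)
    have hρ' : ρ = h⁻¹ := by
      have h5 : IsPm (m * m⁻¹) (h * ρ) := hmP.mul hρ
      rw [mul_inv_cancel] at h5
      have h6 : IsPm (1 : Co0) 1 := fun p => Or.inl (by rw [one_smul]; rfl)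
      exact (inv_eq_of_mul_eq_one_right (h5.uniq h6)).symm
    obtain ⟨τ, -, hτ⟩ := exists_isPm (crossSub.inv_mem hg0)
    have hτ' : τ = (pm X6)⁻¹ := by
      have h5 : IsPm (gm X6 * (gm X6)⁻¹) (pm X6 * τ) := (isPm_gm X6).mul hτ
      rw [mul_inv_cancel] at h5
      have h6 : IsPm (1 : Co0) 1 := fun p => Or.inl (by rw [one_smul]; rfl)
      exact (inv_eq_of_mul_eq_one_right (h5.uniq h6)).symm
    have h4 : IsPm (m * (k₀ * γ * k₀⁻¹) * m⁻¹ * (gm X6)⁻¹) 1 := by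
      have h5 := ((hmP.mul h2).mul hρ).mul hτ
      have h6 : h * ψ ⟨c, hcL⟩ * ρ * τ = 1 := by rw [hρ', hτ', h1, mul_inv_cancel]
      rwa [h6] at h5
    have hy : m * (k₀ * γ * k₀⁻¹) * m⁻¹ ∈ crossSub := crossSub.mul_mem (crossSub.mul_mem hm1 h3) (crossSub.inv_mem hm1)
    have ho1 : orderOf (⟨gm X6, hg0⟩ : crossSub) = 3 := by
      rw [Subgroup.orderOf_mk]; exact orderOf_eq_prime H33.MonQ6.gm3 H33.MonQ6.gm_ne
    have ho2 : orderOf (⟨m * (k₀ * γ * k₀⁻¹) * m⁻¹, hy⟩ : crossSub) = 3 := by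
      rw [Subgroup.orderOf_mk]
      have e1 : orderOf (m * (k₀ * γ * k₀⁻¹) * m⁻¹) = orderOf (k₀ * γ * k₀⁻¹) := (MulAut.conj m).orderOf_eq _
      have e2 : orderOf (k₀ * γ * k₀⁻¹) = orderOf γ := (MulAut.conj k₀).orderOf_eq _
      rw [e1, e2]; exact orderOf_eq_prime hγ3 hγ1
    obtain ⟨l, hl⟩ := conj_coset E hE (p := 3) (by norm_num) ho1 ho2 h4
    have hfo : IsOfFinOrder (⟨gm X6, hg0⟩ : crossSub) := isOfFinOrder_iff_pow_eq_one.2 ⟨3, by norm_num, by
      apply Subtype.ext; exact H33.MonQ6.gm3⟩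
    obtain ⟨j, hj⟩ := hfo.mem_powers_iff_mem_zpowers.2 hl
    refine ⟨l.1 * m * k₀, j, ?_⟩
    have h6 : gm X6 ^ j = l.1 * (m * (k₀ * γ * k₀⁻¹) * m⁻¹) * l.1⁻¹ := congrArg Subtype.val hj
    rw [h6]; group
end

end H33.MonFus
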