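import Mathlib

set_option autoImplicit false

/-! Two generalities on preimages of subgroups. -/

namespace H33.MonQ6j

theorem quot_comap {C X : Type*} [Group C] [Group X] (T : C →* X) (W : Subgroup X) (hW : W ≤ T.range) :
    Nonempty (W.comap T ⧸ T.ker.subgroupOf (W.comap T) ≃* W) := by
  have hs : Function.Surjective (T.subgroupComap W) := by
    rintro ⟨w, hw⟩
    obtain ⟨c, rfl⟩ := hW hw
    exact ⟨⟨c, hw⟩, rfl⟩
  have hk : (T.subgroupComap W).ker = T.ker.subgroupOf (W.comap T) := by
    ext x
    rw [MonoidHom.mem_ker, Subgroup.mem_subgroupOf, MonoidHom.mem_ker]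
    constructor
    · intro h; exact congrArg Subtype.val h
    · intro h; exact Subtype.ext h
  exact ⟨(QuotientGroup.quotientMulEquivOfEq hk.symm).trans (QuotientGroup.quotientKerEquivOfSurjective _ hs)⟩

theorem card_comap {C X : Type*} [Group C] [Group X] (T : C →* X) (hT : Function.Surjective T) (W : Subgroup X) :
    Nat.card (W.comap T) = Nat.card W * Nat.card T.ker := by
  obtain ⟨e⟩ := quot_comap T W (by rw [MonoidHom.range_eq_top.2 hT]; exact le_top)
  rw [Subgroup.card_eq_card_quotient_mul_card_subgroup (T.ker.subgroupOf (W.comap T)), Nat.card_congr e.toEquiv]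
  congr 1
  apply Nat.card_congr
  exact (Subgroup.subgroupOfEquivOfLe (by
    intro x hx
    rw [Subgroup.mem_comap, MonoidHom.mem_ker.1 hx]
    exact W.one_mem)).toEquiv

end H33.MonQ6j
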