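import Mathlib
import Cfsg.Agent.Lib.H33.MonInv
import Cfsg.Agent.Lib.H33.MonLay
import Cfsg.Agent.Lib.H33.MonN7a
import Cfsg.Agent.Lib.H91.BabyCore

set_option autoImplicit false

/-! The normalizer of an element of order 7 in a group of Monster type. -/

namespace H33.MonSev

open Cfsg H91.MonData H91.MonType H91.LargePair H91.LeechTools H91.InvForm H91.MonConj H91.MonCross H33.MonRed H33.MonCo H33.MonFus
open H9.LeechGood (e8 co0_add co0_neg co0_sub co0_zero coe_e8)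
open H33.MonP7 H33.MonN7
open H8.GolayCode H8.GolayCount H8.GolayBasic H9.CoMat H40.PermCode
open H94.M24Seven (Z okZ)

theorem relIndex_six {G : Type*} [Group G] [Finite G] {c τ : G} (hc : orderOf c = 7) (hτ : τ * c = c ^ 3 * τ) :
    (Subgroup.centralizer ((Subgroup.zpowers c : Subgroup G) : Set G)).relIndex
      (Subgroup.normalizer ((Subgroup.zpowers c : Subgroup G) : Set G)) = 6 := by
  have hc7 : c ^ 7 = 1 := by rw [← hc]; exact pow_orderOf_eq_one c
  set B := Subgroup.zpowers c with hB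
  have hcard : Nat.card B = 7 := by rw [hB, Nat.card_zpowers, hc]
  have hcon : ∀ n : ℕ, τ ^ n * c * (τ ^ n)⁻¹ = c ^ (3 ^ n) := by
    intro n
    induction n with
    | zero => simp
    | succ n ih =>
      have h1 : τ * c * τ⁻¹ = c ^ 3 := by rw [hτ, mul_inv_cancel_right]
      calc τ ^ (n + 1) * c * (τ ^ (n + 1))⁻¹ = τ ^ n * (τ * c * τ⁻¹) * (τ ^ n)⁻¹ := by rw [pow_succ]; group
        _ = (τ ^ n * c * (τ ^ n)⁻¹) ^ 3 := by rw [h1, conj_pow]
        _ = c ^ (3 ^ (n + 1)) := by rw [ih, ← pow_mul, pow_succ]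
  have hmem : τ ∈ Subgroup.normalizer (B : Set G) := by
    rw [Subgroup.mem_normalizer_iff]
    intro h
    constructor
    · intro hh
      obtain ⟨n, rfl⟩ := Subgroup.mem_zpowers_iff.1 hh
      have h1 := hcon 1
      rw [pow_one] at h1
      rw [← conj_zpow, h1]
      exact Subgroup.zpow_mem _ (Subgroup.pow_mem _ (Subgroup.mem_zpowers c) _) _
    · intro hh
      obtain ⟨n, hn⟩ := Subgroup.mem_zpowers_iff.1 hh
      have h1 := hcon 1
      rw [pow_one] at h1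
      have h2 : τ * c ^ 5 * τ⁻¹ = c := by
        rw [← conj_pow, h1, ← pow_mul]
        show c ^ (3 ^ 1 * 5) = c
        rw [show 3 ^ 1 * 5 = 7 * 2 + 1 by norm_num, pow_add, pow_mul, hc7, one_pow, one_mul, pow_one]
      have h3 : h = (c ^ 5) ^ n := by
        have h4 : τ * h * τ⁻¹ = τ * (c ^ 5) ^ n * τ⁻¹ := by
          rw [← conj_zpow, h2, hn]
        exact mul_left_cancel (mul_right_cancel h4)
      rw [h3]
      exact Subgroup.zpow_mem _ (Subgroup.pow_mem _ (Subgroup.mem_zpowers c) _) _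
  have hcyc : IsCyclic B := inferInstance
  have hA : Nat.card (MulAut B) = 6 := by
    rw [IsCyclic.card_mulAut, hcard]
    decide
  set f := B.normalizerMonoidHom with hf
  have h1 : (Subgroup.centralizer (B : Set G)).relIndex (Subgroup.normalizer (B : Set G)) = Nat.card f.range := by
    rw [Subgroup.relIndex, ← Subgroup.normalizerMonoidHom_ker, Subgroup.index_ker]
  rw [h1]
  apply le_antisymm
  · rw [← hA]
    exact Nat.card_le_card_of_injective _ Subtype.val_injective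
  set F : f.range := ⟨f ⟨τ, hmem⟩, ⟨_, rfl⟩⟩ with hF
  have hpow : ∀ n : ℕ, F ^ n = 1 → c ^ (3 ^ n) = c := by
    intro n hn
    have h2 : f (⟨τ, hmem⟩ ^ n) = 1 := by
      rw [map_pow]; exact congrArg Subtype.val hn
    have h3 := congrArg (fun φ : MulAut B => ((φ ⟨c, Subgroup.mem_zpowers c⟩ : B) : G)) h2
    have h4 : ((f (⟨τ, hmem⟩ ^ n) ⟨c, Subgroup.mem_zpowers c⟩ : B) : G) = τ ^ n * c * (τ ^ n)⁻¹ := rfl
    have h5 : τ ^ n * c * (τ ^ n)⁻¹ = c := by rw [← h4]; exact h3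
    exact (hcon n).symm.trans h5
  have h6 : orderOf F = 6 := by
    have h7 : orderOf F ∣ 6 := by
      have h8 : orderOf F ∣ Nat.card f.range := orderOf_dvd_natCard F
      have h9 : Nat.card f.range ∣ Nat.card (MulAut B) := Subgroup.card_subgroup_dvd_card _
      rw [hA] at h9
      exact h8.trans h9
    have h8 := hpow _ (pow_orderOf_eq_one F)
    have h9 : ∀ m : ℕ, 0 < m → m < 7 → c ^ m ≠ 1 := by
      intro m hm hm7 h
      have := orderOf_dvd_of_pow_eq_one h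
      rw [hc] at this
      exact absurd (Nat.le_of_dvd hm this) (by omega)
    have h10 : orderOf F ≤ 6 := Nat.le_of_dvd (by norm_num) h7
    have h11 : 0 < orderOf F := orderOf_pos F
    interval_cases h12 : orderOf F
    · exfalso
      apply h9 2 (by norm_num) (by norm_num)
      have : c ^ 2 * c = 1 * c := by rw [one_mul, ← pow_succ]; exact h8
      exact mul_right_cancel this
    · exfalso
      apply h9 1 (by norm_num) (by norm_num)
      have : c ^ 1 * c = 1 * c := by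
        rw [one_mul, ← pow_succ]
        have h13 : c ^ (3 ^ 2) = c ^ 7 * c ^ 2 := by rw [← pow_add]; norm_num
        rw [h13, hc7, one_mul] at h8
        exact h8
      exact mul_right_cancel this
    · exfalso
      apply h9 5 (by norm_num) (by norm_num)
      have : c ^ 5 * c = 1 * c := by
        rw [one_mul, ← pow_succ]
        have h13 : c ^ (3 ^ 3) = (c ^ 7) ^ 3 * c ^ 6 := by rw [← pow_mul, ← pow_add]; norm_num
        rw [h13, hc7, one_pow, one_mul] at h8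
        exact h8
      exact mul_right_cancel this
    · omega
    · omega
    · rfl
  rw [← h6]
  exact Nat.le_of_dvd Nat.card_pos (orderOf_dvd_natCard F)

/-! ### data -/

theorem fr4_pair : ∃ d ∈ fr4, H9.CoMat.dg d 23 % 2 = 1 := by decide +kernel

theorem odd_pair : ∃ v1 ∈ Fx (gm Z), ∃ v2 ∈ Fx (gm Z), sqNorm (v1 : GolayPt → ℤ) = 64 ∧ sqNorm (v2 : GolayPt → ℤ) = 64 ∧
    ¬ (16 : ℤ) ∣ dot v1 v2 := by
  obtain ⟨d, hd, hodd⟩ := fr4_pair
  have h1 := shOK4
  rw [shOK, List.all_eq_true] at h1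
  have h2 := h1 d hd
  rw [Bool.and_eq_true, Bool.and_eq_true, decide_eq_true_eq] at h2
  obtain ⟨h3, h4, h5⟩ := h2
  refine ⟨lv d, lv_fx okZ h3 h4, e8 (pt 23), v0.2, ?_, ?_, ?_⟩
  · rw [nsq_eq (coe_lv h3)]; exact h5
  · rw [← fr_e8]; exact norm_fr _
  · rw [← fr_e8, dot_fr, coe_lv h3, H9.CoMat.vec_pt d (by norm_num)]
    omega

theorem no_inner {κ : Fx (gm Z) →+ (Fin 6 → ZMod 2)} (C : Crd Z 6 cs bs κ) {δ lam : Co0} (hδ : RepC δ BDi)
    (hinv : gm Z * (δ * gm Z) = δ) (hl : lam * gm Z = gm Z * lam) {u : leechLattice}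
    (h : δ • e8 (pt 23) = lam • e8 (pt 23) + (u + u)) : False := by
  obtain ⟨act, hact, hadd⟩ := exists_act κ C.surj C.ker
  have hF : ∀ v ∈ Fx (gm Z), δ • v ∈ Fx (gm Z) := by
    intro v hv
    rw [mem_Fx]
    conv_rhs => rw [← hinv, mul_smul, mul_smul, mem_Fx.1 hv]
  have h1 := C.img_lin okZ hF hδ (wfM_of chkDD) actD v0 (m := 1) (by norm_num) (kv0 C)
  obtain ⟨m, hm, h2⟩ := pres1 C hact hadd ⟨lam, mem_CC.2 hl⟩
  rw [← kv0 C, hact] at h2
  have h3 : κ ⟨δ • v0.1, hF v0.1 v0.2⟩ = κ (sm ⟨lam, mem_CC.2 hl⟩ v0) := by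
    rw [← sub_eq_zero, ← map_sub, C.ker]
    refine ⟨u, ?_⟩
    show δ • e8 (pt 23) - lam • e8 (pt 23) = u + u
    rw [h, add_sub_cancel_left]
  rw [h1, h2] at h3
  have h4 : ∀ m ∈ W1, m < 2 ^ 6 := by decide
  have h5 := bv_inj (n := 6) (by decide +kernel) (h4 m hm) h3
  have h6 : ∀ m ∈ W1, lin mDi 1 ≠ m := by decide +kernel
  exact h6 m hm h5

section
variable {G : Type*} [Group G] [Finite G] {z : G} {Q : Subgroup G} {Lab : leechLattice → G → Prop} {R : G → Co0 → Prop}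
  {q : leechLattice → ZMod 2} {b : leechLattice → leechLattice → ZMod 2}
variable {S A : Type} [Group S] [AddCommGroup A] {γ : Co0} {p : ℕ} {Φ : CC γ →* S} {κ : Fx γ →+ A}

/-- `z` is in the layer of the centralizer -/
theorem z_mem_layer (L : LF) (M : MonData z Q Lab R q b) (D : CoD γ p Φ κ) {w : ℕ} (hw : 2 ≤ w) (hAc : Nat.card A = 2 ^ (2 * w))
    (hcore : pCore 2 S = ⊥) {c : G} (hc : orderOf c = p) (hγ : R c γ) {v1 v2 : leechLattice} (hv1 : v1 ∈ Fx γ) (hv2 : v2 ∈ Fx γ)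
    (hdot : ¬ (16 : ℤ) ∣ dot v1 v2)
    (hconj : ∀ v ∈ Fx γ, (v = v1 ∨ v = v2) → ∀ x, Lab v x → ∃ k, k * c = c * k ∧ k * z * k⁻¹ = x)
    (hzH : z ∈ HH c) : (⟨z, hzH⟩ : HH c) ∈ layer (HH c) := by
  have hc7 : c ^ p = 1 := by rw [← hc]; exact pow_orderOf_eq_one c
  have hcz := M.R_comm hγ
  have hcent : ∀ n ∈ (Subgroup.zpowers c).subgroupOf (HH c), ∀ x, n * x = x * n := by
    intro n hn x
    apply Subtype.ext
    obtain ⟨i, hi⟩ := Subgroup.mem_zpowers_iff.1 (show n.1 ∈ Subgroup.zpowers c from hn)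
    show n.1 * x.1 = x.1 * n.1
    rw [← hi]
    exact ((Commute.zpow_right (show Commute x.1 c from mem_HH.1 x.2) i).eq).symm
  have hn : ((Subgroup.zpowers c).subgroupOf (HH c)).Normal := by
    constructor
    intro n hn g
    have : g * n * g⁻¹ = n := by rw [← hcent n hn g, mul_inv_cancel_right]
    rw [this]; exact hn
  have hA : 1 < Nat.card A := by
    rw [hAc]; exact Nat.one_lt_two_pow (by omega)
  obtain ⟨x1, hx1⟩ := M.lab_ex v1
  obtain ⟨x2, hx2⟩ := M.lab_ex v2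
  have hx1c := comm_of_fixed M D hc7 hγ hv1 hx1
  have hx2c := comm_of_fixed M D hc7 hγ hv2 hx2
  have hx1Q := M.lab_mem hx1
  have hx2Q := M.lab_mem hx2
  have hne : x1 * x2 ≠ x2 * x1 := by
    intro h
    apply hdot
    rw [← H91.BabyCore.b_iff L M.form (exists_q_ne M)]
    exact (M.b_lab hx1 hx2).2 h
  obtain ⟨k1, hk1c, hk1⟩ := hconj v1 hv1 (Or.inl rfl) x1 hx1
  obtain ⟨k2, hk2c, hk2⟩ := hconj v2 hv2 (Or.inr rfl) x2 hx2
  have hx1z : x1 ≠ z := by
    rintro rfl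
    exact hne (M.pack.zc x2 hx2Q).symm
  obtain ⟨h1, Q', hN, h2, h3, h4, h5, h6⟩ := red M D hc7 hγ hA hcore hzH
  have hinjQ : ∀ x y : HH c, x.1 ∈ Q → y.1 ∈ Q → (QuotientGroup.mk x : HH c ⧸ (Subgroup.zpowers c).subgroupOf (HH c)) = QuotientGroup.mk y → x = y := by
    intro x y hx hy h
    rw [QuotientGroup.eq, Subgroup.mem_subgroupOf] at h
    have h7 := inter_eq M D.prime D.odd hc7 h (Q.mul_mem (Q.inv_mem hx) hy)
    have h8 : x.1⁻¹ * y.1 = 1 := h7
    exact Subtype.ext (inv_mul_eq_one.1 h8)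
  have hmk : ∀ {k x : G} (hk : k ∈ HH c) (hx : x ∈ HH c), k * z * k⁻¹ = x →
      (QuotientGroup.mk (⟨k, hk⟩ : HH c) : HH c ⧸ (Subgroup.zpowers c).subgroupOf (HH c)) * QuotientGroup.mk ⟨z, hzH⟩ * (QuotientGroup.mk (⟨k, hk⟩ : HH c))⁻¹ =
        QuotientGroup.mk ⟨x, hx⟩ := by
    intro k x hk hx h
    rw [← QuotientGroup.mk_mul, ← QuotientGroup.mk_inv, ← QuotientGroup.mk_mul]
    congr 1
    exact Subtype.ext h
  have hset : IsExtraspecialCentralizerSetting (QuotientGroup.mk (⟨z, hzH⟩ : HH c) : HH c ⧸ (Subgroup.zpowers c).subgroupOf (HH c)) Q' w := by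
    refine ⟨h1, h2, h3, ?_, ?_⟩
    · rw [h4, hAc]; ring
    · have hsH : x1 ∈ HH c := mem_HH.2 hx1c
      have he := hmk (mem_HH.2 hk1c) hsH hk1
      refine ⟨QuotientGroup.mk ⟨k1, mem_HH.2 hk1c⟩, ?_, ?_⟩
      · rw [he]
        refine ⟨?_, ?_⟩
        · rw [Subgroup.mem_centralizer_singleton_iff, ← QuotientGroup.mk_mul, ← QuotientGroup.mk_mul]
          congr 1
          exact Subtype.ext (M.pack.zc x1 hx1Q)
        · rw [h6]
          exact ⟨⟨x1, hsH⟩, hx1Q, rfl⟩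
      · rw [he]
        intro h
        exact hx1z (congrArg Subtype.val (hinjQ ⟨x1, hsH⟩ ⟨z, hzH⟩ hx1Q M.pack.zQ h))
  have hL := H33.MonLay.lpack hw hset
  refine H33.MonLay.mem_layer ((Subgroup.zpowers c).subgroupOf (HH c)) hcent (Subtype.ext M.pack.zz) D.odd ?_ ?_ hL ?_
  · intro n hn
    obtain ⟨i, hi⟩ := Subgroup.mem_zpowers_iff.1 (show n.1 ∈ Subgroup.zpowers c from hn)
    apply Subtype.ext
    show n.1 ^ p = 1
    rw [← hi, ← zpow_natCast, ← zpow_mul, mul_comm, zpow_mul, zpow_natCast, hc7, one_zpow]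
  · intro h
    exact M.pack.z1 (inter_eq M D.prime D.odd hc7 (show z ∈ Subgroup.zpowers c from h) M.pack.zQ)
  · intro h
    obtain ⟨hcomm, -⟩ := H91.LargeLayer.case_core hL h _ rfl
    have hin : ∀ {k x : G} (hk : k ∈ HH c) (hx : x ∈ HH c), k * z * k⁻¹ = x →
        (QuotientGroup.mk (⟨x, hx⟩ : HH c) : HH c ⧸ (Subgroup.zpowers c).subgroupOf (HH c)) ∈
          Subgroup.normalClosure ({QuotientGroup.mk (⟨z, hzH⟩ : HH c)} : Set (HH c ⧸ (Subgroup.zpowers c).subgroupOf (HH c))) := by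
      intro k x hk hx h
      rw [← hmk hk hx h]
      exact Subgroup.normalClosure_normal.conj_mem _ (Subgroup.subset_normalClosure (Set.mem_singleton _)) _
    have e1 := hin (mem_HH.2 hk1c) (mem_HH.2 hx1c) hk1
    have e2 := hin (mem_HH.2 hk2c) (mem_HH.2 hx2c) hk2
    have e3 := hcomm.is_comm.comm ⟨_, e1⟩ ⟨_, e2⟩
    have e4 := congrArg Subtype.val e3
    have e5 : (QuotientGroup.mk (⟨x1, mem_HH.2 hx1c⟩ * ⟨x2, mem_HH.2 hx2c⟩ : HH c) : HH c ⧸ (Subgroup.zpowers c).subgroupOf (HH c)) =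
        QuotientGroup.mk (⟨x2, mem_HH.2 hx2c⟩ * ⟨x1, mem_HH.2 hx1c⟩ : HH c) := e4
    have e6 := hinjQ _ _ (Q.mul_mem hx1Q hx2Q) (Q.mul_mem hx2Q hx1Q) e5
    exact hne (congrArg Subtype.val e6)
end

end H33.MonSev
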