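import Mathlib
import Cfsg.Agent.Lib.H33.MonSev
import Cfsg.Agent.Lib.H33.MonHeld

set_option autoImplicit false

/-! The normalizer of an element of order 7 in a group of Monster type: the main theorem. -/

namespace H33.MonSev

open Cfsg H91.MonData H91.MonType H91.LargePair H91.LeechTools H91.InvForm H91.MonConj H91.MonCross H33.MonRed H33.MonCo H33.MonFus
open H9.LeechGood (e8 co0_add co0_neg co0_sub co0_zero coe_e8)
open H33.MonP7 H33.MonN7
open H8.GolayCode H8.GolayCount H8.GolayBasic H9.CoMat H40.PermCode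
open H94.M24Seven (Z okZ)

theorem transp {C : Type*} [Group C] {g γ δ k : C} {a j : ℕ} (h : δ * g = g ^ a * δ) (hkj : k * γ * k⁻¹ = g ^ j) :
    (k⁻¹ * δ * k) * γ = γ ^ a * (k⁻¹ * δ * k) := by
  have h1 : δ * g * δ⁻¹ = g ^ a := by rw [h, mul_inv_cancel_right]
  have h2 : γ = k⁻¹ * g ^ j * k := by rw [← hkj]; group
  have h3 : δ * g ^ j * δ⁻¹ = (g ^ j) ^ a := by
    rw [← conj_pow, h1, ← pow_mul, ← pow_mul, mul_comm]
  have h4 : (k⁻¹ * g ^ j * k) ^ a = k⁻¹ * (g ^ j) ^ a * k := by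
    have := conj_pow (i := a) (a := k⁻¹) (b := g ^ j)
    rwa [inv_inv] at this
  rw [h2, h4, ← h3]
  group

/-- conjugation preserves the layer -/
theorem layer_conj {G : Type*} [Group G] {H : Subgroup G} {t : G} (ht : ∀ x, x ∈ H ↔ t * x * t⁻¹ ∈ H) {x : G}
    (hx : x ∈ (layer H).map H.subtype) : t * x * t⁻¹ ∈ (layer H).map H.subtype := by
  let e : H ≃* H :=
    { toFun := fun x => ⟨t * x.1 * t⁻¹, (ht x.1).1 x.2⟩
      invFun := fun x => ⟨t⁻¹ * x.1 * t, (ht _).2 (by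
        have : t * (t⁻¹ * x.1 * t) * t⁻¹ = x.1 := by group
        rw [this]; exact x.2)⟩
      left_inv := fun x => Subtype.ext (by show t⁻¹ * (t * x.1 * t⁻¹) * t = x.1; group)
      right_inv := fun x => Subtype.ext (by show t * (t⁻¹ * x.1 * t) * t⁻¹ = x.1; group)
      map_mul' := fun x y => Subtype.ext (by show t * (x.1 * y.1) * t⁻¹ = (t * x.1 * t⁻¹) * (t * y.1 * t⁻¹); group) }
  obtain ⟨y, hy, rfl⟩ := hx
  refine ⟨e y, ?_, rfl⟩
  have h1 : e y ∈ (layer H).map (e : H →* H) := ⟨y, hy, rfl⟩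
  rw [H26.Components.map_layer_mulEquiv] at h1
  exact h1

section
variable {G : Type*} [Group G] [Finite G] {z : G} {Q : Subgroup G} {Lab : leechLattice → G → Prop} {R : G → Co0 → Prop}
  {q : leechLattice → ZMod 2} {b : leechLattice → leechLattice → ZMod 2}
variable {γ : Co0} {Φ : CC γ →* H33.SL32.S3} {κ : Fx γ →+ (Fin 6 → ZMod 2)}

theorem main (L : LF) (M : MonData z Q Lab R q b) (D : CoD γ 7 Φ κ) {c : G} (hc : orderOf c = 7) (hγ : R c γ) (hγ7 : γ ^ 7 = 1)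
    (hγ1 : γ ≠ 1) {k : Co0} {j : ℕ} (hkj : k * γ * k⁻¹ = gm Z ^ j) {s : G} (hsQ : s ∈ Q) (hs : IsConj z s) (hs1 : s ≠ z) :
    (Subgroup.centralizer ((Subgroup.zpowers c : Subgroup G) : Set G)).relIndex
      (Subgroup.normalizer ((Subgroup.zpowers c : Subgroup G) : Set G)) = 6 ∧
    ∃ t : G, orderOf t = 2 ∧ (∀ b ∈ Subgroup.zpowers c, t * b * t⁻¹ = b⁻¹) ∧
      (∀ x ∈ (Cfsg.layer ↥(HH c)).map (HH c).subtype, t * x * t⁻¹ ∈ (Cfsg.layer ↥(HH c)).map (HH c).subtype) ∧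
      ¬ ∃ l ∈ (Cfsg.layer ↥(HH c)).map (HH c).subtype, ∀ x ∈ (Cfsg.layer ↥(HH c)).map (HH c).subtype, t * x * t⁻¹ = l * x * l⁻¹ := by
  have hc7 : c ^ 7 = 1 := by rw [← hc]; exact pow_orderOf_eq_one c
  have hcz := M.R_comm hγ
  have hzH : z ∈ HH c := mem_HH.2 hcz.symm
  obtain ⟨δ, m, ε, hinv, hδ2, hδm, hε, hδrep⟩ := dataN
  obtain ⟨h, hh⟩ := exists_h
  have hδg : δ * gm Z = gm Z ^ 6 * δ := by
    have h1 : δ * gm Z = (gm Z)⁻¹ * δ := by
      calc δ * gm Z = (gm Z)⁻¹ * (gm Z * (δ * gm Z)) := by group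
        _ = (gm Z)⁻¹ * δ := by rw [hinv]
    have h2 : (gm Z)⁻¹ = gm Z ^ 6 := by
      rw [inv_eq_iff_mul_eq_one, ← pow_succ']; exact gm7
    rw [h1, h2]
  -- the index
  obtain ⟨τ, -, hτ⟩ := lift_pow M (p := 7) (by norm_num) (by norm_num) hc hγ (a := 3) (by norm_num)
    (transp (g := gm Z) (δ := δ * h) (a := 3) (j := j) (k := k) (by
      have h1 : δ * gm Z * δ⁻¹ = gm Z ^ 6 := by rw [hδg, mul_inv_cancel_right]
      have h2 : δ * gm Z ^ 4 * δ⁻¹ = gm Z ^ 3 := by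
        rw [← conj_pow, h1, ← pow_mul, show 6 * 4 = 7 * 3 + 3 by norm_num, pow_add, pow_mul, gm7, one_pow, one_mul]
      calc δ * h * gm Z = δ * (h * gm Z) := by group
        _ = δ * (gm Z ^ 4 * h) := by rw [hh]
        _ = (δ * gm Z ^ 4 * δ⁻¹) * (δ * h) := by group
        _ = _ := by rw [h2]) hkj)
  refine ⟨relIndex_six hc hτ, ?_⟩
  -- the involution
  obtain ⟨g, hg⟩ := isConj_iff.1 hs
  have hδ'2 : (k⁻¹ * δ * k) * (k⁻¹ * δ * k) = 1 := by
    calc (k⁻¹ * δ * k) * (k⁻¹ * δ * k) = k⁻¹ * (δ * δ) * k := by group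
      _ = 1 := by rw [hδ2]; group
  obtain ⟨t, htt, ht⟩ := exists_invol L M (g := g) (by rw [hg]; exact hsQ) (by rw [hg]; exact hs1) hε (k⁻¹ * m)
  have hδ' : (k⁻¹ * m) * ε * (k⁻¹ * m)⁻¹ = k⁻¹ * δ * k := by
    calc (k⁻¹ * m) * ε * (k⁻¹ * m)⁻¹ = k⁻¹ * (m * ε) * m⁻¹ * k := by group
      _ = k⁻¹ * (δ * m) * m⁻¹ * k := by rw [hδm]
      _ = _ := by group
  rw [hδ'] at ht
  obtain ⟨t1, ht1, hRt1, ht1c⟩ := exists_inverting M D hc hγ (transp hδg hkj) hδ'2 htt ht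
  have ht1con : t1 * c * t1⁻¹ = c⁻¹ := by
    rw [ht1c, mul_inv_cancel_right, eq_comm, inv_eq_iff_mul_eq_one, ← pow_succ']; exact hc7
  have ht1B : ∀ b ∈ Subgroup.zpowers c, t1 * b * t1⁻¹ = b⁻¹ := by
    intro b hb
    obtain ⟨n, rfl⟩ := Subgroup.mem_zpowers_iff.1 hb
    rw [← conj_zpow, ht1con, inv_zpow]
  have ht1ne : t1 ≠ 1 := by
    rintro rfl
    have h1 : c * c = 1 := by
      have : c = c⁻¹ := by rw [← ht1con]; group
      nth_rewrite 1 [this]
      exact inv_mul_cancel c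
    have h2 := orderOf_dvd_of_pow_eq_one (x := c) (n := 2) (by rw [pow_two]; exact h1)
    rw [hc] at h2
    omega
  have ht1inv : t1⁻¹ = t1 := inv_eq_of_mul_eq_one_left ht1
  have hnorm : ∀ x, x ∈ HH c ↔ t1 * x * t1⁻¹ ∈ HH c := by
    have h1 : ∀ x, x ∈ HH c → t1 * x * t1⁻¹ ∈ HH c := by
      intro x hx
      rw [mem_HH] at hx ⊢
      have h2 : t1 * c⁻¹ * t1⁻¹ = c := by rw [← ht1con]; rw [ht1inv]; calc
          t1 * (t1 * c * t1) * t1 = (t1 * t1) * c * (t1 * t1) := by group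
          _ = c := by rw [ht1]; group
      have h3 : x * c⁻¹ = c⁻¹ * x := (show Commute x c from hx).inv_right.eq
      calc t1 * x * t1⁻¹ * c = t1 * x * t1⁻¹ * (t1 * c⁻¹ * t1⁻¹) := by rw [h2]
        _ = t1 * (x * c⁻¹) * t1⁻¹ := by group
        _ = t1 * (c⁻¹ * x) * t1⁻¹ := by rw [h3]
        _ = (t1 * c⁻¹ * t1⁻¹) * (t1 * x * t1⁻¹) := by group
        _ = c * (t1 * x * t1⁻¹) := by rw [h2]
    intro x
    refine ⟨h1 x, fun hx => ?_⟩
    have h2 := h1 _ hx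
    have h3 : t1 * (t1 * x * t1⁻¹) * t1⁻¹ = x := by
      rw [ht1inv]
      calc t1 * (t1 * x * t1) * t1 = (t1 * t1) * x * (t1 * t1) := by group
        _ = x := by rw [ht1]; group
    rwa [h3] at h2
  refine ⟨t1, orderOf_eq_prime (by rw [pow_two]; exact ht1) ht1ne, ht1B, fun x hx => layer_conj hnorm hx, ?_⟩
  rintro ⟨l, hl, hall⟩
  -- fusion
  have hfuse : ∀ v ∈ Fx γ, sqNorm (v : GolayPt → ℤ) = 64 → ∀ x, Lab v x → ∃ k', k' * c = c * k' ∧ k' * z * k'⁻¹ = x := by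
    intro v hv hv64 x hx
    have hxQ := M.lab_mem hx
    obtain ⟨h1, h2⟩ := (conj_iff L M hs hsQ hs1 hxQ).2 ⟨v, hv64, hx⟩
    exact fuse_sylow L M (p := 7) (by norm_num) (by norm_num) fact7 hxQ h1 h2 hcz (comm_of_fixed M D hc7 hγ hv hx).symm hc
  have hpull : ∀ v ∈ Fx (gm Z), k⁻¹ • v ∈ Fx γ := by
    intro v hv
    rw [mem_Fx]
    have h1 : γ * k⁻¹ = k⁻¹ * gm Z ^ j := by rw [← hkj]; group
    have h2 : gm Z ^ j • v = v := by
      have h3 := pow_triv (gm Z) j v hv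
      clear h3
      induction j with
      | zero => rw [pow_zero, one_smul]
      | succ n ih => 
        clear ih
        have : ∀ n : ℕ, gm Z ^ n • v = v := by
          intro n
          induction n with
          | zero => rw [pow_zero, one_smul]
          | succ n ih => rw [pow_succ, mul_smul, mem_Fx.1 hv, ih]
        exact this _
    rw [← mul_smul, h1, mul_smul, h2]
  obtain ⟨w1, hw1, w2, hw2, hn1, hn2, hdot⟩ := odd_pair
  have hzl : (⟨z, hzH⟩ : HH c) ∈ layer (HH c) := by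
    apply z_mem_layer L M D (w := 3) (by norm_num) ?_ H33.SL32.pcore hc hγ (hpull w1 hw1) (hpull w2 hw2)
    · rw [dot_smul]; exact hdot
    · rintro v hv (rfl | rfl) x hx
      · exact hfuse _ hv (by rw [H91.LeechTools.norm_smul]; exact hn1) x hx
      · exact hfuse _ hv (by rw [H91.LeechTools.norm_smul]; exact hn2) x hx
    · rw [Nat.card_eq_fintype_card, Fintype.card_fun, ZMod.card, Fintype.card_fin]
  have hzl' : z ∈ (layer (HH c)).map (HH c).subtype := ⟨_, hzl, rfl⟩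
  obtain ⟨l', hl', rfl⟩ := hl
  have hlc : (l' : G) * c = c * l' := mem_HH.1 l'.2
  have ht1z := M.R_comm hRt1
  have hlz : (l' : G) * z = z * l' := by
    have h1 := hall z hzl'
    rw [ht1z, mul_inv_cancel_right] at h1
    rw [eq_comm, mul_inv_eq_iff_eq_mul] at h1
    exact h1
  obtain ⟨lam, hlam⟩ := M.R_ex' hlz
  have hlamγ := comm_gamma M (p := 7) (by decide) hγ7 hγ hlc hlam
  -- the element over the frame vector
  set v := k⁻¹ • e8 (pt 23) with hv
  have hvF : v ∈ Fx γ := hpull _ v0.2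
  obtain ⟨x, hx⟩ := M.lab_ex v
  obtain ⟨k1, hk1c, hk1⟩ := hfuse v hvF (by rw [hv, H91.LeechTools.norm_smul, ← fr_e8]; exact norm_fr _) x hx
  have hxl : x ∈ (layer (HH c)).map (HH c).subtype := by
    have hn : (layer (HH c)).Normal := by
      have := H26.Components.layer_characteristic (G := HH c)
      infer_instance
    refine ⟨⟨k1, mem_HH.2 hk1c⟩ * ⟨z, hzH⟩ * ⟨k1, mem_HH.2 hk1c⟩⁻¹, hn.conj_mem _ hzl _, hk1⟩
  have h1 := hall x hxl
  have h2 := M.R_conj hRt1 hx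
  rw [h1] at h2
  have h3 := M.R_conj hlam hx
  obtain ⟨u, hu⟩ := lab_congr M h2 h3
  obtain ⟨κ0, C⟩ := exists_crd7
  refine no_inner C hδrep hinv (lam := k * lam * k⁻¹) ?_ (u := k • u) ?_
  · -- commutes with `gm Z`
    have h4 : Commute (k * lam * k⁻¹) (gm Z ^ j) := by
      show (k * lam * k⁻¹) * gm Z ^ j = gm Z ^ j * (k * lam * k⁻¹)
      rw [← hkj]
      calc (k * lam * k⁻¹) * (k * γ * k⁻¹) = k * (lam * γ) * k⁻¹ := by group
        _ = k * (γ * lam) * k⁻¹ := by rw [hlamγ]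
        _ = _ := by group
    have h5 : orderOf (gm Z) = 7 := orderOf_eq_prime gm7 gm_ne
    have h6 : j.Coprime (orderOf (gm Z)) := by
      rw [h5]
      apply Nat.Coprime.symm
      rw [Nat.Prime.coprime_iff_not_dvd (by norm_num)]
      rintro ⟨i, rfl⟩
      rw [pow_mul, gm7, one_pow] at hkj
      apply hγ1
      have : k * γ = k := by rw [mul_inv_eq_one] at hkj; exact hkj
      exact mul_left_cancel (this.trans (mul_one k).symm)
    obtain ⟨i, hi⟩ := exists_pow_eq_self_of_coprime h6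
    have h7 := h4.pow_right i
    rw [hi] at h7
    exact h7.eq
  · have h4 := congrArg (fun w => k • w) hu
    have h5 : k • ((k⁻¹ * δ * k) • v) = δ • e8 (pt 23) := by
      rw [hv, ← mul_smul, ← mul_smul]
      congr 1
      group
    have h6 : k • (lam • v + (u + u)) = (k * lam * k⁻¹) • e8 (pt 23) + (k • u + k • u) := by
      rw [co0_add, co0_add, hv, ← mul_smul, ← mul_smul]
    rw [← h5, ← h6]
    exact h4
end

end H33.MonSev
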