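import Cfsg.Agent.Lib.H33.Fisch6

/-! The polar space of a class of 3-transpositions with nontrivial `V`-classes in `D_x`. -/

set_option autoImplicit false

namespace H33.Pol

open Cfsg H90.ThreeTrans H90.ThreeTransB H90.WidthOne H90.ThreeTransC H90.ThreeTransE H90.ThreeTransG H90.ThreeTransH
  H33.Fisch

/-- a set with a fixed point free involution has even cardinality -/
theorem even_ncard {α : Type*} {S : Set α} (hS : S.Finite) (f : α → α) (h1 : ∀ a ∈ S, f a ∈ S) (h2 : ∀ a ∈ S, f (f a) = a)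
    (h3 : ∀ a ∈ S, f a ≠ a) : Even S.ncard := by
  classical
  have hp := Finset.prod_involution (s := hS.toFinset) (f := fun _ => (-1 : ℤ)) (fun a _ => f a)
    (by intro a _; norm_num) (by intro a ha _; exact h3 a (by simpa using ha))
    (by intro a ha; simpa using h1 a (by simpa using ha)) (by intro a ha; exact h2 a (by simpa using ha))
  rw [Finset.prod_const, ← Set.ncard_eq_toFinset_card S hS] at hp
  exact (neg_one_pow_eq_one_iff_even (by norm_num)).1 hp

variable {G : Type*} [Group G]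

/-- The hypotheses: a primitive class of 3-transpositions, with nontrivial `V`-classes in some `D_x`. -/
structure Ctx (D : Set G) : Prop where
  cls : IsThreeTranspositionClass D
  hV : ∀ x ∈ D, ∀ y ∈ D, VRel D x y → x = y
  hW : ∀ x ∈ D, ∀ y ∈ D, WRel D x y → x = y
  comp : ∀ x ∈ D, ∀ e ∈ Dn D x, ∀ f ∈ Dn D x, f ∈ H90.ThreeTransH.comp (Dn D x) e
  nt : ∃ x ∈ D, ∃ u ∈ Dn D x, ∃ u' ∈ Dn D x, u' ≠ u ∧ VRel (Dn D x) u u'

variable {D : Set G}

theorem Ctx.grp (h : Ctx D) : IsThreeTranspositionGroup D := group_of_class h.cls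

theorem Ctx.set (h : Ctx D) : IsThreeTranspositionSet D := h.cls.1

/-- the members of `D` commuting with both -/
def C (D : Set G) (x u : G) : Set G := {e | e ∈ D ∧ Commute x e ∧ Commute u e}

/-- the line -/
def Ln (D : Set G) (x u : G) : Set G := {p | p ∈ D ∧ ∀ e ∈ C D x u, Commute p e}

/-- noncommuting product conjugates -/
theorem conj_prod {a b : G} (hD : IsThreeTranspositionSet D) (ha : a ∈ D) (hb : b ∈ D) (hab : ¬ Commute a b) :
    (a * b) * a * (a * b)⁻¹ = b := by
  rw [mul_inv_rev, inv_eq hD ha, inv_eq hD hb]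
  calc a * b * a * (b * a) = (a * b * a) * b * a := by simp only [mul_assoc]
    _ = (b * a * b) * b * a := by rw [braid hD ha hb hab]
    _ = b * a * (b * b) * a := by simp only [mul_assoc]
    _ = b * (a * a) := by rw [mul_self hD hb, mul_one]; simp only [mul_assoc]
    _ = b := by rw [mul_self hD ha, mul_one]

/-- transitivity of `L_x` on `D_x` -/
theorem Ctx.trans_in (h : Ctx D) {x e f : G} (hx : x ∈ D) (he : e ∈ Dn D x) (hf : f ∈ Dn D x) :
    ∃ g ∈ Subgroup.closure (Dn D x), g * e * g⁻¹ = f := by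
  have hp := (h.comp x hx e he f hf).2
  unfold Pth at hp
  induction hp with
  | refl => exact ⟨1, Subgroup.one_mem _, by group⟩
  | @tail b c _ hstep ih =>
    obtain ⟨hb, hc, hbc⟩ := hstep
    obtain ⟨g, hg, hge⟩ := ih hb
    refine ⟨(b * c) * g, Subgroup.mul_mem _ (Subgroup.mul_mem _ (Subgroup.subset_closure hb) (Subgroup.subset_closure hc)) hg, ?_⟩
    rw [mul_inv_rev]
    calc b * c * g * e * (g⁻¹ * (b * c)⁻¹) = (b * c) * (g * e * g⁻¹) * (b * c)⁻¹ := by simp only [mul_assoc]
      _ = c := by rw [hge]; exact conj_prod h.set hb.1 hc.1 hbc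

theorem closure_Dn_comm {x g : G} (hg : g ∈ Subgroup.closure (Dn D x)) : Commute x g := by
  have hle : Subgroup.closure (Dn D x) ≤ Subgroup.centralizer {x} := by
    rw [Subgroup.closure_le]
    intro y hy
    rw [SetLike.mem_coe, Subgroup.mem_centralizer_iff]
    intro z hz
    rw [Set.mem_singleton_iff] at hz
    rw [hz]
    exact hy.2.2
  exact Subgroup.mem_centralizer_iff.1 (hle hg) x rfl

theorem conj_of_comm {x g : G} (h : Commute x g) : g * x * g⁻¹ = x := by rw [← h.eq]; group

/-- transitivity on commuting pairs -/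
theorem Ctx.trans_pair (h : Ctx D) {x u x' u' : G} (hx : x ∈ D) (hu : u ∈ Dn D x) (hx' : x' ∈ D) (hu' : u' ∈ Dn D x') :
    ∃ g : G, g * x * g⁻¹ = x' ∧ g * u * g⁻¹ = u' := by
  obtain ⟨g, rfl⟩ := exists_conj_eq h.cls hx hx'
  have hu1 : g * u * g⁻¹ ∈ Dn D (g * x * g⁻¹) := by rw [Dn_conj h.grp]; exact ⟨u, hu, rfl⟩
  obtain ⟨k, hk, hku⟩ := h.trans_in hx' hu1 hu'
  refine ⟨k * g, ?_, ?_⟩
  · rw [mul_inv_rev]
    calc k * g * x * (g⁻¹ * k⁻¹) = k * (g * x * g⁻¹) * k⁻¹ := by simp only [mul_assoc]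
      _ = _ := conj_of_comm (closure_Dn_comm hk)
  · rw [mul_inv_rev, ← hku]
    simp only [mul_assoc]

theorem C_conj (hG : IsThreeTranspositionGroup D) (g x u : G) :
    C D (g * x * g⁻¹) (g * u * g⁻¹) = (fun y => g * y * g⁻¹) '' C D x u := by
  ext y
  constructor
  · rintro ⟨h1, h2, h3⟩
    have e : y = g * (g⁻¹ * y * g) * g⁻¹ := by group
    rw [e, comm_conj_iff] at h2 h3
    exact ⟨g⁻¹ * y * g, ⟨conj_mem' hG g h1, h2, h3⟩, e.symm⟩
  · rintro ⟨w, ⟨h1, h2, h3⟩, rfl⟩
    exact ⟨conj_mem hG g h1, (comm_conj_iff _ _ _).2 h2, (comm_conj_iff _ _ _).2 h3⟩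

theorem Ln_conj (hG : IsThreeTranspositionGroup D) (g x u p : G) :
    g * p * g⁻¹ ∈ Ln D (g * x * g⁻¹) (g * u * g⁻¹) ↔ p ∈ Ln D x u := by
  unfold Ln
  simp only [Set.mem_setOf_eq]
  rw [C_conj hG, conj_mem_iff hG]
  apply and_congr_right
  intro _
  constructor
  · intro h e he
    exact (comm_conj_iff g p e).1 (h _ ⟨e, he, rfl⟩)
  · rintro h _ ⟨e, he, rfl⟩
    exact (comm_conj_iff g p e).2 (h e he)

theorem C_symm (x u : G) : C D x u = C D u x := by
  ext e
  exact ⟨fun h => ⟨h.1, h.2.2, h.2.1⟩, fun h => ⟨h.1, h.2.2, h.2.1⟩⟩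

theorem Ln_symm (x u : G) : Ln D x u = Ln D u x := by
  unfold Ln; rw [C_symm]

variable [Finite G]

theorem Ctx.C_ncard (h : Ctx D) {x u x' u' : G} (hx : x ∈ D) (hu : u ∈ Dn D x) (hx' : x' ∈ D) (hu' : u' ∈ Dn D x') :
    (C D x u).ncard = (C D x' u').ncard := by
  obtain ⟨g, rfl, rfl⟩ := h.trans_pair hx hu hx' hu'
  rw [C_conj h.grp]
  exact (Set.ncard_image_of_injective _ (conj_inj g)).symm

section
variable (h : Ctx D)
include h
variable {x u p p' z : G} (hx : x ∈ D) (hu : u ∈ Dn D x)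
include hx hu

omit [Finite G] h in
theorem left_mem_Ln : x ∈ Ln D x u := ⟨hx, fun _ he => he.2.1⟩
omit [Finite G] h hx in
theorem right_mem_Ln : u ∈ Ln D x u := ⟨hu.1, fun _ he => he.2.2⟩

omit [Finite G] h in
theorem Ln_comm_left (hp : p ∈ Ln D x u) : Commute x p := (hp.2 x ⟨hx, Commute.refl x, hu.2.2.symm⟩).symm
omit [Finite G] h hx in
theorem Ln_comm_right (hp : p ∈ Ln D x u) : Commute u p := (hp.2 u ⟨hu.1, hu.2.2, Commute.refl u⟩).symm
omit [Finite G] h in
theorem Ln_comm (hp : p ∈ Ln D x u) (hp' : p' ∈ Ln D x u) : Commute p p' :=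
  hp.2 p' ⟨hp'.1, Ln_comm_left hx hu hp', Ln_comm_right hu hp'⟩

/-- any two points of a line have the same common neighbours -/
theorem Ctx.C_eq (hp : p ∈ Ln D x u) (hp' : p' ∈ Ln D x u) (hne : p ≠ p') : C D p p' = C D x u := by
  symm
  apply Set.eq_of_subset_of_ncard_le
  · intro e he
    exact ⟨he.1, hp.2 e he, hp'.2 e he⟩
  · rw [h.C_ncard hx hu hp.1 ⟨hp'.1, hne.symm, Ln_comm hx hu hp hp'⟩]
  · exact Set.toFinite _

theorem Ctx.Ln_eq (hp : p ∈ Ln D x u) (hp' : p' ∈ Ln D x u) (hne : p ≠ p') : Ln D p p' = Ln D x u := by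
  unfold Ln; rw [h.C_eq hx hu hp hp' hne]

/-- commuting with two points of a line means commuting with all -/
theorem Ctx.two_all (hz : z ∈ D) (hp : p ∈ Ln D x u) (hp' : p' ∈ Ln D x u) (hne : p ≠ p') (h1 : Commute z p)
    (h2 : Commute z p') : ∀ r ∈ Ln D x u, Commute z r := by
  intro r hr
  have : z ∈ C D p p' := ⟨hz, h1.symm, h2.symm⟩
  rw [h.C_eq hx hu hp hp' hne] at this
  exact (hr.2 z this).symm

/-- the `V`-classes of `D_x` -/
theorem Ctx.mem_Ln_iff : (p ∈ Ln D x u ∧ p ≠ x) ↔ (p ∈ Dn D x ∧ VRel (Dn D x) u p) := by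
  constructor
  · rintro ⟨hp, hpx⟩
    refine ⟨⟨hp.1, hpx, Ln_comm_left hx hu hp⟩, ?_⟩
    intro e he
    have h1 := h.C_eq hx hu (left_mem_Ln hx hu) hp (Ne.symm hpx)
    have h2 := Set.ext_iff.1 h1 e
    constructor
    · intro hc
      exact (h2.1 ⟨he.1, he.2.2, hc⟩).2.2
    · intro hc
      exact (h2.2 ⟨he.1, he.2.2, hc⟩).2.2
  · rintro ⟨hp, hR⟩
    refine ⟨⟨hp.1, ?_⟩, hp.2.1⟩
    rintro e ⟨he, hxe, hue⟩
    by_cases hex : e = x
    · rw [hex]; exact hp.2.2.symm
    · exact (hR e ⟨he, hex, hxe⟩).2 hue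

theorem Ctx.exists_third : ∃ p ∈ Ln D x u, p ≠ x ∧ p ≠ u := by
  obtain ⟨x0, hx0, u0, hu0, u1, hu1, hne, hR⟩ := h.nt
  have h1 := (h.mem_Ln_iff hx0 hu0).2 ⟨hu1, hR⟩
  obtain ⟨g, rfl, rfl⟩ := h.trans_pair hx0 hu0 hx hu
  exact ⟨g * u1 * g⁻¹, (Ln_conj h.grp g _ _ _).2 h1.1, fun hh => h1.2 (mul_left_cancel (mul_right_cancel hh)),
    fun hh => hne (mul_left_cancel (mul_right_cancel hh))⟩

/-- every member of `D_x` has a noncommuting partner in `D_x` -/
theorem Ctx.exists_nc : ∃ b ∈ Dn D x, ¬ Commute b u := by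
  obtain ⟨p, hp, hpx, hpu⟩ := h.exists_third hx hu
  have hpD : p ∈ Dn D x := ⟨hp.1, hpx, Ln_comm_left hx hu hp⟩
  have hpath := (h.comp x hx u hu p hpD).2
  unfold Pth at hpath
  rcases Relation.ReflTransGen.cases_head hpath with h1 | ⟨c, hc, -⟩
  · exact absurd h1.symm hpu
  · exact ⟨c, hc.2.1, fun hh => hc.2.2 hh.symm⟩

end

section
variable (h : Ctx D)
include h
variable {x u b b' p : G} (hx : x ∈ D) (hu : u ∈ Dn D x) (hb : b ∈ Dn D x) (hb' : b' ∈ Ln D x b) (hb'x : b' ≠ x)
include hx hu hb hb' hb'x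

/-- commuting with `b` is the same as commuting with `b'` inside `D_x` -/
theorem Ctx.comm_class {e : G} (he : e ∈ D) (hxe : Commute x e) : Commute b e ↔ Commute b' e := by
  have h1 := Set.ext_iff.1 (h.C_eq hx hb (left_mem_Ln hx hb) hb' (Ne.symm hb'x)) e
  constructor
  · intro hc; exact (h1.2 ⟨he, hxe, hc⟩).2.2
  · intro hc; exact (h1.1 ⟨he, hxe, hc⟩).2.2

/-- translations along lines through `x` -/
theorem Ctx.trl_mem (hub : ¬ Commute u b) : b' * (b * u * b) * b' ∈ Ln D x u := by
  have hDs := h.set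
  have hG := h.grp
  have sb := mul_self hDs hb.1
  have sb' := mul_self hDs hb'.1
  refine ⟨mul_mul_mem hG hb'.1 (mul_mul_mem hG hb.1 hu.1), ?_⟩
  rintro e ⟨he, hxe, hue⟩
  have hcc := h.comm_class hx hu hb hb' hb'x he hxe
  by_cases heb : Commute b e
  · exact (comm_trip (hcc.1 heb).symm (comm_trip heb.symm hue.symm)).symm
  · have heb' : ¬ Commute b' e := fun hc => heb (hcc.2 hc)
    have se := mul_self hDs he
    -- c
    have hcD : e * (u * b * u) * e ∈ D := mul_mul_mem hG he (mul_mul_mem hG hu.1 hb.1)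
    have hcb : Commute (e * (u * b * u) * e) b := string_comm hDs hu.1 hb.1 he hue hub heb
    have hxc : Commute x (e * (u * b * u) * e) := comm_trip hxe (comm_trip hu.2.2 hb.2.2)
    have hcb' := (h.comm_class hx hu hb hb' hb'x hcD hxc).1 hcb.symm
    have e1 : e * (e * (u * b * u) * e) * e = b * u * b := by
      rw [braid hDs hu.1 hb.1 hub]
      calc e * (e * (b * u * b) * e) * e = (e * e) * (b * u * b) * (e * e) := by simp only [mul_assoc]
        _ = _ := by rw [se, one_mul, mul_one]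
    rw [comm_inv_swap sb', ← e1, braid hDs hb'.1 he heb', comm_inv_iff se]
    exact hcb'.symm

theorem Ctx.trl_mem' (hub : ¬ Commute u b) : b' * (b * u * b) * b' ∈ Ln D x u ∧ b' * (b * u * b) * b' ≠ x := by
  refine ⟨h.trl_mem hx hu hb hb' hb'x hub, ?_⟩
  have hDs := h.set
  have sb := mul_self hDs hb.1
  have sb' := mul_self hDs hb'.1
  intro hc
  apply hu.2.1
  have hxb' : Commute x b' := Ln_comm_left hx hb hb'
  calc u = b * (b' * (b' * (b * u * b) * b') * b') * b := by
        calc u = (b * b) * u * (b * b) := by rw [sb, one_mul, mul_one]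
          _ = b * ((b' * b') * (b * u * b) * (b' * b')) * b := by rw [sb', one_mul, mul_one]; simp only [mul_assoc]
          _ = _ := by simp only [mul_assoc]
    _ = x := by rw [hc, conj_eq_self hDs hb'.1 hxb', conj_eq_self hDs hb.1 hb.2.2]

omit [Finite G] hb'x h in
theorem trl_ne (hDs : IsThreeTranspositionSet D) (hne : b' ≠ b) (hub : ¬ Commute u b) (hub' : ¬ Commute u b') : b' * (b * u * b) * b' ≠ u := by
  have sb := mul_self hDs hb.1
  have sb' := mul_self hDs hb'.1
  have su := mul_self hDs hu.1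
  intro hc
  apply hne
  have h1 : b * u * b = b' * u * b' := by
    calc b * u * b = (b' * b') * (b * u * b) * (b' * b') := by rw [sb', one_mul, mul_one]
      _ = b' * (b' * (b * u * b) * b') * b' := by simp only [mul_assoc]
      _ = _ := by rw [hc]
  rw [← braid hDs hu.1 hb.1 hub, ← braid hDs hu.1 hb'.1 hub'] at h1
  exact (mul_left_cancel (mul_right_cancel h1)).symm

end

section
variable (h : Ctx D)
include h
variable {x u : G} (hx : x ∈ D) (hu : u ∈ Dn D x)
include hx hu

/-- lines have an odd number of points -/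
theorem Ctx.even_class : Even (Ln D x u \ {x}).ncard := by
  have hDs := h.set
  obtain ⟨b, hb, hbu⟩ := h.exists_nc hx hu
  obtain ⟨b', hb', hb'x, hb'b⟩ := h.exists_third hx hb
  have sb := mul_self hDs hb.1
  have sb' := mul_self hDs hb'.1
  have hbb' : Commute b b' := Ln_comm_right hb hb'
  have hnc : ∀ p ∈ Ln D x u \ {x}, ¬ Commute p b := by
    intro p hp hc
    have hpx : p ≠ x := hp.2
    have h1 := (h.comm_class hx hb hu hp.1 hpx hb.1 hb.2.2).2 hc
    exact hbu h1.symm
  have hnc' : ∀ p ∈ Ln D x u \ {x}, ¬ Commute p b' := by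
    intro p hp hc
    have hpx : p ≠ x := hp.2
    have h1 := (h.comm_class hx hu hb hb' hb'x hp.1.1 (Ln_comm_left hx hu hp.1)).2 hc.symm
    exact hnc p hp h1.symm
  have hpD : ∀ p ∈ Ln D x u \ {x}, p ∈ Dn D x := fun p hp => ⟨hp.1.1, hp.2, Ln_comm_left hx hu hp.1⟩
  apply even_ncard (Set.toFinite _) (fun p => b' * (b * p * b) * b')
  · intro p hp
    have h1 := h.trl_mem' hx (hpD p hp) hb hb' hb'x (hnc p hp)
    have hpx : p ≠ x := hp.2
    rw [h.Ln_eq hx hu (left_mem_Ln hx hu) hp.1 (Ne.symm hpx)] at h1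
    exact h1
  · intro p _
    show b' * (b * (b' * (b * p * b) * b') * b) * b' = p
    calc b' * (b * (b' * (b * p * b) * b') * b) * b' = b' * (b * b') * b * p * (b * (b' * b) * b') := by simp only [mul_assoc]
      _ = b' * (b' * b) * b * p * (b * (b * b') * b') := by rw [hbb'.eq]
      _ = (b' * b') * (b * b) * p * ((b * b) * (b' * b')) := by simp only [mul_assoc]
      _ = p := by rw [sb, sb']; simp
  · intro p hp
    exact trl_ne hx (hpD p hp) hb hb' hDs hb'b (hnc p hp) (hnc' p hp)

end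

/-- the swapping element -/
def sw (x u z : G) : G := (x * z * x) * (u * z * u)

section
variable (hDs : IsThreeTranspositionSet D) {x u z p : G} (hx : x ∈ D) (hu : u ∈ D) (hz : z ∈ D) (hxu : Commute x u)
  (hzx : ¬ Commute z x) (hzu : ¬ Commute z u)
include hDs hx hu hz hxu hzx hzu

omit [Finite G] in
theorem sw_comm : Commute (x * z * x) (u * z * u) := by
  have su := mul_self hDs hu
  have h1 := string_comm hDs hx hz hu hxu (fun hc => hzx hc.symm) hzu
  rwa [comm_inv_swap su] at h1

omit [Finite G] in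
theorem sw_inv : (sw x u z)⁻¹ = sw x u z := by
  have sz := mul_self hDs hz
  have su := mul_self hDs hu
  have sx := mul_self hDs hx
  have h1 := sw_comm hDs hx hu hz hxu hzx hzu
  apply inv_eq_of_mul_eq_one_left
  unfold sw
  have a1 : (x * z * x) * (x * z * x) = 1 := by
    calc (x * z * x) * (x * z * x) = x * z * (x * x) * z * x := by simp only [mul_assoc]
      _ = x * (z * z) * x := by rw [sx, mul_one]; simp only [mul_assoc]
      _ = 1 := by rw [sz, mul_one, sx]
  have a2 : (u * z * u) * (u * z * u) = 1 := by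
    calc (u * z * u) * (u * z * u) = u * z * (u * u) * z * u := by simp only [mul_assoc]
      _ = u * (z * z) * u := by rw [su, mul_one]; simp only [mul_assoc]
      _ = 1 := by rw [sz, mul_one, su]
  calc x * z * x * (u * z * u) * (x * z * x * (u * z * u)) = (x * z * x) * ((u * z * u) * (x * z * x)) * (u * z * u) := by simp only [mul_assoc]
    _ = (x * z * x) * ((x * z * x) * (u * z * u)) * (u * z * u) := by rw [h1.eq]
    _ = ((x * z * x) * (x * z * x)) * ((u * z * u) * (u * z * u)) := by simp only [mul_assoc]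
    _ = 1 := by rw [a1, a2, one_mul]

omit [Finite G] in
theorem sw_left : sw x u z * x * (sw x u z)⁻¹ = u := by
  have sz := mul_self hDs hz
  have su := mul_self hDs hu
  have sx := mul_self hDs hx
  have h1 := sw_comm hDs hx hu hz hxu hzx hzu
  rw [sw_inv hDs hx hu hz hxu hzx hzu]
  have b1 : z * x * z = x * z * x := braid hDs hz hx hzx
  have b2 : z * u * z = u * z * u := braid hDs hz hu hzu
  have a1 : (x * z * x) * x * (x * z * x) = z := by
    calc (x * z * x) * x * (x * z * x) = x * z * (x * x) * (x * z * x) := by simp only [mul_assoc]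
      _ = x * (z * x * z) * x := by rw [sx, mul_one]; simp only [mul_assoc]
      _ = (x * x) * z * (x * x) := by rw [b1]; simp only [mul_assoc]
      _ = z := by rw [sx, one_mul, mul_one]
  have a2 : (u * z * u) * z * (u * z * u) = u := by
    rw [← b2]
    calc z * u * z * z * (z * u * z) = z * u * (z * z) * z * u * z := by simp only [mul_assoc]
      _ = z * (u * z * u) * z := by rw [sz, mul_one]; simp only [mul_assoc]
      _ = z * (z * u * z) * z := by rw [b2]
      _ = (z * z) * u * (z * z) := by simp only [mul_assoc]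
      _ = u := by rw [sz, one_mul, mul_one]
  unfold sw
  calc (x * z * x) * (u * z * u) * x * ((x * z * x) * (u * z * u)) = ((x * z * x) * (u * z * u)) * x * ((x * z * x) * (u * z * u)) := rfl
    _ = ((u * z * u) * (x * z * x)) * x * ((x * z * x) * (u * z * u)) := by rw [h1.eq]
    _ = (u * z * u) * ((x * z * x) * x * (x * z * x)) * (u * z * u) := by simp only [mul_assoc]
    _ = u := by rw [a1, a2]

omit [Finite G] in
theorem sw_right : sw x u z * u * (sw x u z)⁻¹ = x := by
  have h1 := sw_left hDs hx hu hz hxu hzx hzu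
  have hi := sw_inv hDs hx hu hz hxu hzx hzu
  rw [hi] at h1 ⊢
  have h2 : sw x u z * sw x u z = 1 := by
    have := mul_inv_cancel (sw x u z)
    rwa [hi] at this
  calc sw x u z * u * sw x u z = sw x u z * (sw x u z * x * sw x u z) * sw x u z := by rw [h1]
    _ = (sw x u z * sw x u z) * x * (sw x u z * sw x u z) := by simp only [mul_assoc]
    _ = x := by rw [h2, one_mul, mul_one]

omit [Finite G] in
theorem sw_third (hp : p ∈ D) (hxp : Commute x p) (hup : Commute u p) (hzp : ¬ Commute z p) :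
    sw x u z * p * (sw x u z)⁻¹ = z * (x * u * p) * z * (x * u * p) * z := by
  have sz := mul_self hDs hz
  have su := mul_self hDs hu
  have sx := mul_self hDs hx
  have sp := mul_self hDs hp
  rw [sw_inv hDs hx hu hz hxu hzx hzu]
  have b1 : z * x * z = x * z * x := braid hDs hz hx hzx
  have b2 : z * p * z = p * z * p := braid hDs hz hp hzp
  -- `z` commutes with `b z b`, `b = u p`
  have h1 : Commute (p * (u * z * u) * p) z := string_comm hDs hu hz hp hup (fun hc => hzu hc.symm) hzp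
  obtain ⟨w, hw⟩ : ∃ w : G, w = p * (u * z * u) * p := ⟨_, rfl⟩
  rw [← hw] at h1
  have hzw : z * w * z = w := conj_eq_self hDs hz h1
  have e1 : (x * u * p) * z * (x * u * p) = x * w * x := by
    rw [hw]
    calc (x * u * p) * z * (x * u * p) = (x * (u * p)) * z * ((x * u) * p) := by simp only [mul_assoc]
      _ = (x * (p * u)) * z * ((u * x) * p) := by rw [hup.eq, hxu.eq]
      _ = x * p * u * z * u * (x * p) := by simp only [mul_assoc]
      _ = x * p * u * z * u * (p * x) := by rw [hxp.eq]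
      _ = _ := by simp only [mul_assoc]
  have e2 : z * (x * u * p) * z * (x * u * p) * z = z * (x * w * x) * z := by
    rw [← e1]; simp only [mul_assoc]
  have e3 : x * (z * (x * w * x) * z) * x = z * (x * w * x) * z := by
    calc x * (z * (x * w * x) * z) * x = (x * z * x) * w * (x * z * x) := by simp only [mul_assoc]
      _ = (z * x * z) * w * (z * x * z) := by rw [b1]
      _ = z * x * (z * w * z) * x * z := by simp only [mul_assoc]
      _ = _ := by rw [hzw]; simp only [mul_assoc]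
  rw [e2]
  unfold sw
  have hupu : u * p * u = p := by rw [hup.eq, mul_assoc, su, mul_one]
  have e4 : (u * z * u) * p * (u * z * u) = w := by
    rw [hw]
    calc (u * z * u) * p * (u * z * u) = u * z * (u * p * u) * z * u := by simp only [mul_assoc]
      _ = u * (z * p * z) * u := by rw [hupu]; simp only [mul_assoc]
      _ = u * (p * z * p) * u := by rw [b2]
      _ = (u * p) * z * (p * u) := by simp only [mul_assoc]
      _ = (p * u) * z * (u * p) := by rw [hup.eq]
      _ = _ := by simp only [mul_assoc]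
  have hcc := sw_comm hDs hx hu hz hxu hzx hzu
  calc (x * z * x) * (u * z * u) * p * ((x * z * x) * (u * z * u))
      = (x * z * x) * (u * z * u) * p * ((u * z * u) * (x * z * x)) := by rw [hcc.eq]
    _ = (x * z * x) * ((u * z * u) * p * (u * z * u)) * (x * z * x) := by simp only [mul_assoc]
    _ = (x * z * x) * w * (x * z * x) := by rw [e4]
    _ = x * (z * (x * w * x) * z) * x := by simp only [mul_assoc]
    _ = _ := e3

end

section
variable (h : Ctx D)
include h
variable {x u z : G} (hx : x ∈ D) (hu : u ∈ Dn D x)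
include hx hu

/-- the conjugation by `sw` preserves the line -/
theorem Ctx.sw_mem (hz : z ∈ D) (hzx : ¬ Commute z x) (hzu : ¬ Commute z u) {p : G} (hp : p ∈ Ln D x u) :
    sw x u z * p * (sw x u z)⁻¹ ∈ Ln D x u := by
  have h1 := (Ln_conj h.grp (sw x u z) x u p).2 hp
  rw [sw_left h.set hx hu.1 hz hu.2.2 hzx hzu, sw_right h.set hx hu.1 hz hu.2.2 hzx hzu, Ln_symm] at h1
  exact h1

/-- no fixed points -/
theorem Ctx.sw_ne (hz : z ∈ D) (hzx : ¬ Commute z x) (hzu : ¬ Commute z u) {p : G} (hp : p ∈ Ln D x u) (hpx : p ≠ x)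
    (hpz : ¬ Commute z p) : sw x u z * p * (sw x u z)⁻¹ ≠ p := by
  have hDs := h.set
  have hxp := Ln_comm_left hx hu hp
  have hup := Ln_comm_right hu hp
  intro hc
  rw [sw_third hDs hx hu.1 hz hu.2.2 hzx hzu hp.1 hxp hup hpz] at hc
  have h1 := sw_third hDs hx hp.1 hz hxp hzx hpz hu.1 hu.2.2 hup.symm hzu
  have e : x * p * u = x * u * p := by rw [mul_assoc, ← hup.eq, ← mul_assoc]
  rw [e, hc] at h1
  have h2 := sw_left hDs hx hp.1 hz hxp hzx hpz
  exact hu.2.1 (mul_left_cancel (mul_right_cancel (h1.trans h2.symm)))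

/-- **one or all** -/
theorem Ctx.exists_comm (hz : z ∈ D) : ∃ p ∈ Ln D x u, Commute z p := by
  classical
  by_contra hcon
  push Not at hcon
  have hzx := hcon x (left_mem_Ln hx hu)
  have hzu := hcon u (right_mem_Ln hu)
  have heven1 := h.even_class hx hu
  have heven2 : Even ((Ln D x u \ {x}) \ {u}).ncard := by
    apply even_ncard (Set.toFinite _) (fun p => sw x u z * p * (sw x u z)⁻¹)
    · rintro p ⟨⟨hp, hpx⟩, hpu⟩
      refine ⟨⟨h.sw_mem hx hu hz hzx hzu hp, ?_⟩, ?_⟩
      · intro hc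
        have hc' : sw x u z * p * (sw x u z)⁻¹ = x := hc
        exact hpu (mul_left_cancel (mul_right_cancel (hc'.trans (sw_right h.set hx hu.1 hz hu.2.2 hzx hzu).symm)))
      · intro hc
        have hc' : sw x u z * p * (sw x u z)⁻¹ = u := hc
        exact hpx (mul_left_cancel (mul_right_cancel (hc'.trans (sw_left h.set hx hu.1 hz hu.2.2 hzx hzu).symm)))
    · rintro p -
      show sw x u z * (sw x u z * p * (sw x u z)⁻¹) * (sw x u z)⁻¹ = p
      have hi := sw_inv h.set hx hu.1 hz hu.2.2 hzx hzu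
      have h2 : sw x u z * sw x u z = 1 := by
        have := mul_inv_cancel (sw x u z)
        rwa [hi] at this
      rw [hi]
      calc sw x u z * (sw x u z * p * sw x u z) * sw x u z = (sw x u z * sw x u z) * p * (sw x u z * sw x u z) := by simp only [mul_assoc]
        _ = p := by rw [h2, one_mul, mul_one]
    · rintro p ⟨⟨hp, hpx⟩, hpu⟩
      exact h.sw_ne hx hu hz hzx hzu hp hpx (hcon p hp)
  have hmem : u ∈ Ln D x u \ {x} := ⟨right_mem_Ln hu, hu.2.1⟩
  have hcard := Set.ncard_sdiff_singleton_add_one hmem (Set.toFinite _)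
  rw [← hcard] at heven1
  have := Nat.even_add_one.1 heven1
  exact this heven2

end

end H33.Pol
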