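import Cfsg.Agent.Lib.H33.Pol9

/-! Closure under lines and transvections. -/

set_option autoImplicit false

namespace H33.Pol

open Cfsg H90.ThreeTrans H90.ThreeTransB H90.WidthOne H90.ThreeTransC H90.ThreeTransE H90.ThreeTransG H90.ThreeTransH
  H33.Fisch

theorem K4.frob_fix (a b η : K) (hη : η ≠ 0) (ha : a ≠ 0) (hb : b ≠ 0)
    (he : a * (b ^ 2 * η) + b * (a ^ 2 * η ^ 2) = 0) : b = a * η := by
  revert a b η; decide +kernel

theorem K4.cube : ∀ η : K, η ≠ 0 → η ^ 2 * η = 1 := by decide +kernel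

variable {G : Type*} [Group G] {D : Set G}

/-- closure under transvections, abstractly -/
theorem trans_closure {V : Type*} [AddCommGroup V] [Module K V] (hDs : IsThreeTranspositionSet D) (hG : IsThreeTranspositionGroup D)
    (H : V → V → K)
    (hadd : ∀ u v w, H (u + v) w = H u w + H v w) (hsmul : ∀ (c : K) (u v), H (c • u) v = c * H u v)
    (hherm : ∀ u v, H v u = (H u v) ^ 2) (hnd : ∀ u, (∀ v, H u v = 0) → u = 0)
    (φ : G → V) (hspan : Submodule.span K (φ '' D) = ⊤)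
    (hperp : ∀ x ∈ D, ∀ y ∈ D, H (φ x) (φ y) = 0 ↔ Commute x y)
    (h1 : ∀ x ∈ D, ∀ y ∈ D, x ≠ y → Commute x y → ∀ c : K, ∃ w ∈ D, ∃ a : K, a ≠ 0 ∧ φ x + c • φ y = a • φ w)
    (hV : ∀ x ∈ D, ∀ y ∈ D, (∀ z ∈ D, Commute x z ↔ Commute y z) → x = y)
    (hyp : ∀ x ∈ D, ∀ y ∈ D, ∀ z ∈ D, ¬ Commute x y → z ≠ x → z ≠ y → z ≠ cj x y → ∃ u ∈ C D x y, ¬ Commute z u)
    (hnc : ∀ d ∈ D, ∃ e ∈ D, ¬ Commute d e) (hcm : ∀ d ∈ D, ∃ e ∈ D, e ≠ d ∧ Commute d e) :
    ∀ a ∈ D, ∀ b ∈ D, ¬ Commute a b → ∃ t : K, t ≠ 0 ∧ φ b + H (φ b) (φ a) • φ a = t • φ (cj a b) := by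
  classical
  intro a ha b hb hab
  have hba : ¬ Commute b a := fun hc => hab hc.symm
  have hadd2 : ∀ u v w, H u (v + w) = H u v + H u w := by
    intro u v w
    rw [hherm (v + w) u, hadd, K4.sq_add, ← hherm v u, ← hherm w u]
  have hsmul2 : ∀ (c : K) (u v), H u (c • v) = c ^ 2 * H u v := by
    intro c u v
    rw [hherm (c • v) u, hsmul, mul_pow, ← hherm v u]
  have h0l : ∀ v, H 0 v = 0 := by
    intro v
    have := hsmul 0 0 v
    rwa [zero_smul, zero_mul] at this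
  have h0r : ∀ v, H v 0 = 0 := by
    intro v
    rw [hherm 0 v, h0l]; norm_num
  have two : ∀ v : V, v + v = 0 := by
    intro v
    have : v + v = (1 + 1 : K) • v := by rw [add_smul, one_smul]
    rw [this, K4.add_self, zero_smul]
  have p0 : ∀ d ∈ D, φ d ≠ 0 := by
    intro d hd hc
    obtain ⟨e, he, hde⟩ := hnc d hd
    exact hde ((hperp d hd e he).1 (by rw [hc, h0l]))
  have p1 : ∀ c ∈ D, ∀ d ∈ D, ∀ s : K, φ c = s • φ d → c = d := by
    intro c hc d hd s hs
    have hs0 : s ≠ 0 := by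
      intro h0; rw [h0, zero_smul] at hs; exact p0 c hc hs
    apply hV c hc d hd
    intro z hz
    rw [← hperp c hc z hz, ← hperp d hd z hz, hs, hsmul]
    constructor
    · intro h2; exact (mul_eq_zero.1 h2).resolve_left hs0
    · intro h2; rw [h2, mul_zero]
  have p2 : ∀ d ∈ D, ∀ e ∈ D, e ≠ d → Commute d e → ∀ f ∈ D, ¬ Commute e f → ∃ c t : K, ∃ w ∈ D, t ≠ 0 ∧
      φ d + c • φ e = t • φ w ∧ Commute w f ∧ ∀ g ∈ D, Commute d g → Commute e g → Commute w g := by
    intro d hd e he hed hde f hf hef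
    have hne : H (φ e) (φ f) ≠ 0 := fun hc => hef ((hperp e he f hf).1 hc)
    obtain ⟨w, hw, t, ht, heq⟩ := h1 d hd e he hed.symm hde (H (φ d) (φ f) * (H (φ e) (φ f))⁻¹)
    refine ⟨_, t, w, hw, ht, heq, ?_, ?_⟩
    · rw [← hperp w hw f hf]
      have h2 : H (t • φ w) (φ f) = 0 := by
        rw [← heq, hadd, hsmul, mul_assoc, inv_mul_cancel₀ hne, mul_one, K4.add_self]
      rw [hsmul] at h2
      exact (mul_eq_zero.1 h2).resolve_left ht
    · intro g hg hdg heg
      rw [← hperp w hw g hg]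
      have h2 : H (t • φ w) (φ g) = 0 := by
        rw [← heq, hadd, hsmul, (hperp d hd g hg).2 hdg, (hperp e he g hg).2 heg, mul_zero, add_zero]
      rw [hsmul] at h2
      exact (mul_eq_zero.1 h2).resolve_left ht
  set S := Submodule.span K (φ '' C D a b) with hS
  set W := Submodule.span K ({φ a, φ b} : Set V) ⊔ S with hW
  have haW : φ a ∈ W := Submodule.mem_sup_left (Submodule.subset_span (by simp))
  have hbW : φ b ∈ W := Submodule.mem_sup_left (Submodule.subset_span (by simp))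
  have hCW : ∀ e ∈ C D a b, φ e ∈ W := fun e he => Submodule.mem_sup_right (Submodule.subset_span ⟨e, he, rfl⟩)
  have back : ∀ (u v : V) (c : K), u + c • v ∈ W → v ∈ W → u ∈ W := by
    intro u v c h1 h2
    have : u = (u + c • v) + c • v := by rw [add_assoc, two, add_zero]
    rw [this]
    exact W.add_mem h1 (W.smul_mem c h2)
  have p3 : ∀ d ∈ D, Commute a d → φ d ∈ W := by
    intro d hd had
    by_cases hda : d = a
    · rw [hda]; exact haW
    by_cases hbd : Commute b d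
    · exact hCW d ⟨hd, had, hbd⟩
    · obtain ⟨c, t, w, hw, ht, heq, hwb, hwc⟩ := p2 d hd a ha (fun hc => hda hc.symm) had.symm b hb hab
      apply back _ (φ a) c _ haW
      rw [heq]
      exact W.smul_mem _ (hCW w ⟨hw, (hwc a ha had.symm (Commute.refl a)).symm, hwb.symm⟩)
  have p3' : ∀ d ∈ D, Commute b d → φ d ∈ W := by
    intro d hd hbd
    by_cases hdb : d = b
    · rw [hdb]; exact hbW
    by_cases had : Commute a d
    · exact hCW d ⟨hd, had, hbd⟩
    · obtain ⟨c, t, w, hw, ht, heq, hwa, hwc⟩ := p2 d hd b hb (fun hc => hdb hc.symm) hbd.symm a ha hba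
      apply back _ (φ b) c _ hbW
      rw [heq]
      exact W.smul_mem _ (hCW w ⟨hw, hwa.symm, (hwc b hb hbd.symm (Commute.refl b)).symm⟩)
  have p4 : ∀ d ∈ D, d ≠ cj a b → φ d ∈ W := by
    intro d hd hdr
    by_cases had : Commute a d
    · exact p3 d hd had
    by_cases hbd : Commute b d
    · exact p3' d hd hbd
    obtain ⟨e, he, hbe⟩ := hyp a ha d hd b hb had (fun hc => hab (by rw [hc])) (fun hc => hbd (by rw [hc]))
      (fun hc => hdr (by rw [hc, cj_cj_D hDs ha]))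
    have hed : e ≠ d := fun hc => had (hc ▸ he.2.1)
    obtain ⟨c, t, w, hw, ht, heq, hwb, hwc⟩ := p2 d hd e he.1 hed he.2.2 b hb (fun hc => hbe hc.symm)
    apply back _ (φ e) c _ (p3 e he.1 he.2.1)
    rw [heq]
    exact W.smul_mem _ (p3' w hw hwb.symm)
  have hrD : cj a b ∈ D := cj_mem hG a hb
  have hra : ¬ Commute (cj a b) a := fun hc => hab (cj_comm_of_third (Commute.refl a) hc.symm)
  have hrb : ¬ Commute (cj a b) b := by
    intro hc
    rw [cj_braid hDs ha hb hab] at hc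
    exact hba (cj_comm_of_third (Commute.refl b) hc.symm)
  have p5 : φ (cj a b) ∈ W := by
    obtain ⟨e, he, her, hre⟩ := hcm (cj a b) hrD
    obtain ⟨w, hw, t, ht, heq⟩ := h1 (cj a b) hrD e he her.symm hre 1
    apply back _ (φ e) 1 _ (p4 e he her)
    rw [heq]
    apply W.smul_mem
    apply p4 w hw
    intro hc
    rw [hc, one_smul] at heq
    apply her
    apply p1 e he (cj a b) hrD (t + 1)
    have : φ e = (φ (cj a b) + φ e) + φ (cj a b) := by
      rw [add_comm (φ (cj a b)) (φ e), add_assoc, two, add_zero]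
    rw [this, heq, add_smul, one_smul]
  have hWtop : W = ⊤ := by
    rw [eq_top_iff, ← hspan, Submodule.span_le]
    rintro _ ⟨d, hd, rfl⟩
    by_cases hdr : d = cj a b
    · rw [hdr]; exact p5
    · exact p4 d hd hdr
  -- `S` is perpendicular to `a`, `b`
  have hSa : ∀ s ∈ S, H s (φ a) = 0 ∧ H s (φ b) = 0 := by
    intro s hs
    induction hs using Submodule.span_induction with
    | mem s hs =>
      obtain ⟨e, he, rfl⟩ := hs
      exact ⟨(hperp e he.1 a ha).2 he.2.1.symm, (hperp e he.1 b hb).2 he.2.2.symm⟩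
    | zero => exact ⟨h0l _, h0l _⟩
    | add s s' _ _ h2 h3 => rw [hadd, hadd, h2.1, h2.2, h3.1, h3.2]; simp
    | smul c s _ h2 => rw [hsmul, hsmul, h2.1, h2.2]; simp
  obtain ⟨v, hv, s, hs, hvs⟩ := Submodule.mem_sup.1 p5
  obtain ⟨α, β, hαβ⟩ := Submodule.mem_span_pair.1 hv
  have hs0 : s = 0 := by
    apply hnd
    intro v'
    have hv' : v' ∈ W := by rw [hWtop]; trivial
    have hsC : ∀ e ∈ C D a b, H s (φ e) = 0 := by
      intro e he
      have h2 : H (φ (cj a b)) (φ e) = 0 := (hperp _ hrD e he.1).2 (cj_comm_of he.2.1.symm he.2.2.symm).symm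
      rw [← hvs, ← hαβ, hadd, hadd, hsmul, hsmul, (hperp a ha e he.1).2 he.2.1, (hperp b hb e he.1).2 he.2.2] at h2
      simpa using h2
    obtain ⟨v1, hv1, s1, hs1, hvs1⟩ := Submodule.mem_sup.1 hv'
    obtain ⟨α', β', hαβ'⟩ := Submodule.mem_span_pair.1 hv1
    have h3 : H s s1 = 0 := by
      clear hvs1
      induction hs1 using Submodule.span_induction with
      | mem s hs =>
        obtain ⟨e, he, rfl⟩ := hs
        exact hsC e he
      | zero => exact h0r _
      | add s s' _ _ h2 h3 => rw [hadd2, h2, h3, add_zero]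
      | smul c s _ h2 => rw [hsmul2, h2, mul_zero]
    rw [← hvs1, ← hαβ', hadd2, hadd2, hsmul2, hsmul2, (hSa s hs).1, (hSa s hs).2, h3]; simp
  rw [hs0, add_zero] at hvs
  rw [← hαβ] at hvs
  -- compute
  have hη : H (φ a) (φ b) ≠ 0 := fun hc => hab ((hperp a ha b hb).1 hc)
  have haa : H (φ a) (φ a) = 0 := (hperp a ha a ha).2 (Commute.refl a)
  have hbb : H (φ b) (φ b) = 0 := (hperp b hb b hb).2 (Commute.refl b)
  have hr0 : H (φ (cj a b)) (φ (cj a b)) = 0 := (hperp _ hrD _ hrD).2 (Commute.refl _)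
  have hα : α ≠ 0 := by
    intro hc
    apply hrb
    rw [← hperp _ hrD b hb, ← hvs, hadd, hsmul, hsmul, hbb, hc, zero_mul, mul_zero, add_zero]
  have hβ : β ≠ 0 := by
    intro hc
    apply hra
    rw [← hperp _ hrD a ha, ← hvs, hadd, hsmul, hsmul, haa, hc, zero_mul, mul_zero, add_zero]
  have hherm' : H (φ b) (φ a) = (H (φ a) (φ b)) ^ 2 := hherm _ _
  have h4 : α * (β ^ 2 * H (φ a) (φ b)) + β * (α ^ 2 * (H (φ a) (φ b)) ^ 2) = 0 := by
    rw [← hvs, hadd, hsmul, hsmul, hadd2, hadd2, hsmul2, hsmul2, hsmul2, hsmul2, haa, hbb, hherm'] at hr0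
    simpa using hr0
  have h5 := K4.frob_fix α β _ hη hα hβ h4
  refine ⟨(H (φ a) (φ b)) ^ 2 * α⁻¹, mul_ne_zero (pow_ne_zero _ hη) (inv_ne_zero hα), ?_⟩
  rw [← hvs, h5, hherm', smul_add, smul_smul, smul_smul, add_comm (φ b)]
  have e1 : (H (φ a) (φ b)) ^ 2 * α⁻¹ * α = (H (φ a) (φ b)) ^ 2 := by
    rw [mul_assoc, inv_mul_cancel₀ hα, mul_one]
  have e2 : (H (φ a) (φ b)) ^ 2 * α⁻¹ * (α * H (φ a) (φ b)) = 1 := by
    rw [← mul_assoc, e1]; exact K4.cube _ hη
  rw [e1, e2, one_smul]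

end H33.Pol
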