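import Cfsg.Agent.Lib.H33.Pol10

/-! Closure under lines; the context of a noncentral 2-core. -/

set_option autoImplicit false

namespace H33.Pol

open Cfsg H90.ThreeTrans H90.ThreeTransB H90.WidthOne H90.ThreeTransC H90.ThreeTransE H90.ThreeTransG H90.ThreeTransH
  H33.Fisch

variable {G : Type*} [Group G] [Finite G] {D : Set G} {lab : G → K} {x : G}

/-- closed pair -/
def Cl (D : Set G) (lab : G → K) (x a b : G) : Prop :=
  ∀ c : K, ∃ w ∈ D, ∃ t : K, t ≠ 0 ∧ phi D lab x a + c • phi D lab x b = t • phi D lab x w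

theorem Cl.symm {a b : G} (hb : b ∈ D) (h : Cl D lab x a b) : Cl D lab x b a := by
  intro c
  by_cases hc : c = 0
  · exact ⟨b, hb, 1, one_ne_zero, by rw [hc, zero_smul, add_zero, one_smul]⟩
  · obtain ⟨w, hw, t, ht, heq⟩ := h c⁻¹
    refine ⟨w, hw, c * t, mul_ne_zero hc ht, ?_⟩
    rw [mul_smul, ← heq, smul_add, smul_smul, mul_inv_cancel₀ hc, one_smul, add_comm]

section
variable (h : Ctx D) (hlab : Lab D x lab) (h5 : ∀ x ∈ D, ∀ u ∈ Dn D x, (Ln D x u).ncard = 5) (hx : x ∈ D)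
include h hlab h5 hx

theorem E1 {y u : G} (hy : y ∈ An D x) (hu : u ∈ C D x y) {c : K} (hc : c ≠ 0) :
    ∃ y' ∈ Ln D y u, y' ≠ u ∧ y' ≠ y ∧ phi D lab x y' = phi D lab x y + c • phi D lab x u := by
  have huD := h.C_left hy hu
  obtain ⟨sec, s1, s2⟩ := exists_sec (h.S_card h5 hx huD) (hlab.inj u huD)
  obtain ⟨q, hq⟩ : ∃ q, q = sec (lab u + c⁻¹) := ⟨_, rfl⟩
  have q1 : q ∈ Sx D x u := by rw [hq]; exact s1 _
  have q2 : lab q = lab u + c⁻¹ := by rw [hq]; exact s2 _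
  have q3 : q ≠ u := by
    intro hh
    rw [hh] at q2
    have h0 : c⁻¹ = 0 := add_eq_left.1 q2.symm
    exact hc (inv_eq_zero.1 h0)
  have hxDu : x ∈ Dn D u := h.Dn_symm hx huD
  have hyDu : y ∈ Dn D u := h.Dn_symm hy.1 (h.C_right hy hu)
  obtain ⟨y', hy', hy'u, he⟩ := h.tr_trans huD.1 hxDu hyDu hy.2 (w := q) (by rw [Ln_symm]; exact q1.1) q3
  have hy'y : y' ≠ y := by
    intro hh
    rw [hh, mul_self h.set hy.1, cj_one] at he
    exact q1.2 he.symm
  rw [Ln_symm] at hy'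
  refine ⟨y', hy', hy'u, hy'y, ?_⟩
  rw [v_line h hlab h5 hx hy hu hy' hy'u hy'y, he, q2]
  congr 2
  have := K4.add_self (lab u)
  have e : lab u + c⁻¹ + lab u = c⁻¹ := by linear_combination this
  rw [e, inv_inv]

theorem E2 {y z : G} (hy : y ∈ An D x) (hz : z ∈ An D x) (hyz : Commute y z) (hne : z ≠ y) :
    ∃ u, u ∈ C D x y ∧ ∃ c : K, c ≠ 0 ∧ phi D lab x z = phi D lab x y + c • phi D lab x u := by
  have hzD : z ∈ Dn D y := ⟨hz.1, hne, hyz⟩
  obtain ⟨p1, p2, p3⟩ := h.pr_spec hy.1 hzD hx (fun hc => hy.2 hc.symm)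
  have hu : pr D y z x ∈ C D x y := ⟨p1.1, p3, Ln_comm_left hy.1 hzD p1⟩
  have hL : Ln D y (pr D y z x) = Ln D y z := h.Ln_left hy.1 hzD p1 p2
  have hzL : z ∈ Ln D y (pr D y z x) := by rw [hL]; exact right_mem_Ln hzD
  have hzu : z ≠ pr D y z x := by
    intro hc; rw [← hc] at p3; exact hz.2 p3
  exact ⟨_, hu, _, inv_ne_zero (coef_ne h hlab h5 hx hy hu hzL hzu hne), v_line h hlab h5 hx hy hu hzL hzu hne⟩

theorem cl_ux {u : G} (hu : u ∈ Dn D x) : Cl D lab x u x := by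
  intro c
  obtain ⟨sec, s1, s2⟩ := exists_sec (h.S_card h5 hx hu) (hlab.inj u hu)
  refine ⟨sec (lab u + c), (s1 _).1.1, 1, one_ne_zero, ?_⟩
  rw [one_smul, v_x h hlab h5 hx hu (s1 _), s2]
  congr 2
  have := K4.add_self (lab u)
  linear_combination -this

theorem cl_yu {y u : G} (hy : y ∈ An D x) (hu : u ∈ C D x y) : Cl D lab x y u := by
  intro c
  by_cases hc : c = 0
  · exact ⟨y, hy.1, 1, one_ne_zero, by rw [hc, zero_smul, add_zero, one_smul]⟩
  · obtain ⟨y', hy', -, -, he⟩ := E1 h hlab h5 hx hy hu hc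
    exact ⟨y', hy'.1, 1, one_ne_zero, by rw [one_smul, he]⟩

omit h hlab h5 hx in
theorem vtwo (v : VV D lab x) : v + v = 0 := by
  have : v + v = (1 + 1 : K) • v := by rw [add_smul, one_smul]
  rw [this, K4.add_self, zero_smul]

theorem cl_yz {y z : G} (hy : y ∈ An D x) (hz : z ∈ An D x) (hyz : Commute y z) (hne : z ≠ y) : Cl D lab x y z := by
  intro c
  obtain ⟨u, hu, c0, hc0, he⟩ := E2 h hlab h5 hx hy hz hyz hne
  have e1 : phi D lab x y + c • phi D lab x z = (1 + c) • phi D lab x y + (c * c0) • phi D lab x u := by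
    rw [he, smul_add, smul_smul, add_smul, one_smul, add_assoc]
  by_cases hc : 1 + c = 0
  · refine ⟨u, hu.1, c * c0, mul_ne_zero ?_ hc0, by rw [e1, hc, zero_smul, zero_add]⟩
    intro h0; rw [h0, add_zero] at hc; exact one_ne_zero hc
  · obtain ⟨w, hw, t, ht, hh⟩ := cl_yu h hlab h5 hx hy hu ((1 + c)⁻¹ * (c * c0))
    refine ⟨w, hw, (1 + c) * t, mul_ne_zero hc ht, ?_⟩
    rw [mul_smul, ← hh, smul_add, smul_smul, ← mul_assoc, mul_inv_cancel₀ hc, one_mul, e1]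

theorem cl_uv {u v : G} (hu : u ∈ Dn D x) (hv : v ∈ Dn D x) (huv : Commute u v) (hne : u ≠ v) : Cl D lab x u v := by
  intro c
  by_cases hc : c = 0
  · exact ⟨u, hu.1, 1, one_ne_zero, by rw [hc, zero_smul, add_zero, one_smul]⟩
  by_cases hvL : v ∈ Ln D x u
  · have hvS : v ∈ Sx D x u := ⟨hvL, hv.2.1⟩
    have e0 := v_x h hlab h5 hx hu hvS
    have e1 : phi D lab x u + c • phi D lab x v = (1 + c) • phi D lab x u + (c * (lab u + lab v)) • phi D lab x x := by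
      rw [e0, smul_add, smul_smul, add_smul, one_smul, add_assoc]
    have hl : lab u + lab v ≠ 0 := K4.sum_ne (fun hh => hne (hlab.inj u hu (mem_S hu) hvS hh))
    by_cases hc1 : 1 + c = 0
    · exact ⟨x, hx, c * (lab u + lab v), mul_ne_zero hc hl, by rw [e1, hc1, zero_smul, zero_add]⟩
    · obtain ⟨w, hw, t, ht, hh⟩ := cl_ux h hlab h5 hx hu ((1 + c)⁻¹ * (c * (lab u + lab v)))
      refine ⟨w, hw, (1 + c) * t, mul_ne_zero hc1 ht, ?_⟩
      rw [mul_smul, ← hh, smul_add, smul_smul, ← mul_assoc, mul_inv_cancel₀ hc1, one_mul, e1]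
  · -- a plane: choose `y`
    have hvDu : v ∈ Dn D u := ⟨hv.1, hne.symm, huv⟩
    have hxn : x ∉ Ln D u v := by
      intro hh
      apply hvL
      have hxDu : x ∈ Dn D u := h.Dn_symm hx hu
      have e := h.Ln_left hu.1 hvDu hh hxDu.2.1
      rw [Ln_symm x u, e]
      exact right_mem_Ln hvDu
    have hex : ∃ y ∈ C D u v, ¬ Commute x y := by
      by_contra hcon
      push Not at hcon
      exact hxn ⟨hx, hcon⟩
    obtain ⟨y, hyC, hxy⟩ := hex
    have hy : y ∈ An D x := ⟨hyC.1, hxy⟩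
    have huC : u ∈ C D x y := ⟨hu.1, hu.2.2, hyC.2.1.symm⟩
    obtain ⟨y1, hy1, hy1u, hy1y, e1⟩ := E1 h hlab h5 hx hy huC one_ne_zero
    obtain ⟨hy1A, huC1, hL1⟩ := h.An_line hx hy huC hy1 hy1u
    have hvy : Commute v y := hyC.2.2
    have hvy1 : Commute v y1 := Ln_C ⟨hv.1, hvy.symm, huv⟩ hy1
    have hvC1 : v ∈ C D x y1 := ⟨hv.1, hv.2.2, hvy1.symm⟩
    obtain ⟨y2, hy2, hy2v, hy2y1, e2⟩ := E1 h hlab h5 hx hy1A hvC1 hc
    obtain ⟨hy2A, -, hL2⟩ := h.An_line hx hy1A hvC1 hy2 hy2v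
    have hyy1 : Commute y y1 := Ln_comm_left hy.1 (h.C_right hy huC) hy1
    have hyy2 : Commute y y2 := Ln_C ⟨hy.1, hyy1.symm, hvy⟩ hy2
    have hy2y : y2 ≠ y := by
      intro hh
      -- `y, y1` on the line `y1 v`, so `v` on the line `y u`
      rw [hh] at hy2
      have huDy := h.C_right hy huC
      have hvDy1 := h.C_right hy1A hvC1
      have f1 : Ln D y y1 = Ln D y1 v := h.Ln_eq hy1.1 hvDy1 hy2 (left_mem_Ln hy1.1 hvDy1) hy1y.symm
      have f2 : Ln D y y1 = Ln D y u := h.Ln_left hy.1 huDy hy1 hy1y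
      have f3 : v ∈ Ln D y u := by rw [← f2, f1]; exact right_mem_Ln hvDy1
      exact hxy (h.two_all hy.1 huDy hx (right_mem_Ln huDy) f3 hne hu.2.2 hv.2.2 y (left_mem_Ln hy.1 huDy))
    obtain ⟨w, hw, c0, hc0, e3⟩ := E2 h hlab h5 hx hy hy2A hyy2 hy2y
    refine ⟨w, hw.1, c0, hc0, ?_⟩
    rw [e2, e1, one_smul, add_assoc] at e3
    exact add_left_cancel e3

/-- **line closure** -/
theorem line_closure {a b : G} (ha : a ∈ D) (hb : b ∈ D) (hne : a ≠ b) (hab : Commute a b) : Cl D lab x a b := by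
  by_cases hax : a = x
  · subst hax
    have hbD : b ∈ Dn D a := ⟨hb, hne.symm, hab⟩
    exact (cl_ux h hlab h5 hx hbD).symm hx
  by_cases hbx : b = x
  · subst hbx
    exact cl_ux h hlab h5 hx ⟨ha, hax, hab.symm⟩
  by_cases hxa : Commute x a
  · have haD : a ∈ Dn D x := ⟨ha, hax, hxa⟩
    by_cases hxb : Commute x b
    · exact cl_uv h hlab h5 hx haD ⟨hb, hbx, hxb⟩ hab hne
    · exact (cl_yu h hlab h5 hx ⟨hb, hxb⟩ ⟨ha, hxa, hab.symm⟩).symm ha
  · by_cases hxb : Commute x b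
    · exact cl_yu h hlab h5 hx ⟨ha, hxa⟩ ⟨hb, hxb, hab⟩
    · exact cl_yz h hlab h5 hx ⟨ha, hxa⟩ ⟨hb, hxb⟩ hab hne.symm

theorem v_span : Submodule.span K (phi D lab x '' D) = ⊤ := by
  classical
  rw [eq_top_iff]
  rintro ⟨f, a, rfl⟩ -
  have h1 : (⟨Phi D lab x a, ⟨a, rfl⟩⟩ : VV D lab x) = ∑ y : Ix D x, a y • phi D lab x y := by
    apply Subtype.ext
    rw [Submodule.coe_sum]
    funext z
    show Phi D lab x a z = _
    rw [Phi_apply, Finset.sum_apply]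
    apply Finset.sum_congr rfl
    intro y _
    rw [Submodule.coe_smul, phi_coe h hlab h5 hx y.2.1, phi0_y y.2]
    rfl
  rw [h1]
  exact Submodule.sum_mem _ fun y _ => Submodule.smul_mem _ _ (Submodule.subset_span ⟨y, y.2.1, rfl⟩)

end

theorem Ctx.hVV (h : Ctx D) : ∀ x ∈ D, ∀ y ∈ D, (∀ z ∈ D, Commute x z ↔ Commute y z) → x = y :=
  fun x hx y hy hh => h.hV x hx y hy (fun z hz => (hh z hz).symm)

end H33.Pol
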