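import Cfsg.Agent.Lib.H33.Pol11
import Cfsg.Agent.Lib.H95.FischSP1
import Cfsg.Agent.Lib.H95.FischSU3

/-! Identification. -/

set_option autoImplicit false

namespace H33.Pol

open Cfsg H90.ThreeTrans H90.ThreeTransB H90.WidthOne H90.ThreeTransC H90.ThreeTransE H90.ThreeTransG H90.ThreeTransH
  H33.Fisch

variable {G : Type*} [Group G] [Finite G] {D : Set G}

theorem Ctx.hcomm (h : Ctx D) : ∃ x ∈ D, ∃ y ∈ D, x ≠ y ∧ Commute x y := by
  obtain ⟨x, hx, u, hu, -⟩ := h.nt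
  exact ⟨x, hx, u, hu.1, hu.2.1.symm, hu.2.2⟩

/-- the data of the hermitian space -/
theorem Ctx.data (h : Ctx D) (h5 : ∀ x ∈ D, ∀ u ∈ Dn D x, (Ln D x u).ncard = 5) :
    ∃ (x : G) (_ : x ∈ D) (lab : G → K) (_ : Lab D x lab), True := by
  obtain ⟨x, hx, -⟩ := h.nt
  obtain ⟨lab, l1, l2⟩ := h.labels h5 hx
  exact ⟨x, hx, lab, ⟨l1, l2⟩, trivial⟩

theorem v_trans {lab : G → K} {x : G} (h : Ctx D) (hlab : Lab D x lab) (h5 : ∀ x ∈ D, ∀ u ∈ Dn D x, (Ln D x u).ncard = 5) (hx : x ∈ D) :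
    ∀ a ∈ D, ∀ b ∈ D, ∃ t : K, t ≠ 0 ∧
      phi D lab x b + hh D lab x (phi D lab x b) (phi D lab x a) • phi D lab x a = t • phi D lab x (a * b * a) := by
  intro a ha b hb
  by_cases hab : Commute a b
  · refine ⟨1, one_ne_zero, ?_⟩
    rw [(perp h hlab h5 hx hb ha).2 hab.symm, zero_smul, add_zero, one_smul]
    congr 1
    rw [hab.eq, mul_assoc, mul_self h.set ha, mul_one]
  · rw [← cj_D h.set ha b]
    exact trans_closure h.set h.grp (hh D lab x) hh_add hh_smul (hh_herm h hlab h5 hx) (hh_nd h hlab h5 hx) (phi D lab x)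
      (v_span h hlab h5 hx) (fun a ha b hb => perp h hlab h5 hx ha hb)
      (fun a ha b hb hne hab c => line_closure h hlab h5 hx ha hb hne hab c) h.hVV
      (fun x hx y hy z hz hxy h1 h2 h3 => h.hyp' hx hy hz hxy h1 h2 h3)
      (by
        intro d hd
        obtain ⟨u, hu⟩ := h.exists_dn hd
        obtain ⟨y, hy, hyd⟩ := h.exists_nc hu.1 (h.Dn_symm hd hu)
        exact ⟨y, hy.1, fun hc => hyd hc.symm⟩)
      (by
        intro d hd
        obtain ⟨u, hu⟩ := h.exists_dn hd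
        exact ⟨u, hu.1, hu.2.1, hu.2.2⟩)
      a ha b hb hab

theorem Ctx.su_case (h : Ctx D) (h5 : ∀ x ∈ D, ∀ u ∈ Dn D x, (Ln D x u).ncard = 5) (hZ : Subgroup.center G = ⊥) :
    ∃ n : ℕ, 4 ≤ n ∧ Nonempty (G ≃* PSU n K 2) := by
  obtain ⟨x, hx, lab, hlab, -⟩ := h.data h5
  obtain ⟨e, he, -⟩ := H95.FischSU.H33SU h.cls hZ h.hVV h.hcomm (F := K) H17.F4.card (hh D lab x) hh_add hh_smul
    (hh_herm h hlab h5 hx) (hh_nd h hlab h5 hx) (phi D lab x) (v_span h hlab h5 hx)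
    (fun a ha => (perp h hlab h5 hx ha ha).2 (Commute.refl a)) (fun a ha b hb => perp h hlab h5 hx ha hb)
    (fun a ha b hb hne hab c => line_closure h hlab h5 hx ha hb hne hab c) (v_trans h hlab h5 hx)
  exact ⟨_, he, ⟨e⟩⟩

theorem Ctx.sp_case (h : Ctx D) (h3 : ∀ x ∈ D, ∀ u ∈ Dn D x, (Ln D x u).ncard = 3) (hZ : Subgroup.center G = ⊥) :
    ∃ n : ℕ, Nonempty (G ≃* Matrix.symplecticGroup (Fin n) (ZMod 2)) := by
  obtain ⟨n, e, -⟩ := H95.FischSP.H33SP h.cls hZ h.hVV (fun x hx y hy hne hxy => h.sp1 h3 hx hy hne hxy)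
    (fun x hx y hy hxy z hz => by rw [← cj_D h.set hx y]; exact h.sp2 h3 hx hy hxy z hz)
  exact ⟨n, ⟨e⟩⟩

theorem Ctx.dich (h : Ctx D) : (∀ x ∈ D, ∀ u ∈ Dn D x, (Ln D x u).ncard = 3) ∨ (∀ x ∈ D, ∀ u ∈ Dn D x, (Ln D x u).ncard = 5) := by
  obtain ⟨x, hx, u, hu, -⟩ := h.nt
  rcases h.card_cases hx hu with h1 | h1
  · left; intro y hy v hv; rw [cj_Ln_ncard h hy hv hx hu, h1]
  · right; intro y hy v hv; rw [cj_Ln_ncard h hy hv hx hu, h1]

theorem exists_vclass (hG : IsThreeTranspositionGroup D) {x : G}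
    (h : ¬ pCore 2 ↥(Subgroup.closure (Dn D x)) ≤ Subgroup.center ↥(Subgroup.closure (Dn D x))) :
    ∃ y ∈ Dn D x, ∃ y' ∈ Dn D x, y' ≠ y ∧ VRel (Dn D x) y y' := by
  have hs := sub_group hG x
  have hN : (pCore 2 ↥(Subgroup.closure (Dn D x))).Normal := Subgroup.sSup_normal _ fun N hN => hN.1
  by_contra hcon
  push Not at hcon
  apply h
  apply le_center_of_commute hs
  intro d hd n hn
  have hd' := hs.2.1 n d hd
  have h1 : d⁻¹ * (n * d * n⁻¹) ∈ pCore 2 ↥(Subgroup.closure (Dn D x)) := by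
    have h2 := hN.conj_mem n hn d
    have h3 := Subgroup.mul_mem _ h2 (Subgroup.inv_mem _ hn)
    have e : d * n * d⁻¹ * n⁻¹ = d⁻¹ * (n * d * n⁻¹) := by
      rw [inv_eq hs.1 hd]; simp only [mul_assoc]
    rwa [e] at h3
  have h2 := vrel_of_mem hs hd hd' h1
  by_contra hc
  have hne : ((n * d * n⁻¹ : ↥(Subgroup.closure (Dn D x))) : G) ≠ (d : G) := by
    intro h3
    apply hc
    have h4 : n * d * n⁻¹ = d := Subtype.ext h3
    show d * n = n * d
    calc d * n = (n * d * n⁻¹) * n := by rw [h4]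
      _ = n * d := by group
  apply hcon (d : G) hd _ hd' hne
  intro e he
  have h3 := h2 ⟨e, Subgroup.subset_closure he⟩ he
  constructor
  · intro h5
    have := h3.1 (Subtype.ext h5.eq)
    exact congrArg Subtype.val this.eq
  · intro h5
    have := h3.2 (Subtype.ext h5.eq)
    exact congrArg Subtype.val this.eq

theorem mk_ctx (hsol : ∀ N : Subgroup G, N.Normal → Group.IsSolvable ↥N → N = ⊥)
    (hperf : ⁅commutator G, commutator G⁆ = commutator G) (hD : IsThreeTranspositionClass D) {x : G} (hx : x ∈ D)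
    (h : ¬ pCore 2 ↥(Subgroup.closure (Dn D x)) ≤ Subgroup.center ↥(Subgroup.closure (Dn D x))) : Ctx D := by
  have hG := group_of_class hD
  obtain ⟨y, hy, y', hy', hne, hR⟩ := exists_vclass hG h
  have hw : ∃ a ∈ D, ∃ b ∈ D, a ≠ b ∧ Commute a b := ⟨x, hx, y, hy.1, hy.2.1.symm, hy.2.2⟩
  have hprim := primitive hsol hperf hD hw
  have hV : ∀ x ∈ D, ∀ y ∈ D, VRel D x y → x = y :=
    fun x hx y hy h => H90.ThreeTransI.V_trivial hG hprim hx hy h
  have hW : ∀ x ∈ D, ∀ y ∈ D, WRel D x y → x = y :=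
    fun x hx y hy h => H90.ThreeTransI.W_trivial hG hprim hw hx hy h
  exact ⟨hD, hV, hW, fun x hx e he f hf => single_comp hD hprim.2.2 hV hW hx he hf,
    x, hx, y, hy, y', hy', hne, hR⟩

end H33.Pol
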