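import Cfsg.Agent.Lib.H33.Pol12
import Cfsg.Agent.Lib.H95.FischSP6
import Cfsg.Agent.Lib.H95.FischSU5
import Cfsg.Agent.S5351
import Cfsg.Agent.S1615
import Cfsg.Agent.Lib.H26.Quasisimple
import Cfsg.Agent.Lib.H33.Fischer2

/-! The solvable case. -/

set_option autoImplicit false

open scoped commutatorElement

namespace H33.Pol

open Cfsg H90.ThreeTrans H90.ThreeTransB H90.WidthOne H90.ThreeTransC H90.ThreeTransE H90.ThreeTransG H90.ThreeTransH
  H33.Fisch

theorem eq_of_braid_comm {Q : Type*} [Group Q] {a b : Q} (ha : a * a = 1) (hb : b * b = 1) (h : a * b * a = b * a * b)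
    (hc : Commute a b) : a = b := by
  have e1 : a * b * a = b := by rw [hc.eq, mul_assoc, ha, mul_one]
  have e2 : b * a * b = a := by rw [← hc.eq, mul_assoc, hb, mul_one]
  rw [e1, e2] at h
  exact h.symm

theorem a4_quot {Q : Type*} [Group Q] {a b c d : Q} (ha : a * a = 1) (hb : b * b = 1) (hc : c * c = 1) (hd : d * d = 1)
    (hab : a * b * a = b * a * b) (hbc : b * c * b = c * b * c) (hcd : c * d * c = d * c * d)
    (hac : Commute a c) (had : Commute a d) (hbd : Commute b d) (h : a * b * c * b * a * c = 1) : a = b ∧ c = d := by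
  have h1 : a * b * c * (b * a) = c := by
    have h2 : a * b * c * b * a = c⁻¹ := eq_inv_of_mul_eq_one_left h
    rw [← mul_assoc, h2]
    exact inv_eq_of_mul_eq_one_left hc
  have h3 : a * b * c = c * (a * b) := by
    calc a * b * c = a * b * c * (b * (a * a) * b) := by rw [ha, mul_one, hb, mul_one]
      _ = (a * b * c * (b * a)) * (a * b) := by simp only [mul_assoc]
      _ = c * (a * b) := by rw [h1]
  have h4 : Commute b c := by
    show b * c = c * b
    apply mul_left_cancel (a := a)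
    calc a * (b * c) = c * (a * b) := by rw [← h3, mul_assoc]
      _ = (c * a) * b := by rw [mul_assoc]
      _ = (a * c) * b := by rw [hac.eq]
      _ = a * (c * b) := by rw [mul_assoc]
  have h5 : b = c := eq_of_braid_comm hb hc hbc h4
  refine ⟨?_, ?_⟩
  · apply eq_of_braid_comm ha hb hab
    rw [h5]; exact hac
  · apply eq_of_braid_comm hc hd hcd
    rw [← h5]; exact hbd

theorem a4_derived {H : Type*} [Group H] {a b c d : H} (ha : a * a = 1) (hb : b * b = 1) (hc : c * c = 1) (hd : d * d = 1)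
    (hab : a * b * a = b * a * b) (hbc : b * c * b = c * b * c) (hcd : c * d * c = d * c * d)
    (hac : Commute a c) (had : Commute a d) (hbd : Commute b d) (n : ℕ) :
    a * b ∈ derivedSeries H n ∧ c * d ∈ derivedSeries H n := by
  induction n with
  | zero => rw [derivedSeries_zero]; exact ⟨trivial, trivial⟩
  | succ n ih =>
    have h1 : ⁅a * b, c * d⁆ ∈ derivedSeries H (n + 1) := by
      rw [derivedSeries_succ]
      exact Subgroup.commutator_mem_commutator ih.1 ih.2
    have ia : a⁻¹ = a := inv_eq_of_mul_eq_one_left ha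
    have ib : b⁻¹ = b := inv_eq_of_mul_eq_one_left hb
    have ic : c⁻¹ = c := inv_eq_of_mul_eq_one_left hc
    have id : d⁻¹ = d := inv_eq_of_mul_eq_one_left hd
    have h2 : ⁅a * b, c * d⁆ = a * b * c * b * a * c := by
      rw [commutatorElement_def, mul_inv_rev, mul_inv_rev, ia, ib, ic, id]
      calc a * b * (c * d) * (b * a) * (d * c) = a * b * c * (d * b) * a * d * c := by simp only [mul_assoc]
        _ = a * b * c * b * (d * a) * d * c := by rw [← hbd.eq]; simp only [mul_assoc]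
        _ = a * b * c * b * a * (d * d) * c := by rw [← had.eq]; simp only [mul_assoc]
        _ = _ := by rw [hd, mul_one]
    rw [h2] at h1
    have hN : (derivedSeries H (n + 1)).Normal := inferInstance
    obtain ⟨π, hπ⟩ : ∃ π, π = QuotientGroup.mk' (derivedSeries H (n + 1)) := ⟨_, rfl⟩
    have hker : ∀ g : H, π g = 1 ↔ g ∈ derivedSeries H (n + 1) := by
      intro g
      rw [← MonoidHom.mem_ker, hπ, QuotientGroup.ker_mk']
    have m : ∀ {u v : H}, Commute u v → Commute (π u) (π v) := fun h => h.map π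
    have h3 := a4_quot (a := π a) (b := π b) (c := π c) (d := π d) (by rw [← map_mul, ha, map_one]) (by rw [← map_mul, hb, map_one])
      (by rw [← map_mul, hc, map_one]) (by rw [← map_mul, hd, map_one]) (by simp only [← map_mul, hab]) (by simp only [← map_mul, hbc])
      (by simp only [← map_mul, hcd]) (m hac) (m had) (m hbd) (by simp only [← map_mul]; exact (hker _).2 h1)
    constructor
    · rw [← hker, map_mul, h3.1, ← map_mul, hb, map_one]
    · rw [← hker, map_mul, h3.2, ← map_mul, hd, map_one]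

theorem a4_solv {H : Type*} [Group H] (hs : Group.IsSolvable H) {a b c d : H} (ha : a * a = 1) (hb : b * b = 1) (hc : c * c = 1) (hd : d * d = 1)
    (hab : a * b * a = b * a * b) (hbc : b * c * b = c * b * c) (hcd : c * d * c = d * c * d)
    (hac : Commute a c) (had : Commute a d) (hbd : Commute b d) : a = b := by
  obtain ⟨n, hn⟩ := (Group.isSolvable_def H).1 hs
  have h1 := (a4_derived ha hb hc hd hab hbc hcd hac had hbd n).1
  rw [hn, Subgroup.mem_bot] at h1
  rw [eq_inv_of_mul_eq_one_left h1]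
  exact inv_eq_of_mul_eq_one_left hb

variable {G : Type*} [Group G] [Finite G] {D : Set G}

theorem Ctx.rank_two (h : Ctx D) (hs : ∀ x ∈ D, Group.IsSolvable ↥(Subgroup.closure (Dn D x))) :
    ∀ x ∈ D, ∀ u ∈ D, ∀ v ∈ D, x ≠ u → x ≠ v → u ≠ v → Commute x u → Commute x v → Commute u v →
      ∀ e ∈ D, Commute e x → Commute e u → Commute e v := by
  intro x hx u hu v hv hxu hxv huv cxu cxv cuv e0 he0 cex ceu
  by_contra hev
  have hDs := h.set
  have huD : u ∈ Dn D x := ⟨hu, hxu.symm, cxu⟩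
  have hvD : v ∈ Dn D x := ⟨hv, hxv.symm, cxv⟩
  have hvDu : v ∈ Dn D u := ⟨hv, huv.symm, cuv⟩
  have hvn : v ∉ Ln D x u := by
    intro hc
    exact hev (Ln_C ⟨he0, cex.symm, ceu.symm⟩ hc)
  have hun : u ∉ Ln D x v := by
    intro hc
    apply hvn
    rw [h.Ln_left hx hvD hc huD.2.1]
    exact right_mem_Ln hvD
  obtain ⟨f1, hf1, hf1u⟩ : ∃ f ∈ C D x v, ¬ Commute u f := by
    by_contra hcon
    push Not at hcon
    exact hun ⟨hu, hcon⟩
  have he0u : e0 ≠ u := fun hc => hev (hc ▸ cuv)
  have he0D : e0 ∈ Dn D u := ⟨he0, he0u, ceu.symm⟩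
  obtain ⟨f2, hf2, hf2u, hf12, -⟩ := h.proj hu he0D hf1.1 (fun hc => hf1u hc.symm)
  have cxf2 : Commute x f2 := Ln_C ⟨hx, cxu.symm, cex⟩ hf2
  have cuf2 : Commute u f2 := Ln_comm_left hu he0D hf2
  have nf2v : ¬ Commute f2 v := by
    intro hc
    exact hev (h.two_all hu he0D hv (left_mem_Ln hu he0D) hf2 hf2u.symm cuv.symm hc.symm e0 (right_mem_Ln he0D)).symm
  obtain ⟨a3, ha3, ha3u, ha3v⟩ := h.exists_third hu hvDu
  have cxa3 : Commute x a3 := Ln_C ⟨hx, cxu.symm, cxv.symm⟩ ha3
  have cua3 : Commute u a3 := Ln_comm_left hu hvDu ha3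
  have nf1a3 : ¬ Commute f1 a3 := by
    intro hc
    exact hf1u (h.two_all hu hvDu hf1.1 (right_mem_Ln hvDu) ha3 ha3v.symm hf1.2.2.symm hc u (left_mem_Ln hu hvDu)).symm
  have nf2a3 : ¬ Commute a3 f2 := by
    intro hc
    exact nf2v (h.two_all hu hvDu hf2.1 (left_mem_Ln hu hvDu) ha3 ha3u.symm cuf2.symm hc.symm v (right_mem_Ln hvDu))
  -- membership in `Dn D x`
  have m1 : f1 ∈ Dn D x := ⟨hf1.1, fun hc => hf1u (by rw [hc]; exact cxu.symm), hf1.2.1⟩
  have m3 : a3 ∈ Dn D x := ⟨ha3.1, fun hc => nf1a3 (by rw [hc]; exact hf1.2.1.symm), cxa3⟩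
  have m2 : f2 ∈ Dn D x := ⟨hf2.1, fun hc => nf2v (by rw [hc]; exact cxv), cxf2⟩
  -- solvability
  have hsx := hs x hx
  have sc := Subgroup.subset_closure (k := Dn D x)
  have := a4_solv hsx (a := ⟨u, sc huD⟩) (b := ⟨f1, sc m1⟩) (c := ⟨a3, sc m3⟩) (d := ⟨f2, sc m2⟩)
    (Subtype.ext (mul_self hDs hu)) (Subtype.ext (mul_self hDs hf1.1)) (Subtype.ext (mul_self hDs ha3.1)) (Subtype.ext (mul_self hDs hf2.1))
    (Subtype.ext (braid hDs hu hf1.1 hf1u)) (Subtype.ext (braid hDs hf1.1 ha3.1 nf1a3)) (Subtype.ext (braid hDs ha3.1 hf2.1 nf2a3))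
    (Subtype.ext cua3.eq) (Subtype.ext cuf2.eq) (Subtype.ext hf12.eq)
  have e : u = f1 := congrArg Subtype.val this
  exact hf1u (by rw [← e])

/-- solvability is conjugation invariant -/
theorem solv_conj (hD : IsThreeTranspositionClass D) {x y : G} (hx : x ∈ D) (hy : y ∈ D)
    (hs : Group.IsSolvable ↥(Subgroup.closure (Dn D x))) : Group.IsSolvable ↥(Subgroup.closure (Dn D y)) := by
  have hG := group_of_class hD
  obtain ⟨g, rfl⟩ := exists_conj_eq hD hx hy
  have hle : (Subgroup.closure (Dn D x)).map (MulAut.conj g).toMonoidHom = Subgroup.closure (Dn D (g * x * g⁻¹)) := by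
    rw [MonoidHom.map_closure, Dn_conj hG]
    rfl
  rw [← hle]
  exact Group.isSolvable_of_surjective (f := (MulAut.conj g).toMonoidHom.subgroupMap (Subgroup.closure (Dn D x)))
    ((MulAut.conj g).toMonoidHom.subgroupMap_surjective _)

section
variable (hsol : ∀ N : Subgroup G, N.Normal → Group.IsSolvable ↥N → N = ⊥)
include hsol

theorem exists_two (hD : IsThreeTranspositionClass D) {x : G} (hx : x ∈ D) : ∃ a ∈ D, ∃ b ∈ D, a ≠ b := by
  by_contra hcon
  push Not at hcon
  have hG := group_of_class hD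
  have h1 : x ∈ Subgroup.center G := by
    rw [Subgroup.mem_center_iff]
    intro g
    have h2 := hcon _ (conj_mem hG g hx) x hx
    calc g * x = (g * x * g⁻¹) * g := by group
      _ = x * g := by rw [h2]
  rw [center_bot hsol, Subgroup.mem_bot] at h1
  exact ne_one hG.1 hx h1

theorem exists_comm_pair (hD : IsThreeTranspositionClass D) {x : G} (hx : x ∈ D) : ∃ a ∈ D, ∃ b ∈ D, a ≠ b ∧ Commute a b := by
  have h3 : Fact (Nat.Prime 3) := ⟨Nat.prime_three⟩
  have hG := group_of_class hD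
  by_contra hcon
  push Not at hcon
  have hk : Kei D := by
    refine ⟨fun e he => mul_self hG.1 he, fun a ha b hb => mul_mul_mem hG ha hb, ?_⟩
    intro a ha b hb
    by_cases hab : a = b
    · rw [hab]
    · exact braid hG.1 ha hb (hcon a ha b hb hab)
  have hp := hk.isPGroup
  have hn : (Subgroup.closure {x : G | ∃ a ∈ D, ∃ b ∈ D, x = a * b}).Normal := normal_closure_of_conj (by
    rintro g _ ⟨a, ha, b, hb, rfl⟩
    exact ⟨_, conj_mem hG g ha, _, conj_mem hG g hb, by group⟩)
  have hle : Subgroup.closure {x : G | ∃ a ∈ D, ∃ b ∈ D, x = a * b} ≤ pCore 3 G := le_sSup ⟨hn, hp⟩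
  rw [pCore_bot hsol 3] at hle
  obtain ⟨a, ha, b, hb, hab⟩ := exists_two hsol hD hx
  have h4 : a * b ∈ (⊥ : Subgroup G) := hle (Subgroup.subset_closure ⟨a, ha, b, hb, rfl⟩)
  rw [Subgroup.mem_bot] at h4
  apply hab
  rw [eq_inv_of_mul_eq_one_left h4, inv_eq hG.1 hb]

end

theorem solv_trich (hsol : ∀ N : Subgroup G, N.Normal → Group.IsSolvable ↥N → N = ⊥)
    (hperf : ⁅commutator G, commutator G⁆ = commutator G) (hD : IsThreeTranspositionClass D) {x : G} (hx : x ∈ D)
    (hs : Group.IsSolvable ↥(Subgroup.closure (Dn D x))) :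
    (¬ pCore 2 ↥(Subgroup.closure (Dn D x)) ≤ Subgroup.center ↥(Subgroup.closure (Dn D x))) ∨
    (¬ oddCore ↥(Subgroup.closure (Dn D x)) ≤ Subgroup.center ↥(Subgroup.closure (Dn D x))) := by
  have h3 : Fact (Nat.Prime 3) := ⟨Nat.prime_three⟩
  have hG := group_of_class hD
  have hw := exists_comm_pair hsol hD hx
  have hprim := primitive hsol hperf hD hw
  have hV : ∀ x ∈ D, ∀ y ∈ D, VRel D x y → x = y :=
    fun x hx y hy h => H90.ThreeTransI.V_trivial hG hprim hx hy h
  have hW : ∀ x ∈ D, ∀ y ∈ D, WRel D x y → x = y :=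
    fun x hx y hy h => H90.ThreeTransI.W_trivial hG hprim hw hx hy h
  -- `D_x` non-empty
  obtain ⟨a, ha, b, hb, hab, hc⟩ := hw
  obtain ⟨g, hg⟩ := exists_conj_eq hD ha hx
  have huD : g * b * g⁻¹ ∈ Dn D x := by
    rw [← hg, Dn_conj hG]
    exact ⟨b, ⟨hb, hab.symm, hc⟩, rfl⟩
  obtain ⟨u, hu⟩ : ∃ u, u = g * b * g⁻¹ := ⟨_, rfl⟩
  rw [← hu] at huD
  -- two members
  obtain ⟨u', hu', hne⟩ : ∃ u' ∈ Dn D x, u' ≠ u := by
    by_contra hcon
    push Not at hcon
    have hcard := Dn_card_eq hD hx huD.1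
    have h1 : Dn D x = {u} := by
      ext y
      exact ⟨fun hy => hcon y hy, fun hy => by rw [hy]; exact huD⟩
    have hxu : x ∈ Dn D u := ⟨hx, huD.2.1.symm, huD.2.2.symm⟩
    have h2 : Dn D u = {x} := by
      symm
      apply Set.eq_of_subset_of_ncard_le
      · intro y hy; rw [hy]; exact hxu
      · rw [← hcard, h1, Set.ncard_singleton, Set.ncard_singleton]
      · exact Set.toFinite _
    have hVR : VRel D x u := by
      intro e he
      constructor
      · intro h3
        by_cases heu : e = u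
        · rw [heu]; exact huD.2.2
        · have : e ∈ Dn D u := ⟨he, heu, h3⟩
          rw [h2] at this
          rw [this]
      · intro h3
        by_cases hex : e = x
        · rw [hex]; exact huD.2.2.symm
        · have : e ∈ Dn D x := ⟨he, hex, h3⟩
          rw [h1] at this
          rw [this]
    exact huD.2.1 (hV x hx u huD.1 hVR).symm
  have hsub := sub_group hG x
  have sc := Subgroup.subset_closure (k := Dn D x)
  have hcls : IsThreeTranspositionClass {d : ↥(Subgroup.closure (Dn D x)) | (d : G) ∈ Dn D x} := by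
    refine ⟨hsub.1, ⟨⟨u, sc huD⟩, huD, ?_⟩, hsub.2.2⟩
    ext f
    constructor
    · intro hf
      have h1 := single_comp hD hprim.2.2 hV hW hx huD hf
      obtain ⟨k, hk, hkf⟩ := H33.Fischer2.exists_closure_conj_of_pth hG h1.2
      show IsConj _ _
      rw [isConj_iff]
      exact ⟨⟨k, hk⟩, Subtype.ext hkf⟩
    · intro hf
      have hf' : IsConj _ _ := hf
      rw [isConj_iff] at hf'
      obtain ⟨k, rfl⟩ := hf'
      exact hsub.2.1 k _ huD
  have h5 := (Cfsg.Agent.S5351.result hcls ⟨⟨u, sc huD⟩, huD, ⟨u', sc hu'⟩, hu', fun hc => hne (congrArg Subtype.val hc).symm⟩).2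
  rcases h5 with h5 | h5 | h5
  · exact Or.inl h5.1
  · right
    intro hc
    apply h5.2.1
    have hp : IsPGroup 3 (pCore 3 ↥(Subgroup.closure (Dn D x))) := H1.Cores.isPGroup_pCore 3
    have hn : (pCore 3 ↥(Subgroup.closure (Dn D x))).Normal := Subgroup.sSup_normal _ fun N hN => hN.1
    obtain ⟨k, hk⟩ := (IsPGroup.iff_card).1 hp
    have hcop : (Nat.card (pCore 3 ↥(Subgroup.closure (Dn D x)))).Coprime 2 := by
      rw [hk]; exact Nat.Coprime.pow_left _ (by norm_num)
    have hle : pCore 3 ↥(Subgroup.closure (Dn D x)) ≤ oddCore ↥(Subgroup.closure (Dn D x)) :=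
      le_sSup (a := pCore 3 ↥(Subgroup.closure (Dn D x))) (show _ ∈ {N : Subgroup ↥(Subgroup.closure (Dn D x)) | N.Normal ∧ (Nat.card N).Coprime 2} from ⟨hn, hcop⟩)
    exact le_trans hle hc
  · exfalso
    apply h5.2.2
    rw [H26.Components.layer_eq_bot_iff]
    intro Kc hKc
    exact H26.Quasisimple.not_isSolvable hKc.2 inferInstance

theorem solv_main (hsol : ∀ N : Subgroup G, N.Normal → Group.IsSolvable ↥N → N = ⊥)
    (hperf : ⁅commutator G, commutator G⁆ = commutator G) (hD : IsThreeTranspositionClass D) {x : G} (hx : x ∈ D)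
    (hs : Group.IsSolvable ↥(Subgroup.closure (Dn D x))) :
    Nonempty (G ≃* Equiv.Perm (Fin 5)) ∨ Nonempty (G ≃* Equiv.Perm (Fin 6)) ∨
      (Nonempty (G ≃* PSU 4 K 2) ∨ Nonempty (G ≃* PSU 5 K 2)) := by
  have hZ := center_bot hsol
  rcases solv_trich hsol hperf hD hx hs with h2 | h3
  · right
    have h := mk_ctx hsol hperf hD hx h2
    have hr := h.rank_two (fun y hy => solv_conj hD hx hy hs)
    rcases h.dich with h3 | h5
    · left
      exact H95.FischSP.H33SP6 h.cls hZ h.hVV (fun x hx y hy hne hxy => h.sp1 h3 hx hy hne hxy)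
        (fun x hx y hy hxy z hz => by rw [← cj_D h.set hx y]; exact h.sp2 h3 hx hy hxy z hz) h.hcomm hr
    · right
      obtain ⟨x, hx, lab, hlab, -⟩ := h.data h5
      obtain ⟨e, he, -⟩ := H95.FischSU.H33SU h.cls hZ h.hVV h.hcomm (F := K) H17.F4.card (hh D lab x) hh_add hh_smul
        (hh_herm h hlab h5 hx) (hh_nd h hlab h5 hx) (phi D lab x) (v_span h hlab h5 hx)
        (fun a ha => (perp h hlab h5 hx ha ha).2 (Commute.refl a)) (fun a ha b hb => perp h hlab h5 hx ha hb)
        (fun a ha b hb hne hab c => line_closure h hlab h5 hx ha hb hne hab c) (v_trans h hlab h5 hx)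
      have he5 := H95.FischSU.H33SU5 h.cls hZ h.hVV h.hcomm (F := K) H17.F4.card (hh D lab x) hh_add hh_smul
        (hh_herm h hlab h5 hx) (hh_nd h hlab h5 hx) (phi D lab x) (v_span h hlab h5 hx)
        (fun a ha => (perp h hlab h5 hx ha ha).2 (Commute.refl a)) (fun a ha b hb => perp h hlab h5 hx ha hb)
        (fun a ha b hb hne hab c => line_closure h hlab h5 hx ha hb hne hab c) (v_trans h hlab h5 hx) hr
      have key : ∀ n m : ℕ, n = m → Nonempty (G ≃* PSU n K 2) → Nonempty (G ≃* PSU m K 2) := by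
        rintro n _ rfl hh; exact hh
      rcases (show Module.finrank K (VV D lab x) = 4 ∨ Module.finrank K (VV D lab x) = 5 by omega) with h6 | h6
      · left; exact key _ _ h6 ⟨e⟩
      · right; exact key _ _ h6 ⟨e⟩
  · left
    exact Cfsg.Agent.S1615.result hsol hperf hD x hx h3

end H33.Pol
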