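import Cfsg.Agent.Lib.H33.Pol1

/-! Lines have three or five points. -/

set_option autoImplicit false

namespace H33.Pol

open Cfsg H90.ThreeTrans H90.ThreeTransB H90.WidthOne H90.ThreeTransC H90.ThreeTransE H90.ThreeTransG H90.ThreeTransH
  H33.Fisch

variable {G : Type*} [Group G]

/-- conjugation -/
def cj (g y : G) : G := g * y * g⁻¹

theorem cj_def (g y : G) : cj g y = g * y * g⁻¹ := rfl

theorem cj_cj (g h y : G) : cj g (cj h y) = cj (g * h) y := by unfold cj; group
theorem cj_mul (g a b : G) : cj g (a * b) = cj g a * cj g b := by unfold cj; group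
theorem cj_one (y : G) : cj 1 y = y := by unfold cj; group
theorem cj_inj {g a b : G} : cj g a = cj g b ↔ a = b :=
  ⟨fun h => mul_left_cancel (mul_right_cancel h), fun h => by rw [h]⟩
theorem cj_comm {g a b : G} : Commute (cj g a) (cj g b) ↔ Commute a b := comm_conj_iff g a b
theorem cj_self {g a : G} (h : Commute g a) : cj g a = a := conj_of_comm h.symm
theorem comm_of_cj {g a : G} (h : cj g a = a) : Commute g a := by
  unfold cj at h
  show g * a = a * g
  rw [mul_inv_eq_iff_eq_mul] at h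
  exact h
theorem cj_iff {g a : G} : cj g a = a ↔ Commute g a := ⟨comm_of_cj, cj_self⟩
theorem cj_inv_cj (g a : G) : cj g⁻¹ (cj g a) = a := by unfold cj; group
theorem cj_cj_inv (g a : G) : cj g (cj g⁻¹ a) = a := by unfold cj; group
theorem cj_conj (g h y : G) : cj (cj g h) (cj g y) = cj g (cj h y) := by unfold cj; group
theorem cj_swap_comm {g a b : G} : Commute (cj g a) b ↔ Commute a (cj g⁻¹ b) := by
  rw [← cj_comm (g := g⁻¹), cj_inv_cj]

variable {D : Set G}

theorem cj_mem (hG : IsThreeTranspositionGroup D) (g : G) {y : G} (hy : y ∈ D) : cj g y ∈ D := conj_mem hG g hy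

theorem cj_C {x u e : G} (hG : IsThreeTranspositionGroup D) (g : G) : cj g e ∈ C D (cj g x) (cj g u) ↔ e ∈ C D x u := by
  unfold cj
  rw [C_conj hG]
  constructor
  · rintro ⟨w, hw, h⟩
    have : w = e := mul_left_cancel (mul_right_cancel h)
    rwa [← this]
  · intro h; exact ⟨e, h, rfl⟩

theorem cj_Ln {x u p : G} (hG : IsThreeTranspositionGroup D) (g : G) : cj g p ∈ Ln D (cj g x) (cj g u) ↔ p ∈ Ln D x u :=
  Ln_conj hG g x u p

theorem cj_Dn {x u : G} (hG : IsThreeTranspositionGroup D) (g : G) : cj g u ∈ Dn D (cj g x) ↔ u ∈ Dn D x := by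
  constructor
  · rintro ⟨h1, h2, h3⟩
    exact ⟨(conj_mem_iff hG g u).1 h1, fun hh => h2 (by rw [hh]), cj_comm.1 h3⟩
  · rintro ⟨h1, h2, h3⟩
    exact ⟨cj_mem hG g h1, fun hh => h2 (cj_inj.1 hh), cj_comm.2 h3⟩

theorem cj_D (hD : IsThreeTranspositionSet D) {d : G} (hd : d ∈ D) (y : G) : cj d y = d * y * d := by
  unfold cj; rw [inv_eq hD hd]

theorem cj_cj_D (hD : IsThreeTranspositionSet D) {d : G} (hd : d ∈ D) (y : G) : cj d (cj d y) = y := by
  rw [cj_cj, mul_self hD hd, cj_one]

theorem cj_braid (hD : IsThreeTranspositionSet D) {d e : G} (hd : d ∈ D) (he : e ∈ D) (h : ¬ Commute d e) : cj d e = cj e d := by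
  rw [cj_D hD hd, cj_D hD he, braid hD hd he h]

theorem cj_Ln_ncard [Finite G] (h : Ctx D) {x u x' u' : G} (hx : x ∈ D) (hu : u ∈ Dn D x) (hx' : x' ∈ D) (hu' : u' ∈ Dn D x') :
    (Ln D x u).ncard = (Ln D x' u').ncard := by
  obtain ⟨g, rfl, rfl⟩ := h.trans_pair hx hu hx' hu'
  have : Ln D (g * x * g⁻¹) (g * u * g⁻¹) = cj g '' Ln D x u := by
    ext y
    constructor
    · intro hy
      refine ⟨cj g⁻¹ y, ?_, cj_cj_inv g y⟩
      rw [← cj_Ln h.grp g, cj_cj_inv]; exact hy
    · rintro ⟨w, hw, rfl⟩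
      exact (cj_Ln h.grp g).2 hw
  rw [this, Set.ncard_image_of_injective _ (fun a b hab => cj_inj.1 hab)]

/-- members of a line commute -/
theorem Ln_C {x u p e : G} (he : e ∈ C D x u) (hp : p ∈ Ln D x u) : Commute e p := (hp.2 e he).symm

variable [Finite G]

section
variable (h : Ctx D)
include h

theorem Ctx.Dn_symm {x u : G} (hx : x ∈ D) (hu : u ∈ Dn D x) : x ∈ Dn D u := ⟨hx, hu.2.1.symm, hu.2.2.symm⟩

theorem Ctx.Dn_of_Ln {x u p : G} (hx : x ∈ D) (hu : u ∈ Dn D x) (hp : p ∈ Ln D x u) (hpx : p ≠ x) : p ∈ Dn D x :=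
  ⟨hp.1, hpx, Ln_comm_left hx hu hp⟩

/-- line through `x` -/
theorem Ctx.Ln_left {x u p : G} (hx : x ∈ D) (hu : u ∈ Dn D x) (hp : p ∈ Ln D x u) (hpx : p ≠ x) : Ln D x p = Ln D x u :=
  h.Ln_eq hx hu (left_mem_Ln hx hu) hp hpx.symm

theorem Ctx.tr_mem {o p b b' : G} (ho : o ∈ D) (hp : p ∈ Dn D o) (hb : b ∈ Dn D o) (hb' : b' ∈ Ln D o b) (hb'o : b' ≠ o) :
    cj (b * b') p ∈ Ln D o p ∧ cj (b * b') p ≠ o := by
  have hbb' : Commute b b' := Ln_comm_right hb hb'
  by_cases hpb : Commute p b
  · have hpb' : Commute b' p := (h.comm_class ho hp hb hb' hb'o hp.1 hp.2.2).1 hpb.symm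
    rw [cj_self (hpb.symm.mul_left hpb')]
    exact ⟨right_mem_Ln hp, hp.2.1⟩
  · have h1 := h.trl_mem' ho hp hb hb' hb'o hpb
    have e : b' * (b * p * b) * b' = cj (b * b') p := by
      rw [hbb'.eq, ← cj_cj, cj_D h.set hb.1, cj_D h.set hb'.1]
    rwa [e] at h1

theorem Ctx.tr_ne {o p b b' : G} (ho : o ∈ D) (hp : p ∈ Dn D o) (hb : b ∈ Dn D o) (hb' : b' ∈ Ln D o b) (hb'o : b' ≠ o) (hne : b' ≠ b)
    (hpb : ¬ Commute p b) : cj (b * b') p ≠ p := by
  have hbb' : Commute b b' := Ln_comm_right hb hb'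
  have hpb' : ¬ Commute p b' := fun hc => hpb ((h.comm_class ho hp hb hb' hb'o hp.1 hp.2.2).2 hc.symm).symm
  have h1 := trl_ne ho hp hb hb' h.set hne hpb hpb'
  have e : b' * (b * p * b) * b' = cj (b * b') p := by
    rw [hbb'.eq, ← cj_cj, cj_D h.set hb.1, cj_D h.set hb'.1]
  rwa [e] at h1

theorem Ctx.tr_tr {o b b' : G} (ho : o ∈ D) (hb : b ∈ Dn D o) (hb' : b' ∈ Ln D o b) (p : G) :
    cj (b * b') (cj (b * b') p) = p := by
  have hbb' : Commute b b' := Ln_comm_right hb hb'
  rw [cj_cj]
  have : b * b' * (b * b') = 1 := by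
    calc b * b' * (b * b') = b * (b' * b) * b' := by simp only [mul_assoc]
      _ = b * (b * b') * b' := by rw [hbb'.eq]
      _ = (b * b) * (b' * b') := by simp only [mul_assoc]
      _ = 1 := by rw [mul_self h.set hb.1, mul_self h.set hb'.1, mul_one]
  rw [this, cj_one]

/-- translations are transitive -/
theorem Ctx.tr_trans {o p b w : G} (ho : o ∈ D) (hp : p ∈ Dn D o) (hb : b ∈ Dn D o) (hpb : ¬ Commute p b)
    (hw : w ∈ Ln D o p) (hwo : w ≠ o) : ∃ b' ∈ Ln D o b, b' ≠ o ∧ cj (b * b') p = w := by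
  have hDs := h.set
  have himg : (fun b' => cj (b * b') p) '' (Ln D o b \ {o}) = Ln D o p \ {o} := by
    apply Set.eq_of_subset_of_ncard_le
    · rintro _ ⟨b', ⟨hb', hb'o⟩, rfl⟩
      exact h.tr_mem ho hp hb hb' hb'o
    · rw [Set.InjOn.ncard_image]
      · rw [Set.ncard_sdiff_singleton_of_mem (left_mem_Ln ho hp), Set.ncard_sdiff_singleton_of_mem (left_mem_Ln ho hb),
          cj_Ln_ncard h ho hp ho hb]
      · rintro b1 ⟨hb1, hb1o⟩ b2 ⟨hb2, hb2o⟩ he
        have he' : cj (b * b1) p = cj (b * b2) p := he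
        have hbb1 : Commute b b1 := Ln_comm_right hb hb1
        have hbb2 : Commute b b2 := Ln_comm_right hb hb2
        rw [hbb1.eq, hbb2.eq, ← cj_cj, ← cj_cj] at he'
        have hq : cj b p ∈ D := cj_mem h.grp b hp.1
        have hqo : Commute o (cj b p) := by
          rw [← cj_self hb.2.2.symm, cj_comm]; exact hp.2.2
        have hqb : ¬ Commute b (cj b p) := by
          intro hc
          have : Commute (cj b b) (cj b p) := by rwa [cj_self (Commute.refl b)]
          exact hpb (cj_comm.1 this).symm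
        have hn1 : ¬ Commute b1 (cj b p) := fun hc => hqb ((h.comm_class ho hp hb hb1 hb1o hq hqo).2 hc)
        have hn2 : ¬ Commute b2 (cj b p) := fun hc => hqb ((h.comm_class ho hp hb hb2 hb2o hq hqo).2 hc)
        rw [cj_braid hDs hb1.1 hq hn1, cj_braid hDs hb2.1 hq hn2] at he'
        exact cj_inj.1 he'
    · exact Set.toFinite _
  have : w ∈ (fun b' => cj (b * b') p) '' (Ln D o b \ {o}) := by rw [himg]; exact ⟨hw, hwo⟩
  obtain ⟨b', ⟨hb', hb'o⟩, he⟩ := this
  exact ⟨b', hb', hb'o, he⟩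

/-- a point not commuting with `x` commutes with exactly one point of a line through `x` -/
theorem Ctx.proj {x u z : G} (hx : x ∈ D) (hu : u ∈ Dn D x) (hz : z ∈ D) (hzx : ¬ Commute z x) :
    ∃ p ∈ Ln D x u, p ≠ x ∧ Commute z p ∧ ∀ p' ∈ Ln D x u, Commute z p' → p' = p := by
  obtain ⟨p, hp, hzp⟩ := h.exists_comm hx hu hz
  refine ⟨p, hp, fun hc => hzx (hc ▸ hzp), hzp, ?_⟩
  intro p' hp' hzp'
  by_contra hne
  exact hzx (h.two_all hx hu hz hp' hp hne hzp' hzp x (left_mem_Ln hx hu))

end

/-- relation in `S₅`, first half -/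
theorem s5_rel {b g c e : G} (hb : b * b = 1) (hg : g * g = 1) (hc : c * c = 1) (he : e * e = 1)
    (bc : b * c = c * b) (be : b * e = e * b) (ge : g * e = e * g) (bg : b * g * b = g * b * g) (gc : g * c * g = c * g * c)
    (ce : c * e * c = e * c * e) :
    (b * c) * (e * g) * (b * c) * (e * g) * (b * c) = (e * g) * (b * c) * (e * g) * (b * c) * (e * g) := by
  have cbb : ∀ y : G, b * (b * y) = y := fun y => by rw [← mul_assoc, hb, one_mul]
  have cgg : ∀ y : G, g * (g * y) = y := fun y => by rw [← mul_assoc, hg, one_mul]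
  have ccc : ∀ y : G, c * (c * y) = y := fun y => by rw [← mul_assoc, hc, one_mul]
  have cee : ∀ y : G, e * (e * y) = y := fun y => by rw [← mul_assoc, he, one_mul]
  -- push everything
  have h1 : (e * g) * b * (e * g)⁻¹ = g * b * g := by
    have : (e * g)⁻¹ = g * e := by
      apply inv_eq_of_mul_eq_one_right
      rw [mul_assoc, ← mul_assoc g g, hg, one_mul, he]
    rw [this]
    calc e * g * b * (g * e) = e * (g * b * g) * e := by simp only [mul_assoc]
      _ = e * (b * g * b) * e := by rw [bg]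
      _ = (e * b) * g * (b * e) := by simp only [mul_assoc]
      _ = (b * e) * g * (e * b) := by rw [be]
      _ = b * (e * g * e) * b := by simp only [mul_assoc]
      _ = b * g * b := by rw [← ge, mul_assoc g e e, he, mul_one]
      _ = _ := bg
  have inve : (e * g)⁻¹ = e * g := by
    apply inv_eq_of_mul_eq_one_right
    rw [← ge, mul_assoc, ← mul_assoc e g, ← ge, mul_assoc g e e, he, mul_one, hg]
  have invb : (b * c)⁻¹ = b * c := by
    apply inv_eq_of_mul_eq_one_right
    rw [bc, mul_assoc, ← mul_assoc b c, bc, mul_assoc c b b, hb, mul_one, hc]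
  -- the four conjugates
  have k1 : cj (b * c) (cj (e * g) b) = c * g * c := by
    unfold cj
    rw [h1, invb]
    calc b * c * (g * b * g) * (b * c) = (c * b) * (g * b * g) * (b * c) := by rw [bc]
      _ = (c * b) * (b * g * b) * (b * c) := by rw [bg]
      _ = c * (b * b) * g * (b * b) * c := by simp only [mul_assoc]
      _ = _ := by rw [hb, mul_one, mul_one]
  have k2 : cj (e * g) (cj (b * c) e) = c * g * c := by
    unfold cj
    rw [inve, invb]
    have : b * c * e * (b * c) = c * e * c := by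
      calc b * c * e * (b * c) = c * b * e * (b * c) := by rw [bc]
        _ = c * (b * e) * b * c := by simp only [mul_assoc]
        _ = c * e * (b * b) * c := by rw [be]; simp only [mul_assoc]
        _ = _ := by rw [hb, mul_one]
    rw [this, ce]
    calc e * g * (e * c * e) * (e * g) = g * e * (e * c * e) * (e * g) := by rw [ge]
      _ = g * (e * e) * c * (e * e) * g := by simp only [mul_assoc]
      _ = g * c * g := by rw [he, mul_one, mul_one]
      _ = _ := gc
  have k3 : cj (b * c) (cj (e * g) c) = cj (e * g) (cj (b * c) g) := by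
    unfold cj
    rw [inve, invb]
    have a1 : e * g * c * (e * g) = e * (c * g * c) * e := by
      calc e * g * c * (e * g) = e * g * c * (g * e) := by rw [ge]
        _ = e * (g * c * g) * e := by simp only [mul_assoc]
        _ = _ := by rw [gc]
    have a2 : b * c * g * (b * c) = b * (g * c * g) * b := by
      calc b * c * g * (b * c) = b * c * g * (c * b) := by rw [bc]
        _ = b * (c * g * c) * b := by simp only [mul_assoc]
        _ = _ := by rw [gc]
    rw [a1, a2]
    calc b * c * (e * (c * g * c) * e) * (b * c) = b * c * (e * (c * g * c) * e) * (c * b) := by rw [bc]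
      _ = b * (c * e * c) * g * (c * e * c) * b := by simp only [mul_assoc]
      _ = b * (e * c * e) * g * (e * c * e) * b := by rw [ce]
      _ = b * e * c * (e * g * e) * c * e * b := by simp only [mul_assoc]
      _ = b * e * c * g * c * e * b := by rw [← ge, mul_assoc g e e, he, mul_one]
      _ = (b * e) * (c * g * c) * (e * b) := by simp only [mul_assoc]
      _ = (e * b) * (g * c * g) * (b * e) := by rw [be, gc]
      _ = e * (b * g) * c * (g * b) * e := by simp only [mul_assoc]
      _ = e * g * (g * b * g) * c * (g * b * g) * g * e := by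
          simp only [mul_assoc, cgg]
      _ = e * g * (b * g * b) * c * (b * g * b) * g * e := by rw [bg]
      _ = e * g * b * g * (b * c) * b * g * b * g * e := by simp only [mul_assoc]
      _ = e * g * b * g * (c * b) * b * g * b * g * e := by rw [bc]
      _ = e * g * (b * (g * c * g) * b) * (g * e) := by simp only [mul_assoc, cbb]
      _ = e * g * (b * (g * c * g) * b) * (e * g) := by rw [ge]
  have k4 : cj (b * c) (cj (e * g) (b * c)) = cj (e * g) (cj (b * c) (e * g)) := by
    rw [cj_mul, cj_mul, k1, k3, cj_mul, cj_mul, k2]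
  unfold cj at k4
  rw [inve, invb] at k4
  calc _ = b * c * (e * g * (b * c) * (e * g)) * (b * c) := by simp only [mul_assoc]
    _ = _ := k4
    _ = _ := by simp only [mul_assoc]

section
variable (h : Ctx D)
include h

/-- the relation between translations with different centres -/
theorem Ctx.cross {x u b b' e g w : G} (hx : x ∈ D) (hu : u ∈ Dn D x) (hb : b ∈ Dn D u) (hb' : b' ∈ Ln D u b) (hb'u : b' ≠ u)
    (hb'b : b' ≠ b) (hbx : ¬ Commute b x) (he : e ∈ Dn D x) (hg : g ∈ Ln D x e) (hgx : g ≠ x) (hge : g ≠ e)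
    (heu : ¬ Commute e u) (hbe : Commute b e) (hb'e : ¬ Commute b' e) (hb'g : ¬ Commute b' g) (hbg : ¬ Commute b g)
    (hw : w = cj (b * b') x) : cj (b * b') (cj (e * g) u) = cj (e * g) w := by
  have hDs := h.set
  have hbb' : Commute b b' := Ln_comm_right hb hb'
  have heg : Commute e g := Ln_comm_right he hg
  have hrel := s5_rel (mul_self hDs hb.1) (mul_self hDs hg.1) (mul_self hDs hb'.1) (mul_self hDs he.1) hbb'.eq hbe.eq heg.symm.eq
    (braid hDs hb.1 hg.1 hbg) (braid hDs hg.1 hb'.1 (fun hc => hb'g hc.symm)) (braid hDs hb'.1 he.1 hb'e)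
  set t := b * b' with ht
  set s := e * g with hs
  -- both sides
  have hxD : x ∈ Dn D u := h.Dn_symm hx hu
  have htt : ∀ p, cj t (cj t p) = p := h.tr_tr hu.1 hb hb'
  have hss : ∀ p, cj s (cj s p) = p := h.tr_tr hx he hg
  have htu : cj t u = u := cj_self ((hb.2.2.symm).mul_left (Ln_comm_left hu.1 hb hb').symm)
  have hsx : cj s x = x := cj_self ((he.2.2.symm).mul_left (Ln_comm_left hx he hg).symm)
  -- fixed points of `s`
  obtain ⟨v, hv⟩ : ∃ v, v = cj (t * s) u := ⟨_, rfl⟩
  have hfix : cj (t * s * t * s * t) v = v := by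
    rw [hv, cj_cj]
    have e1 : t * s * t * s * t * (t * s) = t * s * t * s * (t * t) * s := by simp only [mul_assoc]
    have tt : t * t = 1 := by
      rw [ht]
      calc b * b' * (b * b') = b * (b' * b) * b' := by simp only [mul_assoc]
        _ = b * (b * b') * b' := by rw [hbb'.eq]
        _ = (b * b) * (b' * b') := by simp only [mul_assoc]
        _ = 1 := by rw [mul_self h.set hb.1, mul_self h.set hb'.1, mul_one]
    have ss : s * s = 1 := by
      rw [hs]
      calc e * g * (e * g) = e * (g * e) * g := by simp only [mul_assoc]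
        _ = e * (e * g) * g := by rw [heg.eq]
        _ = (e * e) * (g * g) := by simp only [mul_assoc]
        _ = 1 := by rw [mul_self h.set he.1, mul_self h.set hg.1, mul_one]
    have e2 : t * s * t * s * t * (t * s) = t * s * t := by
      rw [e1, tt, mul_one, mul_assoc (t * s * t), ss, mul_one]
    rw [e2, ← cj_cj, htu]
  rw [hrel] at hfix
  -- `v ∈ L`
  have hts : ∀ p ∈ Ln D x u, cj s p ∈ Ln D x u := by
    intro p hp
    by_cases hpx : p = x
    · rw [hpx, hsx]; exact left_mem_Ln hx hu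
    · have := (h.tr_mem hx (h.Dn_of_Ln hx hu hp hpx) he hg hgx).1
      rwa [h.Ln_left hx hu hp hpx] at this
  have htt' : ∀ p ∈ Ln D x u, cj t p ∈ Ln D x u := by
    intro p hp
    rw [Ln_symm] at hp ⊢
    by_cases hpu : p = u
    · rw [hpu, htu]; exact left_mem_Ln hu.1 hxD
    · have := (h.tr_mem hu.1 (h.Dn_of_Ln hu.1 hxD hp hpu) hb hb' hb'u).1
      rwa [h.Ln_left hu.1 hxD hp hpu] at this
  have hvL : v ∈ Ln D x u := by
    rw [hv, ← cj_cj]
    exact htt' _ (hts _ (right_mem_Ln hu))
  -- the preimage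
  obtain ⟨y, hy⟩ : ∃ y, y = cj t (cj s v) := ⟨_, rfl⟩
  have hyL : y ∈ Ln D x u := by rw [hy]; exact htt' _ (hts _ hvL)
  have hsy : cj s y = y := by
    have e3 : cj (s * t * s * t * s) v = cj s (cj t (cj s y)) := by rw [hy]; simp only [cj_cj, mul_assoc]
    rw [e3] at hfix
    have e4 : cj t (cj s y) = cj s v := by rw [← hfix, hss]
    have e5 : cj s y = cj t (cj s v) := by rw [← e4, htt]
    rw [e5, ← hy]
  have hyx : y = x := by
    by_contra hyx
    have hyD := h.Dn_of_Ln hx hu hyL hyx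
    have hye : ¬ Commute y e := by
      intro hc
      exact heu ((h.comm_class hx he hu hyL hyx he.1 he.2.2).2 hc).symm
    exact h.tr_ne hx hyD he hg hgx hge hye hsy
  -- conclude
  have e6 : cj t (cj s u) = v := by rw [hv, cj_cj]
  rw [e6, hw]
  have e7 : cj s v = cj t x := by rw [← hyx, hy, htt]
  rw [← e7, hss]

/-- all three-cycles on a line are induced by `G` -/
theorem Ctx.cyc3 {x u w : G} (hx : x ∈ D) (hu : u ∈ Dn D x) (hw : w ∈ Ln D x u) (hwx : w ≠ x) (hwu : w ≠ u) :
    ∃ k : G, cj k x = w ∧ cj k w = u ∧ cj k u = x ∧ ∀ v ∈ Ln D x u, v ≠ x → v ≠ u → v ≠ w → cj k v = v := by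
  have hDs := h.set
  have hxD : x ∈ Dn D u := h.Dn_symm hx hu
  obtain ⟨b, hb, hbx⟩ := h.exists_nc hu.1 hxD
  obtain ⟨b', hb', hb'u, hbw⟩ := h.tr_trans hu.1 hxD hb (fun hc => hbx hc.symm) (w := w) (by rw [Ln_symm]; exact hw) hwu
  have hb'b : b' ≠ b := by
    intro hc
    rw [hc, mul_self hDs hb.1, cj_one] at hbw
    exact hwx hbw.symm
  have hbb' : Commute b b' := Ln_comm_right hb hb'
  have hb'x : ¬ Commute b' x := fun hc => hbx ((h.comm_class hu.1 hxD hb hb' hb'u hx hxD.2.2).2 hc)
  obtain ⟨d, hd, hdu⟩ := h.exists_nc hx hu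
  obtain ⟨e, he, hex, hbe, heu⟩ := h.proj hx hd hb.1 hbx
  obtain ⟨f, hf, hfx, hb'f, hfu⟩ := h.proj hx hd hb'.1 hb'x
  have heD : e ∈ Dn D x := h.Dn_of_Ln hx hd he hex
  have hLe : Ln D x e = Ln D x d := h.Ln_left hx hd he hex
  have hcl : ∀ c ∈ Ln D x d, c ≠ x → ¬ Commute c u := by
    intro c hc hcx hcu
    exact hdu ((h.comm_class hx hu hd hc hcx hu.1 hu.2.2).2 hcu)
  have heu' := hcl e he hex
  have hfe : f ≠ e := by
    intro hc
    rw [hc] at hb'f
    -- `e` commutes with `b`, `b'`, hence with `u`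
    exact heu' (h.two_all hu.1 hb heD.1 (right_mem_Ln hb) hb' (fun hh => hb'b hh.symm) hbe.symm hb'f.symm u (left_mem_Ln hu.1 hb))
  have hb'e : ¬ Commute b' e := fun hc => hfe (hfu e he hc).symm
  have hbf : ¬ Commute b f := fun hc => hfe (heu f hf hc)
  have hf' : f ∈ Ln D x e := by rw [hLe]; exact hf
  have hef : Commute e f := Ln_comm_right heD hf'
  set t := b * b' with ht
  set s := e * f with hs
  have htt : ∀ p, cj t (cj t p) = p := h.tr_tr hu.1 hb hb'
  have hss : ∀ p, cj s (cj s p) = p := h.tr_tr hx heD hf'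
  have htu : cj t u = u := cj_self ((hb.2.2.symm).mul_left (Ln_comm_left hu.1 hb hb').symm)
  have hsx : cj s x = x := cj_self ((heD.2.2.symm).mul_left (Ln_comm_left hx heD hf').symm)
  have hts : ∀ p ∈ Ln D x u, cj s p ∈ Ln D x u := by
    intro p hp
    by_cases hpx : p = x
    · rw [hpx, hsx]; exact left_mem_Ln hx hu
    · have := (h.tr_mem hx (h.Dn_of_Ln hx hu hp hpx) heD hf' hfx).1
      rwa [h.Ln_left hx hu hp hpx] at this
  -- `t s t = s t s`
  have hrel : t * s * t = s * t * s := by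
    have sb := mul_self hDs hb.1
    have sb' := mul_self hDs hb'.1
    have se := mul_self hDs heD.1
    have sf := mul_self hDs hf.1
    have b1 : b * f * b = f * b * f := braid hDs hb.1 hf.1 hbf
    have b2 : b' * e * b' = e * b' * e := braid hDs hb'.1 heD.1 hb'e
    have c1 : Commute (b * f * b) (b' * e * b') := by
      rw [b1, b2]
      have g1 : Commute f (e * b' * e) := (hef.symm.mul_right hb'f.symm).mul_right hef.symm
      have g2 : Commute b (e * b' * e) := (hbe.mul_right hbb').mul_right hbe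
      exact (g1.mul_left g2).mul_left g1
    have l1 : t * s * t = (b * f * b) * (b' * e * b') := by
      rw [ht, hs]
      calc b * b' * (e * f) * (b * b') = b * b' * (e * f) * (b' * b) := by rw [hbb'.eq]
        _ = b * (b' * e) * (f * b') * b := by simp only [mul_assoc]
        _ = b * (b' * e) * (b' * f) * b := by rw [hb'f.eq]
        _ = b * ((b' * e * b') * (f * b)) := by simp only [mul_assoc]
        _ = b * ((f * b) * (b' * e * b')) := by
            have : Commute (b' * e * b') (f * b) := by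
              have g1 : Commute (b' * e * b') f := ((hb'f.mul_left hef).mul_left hb'f)
              have g2 : Commute (b' * e * b') b := ((hbb'.symm.mul_left hbe.symm).mul_left hbb'.symm)
              exact g1.mul_right g2
            rw [this.eq]
        _ = _ := by simp only [mul_assoc]
    have l2 : s * t * s = (f * b * f) * (e * b' * e) := by
      rw [ht, hs]
      calc e * f * (b * b') * (e * f) = f * e * (b * b') * (f * e) := by rw [hef.eq]
        _ = f * (e * b) * (b' * f) * e := by simp only [mul_assoc]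
        _ = f * (b * e) * (f * b') * e := by rw [hbe.eq, hb'f.eq]
        _ = f * b * (e * f) * b' * e := by simp only [mul_assoc]
        _ = f * b * (f * e) * b' * e := by rw [hef.eq]
        _ = _ := by simp only [mul_assoc]
    rw [l1, l2, b1, b2]
  -- `s u = w`
  have hsu : cj s u = w := by
    have h1 : cj (t * s * t) w = w := by
      rw [← hbw, cj_cj]
      have e1 : t * s * t * t = t * s * (t * t) := by simp only [mul_assoc]
      rw [e1, ← cj_cj (t * s), ← cj_cj t t, htt, ← cj_cj, hsx]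
    rw [hrel] at h1
    have h2 : cj t (cj s w) = cj s w := by
      rw [← cj_cj (s * t) s, ← cj_cj s t] at h1
      have h1' := congrArg (cj s) h1
      rwa [hss] at h1'
    have h3 : cj s w ∈ Ln D x u := hts w hw
    have h4 : cj s w = u := by
      by_contra hne
      rw [Ln_symm] at h3
      have hD' := h.Dn_of_Ln hu.1 hxD h3 hne
      have hnc : ¬ Commute (cj s w) b := by
        intro hc
        exact hbx ((h.comm_class hu.1 hb hxD h3 hne hb.1 hb.2.2).2 hc).symm
      exact h.tr_ne hu.1 hD' hb hb' hb'u hb'b hnc h2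
    rw [← h4, hss]
  have htw : cj t w = x := by rw [← hbw, htt]
  refine ⟨t * s, ?_, ?_, ?_, ?_⟩
  · rw [← cj_cj, hsx, hbw]
  · rw [← cj_cj, ← hsu, hss, htu]
  · rw [← cj_cj, hsu, htw]
  · intro v hv hvx hvu hvw
    obtain ⟨g, hg, hgx, hgv⟩ := h.tr_trans hx hu heD (fun hc => heu' hc.symm) hv hvx
    have hge : g ≠ e := by
      intro hc
      rw [hc, mul_self hDs heD.1, cj_one] at hgv
      exact hvu hgv.symm
    have hgf : g ≠ f := by
      intro hc
      rw [hc] at hgv
      exact hvw (hgv.symm.trans hsu)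
    have hg' : g ∈ Ln D x d := by rw [← hLe]; exact hg
    have hbg : ¬ Commute b g := fun hc => hge (heu g hg' hc)
    have hb'g : ¬ Commute b' g := fun hc => hgf (hfu g hg' hc)
    have hcr := h.cross hx hu hb hb' hb'u hb'b hbx heD hg hgx hge heu' hbe hb'e hb'g hbg hbw.symm
    rw [hgv] at hcr
    have heg : Commute e g := Ln_comm_right heD hg
    have hfg : Commute f g := Ln_comm hx hd hf hg'
    have hsg : Commute s (e * g) := by
      have g1 : Commute s e := (Commute.refl e).mul_left hef.symm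
      have g2 : Commute s g := heg.mul_left hfg
      exact g1.mul_right g2
    -- `s v = (e g) w = t v`
    have h5 : cj s v = cj t v := by
      rw [hcr, ← hgv, cj_cj, hsg.eq, ← cj_cj, hsu]
    rw [← cj_cj, h5, htt]

/-- commuting four-fold -/
theorem Ctx.four {o b b' c c' : G} (ho : o ∈ D) (hb : b ∈ Dn D o) (hb' : b' ∈ Ln D o b) (hb'o : b' ≠ o)
    (hc : c ∈ Dn D o) (hc' : c' ∈ Ln D o c) (hc'o : c' ≠ o) (y : G) :
    cj ((b * b') * (c * c')) (cj ((b * b') * (c * c')) (cj ((b * b') * (c * c')) (cj ((b * b') * (c * c')) y))) = y := by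
  have hDs := h.set
  have hbb' : Commute b b' := Ln_comm_right hb hb'
  have hcc' : Commute c c' := Ln_comm_right hc hc'
  obtain ⟨t, ht⟩ : ∃ t, t = b * b' := ⟨_, rfl⟩
  have tt : t * t = 1 := by
    rw [ht]
    calc b * b' * (b * b') = b * (b' * b) * b' := by simp only [mul_assoc]
      _ = b * (b * b') * b' := by rw [hbb'.eq]
      _ = (b * b) * (b' * b') := by simp only [mul_assoc]
      _ = 1 := by rw [mul_self h.set hb.1, mul_self h.set hb'.1, mul_one]
  have hc'D : c' ∈ Dn D o := h.Dn_of_Ln ho hc hc' hc'o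
  have h1 := (h.tr_mem ho hc hb hb' hb'o).1
  have h2 := (h.tr_mem ho hc'D hb hb' hb'o).1
  rw [h.Ln_left ho hc hc' hc'o] at h2
  rw [← ht] at h1 h2 ⊢
  obtain ⟨r, hr⟩ : ∃ r, r = t * (c * c') := ⟨_, rfl⟩
  rw [← hr]
  -- `r * r = c1 c1' c c'`
  have ti : t⁻¹ = t := inv_eq_of_mul_eq_one_right tt
  have h3 : r * r = cj t c * cj t c' * (c * c') := by
    rw [hr, ← cj_mul, cj_def, ti]; simp only [mul_assoc]
  have k1 : Commute (cj t c) c := Ln_comm ho hc h1 (right_mem_Ln hc)
  have k2 : Commute (cj t c) c' := Ln_comm ho hc h1 hc'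
  have k3 : Commute (cj t c') c := Ln_comm ho hc h2 (right_mem_Ln hc)
  have k4 : Commute (cj t c') c' := Ln_comm ho hc h2 hc'
  have k5 : Commute (cj t c) (cj t c') := cj_comm.2 hcc'
  have kc : Commute (cj t c * cj t c') (c * c') := (k1.mul_right k2).mul_left (k3.mul_right k4)
  have m1 : cj t c * cj t c' * (cj t c * cj t c') = 1 := by
    rw [← cj_mul, ← cj_mul]
    have : c * c' * (c * c') = 1 := by
      calc c * c' * (c * c') = c * (c' * c) * c' := by simp only [mul_assoc]
        _ = c * (c * c') * c' := by rw [hcc'.eq]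
        _ = (c * c) * (c' * c') := by simp only [mul_assoc]
        _ = 1 := by rw [mul_self h.set hc.1, mul_self h.set hc'.1, mul_one]
    rw [this]; unfold cj; group
  have m2 : c * c' * (c * c') = 1 := by
      calc c * c' * (c * c') = c * (c' * c) * c' := by simp only [mul_assoc]
        _ = c * (c * c') * c' := by rw [hcc'.eq]
        _ = (c * c) * (c' * c') := by simp only [mul_assoc]
        _ = 1 := by rw [mul_self h.set hc.1, mul_self h.set hc'.1, mul_one]
  have m3 : (r * r) * (r * r) = 1 := by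
    rw [h3]
    calc cj t c * cj t c' * (c * c') * (cj t c * cj t c' * (c * c')) = cj t c * cj t c' * ((c * c') * (cj t c * cj t c')) * (c * c') := by
          simp only [mul_assoc]
      _ = cj t c * cj t c' * ((cj t c * cj t c') * (c * c')) * (c * c') := by rw [kc.eq]
      _ = (cj t c * cj t c' * (cj t c * cj t c')) * ((c * c') * (c * c')) := by simp only [mul_assoc]
      _ = 1 := by rw [m1, m2, mul_one]
  rw [cj_cj, cj_cj, cj_cj]
  have : r * r * r * r = 1 := by rw [← m3]; simp only [mul_assoc]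
  rw [this, cj_one]

/-- lines have at most five points -/
theorem Ctx.card_le {x u : G} (hx : x ∈ D) (hu : u ∈ Dn D x) : (Ln D x u).ncard ≤ 5 := by
  classical
  by_contra hcard
  push Not at hcard
  have hDs := h.set
  have hxD : x ∈ Dn D u := h.Dn_symm hx hu
  obtain ⟨b, hb, hbx⟩ := h.exists_nc hu.1 hxD
  obtain ⟨b', hb', hb'u, hb'b⟩ := h.exists_third hu.1 hb
  set t := b * b' with ht
  have htt : ∀ p, cj t (cj t p) = p := h.tr_tr hu.1 hb hb'
  have htu : cj t u = u := cj_self ((hb.2.2.symm).mul_left (Ln_comm_left hu.1 hb hb').symm)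
  have hmem : ∀ p ∈ Ln D x u, p ≠ u → cj t p ∈ Ln D x u ∧ cj t p ≠ u ∧ cj t p ≠ p := by
    intro p hp hpu
    rw [Ln_symm] at hp ⊢
    have hD' := h.Dn_of_Ln hu.1 hxD hp hpu
    have hnc : ¬ Commute p b := by
      intro hc
      exact hbx ((h.comm_class hu.1 hb hxD hp hpu hb.1 hb.2.2).2 hc).symm
    have h1 := h.tr_mem hu.1 hD' hb hb' hb'u
    rw [h.Ln_left hu.1 hxD hp hpu] at h1
    exact ⟨h1.1, h1.2, h.tr_ne hu.1 hD' hb hb' hb'u hb'b hnc⟩
  have pick : ∀ S : Finset G, S.card ≤ 5 → ∃ p ∈ Ln D x u, p ∉ S := by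
    intro S hS
    obtain ⟨p, hp, hpS⟩ := Set.exists_mem_notMem_of_ncard_lt_ncard (s := (S : Set G)) (t := Ln D x u)
      (by rw [Set.ncard_coe_finset]; omega) (Set.toFinite _)
    exact ⟨p, hp, by simpa using hpS⟩
  obtain ⟨a, ha, haS⟩ := pick {u} (by simp)
  have hau : a ≠ u := by simpa using haS
  obtain ⟨ha1, ha2, ha3⟩ := hmem a ha hau
  obtain ⟨d, hd, hdS⟩ := pick {u, a, cj t a} ((Finset.card_le_three).trans (by norm_num))
  simp only [Finset.mem_insert, Finset.mem_singleton, not_or] at hdS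
  obtain ⟨hdu, hda, hdta⟩ := hdS
  obtain ⟨hd1, hd2, hd3⟩ := hmem d hd hdu
  obtain ⟨e, he, heS⟩ := pick {u, a, cj t a, d, cj t d} ((Finset.card_le_five))
  simp only [Finset.mem_insert, Finset.mem_singleton, not_or] at heS
  obtain ⟨heu, hea, heta, hed, hetd⟩ := heS
  obtain ⟨he1, he2, he3⟩ := hmem e he heu
  -- the three-cycle
  have hdD : d ∈ Dn D a := ⟨hd.1, hda, Ln_comm hx hu ha hd⟩
  have hL : Ln D a d = Ln D x u := h.Ln_eq hx hu ha hd (fun hh => hda hh.symm)
  -- `a → d → e → a`: use cyc3 with `x := a`, `w := d`, `u := e`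
  have heD : e ∈ Dn D a := ⟨he.1, hea, Ln_comm hx hu ha he⟩
  have hL' : Ln D a e = Ln D x u := h.Ln_eq hx hu ha he (fun hh => hea hh.symm)
  obtain ⟨k, k1, k2, k3, k4⟩ := h.cyc3 ha.1 heD (w := d) (by rw [hL']; exact hd) hda (fun hh => hed hh.symm)
  rw [hL'] at k4
  have ku : cj k u = u := k4 u (right_mem_Ln hu) (fun hh => hau hh.symm) (fun hh => heu hh.symm) (fun hh => hdu hh.symm)
  have tinj : ∀ {p q : G}, cj t p = q → p = cj t q := by
    intro p q hh; rw [← hh, htt]
  -- conj of t
  have hcD : cj k b ∈ Dn D u := by rw [← ku]; exact (cj_Dn h.grp k).2 hb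
  have hcL : cj k b' ∈ Ln D u (cj k b) := by
    have := (cj_Ln h.grp k).2 hb'
    rwa [ku] at this
  have hcu : cj k b' ≠ u := by
    rw [← ku]; intro hh; exact hb'u (cj_inj.1 hh)
  have h4 := h.four hu.1 hb hb' hb'u hcD hcL hcu a
  rw [← ht, ← cj_mul, ← ht] at h4
  obtain ⟨m, hm⟩ : ∃ m, m = t * cj k t := ⟨_, rfl⟩
  rw [← hm] at h4
  have hmd : ∀ y, cj m y = cj t (cj k (cj t (cj k⁻¹ y))) := by
    intro y
    rw [hm]; simp only [cj_cj]; congr 1; simp only [cj_def, mul_assoc]
  have i1 : cj k⁻¹ a = e := by rw [← k3, cj_inv_cj]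
  have i2 : cj k⁻¹ e = d := by rw [← k2, cj_inv_cj]
  have i3 : cj k⁻¹ d = a := by rw [← k1, cj_inv_cj]
  have j1 : cj m a = e := by
    rw [hmd, i1, k4 (cj t e) he1 (fun hh => heta (tinj hh)) he3 (fun hh => hetd (tinj hh)), htt]
  have j2 : cj m e = d := by
    rw [hmd, i2, k4 (cj t d) hd1 (fun hh => hdta (tinj hh)) (fun hh => hetd hh.symm) hd3, htt]
  have j3 : cj m d = a := by
    rw [hmd, i3, k4 (cj t a) ha1 ha3 (fun hh => heta hh.symm) (fun hh => hdta hh.symm), htt]
  rw [j1, j2, j3, j1] at h4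
  exact hea h4

theorem Ctx.card_cases {x u : G} (hx : x ∈ D) (hu : u ∈ Dn D x) : (Ln D x u).ncard = 3 ∨ (Ln D x u).ncard = 5 := by
  have h1 := h.card_le hx hu
  have h2 := h.even_class hx hu
  rw [Set.ncard_sdiff_singleton_of_mem (left_mem_Ln hx hu)] at h2
  have h3 : 3 ≤ (Ln D x u).ncard := by
    obtain ⟨p, hp, hpx, hpu⟩ := h.exists_third hx hu
    have : ({x, u, p} : Set G) ⊆ Ln D x u := by
      rintro y (rfl | rfl | rfl)
      · exact left_mem_Ln hx hu
      · exact right_mem_Ln hu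
      · exact hp
    have hc := Set.ncard_le_ncard this (Set.toFinite _)
    rw [Set.ncard_insert_of_notMem (by simp [hu.2.1.symm, hpx.symm]), Set.ncard_pair hpu.symm] at hc
    omega
  obtain ⟨k, hk⟩ := h2
  omega

end

end H33.Pol
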