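import Cfsg.Agent.Lib.H33.Pol2

/-! Hyperbolic lines have three points; the symplectic case. -/

set_option autoImplicit false

namespace H33.Pol

open Cfsg H90.ThreeTrans H90.ThreeTransB H90.WidthOne H90.ThreeTransC H90.ThreeTransE H90.ThreeTransG H90.ThreeTransH
  H33.Fisch

variable {G : Type*} [Group G] {D : Set G}

theorem cj_comm_of {e a b : G} (h1 : Commute e a) (h2 : Commute e b) : Commute e (cj a b) := by
  unfold cj
  exact (h1.mul_right h2).mul_right h1.inv_right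

theorem cj_comm_of_third {e a b : G} (h1 : Commute e a) (h2 : Commute e (cj a b)) : Commute e b := by
  have := cj_comm_of (h1.inv_right) h2
  rwa [cj_inv_cj] at this

variable [Finite G]

section
variable (h : Ctx D)
include h

theorem Ctx.exists_dn {x : G} (hx : x ∈ D) : ∃ u, u ∈ Dn D x := by
  obtain ⟨x0, hx0, u0, hu0, -⟩ := h.nt
  obtain ⟨g, rfl⟩ := exists_conj_eq h.cls hx0 hx
  exact ⟨cj g u0, (cj_Dn h.grp g).2 hu0⟩

theorem Ctx.C_Dn {x y u : G} (hxy : ¬ Commute x y) (hu : u ∈ C D x y) : u ∈ Dn D x :=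
  ⟨hu.1, fun hc => hxy (hc ▸ hu.2.2.symm), hu.2.1⟩

/-- commuting points of the lines through `x` with `y` -/
theorem Ctx.C_exists {x y u : G} (hx : x ∈ D) (hy : y ∈ D) (hxy : ¬ Commute x y) (hu : u ∈ Dn D x) :
    ∃ v ∈ Ln D x u, v ≠ x ∧ v ∈ C D x y := by
  obtain ⟨p, hp, hpx, hyp, -⟩ := h.proj hx hu hy (fun hc => hxy hc.symm)
  exact ⟨p, hp, hpx, hp.1, Ln_comm_left hx hu hp, hyp⟩

theorem Ctx.C_ncard_le {x y z : G} (hx : x ∈ D) (hy : y ∈ D) (hz : z ∈ D) (hxy : ¬ Commute x y) (hxz : ¬ Commute x z) :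
    (C D x y).ncard ≤ (C D x z).ncard := by
  have h1 : ∀ u, u ∈ C D x y → ∃ v, v ∈ Ln D x u ∧ v ≠ x ∧ v ∈ C D x z := by
    intro u hu
    obtain ⟨v, hv, hvx, hvC⟩ := h.C_exists hx hz hxz (h.C_Dn hxy hu)
    exact ⟨v, hv, hvx, hvC⟩
  choose! f hf using h1
  apply Set.ncard_le_ncard_of_injOn f (fun u hu => (hf u hu).2.2) ?_ (Set.toFinite _)
  intro u1 hu1 u2 hu2 he
  have hD1 := h.C_Dn hxy hu1
  have hD2 := h.C_Dn hxy hu2
  have e1 := h.Ln_left hx hD1 (hf u1 hu1).1 (hf u1 hu1).2.1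
  have e2 := h.Ln_left hx hD2 (hf u2 hu2).1 (hf u2 hu2).2.1
  rw [he, e2] at e1
  by_contra hne
  have hm : u2 ∈ Ln D x u1 := by rw [← e1]; exact right_mem_Ln hD2
  exact hxy (h.two_all hx hD1 hy (right_mem_Ln hD1) hm hne hu1.2.2 hu2.2.2 x (left_mem_Ln hx hD1)).symm

theorem Ctx.C_ncard_eq {x y z : G} (hx : x ∈ D) (hy : y ∈ D) (hz : z ∈ D) (hxy : ¬ Commute x y) (hxz : ¬ Commute x z) :
    (C D x y).ncard = (C D x z).ncard :=
  le_antisymm (h.C_ncard_le hx hy hz hxy hxz) (h.C_ncard_le hx hz hy hxz hxy)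

theorem Ctx.hyp_one {x y z : G} (hx : x ∈ D) (hy : y ∈ D) (hz : z ∈ D) (hxy : ¬ Commute x y)
    (hH : ∀ u ∈ C D x y, Commute z u) (hzx : z ≠ x) : ¬ Commute z x := by
  intro hc
  have hzD : z ∈ Dn D x := ⟨hz, hzx, hc.symm⟩
  obtain ⟨v, hv, hvx, hvC⟩ := h.C_exists hx hy hxy hzD
  have hvD : v ∈ Dn D x := h.Dn_of_Ln hx hzD hv hvx
  have hall : ∀ w ∈ C D x y, Commute v w := fun w hw => hv.2 w ⟨hw.1, hw.2.1, hH w hw⟩
  obtain ⟨b, hb, hbv⟩ := h.exists_nc hx hvD
  obtain ⟨b', hb', hb'x, hb'C⟩ := h.C_exists hx hy hxy hb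
  exact hbv ((h.comm_class hx hvD hb hb' hb'x hvD.1 hvD.2.2).2 (hall b' hb'C).symm)

theorem Ctx.hyp_C {x y z : G} (hx : x ∈ D) (hy : y ∈ D) (hz : z ∈ D) (hxy : ¬ Commute x y)
    (hH : ∀ u ∈ C D x y, Commute z u) (hzx : z ≠ x) : C D x z = C D x y := by
  symm
  have h1 := h.hyp_one hx hy hz hxy hH hzx
  apply Set.eq_of_subset_of_ncard_le
  · intro u hu
    exact ⟨hu.1, hu.2.1, hH u hu⟩
  · rw [h.C_ncard_eq hx hy hz hxy (fun hc => h1 hc.symm)]
  · exact Set.toFinite _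

theorem Ctx.hyp_two {x y z z' : G} (hx : x ∈ D) (hy : y ∈ D) (hz : z ∈ D) (hz' : z' ∈ D) (hxy : ¬ Commute x y)
    (hH : ∀ u ∈ C D x y, Commute z u) (hH' : ∀ u ∈ C D x y, Commute z' u) (hne : z' ≠ z) :
    ¬ Commute z' z ∧ C D z z' = C D x y := by
  by_cases hzx : z = x
  · subst hzx
    exact ⟨h.hyp_one hx hy hz' hxy hH' hne, h.hyp_C hx hy hz' hxy hH' hne⟩
  · have h1 := h.hyp_one hx hy hz hxy hH hzx
    have h2 := h.hyp_C hx hy hz hxy hH hzx
    have h3 : C D z x = C D x y := by rw [C_symm]; exact h2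
    have h4 : ∀ u ∈ C D z x, Commute z' u := by rw [h3]; exact hH'
    have h5 := h.hyp_one hz hx hz' h1 h4 hne
    have h6 := h.hyp_C hz hx hz' h1 h4 hne
    exact ⟨h5, h6.trans h3⟩

theorem Ctx.exists_frame {x y : G} (hx : x ∈ D) (hy : y ∈ D) (hxy : ¬ Commute x y) :
    ∃ u ∈ C D x y, ∃ v ∈ C D x y, ¬ Commute u v := by
  obtain ⟨u0, hu0⟩ := h.exists_dn hx
  obtain ⟨u, hu, hux, huC⟩ := h.C_exists hx hy hxy hu0
  have huD := h.C_Dn hxy huC
  obtain ⟨e, he, heu⟩ := h.exists_nc hx huD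
  obtain ⟨v, hv, hvx, hvC⟩ := h.C_exists hx hy hxy he
  refine ⟨u, huC, v, hvC, fun hc => heu ?_⟩
  exact (h.comm_class hx huD he hv hvx huD.1 huD.2.2).2 hc.symm

/-- the count -/
theorem Ctx.hyp_card {x y : G} (hx : x ∈ D) (hy : y ∈ D) (hxy : ¬ Commute x y) :
    ({z : G | z ∈ D ∧ (∀ u ∈ C D x y, Commute z u)} \ {x, y}).ncard ≤ 3 := by
  obtain ⟨u, hu, v, hv, huv⟩ := h.exists_frame hx hy hxy
  have huD := h.C_Dn hxy hu
  have hyx : ¬ Commute y x := fun hc => hxy hc.symm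
  have hvD : v ∈ Dn D y := h.C_Dn hyx (by rw [C_symm]; exact hv)
  obtain ⟨p, hp, hpx, hpu⟩ := h.exists_third hx huD
  have hyp : ¬ Commute y p := fun hc => hyx (h.two_all hx huD hy hp (right_mem_Ln huD) hpu hc hu.2.2 x (left_mem_Ln hx huD))
  have hpv : ¬ Commute p v := by
    intro hc
    have hvDx : v ∈ Dn D x := h.C_Dn hxy hv
    exact huv ((h.comm_class hx hvDx huD hp hpx hvDx.1 hvDx.2.2).2 hc)
  obtain ⟨c, hc, hcy, hpc, -⟩ := h.proj hy hvD hp.1 (fun hh => hyp hh.symm)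
  have hcv : c ≠ v := fun hh => hpv (hh ▸ hpc)
  have hcp : c ≠ p := by
    intro hh
    have : Commute c v := (Ln_comm_right hvD hc).symm
    rw [hh] at this; exact hpv this
  have hcDp : c ∈ Dn D p := ⟨hc.1, hcp, hpc⟩
  have hxc : ¬ Commute x c := fun hh => hxy (h.two_all hy hvD hx hc (right_mem_Ln hvD) hcv hh hv.2.1 y (left_mem_Ln hy hvD))
  have hxp : Commute x p := Ln_comm_left hx huD hp
  have h1 : ∀ z, z ∈ {z : G | z ∈ D ∧ (∀ u ∈ C D x y, Commute z u)} \ {x, y} →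
      ∃ r, r ∈ Ln D p c ∧ r ≠ p ∧ r ≠ c ∧ Commute z r := by
    rintro z ⟨⟨hz, hzH⟩, hzxy⟩
    simp only [Set.mem_insert_iff, Set.mem_singleton_iff, not_or] at hzxy
    have hxH : ∀ u ∈ C D x y, Commute x u := fun u hu => hu.2.1
    have hyH : ∀ u ∈ C D x y, Commute y u := fun u hu => hu.2.2
    have hzx := (h.hyp_two hx hy hx hz hxy hxH hzH hzxy.1).1
    have hzy := (h.hyp_two hx hy hy hz hxy hyH hzH hzxy.2).1
    have hzp : ¬ Commute z p := fun hh => hzx (h.two_all hx huD hz hp (right_mem_Ln huD) hpu hh (hzH u hu) x (left_mem_Ln hx huD))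
    have hzc : ¬ Commute z c := fun hh => hzy (h.two_all hy hvD hz hc (right_mem_Ln hvD) hcv hh (hzH v hv) y (left_mem_Ln hy hvD))
    obtain ⟨r, hr, hzr⟩ := h.exists_comm hp.1 hcDp hz
    exact ⟨r, hr, fun hh => hzp (hh ▸ hzr), fun hh => hzc (hh ▸ hzr), hzr⟩
  choose! f hf using h1
  have hle : ({z : G | z ∈ D ∧ (∀ u ∈ C D x y, Commute z u)} \ {x, y}).ncard ≤ (Ln D p c \ {p, c}).ncard := by
    apply Set.ncard_le_ncard_of_injOn f ?_ ?_ (Set.toFinite _)
    · intro z hz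
      have := hf z hz
      exact ⟨this.1, by simp [this.2.1, this.2.2.1]⟩
    · intro z hz z' hz' he
      by_contra hne
      have k1 := hf z hz
      have k2 := hf z' hz'
      rw [← he] at k2
      have k3 := (h.hyp_two hx hy hz.1.1 hz'.1.1 hxy hz.1.2 hz'.1.2 (fun hh => hne hh.symm)).2
      have k4 : f z ∈ C D z z' := ⟨k1.1.1, k1.2.2.2, k2.2.2.2⟩
      rw [k3] at k4
      exact hxc (h.two_all hp.1 hcDp hx (left_mem_Ln hp.1 hcDp) k1.1 (fun hh => k1.2.1 hh.symm) hxp k4.2.1 c (right_mem_Ln hcDp))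
  have hle2 : (Ln D p c \ {p, c}).ncard ≤ 3 := by
    have h5 := h.card_le hp.1 hcDp
    have h6 : ({p, c} : Set G) ⊆ Ln D p c := by
      rintro y (rfl | rfl)
      · exact left_mem_Ln hp.1 hcDp
      · exact right_mem_Ln hcDp
    have h7 := Set.ncard_sdiff_add_ncard_of_subset h6 (Set.toFinite _)
    rw [Set.ncard_pair hcp.symm] at h7
    omega
  exact hle.trans hle2

/-- **hyperbolic lines have three points** -/
theorem Ctx.hyp {x y z : G} (hx : x ∈ D) (hy : y ∈ D) (hz : z ∈ D) (hxy : ¬ Commute x y)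
    (hH : ∀ u ∈ C D x y, Commute z u) : z = x ∨ z = y ∨ z = cj x y := by
  classical
  by_contra hcon
  push Not at hcon
  obtain ⟨hzx, hzy, hzxy⟩ := hcon
  have hDs := h.set
  have hG := h.grp
  have hxH : ∀ u ∈ C D x y, Commute x u := fun u hu => hu.2.1
  have hyH : ∀ u ∈ C D x y, Commute y u := fun u hu => hu.2.2
  have nzx := (h.hyp_two hx hy hx hz hxy hxH hH hzx).1
  have nzy := (h.hyp_two hx hy hy hz hxy hyH hH hzy).1
  have hcl : ∀ a ∈ D, ∀ b ∈ D, (∀ u ∈ C D x y, Commute a u) → (∀ u ∈ C D x y, Commute b u) →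
      cj a b ∈ D ∧ (∀ u ∈ C D x y, Commute (cj a b) u) := by
    intro a _ b hb ha' hb'
    exact ⟨cj_mem hG a hb, fun u hu => (cj_comm_of (ha' u hu).symm (hb' u hu).symm).symm⟩
  -- the four points
  have key : ∀ a b : G, a ∈ D → b ∈ D → ¬ Commute a b → cj a b ≠ a ∧ cj a b ≠ b := by
    intro a b ha hb hab
    refine ⟨?_, fun hh => hab (comm_of_cj hh)⟩
    intro hh
    apply hab
    have : cj a b = cj a a := by rw [hh, cj_self (Commute.refl a)]
    rw [cj_inj.1 this]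
  have b1 : cj x z = cj z x := cj_braid hDs hx hz (fun hc => nzx hc.symm)
  have b2 : cj y z = cj z y := cj_braid hDs hy hz (fun hc => nzy hc.symm)
  have b3 : cj x y = cj y x := cj_braid hDs hx hy hxy
  have hsub : (({cj x y, z, cj x z, cj y z} : Finset G) : Set G) ⊆ {z : G | z ∈ D ∧ (∀ u ∈ C D x y, Commute z u)} \ {x, y} := by
    intro w hw
    simp only [Finset.coe_insert, Finset.coe_singleton, Set.mem_insert_iff, Set.mem_singleton_iff] at hw
    have hyx : ¬ Commute y x := fun hc => hxy hc.symm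
    rcases hw with rfl | rfl | rfl | rfl
    · exact ⟨hcl x hx y hy hxH hyH, by
        simp only [Set.mem_insert_iff, Set.mem_singleton_iff, not_or]; exact key x y hx hy hxy⟩
    · exact ⟨⟨hz, hH⟩, by simp only [Set.mem_insert_iff, Set.mem_singleton_iff, not_or]; exact ⟨hzx, hzy⟩⟩
    · refine ⟨hcl x hx z hz hxH hH, ?_⟩
      simp only [Set.mem_insert_iff, Set.mem_singleton_iff, not_or]
      refine ⟨(key x z hx hz (fun hc => nzx hc.symm)).1, fun hh => hzxy ?_⟩
      rw [← hh, cj_cj_D hDs hx]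
    · refine ⟨hcl y hy z hz hyH hH, ?_⟩
      simp only [Set.mem_insert_iff, Set.mem_singleton_iff, not_or]
      refine ⟨fun hh => hzxy ?_, (key y z hy hz (fun hc => nzy hc.symm)).1⟩
      rw [b3, ← hh, cj_cj_D hDs hy]
  have hcard : ({cj x y, z, cj x z, cj y z} : Finset G).card = 4 := by
    rw [Finset.card_insert_of_notMem, Finset.card_insert_of_notMem, Finset.card_insert_of_notMem, Finset.card_singleton]
    · simp only [Finset.mem_singleton]
      rw [b1, b2]
      intro hh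
      exact hxy (by rw [cj_inj.1 hh])
    · simp only [Finset.mem_insert, Finset.mem_singleton, not_or]
      refine ⟨fun hh => nzx (comm_of_cj hh.symm).symm, fun hh => nzy (comm_of_cj hh.symm).symm⟩
    · simp only [Finset.mem_insert, Finset.mem_singleton, not_or]
      refine ⟨fun hh => hzxy hh.symm, fun hh => hzy (cj_inj.1 hh).symm, ?_⟩
      rw [b3]
      intro hh
      exact hzx (cj_inj.1 hh).symm
  have h1 := Set.ncard_le_ncard hsub (Set.toFinite _)
  rw [Set.ncard_coe_finset, hcard] at h1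
  have h2 := h.hyp_card hx hy hxy
  omega

/-- the members of `D` commuting with both -/
theorem Ctx.hyp' {x y z : G} (hx : x ∈ D) (hy : y ∈ D) (hz : z ∈ D) (hxy : ¬ Commute x y) (h1 : z ≠ x) (h2 : z ≠ y)
    (h3 : z ≠ cj x y) : ∃ u ∈ C D x y, ¬ Commute z u := by
  by_contra hcon
  push Not at hcon
  rcases h.hyp hx hy hz hxy hcon with h4 | h4 | h4
  · exact h1 h4
  · exact h2 h4
  · exact h3 h4

/-- `V` classes of noncommuting products -/
theorem Ctx.prod_line {o a b a' b' : G} (ho : o ∈ D) (ha : a ∈ Dn D o) (hb : b ∈ Dn D o) (ha' : a' ∈ Ln D o a)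
    (hb' : b' ∈ Ln D o b) (hb'o : b' ≠ o) (ha'o : a' ≠ o) (hab : ¬ Commute a b) : cj a' b' ∈ Ln D o (cj a b) ∧ cj a' b' ≠ o := by
  have hDs := h.set
  have ha'D := h.Dn_of_Ln ho ha ha' ha'o
  have hb'D := h.Dn_of_Ln ho hb hb' hb'o
  have hoc : cj a' o = o := cj_self ha'D.2.2.symm
  -- `cj a' b' ∈ Ln o (cj a' b)`, `cj a' b = cj b a' ∈ Ln o (cj b a)`
  have h1 : cj a' b' ∈ Ln D (cj a' o) (cj a' b) := (cj_Ln h.grp a').2 hb'
  rw [hoc] at h1
  have ha'b : ¬ Commute a' b := fun hc => hab ((h.comm_class ho hb ha ha' ha'o hb.1 hb.2.2).2 hc)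
  rw [cj_braid hDs ha'.1 hb.1 ha'b] at h1
  have h2 : cj b a' ∈ Ln D (cj b o) (cj b a) := (cj_Ln h.grp b).2 ha'
  have hob : cj b o = o := cj_self hb.2.2.symm
  rw [hob] at h2
  have h3 : cj b a' ≠ o := by
    intro hc; rw [← hob] at hc; exact ha'o (cj_inj.1 hc)
  have h4 : cj b a ∈ Dn D o := by
    have := (cj_Dn h.grp b).2 ha
    rwa [hob] at this
  rw [h.Ln_left ho h4 h2 h3, ← cj_braid hDs ha.1 hb.1 hab] at h1
  refine ⟨h1, ?_⟩
  intro hc; rw [← hoc] at hc; exact hb'o (cj_inj.1 hc)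

/-- the symplectic case: `h1` -/
theorem Ctx.sp1 (h3 : ∀ x ∈ D, ∀ u ∈ Dn D x, (Ln D x u).ncard = 3) {x y : G} (hx : x ∈ D) (hy : y ∈ D) (hne : x ≠ y)
    (hxy : Commute x y) : ∃ w ∈ D, ∀ z ∈ D, (Commute w z ↔ (Commute x z ↔ Commute y z)) := by
  have hyD : y ∈ Dn D x := ⟨hy, hne.symm, hxy⟩
  obtain ⟨w, hw, hwx, hwy⟩ := h.exists_third hx hyD
  have hL : Ln D x y = {x, y, w} := by
    symm
    apply Set.eq_of_subset_of_ncard_le
    · rintro p (rfl | rfl | rfl)
      · exact left_mem_Ln hx hyD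
      · exact right_mem_Ln hyD
      · exact hw
    · rw [h3 x hx y hyD, Set.ncard_insert_of_notMem (by simp [hne, hwx.symm]), Set.ncard_pair hwy.symm]
    · exact Set.toFinite _
  refine ⟨w, hw.1, ?_⟩
  intro z hz
  have hxm := left_mem_Ln hx hyD
  have hym := right_mem_Ln (D := D) hyD
  have two := fun p hp p' hp' hne h1 h2 => h.two_all (z := z) (p := p) (p' := p') hx hyD hz hp hp' hne h1 h2
  have one : Commute x z ∨ Commute y z ∨ Commute w z := by
    obtain ⟨p, hp, hzp⟩ := h.exists_comm hx hyD hz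
    rw [hL] at hp
    rcases hp with rfl | rfl | rfl
    · exact Or.inl hzp.symm
    · exact Or.inr (Or.inl hzp.symm)
    · exact Or.inr (Or.inr hzp.symm)
  constructor
  · intro hwz
    constructor
    · intro h1
      exact (two x hxm w hw hwx.symm h1.symm hwz.symm y hym).symm
    · intro h1
      exact (two y hym w hw hwy.symm h1.symm hwz.symm x hxm).symm
  · intro hiff
    by_cases h1 : Commute x z
    · exact (two x hxm y hym hne h1.symm (hiff.1 h1).symm w hw).symm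
    · have h2 : ¬ Commute y z := fun hc => h1 (hiff.2 hc)
      rcases one with h3 | h3 | h3
      · exact absurd h3 h1
      · exact absurd h3 h2
      · exact h3

/-- the symplectic case: `h2` -/
theorem Ctx.sp2 (h3 : ∀ x ∈ D, ∀ u ∈ Dn D x, (Ln D x u).ncard = 3) {x y : G} (hx : x ∈ D) (hy : y ∈ D)
    (hxy : ¬ Commute x y) : ∀ z ∈ D, (Commute (cj x y) z ↔ (Commute x z ↔ Commute y z)) := by
  intro z hz
  have hDs := h.set
  have hG := h.grp
  constructor
  · intro h1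
    constructor
    · intro h2
      exact (cj_comm_of_third h2.symm h1.symm).symm
    · intro h2
      rw [cj_braid hDs hx hy hxy] at h1
      exact (cj_comm_of_third h2.symm h1.symm).symm
  · intro hiff
    by_cases hxz : Commute x z
    · exact (cj_comm_of hxz.symm (hiff.1 hxz).symm).symm
    · have hyz : ¬ Commute y z := fun hc => hxz (hiff.2 hc)
      by_contra hcz
      have hzx : z ≠ x := fun hh => hxz (hh ▸ Commute.refl _)
      have hzy : z ≠ y := fun hh => hyz (hh ▸ Commute.refl _)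
      have hzc : z ≠ cj x y := fun hh => hcz (hh ▸ Commute.refl _)
      obtain ⟨u, hu, hzu⟩ := h.hyp' hx hy hz hxy hzx hzy hzc
      have hxu : x ∈ Dn D u := h.Dn_symm hx (h.C_Dn hxy hu)
      have hyu : y ∈ Dn D u := h.Dn_symm hy (h.C_Dn (fun hc => hxy hc.symm) (by rw [C_symm]; exact hu))
      have huD : u ∈ D := hu.1
      have hcu : cj x y ∈ Dn D u := by
        have := (cj_Dn hG x).2 hyu
        rwa [cj_self hu.2.1] at this
      have line : ∀ a, a ∈ Dn D u → ¬ Commute z a → ∃ a', a' ∈ Ln D u a ∧ a' ≠ u ∧ a' ≠ a ∧ Commute z a' ∧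
          Ln D u a = {u, a, a'} := by
        intro a ha hza
        obtain ⟨a', ha', ha'u, hza', -⟩ := h.proj huD ha hz hzu
        have ha'a : a' ≠ a := fun hh => hza (hh ▸ hza')
        refine ⟨a', ha', ha'u, ha'a, hza', ?_⟩
        symm
        apply Set.eq_of_subset_of_ncard_le
        · rintro p (rfl | rfl | rfl)
          · exact left_mem_Ln huD ha
          · exact right_mem_Ln ha
          · exact ha'
        · rw [h3 u huD a ha, Set.ncard_insert_of_notMem (by simp [ha.2.1.symm, ha'u.symm]), Set.ncard_pair ha'a.symm]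
        · exact Set.toFinite _
      obtain ⟨x', hx'L, hx'u, hx'x, hzx', hLx⟩ := line x hxu (fun hc => hxz hc.symm)
      obtain ⟨y', hy'L, hy'u, hy'y, hzy', hLy⟩ := line y hyu (fun hc => hyz hc.symm)
      obtain ⟨w', hw'L, hw'u, hw'w, hzw', hLw⟩ := line (cj x y) hcu (fun hc => hcz hc.symm)
      -- products
      have sel : ∀ p, p ∈ Ln D u (cj x y) → p ≠ u → p ≠ cj x y → p = w' := by
        intro p hp hpu hpc
        rw [hLw] at hp
        rcases hp with hp | hp | hp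
        · exact absurd hp hpu
        · exact absurd hp hpc
        · exact hp
      have p1 := h.prod_line huD hxu hyu (left_mem_Ln hx ⟨huD, hxu.2.1.symm, hxu.2.2.symm⟩ |> fun _ => right_mem_Ln hxu) hy'L hy'u hxu.2.1 hxy
      have p2 := h.prod_line huD hxu hyu hx'L (right_mem_Ln hyu) hyu.2.1 hx'u hxy
      have p3 := h.prod_line huD hxu hyu hx'L hy'L hy'u hx'u hxy
      have e1 : cj x y' = w' := sel _ p1.1 p1.2 (fun hh => hy'y (cj_inj.1 hh))
      have hx'y : ¬ Commute x' y := fun hc => hxy ((h.comm_class huD hyu hxu hx'L hx'u hyu.1 hyu.2.2).2 hc)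
      have e2 : cj x' y = w' := by
        apply sel _ p2.1 p2.2
        intro hh
        rw [cj_braid hDs hx'L.1 hy hx'y, cj_braid hDs hx hy hxy] at hh
        exact hx'x (cj_inj.1 hh)
      have e3 : cj x' y' = w' := by
        apply sel _ p3.1 p3.2
        intro hh
        have : Commute z (cj x' y') := cj_comm_of hzx' hzy'
        rw [hh] at this
        exact hcz this.symm
      rw [← e2] at e3
      exact hy'y (cj_inj.1 e3)

end

end H33.Pol
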