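import Cfsg.Agent.Lib.H33.Pol3
import Cfsg.Agent.Lib.H17.F4

/-! Parity of conjugation maps between four-element sets. -/

set_option autoImplicit false

namespace H33.Pol

open Cfsg H90.ThreeTrans H90.ThreeTransB H90.WidthOne H90.ThreeTransC H90.ThreeTransE H90.ThreeTransG H90.ThreeTransH
  H33.Fisch

abbrev K : Type := H17.F4

namespace K4

theorem all4 : ∀ a : K, a = 0 ∨ a = 1 ∨ a = H17.F4.c 2 ∨ a = H17.F4.c 3 := by decide +kernel

theorem inj_cases : ∀ v0 v1 v2 v3 : K, v0 ≠ v1 → v0 ≠ v2 → v0 ≠ v3 → v1 ≠ v2 → v1 ≠ v3 → v2 ≠ v3 →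
    (∃ κ : K, κ ≠ 0 ∧ ∃ β, v0 = κ * 0 + β ∧ v1 = κ * 1 + β ∧ v2 = κ * H17.F4.c 2 + β ∧ v3 = κ * H17.F4.c 3 + β) ∨
    (∃ κ : K, κ ≠ 0 ∧ ∃ β, v0 = κ * 0 ^ 2 + β ∧ v1 = κ * 1 ^ 2 + β ∧ v2 = κ * H17.F4.c 2 ^ 2 + β ∧ v3 = κ * H17.F4.c 3 ^ 2 + β) := by
  decide +kernel

theorem fn_cases (f : K → K) (hf : Function.Injective f) :
    (∃ κ : K, κ ≠ 0 ∧ ∃ β, ∀ a, f a = κ * a + β) ∨ (∃ κ : K, κ ≠ 0 ∧ ∃ β, ∀ a, f a = κ * a ^ 2 + β) := by
  have n01 : (0 : K) ≠ 1 := by decide +kernel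
  have n02 : (0 : K) ≠ H17.F4.c 2 := by decide +kernel
  have n03 : (0 : K) ≠ H17.F4.c 3 := by decide +kernel
  have n12 : (1 : K) ≠ H17.F4.c 2 := by decide +kernel
  have n13 : (1 : K) ≠ H17.F4.c 3 := by decide +kernel
  have n23 : H17.F4.c 2 ≠ H17.F4.c 3 := by decide +kernel
  rcases inj_cases (f 0) (f 1) (f (H17.F4.c 2)) (f (H17.F4.c 3)) (hf.ne n01) (hf.ne n02) (hf.ne n03) (hf.ne n12)
    (hf.ne n13) (hf.ne n23) with ⟨κ, hκ, β, h0, h1, h2, h3⟩ | ⟨κ, hκ, β, h0, h1, h2, h3⟩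
  · left
    refine ⟨κ, hκ, β, ?_⟩
    intro a
    rcases all4 a with rfl | rfl | rfl | rfl
    · exact h0
    · exact h1
    · exact h2
    · exact h3
  · right
    refine ⟨κ, hκ, β, ?_⟩
    intro a
    rcases all4 a with rfl | rfl | rfl | rfl
    · exact h0
    · exact h1
    · exact h2
    · exact h3

theorem not_both' : ∀ κ β κ' β' : K, κ ≠ 0 → ¬ (κ * 0 + β = κ' * 0 ^ 2 + β' ∧ κ * 1 + β = κ' * 1 ^ 2 + β' ∧
    κ * H17.F4.c 2 + β = κ' * H17.F4.c 2 ^ 2 + β') := by decide +kernel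

theorem invol : ∀ κ β : K, κ ≠ 0 → (κ * (κ * 0 ^ 2 + β) ^ 2 + β = 0) → (κ * (κ * 1 ^ 2 + β) ^ 2 + β = 1) → ∃ a, κ * a ^ 2 + β = a := by
  decide +kernel

theorem fixed : ∀ κ β : K, κ ≠ 1 → ∃ a, κ * a + β = a := by decide +kernel

theorem sq_add (a b : K) : (a + b) ^ 2 = a ^ 2 + b ^ 2 := by
  revert a b; decide +kernel

theorem pow4 (a : K) : (a ^ 2) ^ 2 = a := by revert a; decide +kernel

theorem add_self (a : K) : a + a = 0 := by revert a; decide +kernel

theorem sq_inj {a b : K} (h : a ^ 2 = b ^ 2) : a = b := by revert a b; decide +kernel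

end K4

variable {G : Type*} [Group G]

def LinOn (f f' : G → K) (g : G) (S : Set G) : Prop := ∃ κ : K, κ ≠ 0 ∧ ∃ β, ∀ p ∈ S, f' (cj g p) = κ * f p + β
def SLinOn (f f' : G → K) (g : G) (S : Set G) : Prop := ∃ κ : K, κ ≠ 0 ∧ ∃ β, ∀ p ∈ S, f' (cj g p) = κ * f p ^ 2 + β

theorem exists_sec {S : Set G} (hS : S.ncard = 4) {f : G → K} (hf : Set.InjOn f S) :
    ∃ sec : K → G, (∀ a, sec a ∈ S) ∧ ∀ a, f (sec a) = a := by
  have hfin : S.Finite := Set.finite_of_ncard_ne_zero (by rw [hS]; norm_num)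
  have himg : f '' S = Set.univ := by
    apply Set.eq_of_subset_of_ncard_le (Set.subset_univ _)
    · rw [Set.InjOn.ncard_image hf, hS, Set.ncard_univ]
      have : Nat.card K = 4 := by rw [Nat.card_eq_fintype_card]; exact H17.F4.card
      rw [this]
  have : ∀ a : K, ∃ p, p ∈ S ∧ f p = a := by
    intro a
    have : a ∈ f '' S := by rw [himg]; trivial
    obtain ⟨p, hp, h⟩ := this
    exact ⟨p, hp, h⟩
  choose sec hsec using this
  exact ⟨sec, fun a => (hsec a).1, fun a => (hsec a).2⟩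

theorem lin_or {S : Set G} (hS : S.ncard = 4) {f f' : G → K} {g : G} (hf : Set.InjOn f S) (hf' : Set.InjOn f' (cj g '' S)) :
    LinOn f f' g S ∨ SLinOn f f' g S := by
  obtain ⟨sec, h1, h2⟩ := exists_sec hS hf
  have h3 : ∀ p ∈ S, sec (f p) = p := fun p hp => hf (h1 _) hp (h2 _)
  have hinj : Function.Injective (fun a => f' (cj g (sec a))) := by
    intro a b hab
    have := hf' ⟨sec a, h1 a, rfl⟩ ⟨sec b, h1 b, rfl⟩ hab
    rw [cj_inj] at this
    rw [← h2 a, ← h2 b, this]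
  rcases K4.fn_cases _ hinj with ⟨κ, hκ, β, h⟩ | ⟨κ, hκ, β, h⟩
  · left
    refine ⟨κ, hκ, β, fun p hp => ?_⟩
    rw [← h, h3 p hp]
  · right
    refine ⟨κ, hκ, β, fun p hp => ?_⟩
    rw [← h, h3 p hp]

theorem not_both {S : Set G} (hS : S.ncard = 4) {f f' : G → K} {g : G} (hf : Set.InjOn f S)
    (h : LinOn f f' g S) (h' : SLinOn f f' g S) : False := by
  obtain ⟨sec, h1, h2⟩ := exists_sec hS hf
  obtain ⟨κ, hκ, β, h⟩ := h
  obtain ⟨κ', _, β', h'⟩ := h'
  have key : ∀ a, κ * a + β = κ' * a ^ 2 + β' := by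
    intro a
    have e1 := h _ (h1 a)
    have e2 := h' _ (h1 a)
    rw [h2] at e1 e2
    rw [← e1, ← e2]
  exact K4.not_both' κ β κ' β' hκ ⟨key _, key _, key _⟩

theorem comp_ll {S : Set G} {f f' f'' : G → K} {g k : G} (h1 : LinOn f f' k S) (h2 : LinOn f' f'' g (cj k '' S)) :
    LinOn f f'' (g * k) S := by
  obtain ⟨κ, hκ, β, h1⟩ := h1
  obtain ⟨κ', hκ', β', h2⟩ := h2
  refine ⟨κ' * κ, mul_ne_zero hκ' hκ, κ' * β + β', fun p hp => ?_⟩
  rw [← cj_cj, h2 _ ⟨p, hp, rfl⟩, h1 p hp]; ring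

theorem comp_ls {S : Set G} {f f' f'' : G → K} {g k : G} (h1 : LinOn f f' k S) (h2 : SLinOn f' f'' g (cj k '' S)) :
    SLinOn f f'' (g * k) S := by
  obtain ⟨κ, hκ, β, h1⟩ := h1
  obtain ⟨κ', hκ', β', h2⟩ := h2
  refine ⟨κ' * κ ^ 2, mul_ne_zero hκ' (pow_ne_zero _ hκ), κ' * β ^ 2 + β', fun p hp => ?_⟩
  rw [← cj_cj, h2 _ ⟨p, hp, rfl⟩, h1 p hp, K4.sq_add]; ring

theorem comp_sl {S : Set G} {f f' f'' : G → K} {g k : G} (h1 : SLinOn f f' k S) (h2 : LinOn f' f'' g (cj k '' S)) :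
    SLinOn f f'' (g * k) S := by
  obtain ⟨κ, hκ, β, h1⟩ := h1
  obtain ⟨κ', hκ', β', h2⟩ := h2
  refine ⟨κ' * κ, mul_ne_zero hκ' hκ, κ' * β + β', fun p hp => ?_⟩
  rw [← cj_cj, h2 _ ⟨p, hp, rfl⟩, h1 p hp]; ring

theorem comp_ss {S : Set G} {f f' f'' : G → K} {g k : G} (h1 : SLinOn f f' k S) (h2 : SLinOn f' f'' g (cj k '' S)) :
    LinOn f f'' (g * k) S := by
  obtain ⟨κ, hκ, β, h1⟩ := h1
  obtain ⟨κ', hκ', β', h2⟩ := h2
  refine ⟨κ' * κ ^ 2, mul_ne_zero hκ' (pow_ne_zero _ hκ), κ' * β ^ 2 + β', fun p hp => ?_⟩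
  rw [← cj_cj, h2 _ ⟨p, hp, rfl⟩, h1 p hp, K4.sq_add, mul_pow, K4.pow4]; ring

theorem exists_lb [Finite G] (S : Set G) (hS : S.ncard = 4) : ∃ f : G → K, Set.InjOn f S := by
  classical
  have hc : Nat.card S = Nat.card K := by
    rw [Nat.card_coe_set_eq, hS, Nat.card_eq_fintype_card]; exact H17.F4.card.symm
  obtain ⟨e⟩ := Finite.card_eq.1 hc
  refine ⟨fun p => if hp : p ∈ S then e ⟨p, hp⟩ else 0, ?_⟩
  intro a ha b hb hab
  simp only [ha, hb, dif_pos] at hab
  have := e.injective hab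
  exact congrArg Subtype.val this

open Classical in
/-- an injective labelling of each four-set -/
noncomputable def lb [Finite G] (S : Set G) : G → K := if hS : S.ncard = 4 then (exists_lb S hS).choose else 0

theorem lb_inj [Finite G] {S : Set G} (hS : S.ncard = 4) : Set.InjOn (lb S) S := by
  unfold lb
  rw [dif_pos hS]
  exact (exists_lb S hS).choose_spec

open Classical in
/-- the parity -/
noncomputable def par [Finite G] (g : G) (S : Set G) : ZMod 2 := if LinOn (lb S) (lb (cj g '' S)) g S then 0 else 1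

variable [Finite G]

omit [Finite G] in
theorem image_card (g : G) (S : Set G) : (cj g '' S).ncard = S.ncard :=
  Set.ncard_image_of_injective _ (fun _ _ hab => cj_inj.1 hab)

omit [Finite G] in
theorem image_image (g k : G) (S : Set G) : cj g '' (cj k '' S) = cj (g * k) '' S := by
  rw [Set.image_image]
  congr 1
  ext y
  exact cj_cj g k y

theorem par_zero {g : G} {S : Set G} : par g S = 0 ↔ LinOn (lb S) (lb (cj g '' S)) g S := by
  unfold par
  split_ifs with h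
  · simp [h]
  · simp [h]

theorem par_one {g : G} {S : Set G} (hS : S.ncard = 4) : par g S = 1 ↔ SLinOn (lb S) (lb (cj g '' S)) g S := by
  have hS' : (cj g '' S).ncard = 4 := by rw [image_card, hS]
  unfold par
  split_ifs with h
  · simp only [zero_ne_one, false_iff]
    intro h'
    exact not_both hS (lb_inj hS) h h'
  · simp only [true_iff]
    rcases lin_or hS (g := g) (lb_inj hS) (lb_inj hS') with h' | h'
    · exact absurd h' h
    · exact h'

theorem z2 (a : ZMod 2) : a = 0 ∨ a = 1 := by revert a; decide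

theorem par_mul {S : Set G} (hS : S.ncard = 4) (g k : G) : par (g * k) S = par g (cj k '' S) + par k S := by
  have hS' : (cj k '' S).ncard = 4 := by rw [image_card, hS]
  rcases z2 (par k S) with h1 | h1 <;> rcases z2 (par g (cj k '' S)) with h2 | h2 <;> rw [h1, h2]
  · rw [par_zero] at h1 h2
    rw [image_image] at h2
    rw [add_zero, par_zero]
    exact comp_ll h1 h2
  · rw [par_zero] at h1; rw [par_one hS', image_image] at h2
    rw [add_zero, par_one hS]
    exact comp_ls h1 h2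
  · rw [par_one hS] at h1; rw [par_zero, image_image] at h2
    rw [zero_add, par_one hS]
    exact comp_sl h1 h2
  · rw [par_one hS] at h1; rw [par_one hS', image_image] at h2
    rw [show (1 : ZMod 2) + 1 = 0 from rfl, par_zero]
    exact comp_ss h1 h2

/-- acting trivially is even -/
theorem par_triv {S : Set G} {g : G} (hg : ∀ p ∈ S, cj g p = p) : par g S = 0 := by
  have : cj g '' S = S := by
    ext y
    constructor
    · rintro ⟨p, hp, rfl⟩; rw [hg p hp]; exact hp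
    · intro hy; exact ⟨y, hy, hg y hy⟩
  rw [par_zero, this]
  exact ⟨1, one_ne_zero, 0, fun p hp => by rw [hg p hp]; ring⟩

theorem par_id (S : Set G) : par 1 S = 0 := par_triv (fun p _ => cj_one p)

/-- fixed point free involutions are even -/
theorem par_invol {S : Set G} (hS : S.ncard = 4) {g : G} (hst : ∀ p ∈ S, cj g p ∈ S) (hinv : ∀ p ∈ S, cj g (cj g p) = p)
    (hne : ∀ p ∈ S, cj g p ≠ p) : par g S = 0 := by
  have himg : cj g '' S = S := by
    ext y
    constructor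
    · rintro ⟨p, hp, rfl⟩; exact hst p hp
    · intro hy; exact ⟨cj g y, hst y hy, hinv y hy⟩
  by_contra hcon
  have h1 : par g S = 1 := by
    rcases z2 (par g S) with h | h
    · exact absurd h hcon
    · exact h
  rw [par_one hS, himg] at h1
  obtain ⟨κ, hκ, β, h⟩ := h1
  obtain ⟨sec, s1, s2⟩ := exists_sec hS (lb_inj hS)
  have key : ∀ a, κ * (κ * a ^ 2 + β) ^ 2 + β = a := by
    intro a
    have e1 := h _ (s1 a)
    have e2 := h _ (hst _ (s1 a))
    rw [hinv _ (s1 a), s2, e1, s2] at e2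
    exact e2.symm
  obtain ⟨a, ha⟩ := K4.invol κ β hκ (key 0) (key 1)
  apply hne _ (s1 a)
  apply lb_inj hS (hst _ (s1 a)) (s1 a)
  rw [h _ (s1 a), s2, ha]

/-- odd order -/
theorem par_cube {S : Set G} (hS : S.ncard = 4) {g : G} (hst : cj g '' S = S) (h3 : g * g * g = 1) : par g S = 0 := by
  have h1 := par_mul hS (g * g) g
  have h2 := par_mul hS g g
  rw [hst] at h1 h2
  rw [h2, h3, par_id] at h1
  rcases z2 (par g S) with h | h
  · exact h
  · rw [h] at h1; exact absurd h1 (by decide)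

omit [Finite G] in
/-- exponent three groups -/
theorem burnside {a b : G} (ha : a * a * a = 1) (hb : b * b * b = 1) (hab : a * b * (a * b) * (a * b) = 1)
    (hab' : a⁻¹ * b * (a⁻¹ * b) * (a⁻¹ * b) = 1) : (b * a * b⁻¹ * a⁻¹) * (b * a * b⁻¹ * a⁻¹) * (b * a * b⁻¹ * a⁻¹) = 1 := by
  have hbb : b⁻¹ * b⁻¹ = b := by
    rw [← mul_inv_rev, inv_eq_iff_mul_eq_one]; exact hb
  have hcomm : Commute a (b * a * b⁻¹) := by
    have e1 : a * b * a = b⁻¹ * (a⁻¹ * b⁻¹) := by
      rw [← mul_inv_rev, ← mul_inv_rev]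
      apply eq_inv_of_mul_eq_one_left
      rw [← hab]; simp only [mul_assoc]
    have e2 : a⁻¹ * b * a⁻¹ = b⁻¹ * a * b⁻¹ := by
      have : a⁻¹ * b * a⁻¹ = (b * a⁻¹ * b)⁻¹ := by
        apply eq_inv_of_mul_eq_one_left
        rw [← hab']; simp only [mul_assoc]
      rw [this]; simp only [mul_inv_rev, inv_inv, mul_assoc]
    show a * (b * a * b⁻¹) = b * a * b⁻¹ * a
    calc a * (b * a * b⁻¹) = (a * b * a) * b⁻¹ := by simp only [mul_assoc]
      _ = b⁻¹ * a⁻¹ * (b⁻¹ * b⁻¹) := by rw [e1]; simp only [mul_assoc]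
      _ = b⁻¹ * a⁻¹ * b := by rw [hbb]
      _ = b⁻¹ * (a⁻¹ * b * a⁻¹) * a := by simp only [mul_assoc, inv_mul_cancel, mul_one]
      _ = b⁻¹ * (b⁻¹ * a * b⁻¹) * a := by rw [e2]
      _ = (b⁻¹ * b⁻¹) * a * b⁻¹ * a := by simp only [mul_assoc]
      _ = _ := by rw [hbb]
  obtain ⟨c, hc⟩ : ∃ c, c = b * a * b⁻¹ := ⟨_, rfl⟩
  rw [← hc] at hcomm ⊢
  have hc3 : c * c * c = 1 := by
    rw [hc]
    calc b * a * b⁻¹ * (b * a * b⁻¹) * (b * a * b⁻¹) = b * (a * a * a) * b⁻¹ := by group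
      _ = 1 := by rw [ha]; group
  have ha3 : a⁻¹ * a⁻¹ * a⁻¹ = 1 := by
    rw [← mul_inv_rev, ← mul_inv_rev, inv_eq_one, ← ha]; simp only [mul_assoc]
  have h1 : Commute a⁻¹ c := hcomm.inv_left
  calc c * a⁻¹ * (c * a⁻¹) * (c * a⁻¹) = c * (a⁻¹ * c) * (a⁻¹ * c) * a⁻¹ := by simp only [mul_assoc]
    _ = c * (c * a⁻¹) * (c * a⁻¹) * a⁻¹ := by rw [h1.eq]
    _ = c * c * (a⁻¹ * c) * a⁻¹ * a⁻¹ := by simp only [mul_assoc]
    _ = c * c * (c * a⁻¹) * a⁻¹ * a⁻¹ := by rw [h1.eq]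
    _ = (c * c * c) * (a⁻¹ * a⁻¹ * a⁻¹) := by simp only [mul_assoc]
    _ = 1 := by rw [hc3, ha3, mul_one]

omit [Finite G] in
theorem cube_one {D : Set G} (hD : IsThreeTranspositionSet D) {d e : G} (hd : d ∈ D) (he : e ∈ D) (h : ¬ Commute d e) :
    d * e * (d * e) * (d * e) = 1 := by
  calc d * e * (d * e) * (d * e) = (d * e * d) * (e * d * e) := by simp only [mul_assoc]
    _ = (d * e * d) * (d * e * d) := by rw [braid hD he hd (fun hc => h hc.symm)]
    _ = d * e * (d * d) * e * d := by simp only [mul_assoc]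
    _ = d * (e * e) * d := by rw [mul_self hD hd, mul_one]; simp only [mul_assoc]
    _ = 1 := by rw [mul_self hD he, mul_one, mul_self hD hd]

omit [Finite G] in
/-- the affine holonomy -/
theorem hol_affine {D : Set G} (hD : IsThreeTranspositionSet D) {u v w : G} (hu : u ∈ D) (hv : v ∈ D) (hw : w ∈ D)
    (huv : ¬ Commute u v) (huw : ¬ Commute u w) (hvw : ¬ Commute v w) (hk : ¬ Commute w (u * v * u)) (hkD : u * v * u ∈ D) :
    ((w * u * w) * (v * w * v) * (u * v * u) * u) * ((w * u * w) * (v * w * v) * (u * v * u) * u) *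
      ((w * u * w) * (v * w * v) * (u * v * u) * u) = 1 := by
  have su := mul_self hD hu
  have sv := mul_self hD hv
  have sw := mul_self hD hw
  have key : (w * u * w) * (v * w * v) * (u * v * u) * u = (u * w) * (u * v) * (u * w)⁻¹ * (u * v)⁻¹ := by
    have i1 : (u * w)⁻¹ = w * u := by rw [mul_inv_rev, inv_eq hD hu, inv_eq hD hw]
    have i2 : (u * v)⁻¹ = v * u := by rw [mul_inv_rev, inv_eq hD hu, inv_eq hD hv]
    rw [i1, i2]
    calc (w * u * w) * (v * w * v) * (u * v * u) * u = (w * u * w) * (v * w * v) * (u * v) * (u * u) := by simp only [mul_assoc]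
      _ = (u * w * u) * (v * w * v) * (u * v) := by rw [su, mul_one, braid hD hw hu (fun hc => huw hc.symm)]
      _ = u * w * u * v * w * (v * u * v) := by simp only [mul_assoc]
      _ = u * w * u * v * w * (u * v * u) := by rw [braid hD hv hu (fun hc => huv hc.symm)]
      _ = _ := by simp only [mul_assoc]
  rw [key]
  apply burnside (cube_one hD hu hv huv) (cube_one hD hu hw huw)
  · have h1 := cube_one hD hw hkD hk
    have e1 : w * (u * v * u) = ((u * v) * (u * w))⁻¹ := by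
      simp only [mul_inv_rev, inv_eq hD hu, inv_eq hD hv, inv_eq hD hw, mul_assoc]
    rw [e1] at h1
    rw [← mul_inv_rev, ← mul_inv_rev, inv_eq_one] at h1
    rw [← h1]; simp only [mul_assoc]
  · have i2 : (u * v)⁻¹ = v * u := by rw [mul_inv_rev, inv_eq hD hu, inv_eq hD hv]
    have e1 : (u * v)⁻¹ * (u * w) = v * w := by
      rw [i2]
      calc v * u * (u * w) = v * (u * u) * w := by simp only [mul_assoc]
        _ = v * w := by rw [su, mul_one]
    rw [e1]
    exact cube_one hD hv hw hvw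

omit [Finite G] in
/-- the `S₄` holonomy -/
theorem hol_s4 {D : Set G} (hD : IsThreeTranspositionSet D) {u v w : G} (hu : u ∈ D) (hv : v ∈ D) (hw : w ∈ D)
    (huv : ¬ Commute u v) (hvw : ¬ Commute v w) (hk : Commute w (u * v * u)) :
    (w * u * w) * (v * w * v) * (u * v * u) = v * w * v := by
  have su := mul_self hD hu
  have sv := mul_self hD hv
  have sw := mul_self hD hw
  calc (w * u * w) * (v * w * v) * (u * v * u) = (w * u * w) * (w * v * w) * (u * v * u) := by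
        rw [braid hD hv hw hvw]
    _ = w * u * (w * w) * v * (w * (u * v * u)) := by simp only [mul_assoc]
    _ = w * u * v * ((u * v * u) * w) := by rw [sw, mul_one, hk.eq]
    _ = w * u * v * ((v * u * v) * w) := by rw [braid hD hu hv huv]
    _ = w * u * (v * v) * u * v * w := by simp only [mul_assoc]
    _ = w * (u * u) * v * w := by rw [sv, mul_one]; simp only [mul_assoc]
    _ = w * v * w := by rw [su, mul_one]
    _ = _ := (braid hD hv hw hvw).symm

end H33.Pol
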