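import Cfsg.Agent.Lib.H33.Pol4

/-! Labels on the lines through a point. -/

set_option autoImplicit false

namespace H33.Pol

open Cfsg H90.ThreeTrans H90.ThreeTransB H90.WidthOne H90.ThreeTransC H90.ThreeTransE H90.ThreeTransG H90.ThreeTransH
  H33.Fisch

/-- a triangle-closed cochain is a coboundary -/
theorem coboundary {X : Type*} (P : X → Prop) (nc : X → X → Prop) (t : X → X → ZMod 2) (op : X → X → X)
    (hs : ∀ a b, nc a b → nc b a)
    (hop : ∀ a b, P a → P b → nc a b → P (op a b) ∧ nc (op a b) a ∧ nc (op a b) b)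
    (h2 : ∀ a b c, P a → P b → P c → nc a b → nc b c → ¬ nc a c → nc (op a b) c)
    (h2' : ∀ a b c, P a → P b → P c → nc a b → nc a c → ¬ nc b c → nc (op a b) c)
    (hdiam : ∀ a b, P a → P b → ¬ nc a b → ∃ k, P k ∧ nc k a ∧ nc k b)
    (ht : ∀ a b, P a → P b → nc a b → t a b = t b a)
    (htri : ∀ a b c, P a → P b → P c → nc a b → nc b c → nc c a → t a b + t b c + t c a = 0)
    (u0 : X) (hu0 : P u0) : ∃ o : X → ZMod 2, ∀ u v, P u → P v → nc u v → t u v = o u + o v := by
  classical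
  have hex : ∀ v, P v → ∃ k, P k ∧ nc k u0 ∧ nc k v := by
    intro v hv
    by_cases hn : nc u0 v
    · obtain ⟨a, b, c⟩ := hop u0 v hu0 hv hn
      exact ⟨_, a, b, c⟩
    · exact hdiam u0 v hu0 hv hn
  choose! κ hκ using hex
  -- independence for adjacent choices
  have ind1 : ∀ v k k', P v → P k → P k' → nc k u0 → nc k v → nc k' u0 → nc k' v → nc k k' →
      t u0 k + t k v = t u0 k' + t k' v := by
    intro v k k' hv hk hk' a1 a2 a3 a4 a5
    have e1 := htri u0 k k' hu0 hk hk' (hs _ _ a1) a5 a3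
    have e2 := htri v k k' hv hk hk' (hs _ _ a2) a5 a4
    rw [ht k' u0 hk' hu0 a3] at e1
    rw [ht v k hv hk (hs _ _ a2)] at e2
    revert e1 e2
    generalize t u0 k = p1
    generalize t k k' = p2
    generalize t u0 k' = p3
    generalize t k v = p4
    generalize t k' v = p5
    revert p1 p2 p3 p4 p5
    decide
  have ind : ∀ v k k', P v → P k → P k' → nc k u0 → nc k v → nc k' u0 → nc k' v →
      t u0 k + t k v = t u0 k' + t k' v := by
    intro v k k' hv hk hk' a1 a2 a3 a4
    by_cases hv0 : nc u0 v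
    · -- both equal `t u0 v`
      have e1 := htri u0 k v hu0 hk hv (hs _ _ a1) a2 (hs _ _ hv0)
      have e2 := htri u0 k' v hu0 hk' hv (hs _ _ a3) a4 (hs _ _ hv0)
      revert e1 e2
      generalize t u0 k = p1
      generalize t u0 k' = p3
      generalize t k v = p4
      generalize t k' v = p5
      generalize t v u0 = p6
      revert p1 p3 p4 p5 p6
      decide
    · by_cases hkk : nc k k'
      · exact ind1 v k k' hv hk hk' a1 a2 a3 a4 hkk
      · obtain ⟨b1, b2, b3⟩ := hop u0 k hu0 hk (hs _ _ a1)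
        have b4 : nc (op u0 k) v := h2 u0 k v hu0 hk hv (hs _ _ a1) a2 hv0
        have b5 : nc (op u0 k) k' := h2' u0 k k' hu0 hk hk' (hs _ _ a1) (hs _ _ a3) hkk
        rw [ind1 v k (op u0 k) hv hk b1 a1 a2 b2 b4 (hs _ _ b3), ind1 v (op u0 k) k' hv b1 hk' b2 b4 a3 a4 b5]
  refine ⟨fun v => t u0 (κ v) + t (κ v) v, ?_⟩
  intro u v hu hv huv
  obtain ⟨c1, c2, c3⟩ := hκ u hu
  obtain ⟨d1, d2, d3⟩ := hκ v hv
  -- direct neighbours of `u0`
  have near : ∀ w, P w → nc u0 w → t u0 (κ w) + t (κ w) w = t u0 w := by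
    intro w hw h0w
    obtain ⟨e1, e2, e3⟩ := hκ w hw
    have e4 := htri u0 (κ w) w hu0 e1 hw (hs _ _ e2) e3 (hs _ _ h0w)
    rw [ht w u0 hw hu0 (hs _ _ h0w)] at e4
    revert e4
    generalize t u0 (κ w) = p1
    generalize t (κ w) w = p2
    generalize t u0 w = p3
    revert p1 p2 p3
    decide
  show t u v = (t u0 (κ u) + t (κ u) u) + (t u0 (κ v) + t (κ v) v)
  by_cases hu0' : nc u0 u
  · by_cases hv0 : nc u0 v
    · rw [near u hu hu0', near v hv hv0]
      have e4 := htri u0 u v hu0 hu hv hu0' huv (hs _ _ hv0)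
      rw [ht v u0 hv hu0 (hs _ _ hv0)] at e4
      revert e4
      generalize t u0 u = p1
      generalize t u v = p2
      generalize t u0 v = p3
      revert p1 p2 p3
      decide
    · rw [near u hu hu0', ind v (κ v) u hv d1 hu d2 d3 (hs _ _ hu0') huv]
      generalize t u0 u = p1
      generalize t u v = p2
      revert p1 p2
      decide
  · by_cases hv0 : nc u0 v
    · rw [near v hv hv0, ind u (κ u) v hu c1 hv c2 c3 (hs _ _ hv0) (hs _ _ huv), ht v u hv hu (hs _ _ huv)]
      generalize t u0 v = p1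
      generalize t u v = p2
      revert p1 p2
      decide
    · have hcom : ∃ k, P k ∧ nc k u0 ∧ nc k u ∧ nc k v := by
        by_cases hk : nc (κ u) v
        · exact ⟨κ u, c1, c2, c3, hk⟩
        · obtain ⟨b1, b2, b3⟩ := hop (κ u) u c1 hu c3
          exact ⟨_, b1, h2' _ _ _ c1 hu hu0 c3 c2 (fun hh => hu0' (hs _ _ hh)), b3, h2 _ _ _ c1 hu hv c3 huv hk⟩
      obtain ⟨k, hk, k0, ku, kv⟩ := hcom
      rw [ind u (κ u) k hu c1 hk c2 c3 k0 ku, ind v (κ v) k hv d1 hk d2 d3 k0 kv]
      have e4 := htri k u v hk hu hv ku huv (hs _ _ kv)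
      rw [ht v k hv hk (hs _ _ kv)] at e4
      revert e4
      generalize t u0 k = p1
      generalize t k u = p2
      generalize t k v = p3
      generalize t u v = p4
      revert p1 p2 p3 p4
      decide

variable {G : Type*} [Group G] {D : Set G}

/-- the line without its base point -/
def Sx (D : Set G) (x u : G) : Set G := Ln D x u \ {x}

/-- transport -/
theorem transport (hD : IsThreeTranspositionSet D) {u v : G} (hu : u ∈ D) (hv : v ∈ D) (huv : ¬ Commute u v) :
    cj (cj u v) u = v := by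
  have h1 : cj (cj u v) u = cj u (cj v u) := by
    have h2 : cj (cj u v) (cj u u) = cj u (cj v u) := cj_conj u v u
    rwa [cj_self (Commute.refl u)] at h2
  rw [h1, cj_braid hD hv hu (fun hc => huv hc.symm), cj_cj_D hD hu]

variable [Finite G]

section
variable (h : Ctx D)
include h

theorem Ctx.cj_S {x u g : G} (hgx : Commute g x) : cj g '' Sx D x u = Sx D x (cj g u) := by
  have hx : cj g x = x := cj_self hgx
  ext y
  constructor
  · rintro ⟨p, ⟨hp, hpx⟩, rfl⟩
    refine ⟨?_, fun hc => hpx ?_⟩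
    · have := (cj_Ln h.grp g).2 hp
      rwa [hx] at this
    · have hc' : cj g p = cj g x := by rw [hx]; exact hc
      exact cj_inj.1 hc'
  · rintro ⟨hy, hyx⟩
    refine ⟨cj g⁻¹ y, ⟨?_, fun hc => hyx ?_⟩, cj_cj_inv g y⟩
    · rw [← cj_Ln h.grp g, hx, cj_cj_inv]; exact hy
    · have hc' : cj g⁻¹ y = x := hc
      show y = x
      rw [← cj_cj_inv g y, hc', hx]

theorem Ctx.S_eq {x u p : G} (hx : x ∈ D) (hu : u ∈ Dn D x) (hp : p ∈ Sx D x u) : Sx D x p = Sx D x u := by
  unfold Sx
  rw [h.Ln_left hx hu hp.1 hp.2]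

theorem Ctx.S_Dn {x u p : G} (hx : x ∈ D) (hu : u ∈ Dn D x) (hp : p ∈ Sx D x u) : p ∈ Dn D x :=
  h.Dn_of_Ln hx hu hp.1 hp.2

omit h [Finite G] in
theorem mem_S {x u : G} (hu : u ∈ Dn D x) : u ∈ Sx D x u := ⟨right_mem_Ln hu, hu.2.1⟩

theorem Ctx.S_card (h5 : ∀ x ∈ D, ∀ u ∈ Dn D x, (Ln D x u).ncard = 5) {x u : G} (hx : x ∈ D) (hu : u ∈ Dn D x) :
    (Sx D x u).ncard = 4 := by
  unfold Sx
  rw [Set.ncard_sdiff_singleton_of_mem (left_mem_Ln hx hu), h5 x hx u hu]

/-- translations are even -/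
theorem Ctx.par_line (h5 : ∀ x ∈ D, ∀ u ∈ Dn D x, (Ln D x u).ncard = 5) {x k k' v : G} (hx : x ∈ D) (hk : k ∈ Dn D x)
    (hk' : k' ∈ Sx D x k) (hv : v ∈ Dn D x) : par (k * k') (Sx D x v) = 0 := by
  have hS := h.S_card h5 hx hv
  by_cases hvk : Commute v k
  · apply par_triv
    intro p hp
    have hkp : Commute k p := (h.comm_class hx hk hv hp.1 hp.2 hk.1 hk.2.2).1 hvk |>.symm
    have hk'p : Commute k' p := by
      have hpD := h.S_Dn hx hv hp
      exact (h.comm_class hx hpD hk hk'.1 hk'.2 hpD.1 hpD.2.2).1 hkp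
    exact cj_self (hkp.mul_left hk'p)
  · by_cases hkk : k' = k
    · rw [hkk, mul_self h.set hk.1]; exact par_id _
    · have hst : ∀ p ∈ Sx D x v, cj (k * k') p ∈ Sx D x v := by
        intro p hp
        have h1 := h.tr_mem hx (h.S_Dn hx hv hp) hk hk'.1 hk'.2
        have h2 : cj (k * k') p ∈ Sx D x p := ⟨h1.1, h1.2⟩
        rwa [h.S_eq hx hv hp] at h2
      apply par_invol hS hst
      · intro p _; exact h.tr_tr hx hk hk'.1 p
      · intro p hp
        refine h.tr_ne hx (h.S_Dn hx hv hp) hk hk'.1 hk'.2 hkk ?_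
        intro hc
        exact hvk ((h.comm_class hx hk hv hp.1 hp.2 hk.1 hk.2.2).2 hc)

theorem Ctx.par_eq (h5 : ∀ x ∈ D, ∀ u ∈ Dn D x, (Ln D x u).ncard = 5) {x k k' v : G} (hx : x ∈ D) (hk : k ∈ Dn D x)
    (hk' : k' ∈ Sx D x k) (hv : v ∈ Dn D x) : par k (Sx D x v) = par k' (Sx D x v) := by
  have hS := h.S_card h5 hx hv
  have h1 := h.par_line h5 hx hk hk' hv
  rw [par_mul hS] at h1
  have hk'D := h.S_Dn hx hk hk'
  have himg : cj k' '' Sx D x v = cj k '' Sx D x v := by
    rw [h.cj_S hk'D.2.2.symm, h.cj_S hk.2.2.symm]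
    by_cases hvk : Commute k v
    · have : Commute k' v := (h.comm_class hx hv hk hk'.1 hk'.2 hv.1 hv.2.2).1 hvk
      rw [cj_self hvk, cj_self this]
    · have h2 := h.prod_line hx hk hv hk'.1 (right_mem_Ln hv) hv.2.1 hk'.2 hvk
      have hcD : cj k v ∈ Dn D x := by
        have := (cj_Dn h.grp k).2 hv
        rwa [cj_self hk.2.2.symm] at this
      exact h.S_eq hx hcD ⟨h2.1, h2.2⟩
  rw [himg] at h1
  have h3 := par_mul hS k k
  rw [mul_self h.set hk.1, par_id] at h3
  revert h1 h3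
  generalize par k (cj k '' Sx D x v) = p1
  generalize par k (Sx D x v) = p2
  generalize par k' (Sx D x v) = p3
  revert p1 p2 p3
  decide

theorem Ctx.cj_in {x u v : G} (hu : u ∈ Dn D x) (hv : v ∈ Dn D x) : cj u v ∈ Dn D x := by
  have := (cj_Dn h.grp u).2 hv
  rwa [cj_self hu.2.2.symm] at this

/-- triangle holonomy is even -/
theorem Ctx.par_tri (h5 : ∀ x ∈ D, ∀ u ∈ Dn D x, (Ln D x u).ncard = 5) {x u v w : G} (hx : x ∈ D) (hu : u ∈ Dn D x)
    (hv : v ∈ Dn D x) (hw : w ∈ Dn D x) (huv : ¬ Commute u v) (hvw : ¬ Commute v w) (hwu : ¬ Commute w u) :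
    par (cj u v) (Sx D x u) + par (cj v w) (Sx D x v) + par (cj w u) (Sx D x w) = 0 := by
  have hDs := h.set
  have hS := h.S_card h5 hx hu
  have c1 := h.cj_in hu hv
  have c2 := h.cj_in hv hw
  have c3 := h.cj_in hw hu
  have t1 : cj (cj u v) '' Sx D x u = Sx D x v := by
    rw [h.cj_S c1.2.2.symm, transport hDs hu.1 hv.1 huv]
  have t2 : cj (cj v w) '' Sx D x v = Sx D x w := by
    rw [h.cj_S c2.2.2.symm, transport hDs hv.1 hw.1 hvw]
  have t3 : cj (cj w u) '' Sx D x w = Sx D x u := by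
    rw [h.cj_S c3.2.2.symm, transport hDs hw.1 hu.1 hwu]
  have e : par (cj w u * cj v w * cj u v) (Sx D x u) = par (cj u v) (Sx D x u) + par (cj v w) (Sx D x v) + par (cj w u) (Sx D x w) := by
    rw [par_mul hS, t1, par_mul (h.S_card h5 hx hv), t2]; ring
  rw [← e]
  have d1 : cj u v = u * v * u := cj_D hDs hu.1 v
  have d2 : cj v w = v * w * v := cj_D hDs hv.1 w
  have d3 : cj w u = w * u * w := cj_D hDs hw.1 u
  by_cases hk : Commute w (cj u v)
  · have h1 : cj w u * cj v w * cj u v = cj v w := by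
      rw [d1] at hk
      rw [d1, d2, d3]
      exact hol_s4 hDs hu.1 hv.1 hw.1 huv hvw hk
    rw [h1]
    have h2 : Commute (cj v w) u := by
      rw [cj_braid hDs hu.1 hv.1 huv] at hk
      have h3 : Commute (cj v w) (cj v (cj v u)) := cj_comm.2 hk
      rwa [cj_cj_D hDs hv.1] at h3
    apply par_triv
    intro p hp
    have h4 := (h.comm_class hx c2 hu hp.1 hp.2 c2.1 c2.2.2).1 h2.symm
    exact cj_self h4.symm
  · have h1 : par ((cj w u * cj v w * cj u v) * u) (Sx D x u) = 0 := by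
      apply par_cube hS
      · have e2 : cj u '' Sx D x u = Sx D x u := by
          rw [h.cj_S hu.2.2.symm, cj_self (Commute.refl u)]
        rw [← image_image, e2, ← image_image, ← image_image, t1, t2, t3]
      · have := hol_affine hDs hu.1 hv.1 hw.1 huv (fun hc => hwu hc.symm) hvw (by rw [← d1]; exact hk) (by rw [← d1]; exact c1.1)
        rw [d1, d2, d3]; exact this
    have h2 : par u (Sx D x u) = 0 := by
      apply par_triv
      intro p hp
      exact cj_self (Ln_comm_right hu hp.1)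
    have e2 : cj u '' Sx D x u = Sx D x u := by
      rw [h.cj_S hu.2.2.symm, cj_self (Commute.refl u)]
    rw [par_mul hS, e2, h2, add_zero] at h1
    exact h1

/-- diameter two -/
theorem Ctx.diam {x a b : G} (hx : x ∈ D) (ha : a ∈ Dn D x) (hb : b ∈ Dn D x) (hab : Commute a b) :
    ∃ k ∈ Dn D x, ¬ Commute k a ∧ ¬ Commute k b := by
  have hDs := h.set
  have hp := (h.comp x hx a ha b hb).2
  unfold Pth at hp
  have key : ∀ c, Relation.ReflTransGen (fun a b : G => a ∈ Dn D x ∧ b ∈ Dn D x ∧ ¬ Commute a b) a c →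
      c ∈ Dn D x → ¬ Commute a c ∨ ∃ k ∈ Dn D x, ¬ Commute k a ∧ ¬ Commute k c := by
    intro c hc
    induction hc with
    | refl =>
      intro _
      obtain ⟨k, hk, hka⟩ := h.exists_nc hx ha
      exact Or.inr ⟨k, hk, hka, hka⟩
    | @tail b c _ hstep ih =>
      intro _
      obtain ⟨hb', hc', hbc⟩ := hstep
      by_cases hac : Commute a c
      swap
      · exact Or.inl hac
      right
      rcases ih hb' with h1 | ⟨k, hk, hka, hkb⟩
      · exact ⟨b, hb', fun hc => h1 hc.symm, hbc⟩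
      · by_cases hkc : Commute k c
        swap
        · exact ⟨k, hk, hka, hkc⟩
        by_cases hab' : Commute a b
        swap
        · exact ⟨b, hb', fun hc => hab' hc.symm, hbc⟩
        refine ⟨cj k b, h.cj_in hk hb', ?_, ?_⟩
        · intro hh
          rw [cj_braid hDs hk.1 hb'.1 hkb] at hh
          exact hka (cj_comm_of_third hab' hh.symm).symm
        · intro hh
          exact hbc (cj_comm_of_third hkc.symm hh.symm).symm
  rcases key b hp hb with h1 | h1
  · exact absurd hab h1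
  · exact h1

/-- **the labelling** -/
theorem Ctx.labels (h5 : ∀ x ∈ D, ∀ u ∈ Dn D x, (Ln D x u).ncard = 5) {x : G} (hx : x ∈ D) :
    ∃ lab : G → K, (∀ u ∈ Dn D x, Set.InjOn lab (Sx D x u)) ∧
      (∀ u ∈ Dn D x, ∀ d ∈ Dn D x, ∃ κ : K, κ ≠ 0 ∧ ∃ β, ∀ p ∈ Sx D x u, lab (cj d p) = κ * lab p + β) := by
  classical
  have hDs := h.set
  obtain ⟨u0, hu0⟩ := h.exists_dn hx
  have tsym : ∀ a b, a ∈ Dn D x → b ∈ Dn D x → ¬ Commute a b → par (cj a b) (Sx D x a) = par (cj b a) (Sx D x b) := by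
    intro a b ha hb hab
    have c1 := h.cj_in ha hb
    have t1 : cj (cj a b) '' Sx D x a = Sx D x b := by
      rw [h.cj_S c1.2.2.symm, transport hDs ha.1 hb.1 hab]
    have e1 := par_mul (h.S_card h5 hx ha) (cj a b) (cj a b)
    rw [mul_self hDs c1.1, par_id, t1] at e1
    rw [← cj_braid hDs ha.1 hb.1 hab]
    revert e1
    generalize par (cj a b) (Sx D x a) = p1
    generalize par (cj a b) (Sx D x b) = p2
    revert p1 p2
    decide
  obtain ⟨o, ho⟩ := coboundary (fun u : G => u ∈ Dn D x) (fun a b => ¬ Commute a b) (fun a b => par (cj a b) (Sx D x a)) cj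
    (fun a b hab hc => hab hc.symm)
    (by
      intro a b ha hb hab
      refine ⟨h.cj_in ha hb, ?_, ?_⟩
      · intro hc
        exact hab (cj_comm_of_third (Commute.refl a) hc.symm)
      · intro hc
        rw [cj_braid hDs ha.1 hb.1 hab] at hc
        exact hab (cj_comm_of_third (Commute.refl b) hc.symm).symm)
    (by
      intro a b c ha hb hc hab hbc hac hcc
      have hac' : Commute a c := by by_contra hh; exact hac hh
      exact hbc (cj_comm_of_third hac'.symm hcc.symm).symm)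
    (by
      intro a b c ha hb hc hab hac hbc hcc
      have hbc' : Commute b c := by by_contra hh; exact hbc hh
      rw [cj_braid hDs ha.1 hb.1 hab] at hcc
      exact hac (cj_comm_of_third hbc'.symm hcc.symm).symm)
    (by
      intro a b ha hb hab
      have hab' : Commute a b := by by_contra hh; exact hab hh
      exact h.diam hx ha hb hab')
    tsym
    (fun a b c ha hb hc hab hbc hca => h.par_tri h5 hx ha hb hc hab hbc hca)
    u0 hu0
  -- `o` is constant on lines
  have oline : ∀ u ∈ Dn D x, ∀ p ∈ Sx D x u, o p = o u := by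
    intro u hu p hp
    have hpD := h.S_Dn hx hu hp
    obtain ⟨k, hk, hku⟩ := h.exists_nc hx hu
    have hkp : ¬ Commute k p := fun hc => hku ((h.comm_class hx hk hu hp.1 hp.2 hk.1 hk.2.2).2 hc.symm).symm
    have e1 : par (cj k u) (Sx D x k) = o k + o u := ho k u hk hu hku
    have e2 : par (cj k p) (Sx D x k) = o k + o p := ho k p hk hpD hkp
    have e3 : par (cj k u) (Sx D x k) = par (cj k p) (Sx D x k) := by
      have h1 := h.prod_line hx hk hu (right_mem_Ln hk) hp.1 hp.2 hk.2.1 hku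
      exact h.par_eq h5 hx (h.cj_in hk hu) ⟨h1.1, h1.2⟩ hk
    rw [e3, e2] at e1
    exact add_left_cancel e1
  refine ⟨fun p => if o p = 0 then lb (Sx D x p) p else (lb (Sx D x p) p) ^ 2, ?_, ?_⟩
  · intro u hu p hp q hq hpq
    have hS := h.S_card h5 hx hu
    simp only [h.S_eq hx hu hp, h.S_eq hx hu hq, oline u hu p hp, oline u hu q hq] at hpq
    split_ifs at hpq with hc
    · exact lb_inj hS hp hq hpq
    · exact lb_inj hS hp hq (K4.sq_inj hpq)
  · intro u hu d hd
    have hS := h.S_card h5 hx hu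
    have hvD : cj d u ∈ Dn D x := h.cj_in hd hu
    have himg : cj d '' Sx D x u = Sx D x (cj d u) := h.cj_S hd.2.2.symm
    have hpar : par d (Sx D x u) = o u + o (cj d u) := by
      by_cases hdu : Commute d u
      · rw [cj_self hdu, show o u + o u = 0 from by generalize o u = p1; revert p1; decide]
        apply par_triv
        intro p hp
        exact cj_self ((h.comm_class hx hd hu hp.1 hp.2 hd.1 hd.2.2).1 hdu.symm).symm
      · have hnc : ¬ Commute u (cj d u) := by
          intro hc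
          rw [cj_braid hDs hd.1 hu.1 hdu] at hc
          exact hdu (cj_comm_of_third (Commute.refl u) hc).symm
        have e1 := ho u (cj d u) hu hvD hnc
        have e2 : cj u (cj d u) = d := by
          rw [cj_braid hDs hd.1 hu.1 hdu, cj_cj_D hDs hu.1]
        rw [e2] at e1
        exact e1
    have hdp : ∀ p ∈ Sx D x u, cj d p ∈ Sx D x (cj d u) := by
      intro p hp; rw [← himg]; exact ⟨p, hp, rfl⟩
    rcases z2 (o u) with h1 | h1 <;> rcases z2 (o (cj d u)) with h2 | h2 <;> rw [h1, h2] at hpar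
    · rw [add_zero, par_zero, himg] at hpar
      obtain ⟨κ, hκ, β, hh⟩ := hpar
      refine ⟨κ, hκ, β, fun p hp => ?_⟩
      simp only [oline _ hu p hp, oline _ hvD _ (hdp p hp), h1, h2, if_true, h.S_eq hx hu hp, h.S_eq hx hvD (hdp p hp)]
      exact hh p hp
    · rw [zero_add, par_one hS, himg] at hpar
      obtain ⟨κ, hκ, β, hh⟩ := hpar
      refine ⟨κ ^ 2, pow_ne_zero _ hκ, β ^ 2, fun p hp => ?_⟩
      simp only [oline _ hu p hp, oline _ hvD _ (hdp p hp), h1, h2, if_true, one_ne_zero, if_false, h.S_eq hx hu hp,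
        h.S_eq hx hvD (hdp p hp)]
      rw [hh p hp, K4.sq_add, mul_pow, K4.pow4]
    · rw [add_zero, par_one hS, himg] at hpar
      obtain ⟨κ, hκ, β, hh⟩ := hpar
      refine ⟨κ, hκ, β, fun p hp => ?_⟩
      simp only [oline _ hu p hp, oline _ hvD _ (hdp p hp), h1, h2, if_true, one_ne_zero, if_false, h.S_eq hx hu hp,
        h.S_eq hx hvD (hdp p hp)]
      rw [hh p hp]
    · rw [show (1 : ZMod 2) + 1 = 0 from rfl, par_zero, himg] at hpar
      obtain ⟨κ, hκ, β, hh⟩ := hpar
      refine ⟨κ ^ 2, pow_ne_zero _ hκ, β ^ 2, fun p hp => ?_⟩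
      simp only [oline _ hu p hp, oline _ hvD _ (hdp p hp), h1, h2, one_ne_zero, if_false, h.S_eq hx hu hp,
        h.S_eq hx hvD (hdp p hp)]
      rw [hh p hp, K4.sq_add, mul_pow]

end

end H33.Pol
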