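import Cfsg.Agent.Lib.H33.Pol5

/-! The hermitian function: definition and well-definedness. -/

set_option autoImplicit false

namespace H33.Pol

open Cfsg H90.ThreeTrans H90.ThreeTransB H90.WidthOne H90.ThreeTransC H90.ThreeTransE H90.ThreeTransG H90.ThreeTransH
  H33.Fisch

theorem K4.sum_ne {a b : K} (hab : a ≠ b) : a + b ≠ 0 := by revert a b; decide +kernel

variable {G : Type*} [Group G] {D : Set G}

/-- points not commuting with `x` -/
def An (D : Set G) (x : G) : Set G := {y | y ∈ D ∧ ¬ Commute x y}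

/-- labels on the lines through `x` -/
structure Lab (D : Set G) (x : G) (lab : G → K) : Prop where
  inj : ∀ u ∈ Dn D x, Set.InjOn lab (Sx D x u)
  lin : ∀ u ∈ Dn D x, ∀ d ∈ Dn D x, ∃ κ : K, κ ≠ 0 ∧ ∃ β, ∀ p ∈ Sx D x u, lab (cj d p) = κ * lab p + β

open Classical in
/-- projection of `z` onto the line of `x` and `u` -/
noncomputable def pr (D : Set G) (x u z : G) : G := if h : ∃ p, p ∈ Ln D x u ∧ Commute z p then h.choose else 1

noncomputable def lam (D : Set G) (lab : G → K) (x u z : G) : K := lab (pr D x u z) + lab u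
noncomputable def mu (D : Set G) (lab : G → K) (x u y z : G) : K := lab (cj (cj x y) (pr D y u z)) + lab u

open Classical in
noncomputable def TT (D : Set G) (lab : G → K) (x y z : G) : K :=
  if Commute y z then 0 else if Commute z (cj x y) then 1 else
    if h : ∃ u, u ∈ C D x y ∧ ¬ Commute u z then lam D lab x h.choose z * (mu D lab x h.choose y z)⁻¹ else 0

variable [Finite G]

section
variable (h : Ctx D)
include h

theorem Ctx.pr_spec {x u z : G} (hx : x ∈ D) (hu : u ∈ Dn D x) (hz : z ∈ D) (hxz : ¬ Commute x z) :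
    pr D x u z ∈ Ln D x u ∧ pr D x u z ≠ x ∧ Commute z (pr D x u z) := by
  have hex : ∃ p, p ∈ Ln D x u ∧ Commute z p := by
    obtain ⟨p, hp, hzp⟩ := h.exists_comm hx hu hz
    exact ⟨p, hp, hzp⟩
  have h1 := hex.choose_spec
  have h2 : pr D x u z = hex.choose := by unfold pr; rw [dif_pos hex]
  rw [h2]
  refine ⟨h1.1, ?_, h1.2⟩
  intro hc
  rw [hc] at h1
  exact hxz h1.2.symm

theorem Ctx.pr_unique {x u z p : G} (hx : x ∈ D) (hu : u ∈ Dn D x) (hz : z ∈ D) (hxz : ¬ Commute x z)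
    (hp : p ∈ Ln D x u) (hzp : Commute z p) : p = pr D x u z := by
  obtain ⟨h1, h2, h3⟩ := h.pr_spec hx hu hz hxz
  by_contra hne
  exact hxz (h.two_all hx hu hz hp h1 hne hzp h3 x (left_mem_Ln hx hu)).symm

theorem Ctx.pr_S {x u z : G} (hx : x ∈ D) (hu : u ∈ Dn D x) (hz : z ∈ D) (hxz : ¬ Commute x z) : pr D x u z ∈ Sx D x u :=
  ⟨(h.pr_spec hx hu hz hxz).1, (h.pr_spec hx hu hz hxz).2.1⟩

theorem Ctx.Sx_self {x u : G} (hu : u ∈ Dn D x) : u ∈ Sx D x u := mem_S hu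

/-- the involution swapping `x` and `y` -/
theorem Ctx.kk {x y : G} (hx : x ∈ D) (hy : y ∈ An D x) :
    cj x y ∈ D ∧ cj (cj x y) y = x ∧ cj (cj x y) x = y ∧ (∀ u ∈ C D x y, Commute u (cj x y)) ∧ cj x y = cj y x := by
  have hDs := h.set
  have b := cj_braid hDs hx hy.1 hy.2
  refine ⟨cj_mem h.grp x hy.1, ?_, transport hDs hx hy.1 hy.2, ?_, b⟩
  · rw [b]; exact transport hDs hy.1 hx (fun hc => hy.2 hc.symm)
  · intro u hu
    exact cj_comm_of hu.2.1.symm hu.2.2.symm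

theorem Ctx.C_left {x y u : G} (hy : y ∈ An D x) (hu : u ∈ C D x y) : u ∈ Dn D x := h.C_Dn hy.2 hu
theorem Ctx.C_right {x y u : G} (hy : y ∈ An D x) (hu : u ∈ C D x y) : u ∈ Dn D y :=
  h.C_Dn (fun hc => hy.2 hc.symm) (by rw [C_symm]; exact hu)

/-- swapping the lines `yu` and `xu` -/
theorem Ctx.kk_line {x y u p : G} (hx : x ∈ D) (hy : y ∈ An D x) (hu : u ∈ C D x y) (hp : p ∈ Ln D y u) (hpy : p ≠ y) :
    cj (cj x y) p ∈ Sx D x u := by
  obtain ⟨k1, k2, k3, k4, k5⟩ := h.kk hx hy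
  have h1 := (cj_Ln h.grp (cj x y)).2 hp
  rw [k2, cj_self (k4 u hu).symm] at h1
  refine ⟨h1, fun hc => hpy ?_⟩
  have hc' : cj (cj x y) p = cj (cj x y) y := by rw [k2]; exact hc
  exact cj_inj.1 hc'

/-- the point `a` and its basic properties -/
theorem Ctx.pa {x y z u : G} (hx : x ∈ D) (hy : y ∈ An D x) (hz : z ∈ An D x) (hyz : ¬ Commute y z) (hu : u ∈ C D x y)
    (huz : ¬ Commute u z) :
    pr D x u z ∈ Sx D x u ∧ pr D x u z ≠ u ∧ Commute z (pr D x u z) ∧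
    pr D y u z ∈ Ln D y u ∧ pr D y u z ≠ y ∧ pr D y u z ≠ u ∧ Commute z (pr D y u z) ∧
    cj (cj x y) (pr D y u z) ∈ Sx D x u ∧ cj (cj x y) (pr D y u z) ≠ u := by
  obtain ⟨k1, k2, k3, k4, k5⟩ := h.kk hx hy
  have s1 := h.pr_spec hx (h.C_left hy hu) hz.1 hz.2
  have s2 := h.pr_spec hy.1 (h.C_right hy hu) hz.1 hyz
  have s3 : pr D x u z ≠ u := fun hc => huz (hc ▸ s1.2.2).symm
  have s4 : pr D y u z ≠ u := fun hc => huz (hc ▸ s2.2.2).symm
  refine ⟨⟨s1.1, s1.2.1⟩, s3, s1.2.2, s2.1, s2.2.1, s4, s2.2.2, h.kk_line hx hy hu s2.1 s2.2.1, ?_⟩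
  intro hc
  apply s4
  exact cj_inj.1 (hc.trans (cj_self (k4 u hu).symm).symm)

/-- TA: value one -/
theorem Ctx.one_iff {x y z u : G} (hx : x ∈ D) (hy : y ∈ An D x) (hz : z ∈ An D x) (hyz : ¬ Commute y z) (hu : u ∈ C D x y)
    (huz : ¬ Commute u z) : pr D x u z = cj (cj x y) (pr D y u z) ↔ Commute z (cj x y) := by
  obtain ⟨k1, k2, k3, k4, k5⟩ := h.kk hx hy
  obtain ⟨s1, s2, s3, s4, s5, s6, s7, s8, s9⟩ := h.pa hx hy hz hyz hu huz
  have hDs := h.set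
  have huy := h.C_right hy hu
  constructor
  · intro he
    have hnc : ¬ Commute (pr D y u z) (cj x y) := by
      intro hc
      have h1 := h.two_all hy.1 huy k1 s4 (right_mem_Ln huy) s6 hc.symm (k4 u hu).symm y (left_mem_Ln hy.1 huy)
      rw [k5] at h1
      exact hy.2 (cj_comm_of_third (Commute.refl y) h1.symm).symm
    rw [he, ← cj_braid hDs s4.1 k1 hnc] at s3
    exact cj_comm_of_third s7 s3
  · intro hc
    have h1 : Commute (cj (cj x y) z) (cj (cj x y) (pr D y u z)) := cj_comm.2 s7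
    rw [cj_self hc.symm] at h1
    exact (h.pr_unique hx (h.C_left hy hu) hz.1 hz.2 s8.1 h1).symm

end

/-- invariance of the ratio -/
theorem ratio_inv {lab : G → K} {S : Set G} {g u s a : G} {κ β : K} (hκ : κ ≠ 0) (hlin : ∀ p ∈ S, lab (cj g p) = κ * lab p + β)
    (hu : u ∈ S) (hs : s ∈ S) (ha : a ∈ S) :
    (lab (cj g s) + lab (cj g u)) * (lab (cj g a) + lab (cj g u))⁻¹ = (lab s + lab u) * (lab a + lab u)⁻¹ := by
  rw [hlin s hs, hlin u hu, hlin a ha]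
  have h1 : ∀ t : K, κ * t + β + (κ * lab u + β) = κ * (t + lab u) := by
    intro t
    have := K4.add_self β
    linear_combination this
  rw [h1, h1, mul_inv]
  field_simp

section
variable (h : Ctx D)
include h

theorem Ctx.lin_two {x u b b' : G} {lab : G → K} (hlab : Lab D x lab) (hu : u ∈ Dn D x) (hb : b ∈ Dn D x) (hb' : b' ∈ Dn D x) :
    ∃ κ : K, κ ≠ 0 ∧ ∃ β, ∀ p ∈ Sx D x u, lab (cj (b * b') p) = κ * lab p + β := by
  obtain ⟨κ, hκ, β, h1⟩ := hlab.lin u hu b' hb'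
  obtain ⟨κ', hκ', β', h2⟩ := hlab.lin (cj b' u) (h.cj_in hb' hu) b hb
  refine ⟨κ' * κ, mul_ne_zero hκ' hκ, κ' * β + β', fun p hp => ?_⟩
  rw [← cj_cj, h2, h1 p hp]
  · ring
  · rw [← h.cj_S hb'.2.2.symm]; exact ⟨p, hp, rfl⟩

/-- translations add a constant -/
theorem Ctx.lin_tr {x u b b' : G} {lab : G → K} (hx : x ∈ D) (hlab : Lab D x lab) (hu : u ∈ Dn D x) (hb : b ∈ Dn D x)
    (hb' : b' ∈ Sx D x b) (h5 : ∀ x ∈ D, ∀ u ∈ Dn D x, (Ln D x u).ncard = 5) :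
    ∃ β, ∀ p ∈ Sx D x u, lab (cj (b * b') p) = lab p + β := by
  have hb'D := h.S_Dn hx hb hb'
  by_cases htriv : ∀ p ∈ Sx D x u, cj (b * b') p = p
  · exact ⟨0, fun p hp => by rw [htriv p hp, add_zero]⟩
  push Not at htriv
  obtain ⟨p0, hp0, hne⟩ := htriv
  have hub : ¬ Commute p0 b := by
    intro hc
    apply hne
    have hp0D := h.S_Dn hx hu hp0
    have h1 := (h.comm_class hx hp0D hb hb'.1 hb'.2 hp0D.1 hp0D.2.2).1 hc.symm
    exact cj_self (hc.symm.mul_left h1)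
  have hbb : b' ≠ b := by
    intro hc
    apply hne
    rw [hc, mul_self h.set hb.1, cj_one]
  obtain ⟨κ, hκ, β, h1⟩ := h.lin_two hlab hu hb hb'D
  have hκ1 : κ = 1 := by
    by_contra hk
    obtain ⟨a, ha⟩ := K4.fixed κ β hk
    obtain ⟨sec, s1, s2⟩ := exists_sec (h.S_card h5 hx hu) (hlab.inj u hu)
    have hmem : cj (b * b') (sec a) ∈ Sx D x u := by
      have h3 := h.tr_mem hx (h.S_Dn hx hu (s1 a)) hb hb'.1 hb'.2
      rw [h.Ln_left hx hu (s1 a).1 (s1 a).2] at h3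
      exact ⟨h3.1, h3.2⟩
    have h2 : cj (b * b') (sec a) = sec a := by
      apply hlab.inj u hu hmem (s1 a)
      rw [h1 _ (s1 a), s2, ha]
    have h3 : ¬ Commute (sec a) b := by
      intro hc
      have hp0D := h.S_Dn hx hu hp0
      have h4 : sec a ∈ Ln D x p0 := by rw [h.Ln_left hx hu hp0.1 hp0.2]; exact (s1 a).1
      exact hub ((h.comm_class hx hb hp0D h4 (s1 a).2 hb.1 hb.2.2).2 hc)
    exact h.tr_ne hx (h.S_Dn hx hu (s1 a)) hb hb'.1 hb'.2 hbb h3 h2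
  refine ⟨β, fun p hp => ?_⟩
  rw [h1 p hp, hκ1, one_mul]

/-- additivity of labels over a hyperbolic triple -/
theorem Ctx.add_lab {x u u' : G} {lab : G → K} (hx : x ∈ D) (hlab : Lab D x lab)
    (h5 : ∀ x ∈ D, ∀ u ∈ Dn D x, (Ln D x u).ncard = 5) (hu : u ∈ Dn D x) (hu' : u' ∈ Dn D x) (huu' : ¬ Commute u u') :
    ∃ κ₁ κ₂ : K, κ₁ ≠ 0 ∧ κ₂ ≠ 0 ∧ ∀ q ∈ Sx D x u, ∀ w ∈ Sx D x u',
      (lab (cj q w) + lab (cj u u')) = κ₁ * ((lab q + lab u) + κ₂ * (lab w + lab u')) := by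
  have hDs := h.set
  have hu''D : cj u u' ∈ Dn D x := h.cj_in hu hu'
  obtain ⟨κ₁, hκ₁, β₁, l1⟩ := hlab.lin u hu u' hu'
  obtain ⟨κ₂, hκ₂, β₂, l2⟩ := hlab.lin u hu (cj u u') hu''D
  have t1 : cj (cj u u') u = u' := transport hDs hu.1 hu'.1 huu'
  have t2 : cj u' u = cj u u' := (cj_braid hDs hu.1 hu'.1 huu').symm
  have hnc : ¬ Commute u (cj u u') := fun hc => huu' (cj_comm_of_third (Commute.refl u) hc)
  refine ⟨κ₁, κ₂⁻¹, hκ₁, inv_ne_zero hκ₂, ?_⟩
  intro q0 hq0 w' hw'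
  -- `w' = cj u'' q1`
  have himg : cj (cj u u') '' Sx D x u = Sx D x u' := by rw [h.cj_S hu''D.2.2.symm, t1]
  rw [← himg] at hw'
  obtain ⟨q1, hq1, rfl⟩ := hw'
  have hq1D := h.S_Dn hx hu hq1
  have hw' : cj (cj u u') q1 ∈ Sx D x u' := by rw [← himg]; exact ⟨q1, hq1, rfl⟩
  have hw'D := h.S_Dn hx hu' hw'
  obtain ⟨β, l3⟩ := h.lin_tr (b := u') (b' := cj (cj u u') q1) hx hlab hu hu' hw' h5
  have hq1nc : ¬ Commute (cj u u') q1 := by
    intro hc
    exact hnc ((h.comm_class hx hu''D hu hq1.1 hq1.2 hu''D.1 hu''D.2.2).2 hc.symm)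
  have e1 : cj (u' * cj (cj u u') q1) u = q1 := by
    have hcc : Commute u' (cj (cj u u') q1) := Ln_comm_right hu' hw'.1
    rw [hcc.eq, ← cj_cj, t2]
    exact transport hDs hu''D.1 hq1D.1 hq1nc
  have e2 : β = lab q1 + lab u := by
    have := l3 u (mem_S hu)
    rw [e1] at this
    rw [this]
    have := K4.add_self (lab u)
    linear_combination -this
  have hq0D := h.S_Dn hx hu hq0
  have hnc2 : ¬ Commute q0 (cj (cj u u') q1) := by
    intro hc
    have h1 : ¬ Commute u (cj (cj u u') q1) := by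
      intro hc2
      exact huu' ((h.comm_class hx hu hu' hw'.1 hw'.2 hu.1 hu.2.2).2 hc2.symm).symm
    exact h1 ((h.comm_class hx hw'D hu hq0.1 hq0.2 hw'D.1 hw'D.2.2).2 hc)
  have hq2 : cj (u' * cj (cj u u') q1) q0 ∈ Sx D x u := by
    have h3 := h.tr_mem hx hq0D hu' hw'.1 hw'.2
    rw [h.Ln_left hx hu hq0.1 hq0.2] at h3
    exact ⟨h3.1, h3.2⟩
  have e3 : cj q0 (cj (cj u u') q1) = cj u' (cj (u' * cj (cj u u') q1) q0) := by
    rw [cj_braid hDs hq0D.1 hw'D.1 hnc2, ← cj_cj, cj_cj_D hDs hu'.1]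
  rw [e3, l1 _ hq2, l3 _ hq0, e2, l2 q1 hq1]
  have e4 : lab (cj u u') = κ₁ * lab u + β₁ := by rw [← t2]; exact l1 u (mem_S hu)
  have e5 : lab u' = κ₂ * lab u + β₂ := by rw [← l2 u (mem_S hu), t1]
  rw [e4, e5]
  have a1 := K4.add_self β₁
  have a2 := K4.add_self β₂
  have a3 := K4.add_self (κ₁ * lab u)
  have e6 : κ₂⁻¹ * (κ₂ * lab q1 + β₂ + (κ₂ * lab u + β₂)) = lab q1 + lab u := by
    have : κ₂ * lab q1 + β₂ + (κ₂ * lab u + β₂) = κ₂ * (lab q1 + lab u) := by linear_combination a2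
    rw [this, ← mul_assoc, inv_mul_cancel₀ hκ₂, one_mul]
  rw [e6]
  linear_combination a1

end

end H33.Pol
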