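import Cfsg.Agent.Lib.H33.Pol6

/-! The hermitian function: well-definedness, hermitian symmetry. -/

set_option autoImplicit false

namespace H33.Pol

open Cfsg H90.ThreeTrans H90.ThreeTransB H90.WidthOne H90.ThreeTransC H90.ThreeTransE H90.ThreeTransG H90.ThreeTransH
  H33.Fisch

theorem K4.add_ratio : ∀ l l' m m' : K, l ≠ 0 → l' ≠ 0 → m ≠ 0 → m' ≠ 0 → l + l' ≠ 0 → m + m' ≠ 0 → l ≠ m → l' ≠ m' →
    l + l' ≠ m + m' → l * m⁻¹ = l' * m'⁻¹ := by decide +kernel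

theorem K4.sum_cancel {a b c : K} (h : a + c = b + c) : a = b := add_right_cancel h

variable {G : Type*} [Group G] {D : Set G} [Finite G]

section
variable (h : Ctx D)
include h

/-- a perspectivity with centre `v0` -/
theorem Ctx.persp {o u u' v0 : G} (ho : o ∈ D) (hou : u ∈ Dn D o) (hou' : u' ∈ Dn D o) (huu' : u' ∈ Dn D u)
    (hv : v0 ∈ Ln D u u') (hvu : v0 ≠ u) (hvu' : v0 ≠ u') (hno : o ∉ Ln D u u') :
    (v0 ∈ Dn D o ∧ v0 ∉ Ln D o u ∧ v0 ∉ Ln D o u') ∧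
    ∃ b ∈ Dn D o, ∃ b' ∈ Dn D o, cj (b * b') u = u' ∧ ∀ q ∈ Ln D o u, cj (b * b') q ∈ Ln D v0 q := by
  have hoC : o ∈ C D u u' := ⟨ho, hou.2.2.symm, hou'.2.2.symm⟩
  have hov : Commute o v0 := Ln_C hoC hv
  have hvo : v0 ≠ o := fun hc => hno (hc ▸ hv)
  have hvD : v0 ∈ Dn D o := ⟨hv.1, hvo, hov⟩
  have n1 : v0 ∉ Ln D o u := by
    intro hc
    apply hno
    have e1 : Ln D u v0 = Ln D u u' := h.Ln_left hou.1 huu' hv hvu
    have e2 : Ln D u v0 = Ln D o u := h.Ln_eq ho hou (right_mem_Ln hou) hc hvu.symm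
    rw [← e1, e2]; exact left_mem_Ln ho hou
  have n2 : v0 ∉ Ln D o u' := by
    intro hc
    apply hno
    have hu'u : u ∈ Dn D u' := h.Dn_symm hou.1 huu'
    have e1 : Ln D u' v0 = Ln D u' u := h.Ln_left hou'.1 hu'u (by rw [Ln_symm]; exact hv) hvu'
    have e2 : Ln D u' v0 = Ln D o u' := h.Ln_eq ho hou' (right_mem_Ln hou') hc hvu'.symm
    rw [Ln_symm u u', ← e1, e2]; exact left_mem_Ln ho hou'
  refine ⟨⟨hvD, n1, n2⟩, ?_⟩
  -- find `b`
  have n3 : u ∉ Ln D o v0 := by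
    intro hc
    apply n1
    rw [h.Ln_left ho hvD hc hou.2.1]
    exact right_mem_Ln hvD
  have hb : ∃ b ∈ C D o v0, ¬ Commute u b := by
    by_contra hcon
    push Not at hcon
    exact n3 ⟨hou.1, hcon⟩
  obtain ⟨b, hb, hub⟩ := hb
  have hbo : b ≠ o := fun hc => hub (hc ▸ hou.2.2.symm)
  have huv : Commute u v0 := Ln_comm_left hou.1 huu' hv
  have hbv : b ≠ v0 := fun hc => hub (hc ▸ huv)
  have hbDo : b ∈ Dn D o := ⟨hb.1, hbo, hb.2.1⟩
  have hbDv : b ∈ Dn D v0 := ⟨hb.1, hbv, hb.2.2⟩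
  have huDv : u ∈ Dn D v0 := ⟨hou.1, hvu.symm, huv.symm⟩
  have hu'L : u' ∈ Ln D v0 u := by
    rw [Ln_symm, h.Ln_left hou.1 huu' hv hvu]; exact right_mem_Ln huu'
  obtain ⟨b', hb', hb'v, hbb'⟩ := h.tr_trans hv.1 huDv hbDv hub hu'L hvu'.symm
  have hb'o : b' ≠ o := by
    intro hc
    rw [hc, ← cj_cj, cj_self hou.2.2] at hbb'
    have h1 : Commute u (cj b u) := by rw [hbb']; exact huu'.2.2
    rw [cj_braid h.set hb.1 hou.1 (fun hc => hub hc.symm)] at h1
    exact hub (cj_comm_of_third (Commute.refl u) h1)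
  have hob' : Commute o b' := Ln_C ⟨ho, hov.symm, hbDo.2.2.symm⟩ hb'
  have hb'D : b' ∈ Dn D o := ⟨hb'.1, hb'o, hob'⟩
  refine ⟨b, hbDo, b', hb'D, hbb', ?_⟩
  intro q hq
  by_cases hqo : q = o
  · rw [hqo, cj_self ((hbDo.2.2.symm).mul_left hob'.symm)]
    exact right_mem_Ln (h.Dn_symm ho hvD)
  · have hqv : Commute v0 q := Ln_C ⟨hv.1, hov, huv⟩ hq
    have hqne : q ≠ v0 := fun hc => n1 (hc ▸ hq)
    exact (h.tr_mem hv.1 ⟨hq.1, hqne, hqv⟩ hbDv hb' hb'v).1

theorem Ctx.lam_ne {x y z u : G} {lab : G → K} (hlab : Lab D x lab) (hx : x ∈ D) (hy : y ∈ An D x) (hz : z ∈ An D x)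
    (hyz : ¬ Commute y z) (hu : u ∈ C D x y) (huz : ¬ Commute u z) :
    lam D lab x u z ≠ 0 ∧ mu D lab x u y z ≠ 0 ∧ (¬ Commute z (cj x y) → lam D lab x u z ≠ mu D lab x u y z) := by
  obtain ⟨s1, s2, s3, s4, s5, s6, s7, s8, s9⟩ := h.pa hx hy hz hyz hu huz
  have huD := h.C_left hy hu
  have hinj := hlab.inj u huD
  refine ⟨?_, ?_, ?_⟩
  · exact K4.sum_ne (fun hc => s2 (hinj s1 (mem_S huD) hc))
  · exact K4.sum_ne (fun hc => s9 (hinj s8 (mem_S huD) hc))
  · intro hzk hc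
    apply hzk
    rw [← h.one_iff hx hy hz hyz hu huz]
    exact hinj s1 s8 (K4.sum_cancel hc)

/-- **independence** -/
theorem Ctx.indep {x y z u u' : G} {lab : G → K} (hlab : Lab D x lab) (h5 : ∀ x ∈ D, ∀ u ∈ Dn D x, (Ln D x u).ncard = 5)
    (hx : x ∈ D) (hy : y ∈ An D x) (hz : z ∈ An D x) (hyz : ¬ Commute y z) (hu : u ∈ C D x y) (hu' : u' ∈ C D x y)
    (huz : ¬ Commute u z) (hu'z : ¬ Commute u' z) :
    lam D lab x u z * (mu D lab x u y z)⁻¹ = lam D lab x u' z * (mu D lab x u' y z)⁻¹ := by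
  have hDs := h.set
  obtain ⟨k1, k2, k3, k4, k5⟩ := h.kk hx hy
  obtain ⟨s1, s2, s3, s4, s5, s6, s7, s8, s9⟩ := h.pa hx hy hz hyz hu huz
  obtain ⟨s1', s2', s3', s4', s5', s6', s7', s8', s9'⟩ := h.pa hx hy hz hyz hu' hu'z
  obtain ⟨n1, n2, n3⟩ := h.lam_ne hlab hx hy hz hyz hu huz
  obtain ⟨n1', n2', n3'⟩ := h.lam_ne hlab hx hy hz hyz hu' hu'z
  have huD := h.C_left hy hu
  have hu'D := h.C_left hy hu'
  have huDy := h.C_right hy hu
  have hu'Dy := h.C_right hy hu'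
  by_cases hzk : Commute z (cj x y)
  · have e1 := (h.one_iff hx hy hz hyz hu huz).2 hzk
    have e2 := (h.one_iff hx hy hz hyz hu' hu'z).2 hzk
    have f1 : lam D lab x u z = mu D lab x u y z := by unfold lam mu; rw [e1]
    have f2 : lam D lab x u' z = mu D lab x u' y z := by unfold lam mu; rw [e2]
    rw [f1, f2, mul_inv_cancel₀ n2, mul_inv_cancel₀ n2']
  by_cases huu' : Commute u u'
  · by_cases hne : u' = u
    · rw [hne]
    -- singular line move
    have hu'Du : u' ∈ Dn D u := ⟨hu'.1, hne, huu'⟩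
    have hzu : ¬ Commute u z := huz
    obtain ⟨q1, q2, q3⟩ := h.pr_spec hu.1 hu'Du hz.1 huz
    obtain ⟨v0, hv0⟩ : ∃ v0, v0 = pr D u u' z := ⟨_, rfl⟩
    rw [← hv0] at q1 q2 q3
    have hvu' : v0 ≠ u' := fun hc => hu'z (hc ▸ q3).symm
    have hxn : x ∉ Ln D u u' := by
      intro hc
      exact hy.2 (Ln_C ⟨hy.1, hu.2.2.symm, hu'.2.2.symm⟩ hc).symm
    have hyn : y ∉ Ln D u u' := by
      intro hc
      exact hy.2 (Ln_C ⟨hx, hu.2.1.symm, hu'.2.1.symm⟩ hc)
    obtain ⟨⟨a1, a2, a3⟩, b, hb, b', hb', g1, g2⟩ := h.persp hx huD hu'D hu'Du q1 q2 hvu' hxn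
    obtain ⟨⟨c1, c2, c3⟩, d, hd, d', hd', g3, g4⟩ := h.persp hy.1 huDy hu'Dy hu'Du q1 q2 hvu' hyn
    obtain ⟨κ, hκ, β, hlin⟩ := h.lin_two hlab huD hb hb'
    have hgx : Commute (b * b') x := (hb.2.2.symm).mul_left hb'.2.2.symm
    have hgy : Commute (d * d') y := (hd.2.2.symm).mul_left hd'.2.2.symm
    have hv0C : v0 ∈ C D x y := ⟨q1.1, a1.2.2, c1.2.2⟩
    have hkv : cj (cj x y) v0 = v0 := cj_self (k4 v0 hv0C).symm
    -- images
    have i1 : cj (b * b') (pr D x u z) ∈ Sx D x u' := by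
      rw [← g1, ← h.cj_S hgx]; exact ⟨_, s1, rfl⟩
    have i2 : cj (b * b') (pr D x u z) = pr D x u' z := by
      apply h.pr_unique hx hu'D hz.1 hz.2 i1.1
      exact ((g2 _ s1.1).2 z ⟨hz.1, q3.symm, s3.symm⟩).symm
    have i3 : cj (d * d') (pr D y u z) = pr D y u' z := by
      apply h.pr_unique hy.1 hu'Dy hz.1 hyz
      · have := (cj_Ln h.grp (d * d')).2 s4
        rwa [cj_self hgy, g3] at this
      · exact ((g4 _ s4).2 z ⟨hz.1, q3.symm, s7.symm⟩).symm
    have i4 : cj (b * b') (cj (cj x y) (pr D y u z)) = cj (cj x y) (pr D y u' z) := by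
      have j1 : cj (cj x y) (pr D y u' z) ∈ Ln D v0 (cj (cj x y) (pr D y u z)) := by
        have := g4 _ s4
        rw [i3] at this
        have := (cj_Ln h.grp (cj x y)).2 this
        rwa [hkv] at this
      have j2 := g2 _ s8.1
      have j3 : cj (b * b') (cj (cj x y) (pr D y u z)) ∈ Ln D x u' := by
        have : cj (b * b') (cj (cj x y) (pr D y u z)) ∈ Sx D x u' := by
          rw [← g1, ← h.cj_S hgx]; exact ⟨_, s8, rfl⟩
        exact this.1
      have j4 := s8'.1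
      by_contra hcc
      have hav : cj (cj x y) (pr D y u z) ∈ Dn D v0 := by
        refine ⟨s8.1.1, fun hc => a2 (hc ▸ s8.1), ?_⟩
        exact Ln_C ⟨q1.1, a1.2.2, (Ln_comm_left hu.1 hu'Du q1)⟩ s8.1
      have f1 := h.Ln_eq q1.1 hav j2 j1 hcc
      have f2 := h.Ln_eq hx hu'D j3 j4 hcc
      apply a3
      rw [← f2, f1]
      exact left_mem_Ln q1.1 hav
    have hr := ratio_inv hκ hlin (mem_S huD) s1 s8
    rw [i2, i4, g1] at hr
    exact hr.symm
  · -- noncommuting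
    have hu''D : cj u u' ∈ Dn D x := h.cj_in huD hu'D
    have hu''Dy : cj u u' ∈ Dn D y := h.cj_in huDy hu'Dy
    have hu''C : cj u u' ∈ C D x y := ⟨hu''D.1, hu''D.2.2, hu''Dy.2.2⟩
    have t1 : cj (cj u u') u = u' := transport hDs hu.1 hu'.1 huu'
    by_cases hz'' : Commute z (cj u u')
    · obtain ⟨κ, hκ, β, hlin⟩ := hlab.lin u huD (cj u u') hu''D
      have i1 : cj (cj u u') (pr D x u z) ∈ Sx D x u' := by
        have := h.cj_S (u := u) hu''D.2.2.symm
        rw [t1] at this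
        rw [← this]; exact ⟨_, s1, rfl⟩
      have i2 : cj (cj u u') (pr D x u z) = pr D x u' z := by
        apply h.pr_unique hx hu'D hz.1 hz.2 i1.1
        have : Commute (cj (cj u u') z) (cj (cj u u') (pr D x u z)) := cj_comm.2 s3
        rwa [cj_self hz''.symm] at this
      have i3 : cj (cj u u') (pr D y u z) = pr D y u' z := by
        apply h.pr_unique hy.1 hu'Dy hz.1 hyz
        · have := (cj_Ln h.grp (cj u u')).2 s4
          rwa [cj_self hu''Dy.2.2.symm, t1] at this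
        · have : Commute (cj (cj u u') z) (cj (cj u u') (pr D y u z)) := cj_comm.2 s7
          rwa [cj_self hz''.symm] at this
      have i4 : cj (cj u u') (cj (cj x y) (pr D y u z)) = cj (cj x y) (pr D y u' z) := by
        rw [cj_cj, (k4 _ hu''C).eq, ← cj_cj, i3]
      have hr := ratio_inv hκ hlin (mem_S huD) s1 s8
      rw [i2, i4, t1] at hr
      exact hr.symm
    · have hu''z : ¬ Commute (cj u u') z := fun hc => hz'' hc.symm
      obtain ⟨m1, m2, m3⟩ := h.lam_ne hlab hx hy hz hyz hu''C hu''z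
      have e1 : pr D x (cj u u') z = cj (pr D x u z) (pr D x u' z) := by
        symm
        apply h.pr_unique hx hu''D hz.1 hz.2
        · exact (h.prod_line hx huD hu'D s1.1 s1'.1 s1'.2 s1.2 huu').1
        · exact cj_comm_of s3 s3'
      have e2 : pr D y (cj u u') z = cj (pr D y u z) (pr D y u' z) := by
        symm
        apply h.pr_unique hy.1 hu''Dy hz.1 hyz
        · exact (h.prod_line hy.1 huDy hu'Dy s4 s4' s5' s5 huu').1
        · exact cj_comm_of s7 s7'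
      obtain ⟨κ₁, κ₂, hκ₁, hκ₂, hadd⟩ := h.add_lab hx hlab h5 huD hu'D huu'
      have f1 : lam D lab x (cj u u') z = κ₁ * (lam D lab x u z + κ₂ * lam D lab x u' z) := by
        unfold lam; rw [e1]; exact hadd _ s1 _ s1'
      have f2 : mu D lab x (cj u u') y z = κ₁ * (mu D lab x u y z + κ₂ * mu D lab x u' y z) := by
        unfold mu; rw [e2, ← cj_conj]; exact hadd _ s8 _ s8'
      have m3' := m3 hzk
      rw [f1] at m1 m3'
      rw [f2] at m2 m3'
      have g := K4.add_ratio (lam D lab x u z) (κ₂ * lam D lab x u' z) (mu D lab x u y z) (κ₂ * mu D lab x u' y z) n1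
        (mul_ne_zero hκ₂ n1') n2 (mul_ne_zero hκ₂ n2') (fun hc => m1 (by rw [hc, mul_zero])) (fun hc => m2 (by rw [hc, mul_zero]))
        (n3 hzk) (fun hc => n3' hzk (mul_left_cancel₀ hκ₂ hc)) (fun hc => m3' (by rw [hc]))
      rw [g, mul_inv]
      field_simp

theorem Ctx.exists_wit {x y z : G} (hx : x ∈ D) (hy : y ∈ An D x) (hz : z ∈ An D x) (hyz : ¬ Commute y z)
    (hzk : ¬ Commute z (cj x y)) : ∃ u, u ∈ C D x y ∧ ¬ Commute u z := by
  obtain ⟨u, hu, hzu⟩ := h.hyp' hx hy.1 hz.1 hy.2 (fun hc => hz.2 (hc ▸ Commute.refl _)) (fun hc => hyz (hc ▸ Commute.refl _))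
    (fun hc => hzk (by rw [hc]))
  exact ⟨u, hu, fun hc => hzu hc.symm⟩

omit [Finite G] h in
theorem TT_comm {x y z : G} {lab : G → K} (hyz : Commute y z) : TT D lab x y z = 0 := by
  unfold TT; rw [if_pos hyz]

omit [Finite G] h in
theorem TT_one {x y z : G} {lab : G → K} (hyz : ¬ Commute y z) (hzk : Commute z (cj x y)) : TT D lab x y z = 1 := by
  unfold TT; rw [if_neg hyz, if_pos hzk]

/-- the defining relation -/
theorem Ctx.star {x y z u : G} {lab : G → K} (hlab : Lab D x lab) (h5 : ∀ x ∈ D, ∀ u ∈ Dn D x, (Ln D x u).ncard = 5)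
    (hx : x ∈ D) (hy : y ∈ An D x) (hz : z ∈ An D x) (hyz : ¬ Commute y z) (hu : u ∈ C D x y) :
    lam D lab x u z = TT D lab x y z * mu D lab x u y z := by
  obtain ⟨k1, k2, k3, k4, k5⟩ := h.kk hx hy
  by_cases huz : Commute u z
  · have e1 : pr D x u z = u := (h.pr_unique hx (h.C_left hy hu) hz.1 hz.2 (right_mem_Ln (h.C_left hy hu)) huz.symm).symm
    have e2 : pr D y u z = u := (h.pr_unique hy.1 (h.C_right hy hu) hz.1 hyz (right_mem_Ln (h.C_right hy hu)) huz.symm).symm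
    unfold lam mu
    rw [e1, e2, cj_self (k4 u hu).symm, K4.add_self, mul_zero]
  · obtain ⟨n1, n2, n3⟩ := h.lam_ne hlab hx hy hz hyz hu huz
    by_cases hzk : Commute z (cj x y)
    · rw [TT_one hyz hzk, one_mul]
      unfold lam mu
      rw [(h.one_iff hx hy hz hyz hu huz).2 hzk]
    · have hex : ∃ u, u ∈ C D x y ∧ ¬ Commute u z := ⟨u, hu, huz⟩
      have e1 : TT D lab x y z = lam D lab x hex.choose z * (mu D lab x hex.choose y z)⁻¹ := by
        unfold TT; rw [if_neg hyz, if_neg hzk, dif_pos hex]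
      rw [e1, ← h.indep hlab h5 hx hy hz hyz hu hex.choose_spec.1 huz hex.choose_spec.2, mul_assoc, inv_mul_cancel₀ n2, mul_one]

theorem Ctx.TT_ne_zero {x y z : G} {lab : G → K} (hlab : Lab D x lab) (h5 : ∀ x ∈ D, ∀ u ∈ Dn D x, (Ln D x u).ncard = 5)
    (hx : x ∈ D) (hy : y ∈ An D x) (hz : z ∈ An D x) (hyz : ¬ Commute y z) : TT D lab x y z ≠ 0 := by
  by_cases hzk : Commute z (cj x y)
  · rw [TT_one hyz hzk]; exact one_ne_zero
  · obtain ⟨u, hu, huz⟩ := h.exists_wit hx hy hz hyz hzk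
    have h1 := h.star hlab h5 hx hy hz hyz hu
    intro hc
    rw [hc, zero_mul] at h1
    exact (h.lam_ne hlab hx hy hz hyz hu huz).1 h1

theorem Ctx.TT_ne_one {x y z : G} {lab : G → K} (hlab : Lab D x lab) (h5 : ∀ x ∈ D, ∀ u ∈ Dn D x, (Ln D x u).ncard = 5)
    (hx : x ∈ D) (hy : y ∈ An D x) (hz : z ∈ An D x) (hyz : ¬ Commute y z) (hzk : ¬ Commute z (cj x y)) : TT D lab x y z ≠ 1 := by
  obtain ⟨u, hu, huz⟩ := h.exists_wit hx hy hz hyz hzk
  have h1 := h.star hlab h5 hx hy hz hyz hu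
  intro hc
  rw [hc, one_mul] at h1
  exact (h.lam_ne hlab hx hy hz hyz hu huz).2.2 hzk h1

/-- the line joining `z` to the projection -/
theorem Ctx.claim1 {x y z u : G} (hx : x ∈ D) (hy : y ∈ An D x) (hz : z ∈ An D x) (hyz : ¬ Commute y z)
    (hu : u ∈ C D x y) (huz : ¬ Commute u z) {p u' : G} (hp : p = pr D y u z) (hpz : p ∈ Dn D z) (hu' : u' ∈ Ln D z p)
    (hu'z : u' ≠ z) (hxu' : Commute x u') (huu' : ¬ Commute u u') :
    cj (cj u u') (pr D x u z) = cj (cj x z) p := by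
  have hDs := h.set
  obtain ⟨k1, k2, k3, k4, k5⟩ := h.kk hx hz
  obtain ⟨s1, s2, s3, s4, s5, s6, s7, s8, s9⟩ := h.pa hx hy hz hyz hu huz
  rw [← hp] at s4 s5 s6 s7
  have huD := h.C_left hy hu
  have hu'C : u' ∈ C D x z := ⟨hu'.1, hxu', Ln_comm_left hz.1 hpz hu'⟩
  have hu'D := h.C_left hz hu'C
  have hu'Dz := h.C_right hz hu'C
  have hd := h.cj_in huD hu'D
  have t1 : cj (cj u u') u = u' := transport hDs hu.1 hu'.1 huu'
  -- both commute with `e = u ∘ z`
  have heD : cj u z ∈ D := cj_mem h.grp u hz.1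
  have hex : ¬ Commute x (cj u z) := fun hc => hz.2 (cj_comm_of_third hu.2.1 hc)
  have hde : Commute (cj u u') (cj u z) := cj_comm.2 hu'C.2.2.symm
  have m1 : cj (cj u u') (pr D x u z) ∈ Ln D x u' := by
    have := h.cj_S (u := u) hd.2.2.symm
    rw [t1] at this
    have h2 : cj (cj u u') (pr D x u z) ∈ Sx D x u' := by rw [← this]; exact ⟨_, s1, rfl⟩
    exact h2.1
  have hpL : p ∈ Ln D z u' := by
    rw [h.Ln_left hz.1 hpz hu' hu'z]; exact right_mem_Ln hpz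
  have m2 : cj (cj x z) p ∈ Ln D x u' := (h.kk_line hx hz hu'C hpL hpz.2.1).1
  have c1 : Commute (cj u z) (cj (cj u u') (pr D x u z)) := by
    have h1 : Commute (cj u z) (pr D x u z) :=
      (cj_comm_of (Ln_comm_right huD s1.1).symm s3.symm).symm
    have h2 : Commute (cj (cj u u') (cj u z)) (cj (cj u u') (pr D x u z)) := cj_comm.2 h1
    rwa [cj_self hde] at h2
  have c2 : Commute (cj u z) (cj (cj x z) p) := by
    have h1 : Commute (cj u z) p := (cj_comm_of (Ln_comm_right (h.C_right hy hu) s4).symm s7.symm).symm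
    have h2 : Commute (cj (cj x z) (cj u z)) (cj (cj x z) p) := cj_comm.2 h1
    have h3 : Commute (cj x z) (cj u z) := by
      rw [k5, cj_braid hDs hu.1 hz.1 huz]
      exact cj_comm.2 hu.2.1
    rwa [cj_self h3] at h2
  have e1 := h.pr_unique hx hu'D heD hex m1 c1
  have e2 := h.pr_unique hx hu'D heD hex m2 c2
  rw [e1, e2]

end

theorem K4.inv_sq : ∀ a b : K, a ≠ 0 → b ≠ 0 → b * a⁻¹ = (a * b⁻¹) ^ 2 := by decide +kernel
theorem K4.plus_one : ∀ l m m' : K, l ≠ 0 → m ≠ 0 → m' ≠ 0 → l ≠ m → l ≠ m' → m ≠ m' → l * m'⁻¹ = l * m⁻¹ + 1 := by decide +kernel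

section
variable (h : Ctx D)
include h

/-- **hermitian symmetry** -/
theorem Ctx.herm {x y z : G} {lab : G → K} (hlab : Lab D x lab) (h5 : ∀ x ∈ D, ∀ u ∈ Dn D x, (Ln D x u).ncard = 5)
    (hx : x ∈ D) (hy : y ∈ An D x) (hz : z ∈ An D x) : TT D lab x z y = (TT D lab x y z) ^ 2 := by
  have hDs := h.set
  by_cases hyz : Commute y z
  · rw [TT_comm hyz, TT_comm hyz.symm]; norm_num
  have hzy : ¬ Commute z y := fun hc => hyz hc.symm
  by_cases hzk : Commute z (cj x y)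
  · have h1 : Commute y (cj x z) := by
      have := (cj_comm (g := x)).2 hzk
      rw [cj_cj_D hDs hx] at this
      exact this.symm
    rw [TT_one hyz hzk, TT_one hzy h1, one_pow]
  · obtain ⟨u, hu, huz⟩ := h.exists_wit hx hy hz hyz hzk
    obtain ⟨s1, s2, s3, s4, s5, s6, s7, s8, s9⟩ := h.pa hx hy hz hyz hu huz
    obtain ⟨p, hp⟩ : ∃ p, p = pr D y u z := ⟨_, rfl⟩
    have huD := h.C_left hy hu
    have huDy := h.C_right hy hu
    rw [← hp] at s4 s5 s6 s7
    have hyp : Commute y p := Ln_comm_left hy.1 huDy s4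
    have hpz : p ∈ Dn D z := ⟨s4.1, fun hc => hyz (hc ▸ hyp), s7⟩
    -- `p` does not commute with `x`
    have hxp : ¬ Commute x p := fun hc => hy.2 (h.two_all hy.1 huDy hx (right_mem_Ln huDy) s4 s6.symm hu.2.1 hc y (left_mem_Ln hy.1 huDy))
    have hzx : ¬ Commute z x := fun hc => hz.2 hc.symm
    obtain ⟨q1, q2, q3⟩ := h.pr_spec hz.1 hpz hx hzx
    obtain ⟨u', hu'⟩ : ∃ u', u' = pr D z p x := ⟨_, rfl⟩
    rw [← hu'] at q1 q2 q3
    have hu'p : u' ≠ p := fun hc => hxp (hc ▸ q3)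
    have hu'C : u' ∈ C D x z := ⟨q1.1, q3, Ln_comm_left hz.1 hpz q1⟩
    have hu'D := h.C_left hz hu'C
    have hu'Dz := h.C_right hz hu'C
    have hu'y : ¬ Commute u' y := fun hc => hyz (h.two_all hz.1 hpz hy.1 (right_mem_Ln hpz) q1 hu'p.symm hyp hc.symm z (left_mem_Ln hz.1 hpz))
    have huu' : ¬ Commute u u' := fun hc =>
      huz (h.two_all hz.1 hpz hu.1 (right_mem_Ln hpz) q1 hu'p.symm (Ln_comm_right huDy s4) hc z (left_mem_Ln hz.1 hpz))
    have e1 := h.claim1 hx hy hz hyz hu huz hp hpz q1 q2 q3 huu'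
    -- the other side
    have hpL : p ∈ Ln D z u' := by rw [h.Ln_left hz.1 hpz q1 q2]; exact right_mem_Ln hpz
    have hp' : p = pr D z u' y := h.pr_unique hz.1 hu'Dz hy.1 hzy hpL hyp
    have hpy : p ∈ Dn D y := ⟨s4.1, s5, hyp⟩
    have huLp : u ∈ Ln D y p := by rw [h.Ln_left hy.1 huDy s4 s5]; exact right_mem_Ln huDy
    have e2 := h.claim1 hx hz hy hzy hu'C hu'y hp' hpy huLp (h.C_right hy hu).2.1 hu.2.1 (fun hc => huu' hc.symm)
    -- ratios
    have hd := h.cj_in huD hu'D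
    obtain ⟨κ, hκ, β, hlin⟩ := hlab.lin u huD (cj u u') hd
    have t1 : cj (cj u u') u = u' := transport hDs hu.1 hu'C.1 huu'
    have s8' : cj (cj x y) p ∈ Sx D x u := h.kk_line hx hy hu s4 s5
    have hr := ratio_inv hκ hlin (mem_S huD) s8' s1
    have e3 : cj (cj u u') (cj (cj x y) p) = pr D x u' y := by
      rw [← e2, cj_braid hDs hu'C.1 hu.1 (fun hc => huu' hc.symm), cj_cj_D hDs hd.1]
    rw [e1, e3, t1] at hr
    have n := h.lam_ne hlab hx hy hz hyz hu huz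
    have n' := h.lam_ne hlab hx hz hy hzy hu'C hu'y
    have st := h.star hlab h5 hx hy hz hyz hu
    have st' := h.star hlab h5 hx hz hy hzy hu'C
    have v1 : TT D lab x y z = lam D lab x u z * (mu D lab x u y z)⁻¹ := by
      rw [st, mul_assoc, mul_inv_cancel₀ n.2.1, mul_one]
    have v2 : TT D lab x z y = lam D lab x u' y * (mu D lab x u' z y)⁻¹ := by
      rw [st', mul_assoc, mul_inv_cancel₀ n'.2.1, mul_one]
    have v3 : lam D lab x u' y * (mu D lab x u' z y)⁻¹ = mu D lab x u y z * (lam D lab x u z)⁻¹ := by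
      unfold lam mu
      rw [← hp', ← hp]
      exact hr
    rw [v2, v3, v1]
    exact K4.inv_sq _ _ n.1 n.2.1

/-- **shift** -/
theorem Ctx.shift {x y z : G} {lab : G → K} (hlab : Lab D x lab) (h5 : ∀ x ∈ D, ∀ u ∈ Dn D x, (Ln D x u).ncard = 5)
    (hx : x ∈ D) (hy : y ∈ An D x) (hz : z ∈ An D x) : TT D lab x (cj x y) z = TT D lab x y z + 1 := by
  have hDs := h.set
  obtain ⟨k1, k2, k3, k4, k5⟩ := h.kk hx hy
  have hxx : cj x (cj x y) = y := cj_cj_D hDs hx y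
  have hy2 : cj x y ∈ An D x := by
    refine ⟨k1, fun hc => hy.2 ?_⟩
    exact cj_comm_of_third (Commute.refl x) hc
  have two : (1 : K) + 1 = 0 := K4.add_self 1
  have hyy2 : ¬ Commute y (cj x y) := by
    intro hc; rw [k5] at hc; exact hy.2 (cj_comm_of_third (Commute.refl y) hc).symm
  by_cases hyz : Commute y z
  · have n1 : ¬ Commute (cj x y) z := by
      intro hc
      rw [k5] at hc
      exact hz.2 (cj_comm_of_third hyz.symm hc.symm).symm
    rw [TT_comm hyz, TT_one n1 (by rw [hxx]; exact hyz.symm), zero_add]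
  by_cases hyz2 : Commute (cj x y) z
  · rw [TT_comm hyz2, TT_one hyz hyz2.symm, two]
  have hzk : ¬ Commute z (cj x y) := fun hc => hyz2 hc.symm
  obtain ⟨u, hu, huz⟩ := h.exists_wit hx hy hz hyz hzk
  have hu2 : u ∈ C D x (cj x y) := ⟨hu.1, hu.2.1, (k4 u hu).symm⟩
  obtain ⟨s1, s2, s3, s4, s5, s6, s7, s8, s9⟩ := h.pa hx hy hz hyz hu huz
  obtain ⟨r1, r2, r3, r4, r5, r6, r7, r8, r9⟩ := h.pa hx hy2 hz hyz2 hu2 huz
  have n := h.lam_ne hlab hx hy hz hyz hu huz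
  have n' := h.lam_ne hlab hx hy2 hz hyz2 hu2 huz
  have hzy : ¬ Commute z (cj x (cj x y)) := by rw [hxx]; exact fun hc => hyz hc.symm
  have st := h.star hlab h5 hx hy hz hyz hu
  have st' := h.star hlab h5 hx hy2 hz hyz2 hu2
  have v1 : TT D lab x y z = lam D lab x u z * (mu D lab x u y z)⁻¹ := by
    rw [st, mul_assoc, mul_inv_cancel₀ n.2.1, mul_one]
  have v2 : TT D lab x (cj x y) z = lam D lab x u z * (mu D lab x u (cj x y) z)⁻¹ := by
    rw [st', mul_assoc, mul_inv_cancel₀ n'.2.1, mul_one]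
  rw [v1, v2]
  apply K4.plus_one _ _ _ n.1 n.2.1 n'.2.1 (n.2.2 hzk) (n'.2.2 hzy)
  intro hc
  have huD := h.C_left hy hu
  have e1 := hlab.inj u huD s8 r8 (K4.sum_cancel hc)
  -- `p2 = x p`
  have e2 : pr D (cj x y) u z = cj x (pr D y u z) := by
    rw [hxx] at e1
    -- e1 : cj (cj x y) p = cj y p2
    have hxa : Commute x (cj (cj x y) (pr D y u z)) := Ln_comm_left hx huD s8.1
    have e3 : cj y (cj (cj x y) (pr D y u z)) = pr D (cj x y) u z := by
      rw [e1, cj_cj_D hDs hy.1]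
    rw [← e3]
    have e4 : cj x (pr D y u z) = cj x (cj (cj x y) (cj (cj x y) (pr D y u z))) := by
      rw [cj_cj_D hDs k1]
    rw [e4, ← cj_conj x (cj x y), hxx, cj_self hxa]
  rw [e2] at r7
  have hxp : ¬ Commute x (pr D y u z) := by
    intro hc2
    have huDy := h.C_right hy hu
    exact hy.2 (h.two_all hy.1 huDy hx (right_mem_Ln huDy) s4 s6.symm hu.2.1 hc2 y (left_mem_Ln hy.1 huDy))
  rw [cj_braid hDs hx s4.1 hxp] at r7
  exact hz.2 (cj_comm_of_third s7 r7).symm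

end

end H33.Pol
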