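import Cfsg.Agent.Lib.H33.Pol7

/-! The hermitian function is affine along lines. -/

set_option autoImplicit false

namespace H33.Pol

open Cfsg H90.ThreeTrans H90.ThreeTransB H90.WidthOne H90.ThreeTransC H90.ThreeTransE H90.ThreeTransG H90.ThreeTransH
  H33.Fisch

theorem K4.inv_add : ∀ a b d : K, a ≠ 0 → b ≠ 0 → d ≠ 0 → a ≠ b → a ≠ d → b ≠ d → b⁻¹ = a⁻¹ + d⁻¹ := by decide +kernel

variable {G : Type*} [Group G] {D : Set G} [Finite G]

section
variable (h : Ctx D)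
include h

/-- the points `P_ij` -/
theorem Ctx.P_id {x a b : G} (hxa : ¬ Commute x a) (hxb : ¬ Commute x b) (hx : x ∈ D) (ha : a ∈ D) (hb : b ∈ D) (hab : Commute a b) :
    cj (cj x a) b = cj (a * b) x := by
  have hDs := h.set
  rw [cj_braid hDs hx ha hxa, ← cj_cj]
  have h1 : cj (cj a x) (cj a b) = cj a (cj x b) := cj_conj a x b
  rw [cj_self hab] at h1
  rw [h1, cj_braid hDs hx hb hxb]

theorem Ctx.P_mem {x u a b : G} (hx : x ∈ D) (hu : u ∈ Dn D x) (ha : a ∈ Dn D u) (hxa : ¬ Commute x a)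
    (hb : b ∈ Ln D u a) (hbu : b ≠ u) (hba : b ≠ a) : cj (a * b) x ∈ Sx D x u ∧ cj (a * b) x ≠ u := by
  have hxD : x ∈ Dn D u := h.Dn_symm hx hu
  have h1 := h.tr_mem hu.1 hxD ha hb hbu
  have h2 := h.tr_ne hu.1 hxD ha hb hbu hba hxa
  exact ⟨⟨by rw [Ln_symm]; exact h1.1, h2⟩, h1.2⟩

theorem Ctx.P_inj {x a b c : G} (hx : x ∈ D) (hb : b ∈ D) (hc : c ∈ D) (hxb : ¬ Commute x b) (hxc : ¬ Commute x c)
    (he : cj (a * b) x = cj (a * c) x) : b = c := by
  rw [← cj_cj, ← cj_cj] at he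
  have h1 := cj_inj.1 he
  rw [← cj_braid h.set hx hb hxb, ← cj_braid h.set hx hc hxc] at h1
  exact cj_inj.1 h1

/-- other points of the line `yu` -/
theorem Ctx.An_line {x y y' u : G} (hx : x ∈ D) (hy : y ∈ An D x) (hu : u ∈ C D x y) (hy' : y' ∈ Ln D y u) (hy'u : y' ≠ u) :
    y' ∈ An D x ∧ u ∈ C D x y' ∧ Ln D y' u = Ln D y u := by
  have huDy := h.C_right hy hu
  refine ⟨⟨hy'.1, fun hc => hy.2 (h.two_all hy.1 huDy hx (right_mem_Ln huDy) hy' hy'u.symm hu.2.1 hc y (left_mem_Ln hy.1 huDy))⟩,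
    ⟨hu.1, hu.2.1, (Ln_comm_right huDy hy').symm⟩, h.Ln_eq hy.1 huDy hy' (right_mem_Ln huDy) hy'u⟩

/-- T3, first case -/
theorem Ctx.addT_nc {x y y' z u : G} {lab : G → K} (hlab : Lab D x lab) (h5 : ∀ x ∈ D, ∀ u ∈ Dn D x, (Ln D x u).ncard = 5)
    (hx : x ∈ D) (hy : y ∈ An D x) (hz : z ∈ An D x) (hu : u ∈ C D x y) (hy' : y' ∈ Ln D y u) (hy'u : y' ≠ u) (hy'y : y' ≠ y)
    (huz : ¬ Commute u z) :
    TT D lab x y' z = TT D lab x y z + (lab (cj (y * y') x) + lab u)⁻¹ * lam D lab x u z := by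
  have huD := h.C_left hy hu
  have huDy := h.C_right hy hu
  have hyDu : y ∈ Dn D u := h.Dn_symm hy.1 huDy
  have hinj := hlab.inj u huD
  have huS := mem_S huD
  obtain ⟨p1, p2, p3⟩ := h.pr_spec hy.1 huDy hz.1 |> fun _ => h.pr_spec hu.1 hyDu hz.1 huz
  obtain ⟨p, hp⟩ : ∃ p, p = pr D u y z := ⟨_, rfl⟩
  rw [← hp] at p1 p2 p3
  rw [Ln_symm] at p1
  -- value formula
  have val : ∀ a ∈ Ln D y u, a ≠ u → a ≠ p → TT D lab x a z = lam D lab x u z * (lab (cj (a * p) x) + lab u)⁻¹ := by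
    intro a ha hau hap
    obtain ⟨b1, b2, b3⟩ := h.An_line hx hy hu ha hau
    obtain ⟨c1, c2, c3⟩ := h.An_line hx hy hu p1 p2
    have hza : ¬ Commute a z := fun hc =>
      huz (h.two_all hy.1 huDy hz.1 ha p1 hap hc.symm p3 u (right_mem_Ln huDy)).symm
    have st := h.star hlab h5 hx b1 hz hza b2
    have n := h.lam_ne hlab hx b1 hz hza b2 huz
    have e1 : pr D a u z = p := (h.pr_unique b1.1 (h.C_right b1 b2) hz.1 hza (by rw [b3]; exact p1) p3).symm
    have e2 : mu D lab x u a z = lab (cj (a * p) x) + lab u := by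
      unfold mu
      rw [e1, h.P_id b1.2 c1.2 hx b1.1 c1.1 (Ln_comm hy.1 huDy ha p1)]
    rw [e2] at st n
    rw [st, mul_assoc, mul_inv_cancel₀ n.2.1, mul_one]
  have ne : ∀ a ∈ Ln D y u, a ≠ u → ∀ b ∈ Ln D y u, b ≠ u → b ≠ a → lab (cj (a * b) x) + lab u ≠ 0 := by
    intro a ha hau b hb hbu hba
    obtain ⟨b1, b2, b3⟩ := h.An_line hx hy hu ha hau
    have haD : a ∈ Dn D u := h.Dn_symm b1.1 (h.C_right b1 b2)
    have h1 := h.P_mem hx huD haD b1.2 (by rw [Ln_symm, b3]; exact hb) hbu hba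
    exact K4.sum_ne (fun hc => h1.2 (hinj h1.1 huS hc))
  have ne2 : ∀ a ∈ Ln D y u, a ≠ u → ∀ b ∈ Ln D y u, b ≠ u → b ≠ a → ∀ c ∈ Ln D y u, c ≠ u → c ≠ a → b ≠ c →
      lab (cj (a * b) x) + lab u ≠ lab (cj (a * c) x) + lab u := by
    intro a ha hau b hb hbu hba c hc hcu hca hbc he
    obtain ⟨b1, b2, b3⟩ := h.An_line hx hy hu ha hau
    have haD : a ∈ Dn D u := h.Dn_symm b1.1 (h.C_right b1 b2)
    have h1 := h.P_mem hx huD haD b1.2 (by rw [Ln_symm, b3]; exact hb) hbu hba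
    have h2 := h.P_mem hx huD haD b1.2 (by rw [Ln_symm, b3]; exact hc) hcu hca
    have h3 := hinj h1.1 h2.1 (K4.sum_cancel he)
    obtain ⟨d1, -, -⟩ := h.An_line hx hy hu hb hbu
    obtain ⟨d2, -, -⟩ := h.An_line hx hy hu hc hcu
    exact hbc (h.P_inj hx d1.1 d2.1 d1.2 d2.2 h3)
  have hyL := left_mem_Ln hy.1 huDy
  have hyu : y ≠ u := fun hc => hy.2 (hc ▸ hu.2.1)
  have hyy' : y * y' = y' * y := (Ln_comm_left hy.1 huDy hy').eq
  by_cases hpy : p = y
  · rw [TT_comm (y := y) (by rw [← hpy]; exact p3.symm), zero_add, val y' hy' hy'u (by rw [hpy]; exact hy'y), hpy, hyy', mul_comm]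
  · by_cases hpy' : p = y'
    · have e1 := TT_comm (D := D) (lab := lab) (x := x) (y := y') (z := z) (by rw [← hpy']; exact p3.symm)
      rw [e1, val y hyL hyu (fun hc => hpy hc.symm), hpy', mul_comm, K4.add_self]
    · rw [val y hyL hyu (fun hc => hpy hc.symm), val y' hy' hy'u (fun hc => hpy' hc.symm)]
      have a1 := ne y hyL hyu p p1 p2 hpy
      have a2 := ne y' hy' hy'u p p1 p2 hpy'
      have a3 := ne y hyL hyu y' hy' hy'u hy'y
      have a4 := ne2 y hyL hyu p p1 p2 hpy y' hy' hy'u hy'y hpy'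
      have a5 := ne2 y' hy' hy'u p p1 p2 hpy' y hyL hyu hy'y.symm hpy
      have hyp : y * p = p * y := (Ln_comm_left hy.1 huDy p1).eq
      have hy'p : y' * p = p * y' := (Ln_comm hy.1 huDy hy' p1).eq
      have a6 := ne2 p p1 p2 y hyL hyu (fun hc => hpy hc.symm) y' hy' hy'u (fun hc => hpy' hc.symm) hy'y.symm
      rw [← hyp, ← hy'p] at a6
      rw [← hyy'] at a5
      rw [K4.inv_add _ _ _ a1 a2 a3 a6 a4 a5]
      ring

/-- existence of the auxiliary point -/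
theorem Ctx.exists_v {x y y' z u : G} (hx : x ∈ D) (hy : y ∈ An D x) (hz : z ∈ An D x) (hu : u ∈ C D x y)
    (hy' : y' ∈ Ln D y u) (hy'u : y' ≠ u) (hy'y : y' ≠ y) (hzu : Commute z u) (hyz : ¬ Commute y z)
    (hk : ¬ Commute z (cj x y)) (hk' : ¬ Commute z (cj x y')) (hR : ∀ w ∈ C D x z, Commute w u → Commute w y) :
    ∃ v ∈ C D x z, ¬ Commute v u ∧ ¬ Commute v y ∧ ¬ Commute v y' := by
  have hDs := h.set
  have hG := h.grp
  by_contra hcon
  push Not at hcon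
  have huDy := h.C_right hy hu
  obtain ⟨hy'A, hu', hL⟩ := h.An_line hx hy hu hy' hy'u
  have hy'z : ¬ Commute y' z := fun hc => hyz
    (h.two_all hy.1 huDy hz.1 (right_mem_Ln huDy) hy' hy'u.symm hzu hc.symm y (left_mem_Ln hy.1 huDy)).symm
  have both : ∀ v ∈ D, Commute v y → Commute v y' → Commute v u := by
    intro v hv h1 h2
    exact h.two_all hy.1 huDy hv (left_mem_Ln hy.1 huDy) hy' hy'y.symm h1 h2 u (right_mem_Ln huDy)
  have hy'y2 : ∀ v ∈ D, Commute v y → Commute v u → Commute v y' := by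
    intro v hv h1 h2
    exact Ln_C ⟨hv, h1.symm, h2.symm⟩ hy'
  obtain ⟨v1, hv1C, hv1u, hv1y⟩ : ∃ v ∈ C D x z, ¬ Commute v u ∧ ¬ Commute v y := by
    by_contra hc
    push Not at hc
    have hall : ∀ v ∈ C D x z, Commute y v := by
      intro v hv
      by_cases hvu : Commute v u
      · exact (hR v hv hvu).symm
      · exact (hc v hv hvu).symm
    rcases h.hyp hx hz.1 hy.1 hz.2 hall with e | e | e
    · exact hy.2 (by rw [e])
    · exact hyz (by rw [e])
    · apply hk; rw [e, cj_cj_D hDs hx]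
  obtain ⟨v2, hv2C, hv2u, hv2y⟩ : ∃ v ∈ C D x z, ¬ Commute v u ∧ ¬ Commute v y' := by
    by_contra hc
    push Not at hc
    have hall : ∀ v ∈ C D x z, Commute y' v := by
      intro v hv
      by_cases hvu : Commute v u
      · exact (hy'y2 v hv.1 (hR v hv hvu) hvu).symm
      · exact (hc v hv hvu).symm
    rcases h.hyp hx hz.1 hy'A.1 hz.2 hall with e | e | e
    · exact hy'A.2 (by rw [e])
    · exact hy'z (by rw [e])
    · apply hk'; rw [e, cj_cj_D hDs hx]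
  have hv1y' : Commute v1 y' := hcon v1 hv1C hv1u hv1y
  have hv2y' : Commute v2 y := by
    by_contra hc
    exact hv2y (hcon v2 hv2C hv2u hc)
  have claim : ∀ a ∈ C D x z, ∀ b ∈ C D x z, ¬ Commute a u → ¬ Commute b u → Commute a y' → Commute b y → ¬ Commute a b := by
    intro a ha b hb hau hbu hay' hby hab
    have hay : ¬ Commute a y := fun hc => hau (both a ha.1 hc hay')
    have hne : b ≠ a := fun hc => hay (hc ▸ hby)
    have hbD : b ∈ Dn D a := ⟨hb.1, hne, hab⟩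
    obtain ⟨r, hr, hur⟩ := h.exists_comm ha.1 hbD hu.1
    have hxr : Commute x r := Ln_C ⟨hx, ha.2.1.symm, hb.2.1.symm⟩ hr
    have hzr : Commute z r := Ln_C ⟨hz.1, ha.2.2.symm, hb.2.2.symm⟩ hr
    have hry := hR r ⟨hr.1, hxr, hzr⟩ hur.symm
    have hrb : r ≠ b := fun hc => hbu (hc ▸ hur.symm)
    exact hay (h.two_all ha.1 hbD hy.1 hr (right_mem_Ln hbD) hrb hry.symm hby.symm a (left_mem_Ln ha.1 hbD)).symm
  have h12 := claim v1 hv1C v2 hv2C hv1u hv2u hv1y' hv2y'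
  have hv3C : cj v1 v2 ∈ C D x z := ⟨cj_mem hG v1 hv2C.1, cj_comm_of hv1C.2.1 hv2C.2.1, cj_comm_of hv1C.2.2 hv2C.2.2⟩
  by_cases hv3u : Commute (cj v1 v2) u
  · have h1 : Commute (cj v1 (cj v1 v2)) (cj v1 u) := cj_comm.2 hv3u
    rw [cj_cj_D hDs hv1C.1] at h1
    have hwC : cj v1 u ∈ C D x z := ⟨cj_mem hG v1 hu.1, cj_comm_of hv1C.2.1 hu.2.1, cj_comm_of hv1C.2.2 hzu⟩
    have hwu : ¬ Commute (cj v1 u) u := by
      intro hc
      rw [cj_braid hDs hv1C.1 hu.1 hv1u] at hc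
      exact hv1u (cj_comm_of_third (Commute.refl u) hc.symm).symm
    have hwy' : Commute (cj v1 u) y' := (cj_comm_of hv1y'.symm (Ln_comm_right huDy hy').symm).symm
    exact claim _ hwC v2 hv2C hwu hv2u hwy' hv2y' h1.symm
  · by_cases hv3y : Commute (cj v1 v2) y
    · rw [cj_braid hDs hv1C.1 hv2C.1 h12] at hv3y
      exact hv1y (cj_comm_of_third hv2y'.symm hv3y.symm).symm
    · have := hcon _ hv3C hv3u hv3y
      exact hv2y (cj_comm_of_third hv1y'.symm this.symm).symm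

/-- projections through translations -/
theorem Ctx.pr_tr {o y u v a b : G} (ho : o ∈ D) (huo : u ∈ Dn D o) (hvo : v ∈ Dn D o) (hyu : y ∈ Dn D u)
    (ha : a ∈ Ln D u y) (hau : a ≠ u) (hb : b ∈ Ln D u y) (hbu : b ≠ u) (hab : b ≠ a) (hoa : ¬ Commute o a) (hob : ¬ Commute o b)
    (hva : Commute v a) : pr D o v b = cj (u * cj (a * b) o) v := by
  have hDs := h.set
  have haDu := h.Dn_of_Ln huo.1 hyu ha hau
  have hoDu : o ∈ Dn D u := h.Dn_symm ho huo
  have hbL : b ∈ Ln D u a := by rw [h.Ln_left huo.1 hyu ha hau]; exact hb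
  have hP := h.P_mem ho huo haDu hoa hbL hbu hab
  have hub : Commute u b := Ln_comm_left huo.1 hyu hb
  have hcab : Commute a b := Ln_comm huo.1 hyu ha hb
  symm
  apply h.pr_unique ho hvo hb.1 hob
  · exact (h.tr_mem ho hvo huo hP.1.1 hP.1.2).1
  · obtain ⟨e, he⟩ : ∃ e, e = cj (a * b) o := ⟨_, rfl⟩
    rw [← he] at hP ⊢
    have hue : Commute u e := Ln_comm_right huo hP.1.1
    -- `cj (u e) b = cj a o`
    have e1 : cj e b = cj a o := by
      have h1 : cj (cj (a * b) o) (cj (a * b) b) = cj (a * b) (cj o b) := cj_conj (a * b) o b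
      rw [cj_self (hcab.mul_left (Commute.refl b)), ← he] at h1
      rw [h1, ← cj_cj, cj_braid hDs ho hb.1 hob, cj_cj_D hDs hb.1]
    have e2 : cj (u * e) b = cj a o := by
      rw [hue.eq, ← cj_cj, cj_self hub, e1]
    have h2 : Commute v (cj a o) := cj_comm_of hva hvo.2.2.symm
    rw [← e2] at h2
    have h3 := (cj_comm (g := u * e)).2 h2
    rw [h.tr_tr ho huo hP.1.1 b] at h3
    exact h3.symm

/-- triangle holonomy, product form -/
theorem Ctx.par_tri' (h5 : ∀ x ∈ D, ∀ u ∈ Dn D x, (Ln D x u).ncard = 5) {x u v w : G} (hx : x ∈ D) (hu : u ∈ Dn D x)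
    (hv : v ∈ Dn D x) (hw : w ∈ Dn D x) (huv : ¬ Commute u v) (hvw : ¬ Commute v w) (hwu : ¬ Commute w u) :
    par (cj w u * cj v w * cj u v) (Sx D x u) = 0 := by
  have hDs := h.set
  have hS := h.S_card h5 hx hu
  have c1 := h.cj_in hu hv
  have c2 := h.cj_in hv hw
  have t1 : cj (cj u v) '' Sx D x u = Sx D x v := by
    rw [h.cj_S c1.2.2.symm, transport hDs hu.1 hv.1 huv]
  have t2 : cj (cj v w) '' Sx D x v = Sx D x w := by
    rw [h.cj_S c2.2.2.symm, transport hDs hv.1 hw.1 hvw]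
  have e : par (cj w u * cj v w * cj u v) (Sx D x u) = par (cj u v) (Sx D x u) + par (cj v w) (Sx D x v) + par (cj w u) (Sx D x w) := by
    rw [par_mul hS, t1, par_mul (h.S_card h5 hx hv), t2]; ring
  rw [e]
  exact h.par_tri h5 hx hu hv hw huv hvw hwu

open Classical in
/-- the hard case -/
theorem Ctx.hol_case {x y y' z u v : G} {lab : G → K} (hlab : Lab D x lab) (h5 : ∀ x ∈ D, ∀ u ∈ Dn D x, (Ln D x u).ncard = 5)
    (hx : x ∈ D) (hy : y ∈ An D x) (hz : z ∈ An D x) (hu : u ∈ C D x y) (hy' : y' ∈ Ln D y u) (hy'u : y' ≠ u)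
    (hzu : Commute z u) (hyz : ¬ Commute y z) (hv : v ∈ C D x z) (hvu : ¬ Commute v u) (hvy : ¬ Commute v y) (hvy' : ¬ Commute v y') :
    TT D lab x z y = TT D lab x z y' := by
  have hDs := h.set
  have huD := h.C_left hy hu
  have huDy := h.C_right hy hu
  have hyDu : y ∈ Dn D u := h.Dn_symm hy.1 huDy
  have hxDu : x ∈ Dn D u := h.Dn_symm hx huD
  have hvD := h.C_left hz hv
  have huz : u ≠ z := fun hc => hz.2 (hc ▸ hu.2.1)
  have huDz : u ∈ Dn D z := ⟨hu.1, huz, hzu⟩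
  have hzDu : z ∈ Dn D u := h.Dn_symm hz.1 huDz
  have hzx : ¬ Commute z x := fun hc => hz.2 hc.symm
  -- the point `y2`
  have hvu' : ¬ Commute u v := fun hc => hvu hc.symm
  obtain ⟨p1, p2, p3⟩ := h.pr_spec hu.1 hyDu hv.1 hvu'
  obtain ⟨y2, hy2⟩ : ∃ y2, y2 = pr D u y v := ⟨_, rfl⟩
  rw [← hy2] at p1 p2 p3
  have p1' : y2 ∈ Ln D y u := by rw [Ln_symm]; exact p1
  obtain ⟨b1, b2, b3⟩ := h.An_line hx hy hu p1' p2
  have hy2Du : y2 ∈ Dn D u := h.Dn_of_Ln hu.1 hyDu p1 p2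
  have nz : ∀ a ∈ Ln D y u, a ≠ u → ¬ Commute a z := by
    intro a ha hau hc
    exact hyz (h.two_all hy.1 huDy hz.1 (right_mem_Ln huDy) ha hau.symm hzu hc.symm y (left_mem_Ln hy.1 huDy)).symm
  have hy2z := nz y2 p1' p2
  -- the holonomy
  obtain ⟨k1, k2, k3, k4, k5⟩ := h.kk hx hz
  have hpar := h.par_tri' h5 hu.1 hxDu hy2Du hzDu b1.2 hy2z hzx
  obtain ⟨g, hg⟩ : ∃ g, g = cj z x * cj y2 z * cj x y2 := ⟨_, rfl⟩
  rw [← hg] at hpar
  have hgx : cj g x = x := by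
    rw [hg, ← cj_cj, ← cj_cj, transport hDs hx b1.1 b1.2, transport hDs b1.1 hz.1 hy2z, transport hDs hz.1 hx hzx]
  have hgu : Commute g u := by
    rw [hg]
    have c1 := (h.cj_in hzDu hxDu).2.2.symm
    have c2 := (h.cj_in hy2Du hzDu).2.2.symm
    have c3 := (h.cj_in hxDu hy2Du).2.2.symm
    exact (c1.mul_left c2).mul_left c3
  have himg : cj g '' Sx D u x = Sx D u x := by
    rw [h.cj_S hgu, hgx]
  rw [par_zero, himg] at hpar
  obtain ⟨κ, hκ, β, hlin⟩ := hpar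
  have hS4 := h.S_card h5 hu.1 hxDu
  have hlbinj := lb_inj hS4
  -- the second labelling
  obtain ⟨f, hf⟩ : ∃ f : G → K, f = fun e => if e = x then 0 else lab (cj (u * e) v) + lab v := ⟨_, rfl⟩
  have huv : ¬ Commute v u := hvu
  have hfx : f x = 0 := by rw [hf]; simp
  have hmem : ∀ q ∈ Sx D u x, q ≠ x → q ∈ Sx D x u ∧ q ≠ u := by
    intro q hq hqx
    exact ⟨⟨by rw [Ln_symm]; exact hq.1, hqx⟩, hq.2⟩
  have hfq : ∀ q ∈ Sx D u x, q ≠ x → f q = lab (cj (u * q) v) + lab v ∧ cj (u * q) v ∈ Sx D x v ∧ f q ≠ 0 := by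
    intro q hq hqx
    obtain ⟨m1, m2⟩ := hmem q hq hqx
    have e1 : f q = lab (cj (u * q) v) + lab v := by rw [hf]; simp [hqx]
    have e2 := h.tr_mem hx hvD huD m1.1 m1.2
    have e3 := h.tr_ne hx hvD huD m1.1 m1.2 m2 hvu
    refine ⟨e1, e2, ?_⟩
    rw [e1]
    exact K4.sum_ne (fun hc => e3 (hlab.inj v hvD ⟨e2.1, e2.2⟩ (mem_S hvD) hc))
  have hfinj : Set.InjOn f (cj 1 '' Sx D u x) := by
    have : cj 1 '' Sx D u x = Sx D u x := by
      ext q; simp [cj_one]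
    rw [this]
    intro q hq q' hq' he
    by_cases hqx : q = x
    · by_cases hqx' : q' = x
      · rw [hqx, hqx']
      · rw [hqx, hfx] at he
        exact absurd he.symm (hfq q' hq' hqx').2.2
    · by_cases hqx' : q' = x
      · rw [hqx', hfx] at he
        exact absurd he (hfq q hq hqx).2.2
      · obtain ⟨e1, e2, -⟩ := hfq q hq hqx
        obtain ⟨e1', e2', -⟩ := hfq q' hq' hqx'
        rw [e1, e1'] at he
        have h1 := hlab.inj v hvD e2 e2' (K4.sum_cancel he)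
        rw [← cj_cj, ← cj_cj] at h1
        have h2 := cj_inj.1 h1
        have nn : ∀ r ∈ Sx D u x, r ≠ x → ¬ Commute r v := by
          intro r hr hrx hc
          obtain ⟨m1, m2⟩ := hmem r hr hrx
          exact hvu ((h.comm_class hx hvD huD m1.1 m1.2 hvD.1 hvD.2.2).2 hc).symm
        rw [cj_braid hDs hq.1.1 hv.1 (nn q hq hqx), cj_braid hDs hq'.1.1 hv.1 (nn q' hq' hqx')] at h2
        exact cj_inj.1 h2
  have hkey : ∃ c : K, c ≠ 0 ∧ ∀ q ∈ Sx D u x, f (cj g q) = c * f q := by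
    have hxS : x ∈ Sx D u x := mem_S hxDu
    have hlx := hlin x hxS
    rw [hgx] at hlx
    have hd : ∀ q ∈ Sx D u x, lb (Sx D u x) (cj g q) + lb (Sx D u x) x = κ * (lb (Sx D u x) q + lb (Sx D u x) x) := by
      intro q hq
      have a1 := K4.add_self β
      linear_combination hlin q hq + hlx + a1
    have hgS : ∀ q ∈ Sx D u x, cj g q ∈ Sx D u x := by
      intro q hq; rw [← himg]; exact ⟨q, hq, rfl⟩
    rcases lin_or hS4 (g := 1) hlbinj hfinj with ⟨c, hc, γ, hl⟩ | ⟨c, hc, γ, hl⟩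
    · have hl' : ∀ q ∈ Sx D u x, f q = c * (lb (Sx D u x) q + lb (Sx D u x) x) := by
        intro q hq
        have e1 := hl q hq
        have e2 := hl x hxS
        rw [cj_one] at e1 e2
        rw [hfx] at e2
        have a1 := K4.add_self γ
        linear_combination e1 + e2 + a1
      refine ⟨κ, hκ, fun q hq => ?_⟩
      rw [hl' _ (hgS q hq), hd q hq, hl' q hq]; ring
    · have hl' : ∀ q ∈ Sx D u x, f q = c * (lb (Sx D u x) q + lb (Sx D u x) x) ^ 2 := by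
        intro q hq
        have e1 := hl q hq
        have e2 := hl x hxS
        rw [cj_one] at e1 e2
        rw [hfx] at e2
        have a1 := K4.add_self γ
        rw [K4.sq_add]
        linear_combination e1 + e2 + a1
      refine ⟨κ ^ 2, pow_ne_zero _ hκ, fun q hq => ?_⟩
      rw [hl' _ (hgS q hq), hd q hq, hl' q hq]; ring
  obtain ⟨c, hc, hfg⟩ := hkey
  -- values
  have hv2 : Commute v y2 := p3
  have val : ∀ a ∈ Ln D y u, a ≠ u → ¬ Commute v a → TT D lab x z a = c⁻¹ := by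
    intro a ha hau hva
    obtain ⟨d1, d2, d3⟩ := h.An_line hx hy hu ha hau
    have haz := nz a ha hau
    have hay2 : a ≠ y2 := fun hc => hva (hc ▸ hv2)
    have ha' : a ∈ Ln D u y := by rw [Ln_symm]; exact ha
    have hza : ¬ Commute z a := fun hc => haz hc.symm
    have hzy2 : ¬ Commute z y2 := fun hc => hy2z hc.symm
    have e1 := h.pr_tr hx huD hvD hyDu p1 p2 ha' hau hay2 b1.2 d1.2 hv2
    have e2 := h.pr_tr hz.1 huDz (h.C_right hz hv) hyDu p1 p2 ha' hau hay2 hzy2 hza hv2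
    have st := h.star hlab h5 hx hz d1 hza hv
    have n := h.lam_ne hlab hx hz d1 hza hv hva
    -- `e = cj (y2 a) x`
    have haL : a ∈ Ln D u y2 := by rw [h.Ln_left hu.1 hyDu p1 p2]; exact ha'
    have hP := h.P_mem hx huD hy2Du b1.2 haL hau hay2
    have heS : cj (y2 * a) x ∈ Sx D u x := ⟨by rw [Ln_symm]; exact hP.1.1, hP.2⟩
    have hex : cj (y2 * a) x ≠ x := hP.1.2
    have hy2a : Commute y2 a := Ln_comm hu.1 hyDu p1 ha'
    have ge : cj g (cj (y2 * a) x) = cj (cj x z) (cj (y2 * a) z) := by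
      have f1 : cj (y2 * a) x = cj (cj x y2) a := (h.P_id b1.2 d1.2 hx b1.1 d1.1 hy2a).symm
      have f2 : cj (y2 * a) z = cj (cj z y2) a := (h.P_id hzy2 hza hz.1 b1.1 d1.1 hy2a).symm
      rw [hg, f2, f1, ← cj_cj, ← cj_cj, cj_cj_D hDs (cj_mem h.grp x b1.1), cj_braid hDs b1.1 hz.1 hy2z, k5]
    have hgS : cj g (cj (y2 * a) x) ∈ Sx D u x := by rw [← himg]; exact ⟨_, heS, rfl⟩
    have hgex : cj g (cj (y2 * a) x) ≠ x := by
      intro hcc
      exact hex (cj_inj.1 (hcc.trans hgx.symm))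
    have l1 : lam D lab x v a = f (cj (y2 * a) x) := by
      rw [(hfq _ heS hex).1]; unfold lam; rw [e1]
    have l2 : mu D lab x v z a = f (cj g (cj (y2 * a) x)) := by
      rw [(hfq _ hgS hgex).1]; unfold mu; rw [e2, ge]
      congr 2
      rw [← cj_conj, cj_mul, cj_self (k4 v hv).symm, cj_self (k4 u ⟨hu.1, hu.2.1, hzu⟩).symm]
    rw [l2, hfg _ heS, l1] at st
    have hne := (hfq _ heS hex).2.2
    have h9 : TT D lab x z a * c = 1 := by
      apply mul_right_cancel₀ hne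
      rw [one_mul, mul_assoc]; exact st.symm
    exact eq_inv_of_mul_eq_one_left h9
  have hyu : y ≠ u := fun hc => hy.2 (hc ▸ hu.2.1)
  rw [val y (left_mem_Ln hy.1 huDy) hyu hvy, val y' hy' hy'u hvy']

/-- **T3** -/
theorem Ctx.addT {x y y' z u : G} {lab : G → K} (hlab : Lab D x lab) (h5 : ∀ x ∈ D, ∀ u ∈ Dn D x, (Ln D x u).ncard = 5)
    (hx : x ∈ D) (hy : y ∈ An D x) (hz : z ∈ An D x) (hu : u ∈ C D x y) (hy' : y' ∈ Ln D y u) (hy'u : y' ≠ u) (hy'y : y' ≠ y) :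
    TT D lab x y' z = TT D lab x y z + (lab (cj (y * y') x) + lab u)⁻¹ * lam D lab x u z := by
  have hDs := h.set
  by_cases huz : Commute u z
  swap
  · exact h.addT_nc hlab h5 hx hy hz hu hy' hy'u hy'y huz
  have huDy := h.C_right hy hu
  obtain ⟨hy'A, hu', hL⟩ := h.An_line hx hy hu hy' hy'u
  have e0 : lam D lab x u z = 0 := by
    have e1 : pr D x u z = u := (h.pr_unique hx (h.C_left hy hu) hz.1 hz.2 (right_mem_Ln (h.C_left hy hu)) huz.symm).symm
    unfold lam; rw [e1, K4.add_self]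
  rw [e0, mul_zero, add_zero]
  by_cases hyz : Commute y z
  · have h1 : Commute y' z := (Ln_C ⟨hz.1, hyz, huz⟩ hy').symm
    rw [TT_comm hyz, TT_comm h1]
  have hy'z : ¬ Commute y' z := fun hc => hyz
    (h.two_all hy.1 huDy hz.1 (right_mem_Ln huDy) hy' hy'u.symm huz.symm hc.symm y (left_mem_Ln hy.1 huDy)).symm
  have hiff : Commute z (cj x y) ↔ Commute z (cj x y') := by
    obtain ⟨k1, k2, k3, k4, k5⟩ := h.kk hx hy
    obtain ⟨l1, l2, l3, l4, l5⟩ := h.kk hx hy'A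
    have hxu : cj x u = u := cj_self hu.2.1
    have m1 : cj x y' ∈ Ln D (cj x y) u := by
      have := (cj_Ln h.grp x).2 hy'
      rwa [hxu] at this
    have m2 : cj x y ∈ Ln D (cj x y') u := by
      have h2 : y ∈ Ln D y' u := by rw [hL]; exact left_mem_Ln hy.1 huDy
      have := (cj_Ln h.grp x).2 h2
      rwa [hxu] at this
    constructor
    · intro hc
      exact Ln_C ⟨hz.1, hc.symm, huz⟩ m1
    · intro hc
      exact Ln_C ⟨hz.1, hc.symm, huz⟩ m2
  by_cases hk : Commute z (cj x y)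
  · rw [TT_one hyz hk, TT_one hy'z (hiff.1 hk)]
  have hk' : ¬ Commute z (cj x y') := fun hc => hk (hiff.2 hc)
  rw [h.herm hlab h5 hx hz hy, h.herm hlab h5 hx hz hy'A]
  have hzy : ¬ Commute z y := fun hc => hyz hc.symm
  have hzy' : ¬ Commute z y' := fun hc => hy'z hc.symm
  suffices hs : TT D lab x z y = TT D lab x z y' by rw [hs]
  by_cases hR : ∀ w ∈ C D x z, Commute w u → Commute w y
  · obtain ⟨v, hv, hvu, hvy, hvy'⟩ := h.exists_v hx hy hz hu hy' hy'u hy'y huz.symm hyz hk hk' hR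
    exact h.hol_case hlab h5 hx hy hz hu hy' hy'u huz.symm hyz hv hvu hvy hvy'
  · push Not at hR
    obtain ⟨w, hw, hwu, hwy⟩ := hR
    have hwy' : ¬ Commute w y' := fun hc => hwy
      (h.two_all hy.1 huDy hw.1 (right_mem_Ln huDy) hy' hy'u.symm hwu hc y (left_mem_Ln hy.1 huDy))
    have hwD := h.C_left hz hw
    have hwDz := h.C_right hz hw
    have e1 : pr D x w y = pr D x w y' := by
      have s := h.pr_spec hx hwD hy.1 hy.2
      apply h.pr_unique hx hwD hy'A.1 hy'A.2 s.1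
      have h1 : Commute u (pr D x w y) := Ln_C ⟨hu.1, hu.2.1, hwu⟩ s.1
      exact (Ln_C ⟨s.1.1, s.2.2, h1⟩ hy').symm
    have e2 : pr D z w y = pr D z w y' := by
      have s := h.pr_spec hz.1 hwDz hy.1 hzy
      apply h.pr_unique hz.1 hwDz hy'A.1 hzy' s.1
      have h1 : Commute u (pr D z w y) := Ln_C ⟨hu.1, huz.symm, hwu⟩ s.1
      exact (Ln_C ⟨s.1.1, s.2.2, h1⟩ hy').symm
    have st := h.star hlab h5 hx hz hy hzy hw
    have st' := h.star hlab h5 hx hz hy'A hzy' hw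
    have n := h.lam_ne hlab hx hz hy hzy hw hwy
    have e3 : lam D lab x w y = lam D lab x w y' := by unfold lam; rw [e1]
    have e4 : mu D lab x w z y = mu D lab x w z y' := by unfold mu; rw [e2]
    rw [← e3, ← e4] at st'
    exact mul_right_cancel₀ n.2.1 (st.symm.trans st')

end

end H33.Pol
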