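import Cfsg.Agent.Lib.H33.Pol8

/-! The hermitian space. -/

set_option autoImplicit false

namespace H33.Pol

open Cfsg H90.ThreeTrans H90.ThreeTransB H90.WidthOne H90.ThreeTransC H90.ThreeTransE H90.ThreeTransG H90.ThreeTransH
  H33.Fisch

variable {G : Type*} [Group G]

theorem K4.sum_sq {ι : Type*} (s : Finset ι) (f : ι → K) : (∑ i ∈ s, f i) ^ 2 = ∑ i ∈ s, f i ^ 2 := by
  classical
  induction s using Finset.induction_on with
  | empty => simp
  | insert a s ha ih => rw [Finset.sum_insert ha, Finset.sum_insert ha, K4.sq_add, ih]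

theorem K4.sq4 (a : K) : a ^ 2 * (a ^ 2) = a := by revert a; decide +kernel

abbrev Ix (D : Set G) (x : G) : Type _ := ↥(An D x)

variable [Finite G]

noncomputable instance instFintypeIx (D : Set G) (x : G) : Fintype (Ix D x) := Fintype.ofFinite _

noncomputable def Phi (D : Set G) (lab : G → K) (x : G) : (Ix D x → K) →ₗ[K] (Ix D x → K) where
  toFun a := fun z => ∑ y : Ix D x, a y * TT D lab x y z
  map_add' a b := by
    funext z; simp only [Pi.add_apply, add_mul, Finset.sum_add_distrib]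
  map_smul' c a := by
    funext z; simp only [Pi.smul_apply, smul_eq_mul, RingHom.id_apply, mul_assoc, Finset.mul_sum]

theorem Phi_apply (D : Set G) (lab : G → K) (x : G) (a : Ix D x → K) (z : Ix D x) :
    Phi D lab x a z = ∑ y : Ix D x, a y * TT D lab x y z := rfl

abbrev VV (D : Set G) (lab : G → K) (x : G) : Type _ := ↥(LinearMap.range (Phi D lab x))

noncomputable def hh (D : Set G) (lab : G → K) (x : G) (f g : VV D lab x) : K :=
  ∑ z : Ix D x, (g.2.choose z) ^ 2 * (f : Ix D x → K) z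

open Classical in
noncomputable def phi0 (D : Set G) (lab : G → K) (x d : G) : Ix D x → K :=
  if d = x then fun _ => 1 else if Commute x d then fun z => lam D lab x d z else fun z => TT D lab x d z

open Classical in
noncomputable def phi (D : Set G) (lab : G → K) (x d : G) : VV D lab x :=
  if hd : phi0 D lab x d ∈ LinearMap.range (Phi D lab x) then ⟨phi0 D lab x d, hd⟩ else 0

variable {D : Set G} {lab : G → K} {x : G}

theorem hh_add (u v w : VV D lab x) : hh D lab x (u + v) w = hh D lab x u w + hh D lab x v w := by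
  unfold hh
  rw [← Finset.sum_add_distrib]
  apply Finset.sum_congr rfl
  intro z _
  show _ * ((u : Ix D x → K) z + (v : Ix D x → K) z) = _
  ring

theorem hh_smul (c : K) (u v : VV D lab x) : hh D lab x (c • u) v = c * hh D lab x u v := by
  unfold hh
  rw [Finset.mul_sum]
  apply Finset.sum_congr rfl
  intro z _
  show _ * (c * (u : Ix D x → K) z) = _
  ring

section
variable (h : Ctx D) (hlab : Lab D x lab) (h5 : ∀ x ∈ D, ∀ u ∈ Dn D x, (Ln D x u).ncard = 5) (hx : x ∈ D)
include h hlab h5 hx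

theorem herm_sq (y z : Ix D x) : (TT D lab x y z) ^ 2 = TT D lab x z y := (h.herm hlab h5 hx y.2 z.2).symm

theorem swap_sum (a b : Ix D x → K) : ∑ z : Ix D x, (b z) ^ 2 * Phi D lab x a z = ∑ y : Ix D x, a y * (Phi D lab x b y) ^ 2 := by
  simp only [Phi_apply, Finset.mul_sum, K4.sum_sq]
  rw [Finset.sum_comm]
  apply Finset.sum_congr rfl
  intro y _
  apply Finset.sum_congr rfl
  intro z _
  rw [mul_pow, herm_sq h hlab h5 hx z y]; ring

theorem hh_eq (f g : VV D lab x) (b : Ix D x → K) (hb : Phi D lab x b = g) :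
    hh D lab x f g = ∑ z : Ix D x, (b z) ^ 2 * (f : Ix D x → K) z := by
  obtain ⟨a, ha⟩ := f.2
  unfold hh
  have h1 := swap_sum h hlab h5 hx a g.2.choose
  have h2 := swap_sum h hlab h5 hx a b
  rw [g.2.choose_spec] at h1
  rw [hb] at h2
  rw [← ha, h1, h2]

theorem hh_herm (f g : VV D lab x) : hh D lab x g f = (hh D lab x f g) ^ 2 := by
  obtain ⟨a, ha⟩ := f.2
  obtain ⟨b, hb⟩ := g.2
  rw [hh_eq h hlab h5 hx f g b hb, hh_eq h hlab h5 hx g f a ha, ← ha, swap_sum h hlab h5 hx a b, K4.sum_sq]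
  apply Finset.sum_congr rfl
  intro y _
  rw [mul_pow, K4.pow4, hb]

theorem hh_add2 (u v w : VV D lab x) : hh D lab x u (v + w) = hh D lab x u v + hh D lab x u w := by
  rw [hh_herm h hlab h5 hx (v + w) u, hh_add, K4.sq_add, ← hh_herm h hlab h5 hx v u, ← hh_herm h hlab h5 hx w u]

theorem hh_smul2 (c : K) (u v : VV D lab x) : hh D lab x u (c • v) = c ^ 2 * hh D lab x u v := by
  rw [hh_herm h hlab h5 hx (c • v) u, hh_smul, mul_pow, ← hh_herm h hlab h5 hx v u]

end

theorem phi0_x : phi0 D lab x x = fun _ => 1 := by unfold phi0; rw [if_pos rfl]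
theorem phi0_u {u : G} (hu : u ∈ Dn D x) : phi0 D lab x u = fun z : Ix D x => lam D lab x u z := by
  unfold phi0; rw [if_neg hu.2.1, if_pos hu.2.2]
theorem phi0_y {y : G} (hy : y ∈ An D x) : phi0 D lab x y = fun z : Ix D x => TT D lab x y z := by
  have hne : y ≠ x := by
    intro hc
    apply hy.2
    rw [hc]
  unfold phi0; rw [if_neg hne, if_neg hy.2]

theorem phi0_y_mem {y : G} (hy : y ∈ An D x) : phi0 D lab x y ∈ LinearMap.range (Phi D lab x) := by
  classical
  refine ⟨Pi.single ⟨y, hy⟩ 1, ?_⟩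
  rw [phi0_y hy]
  funext z
  rw [Phi_apply, Finset.sum_eq_single (⟨y, hy⟩ : Ix D x)]
  · simp
  · intro b _ hb; simp [Pi.single_eq_of_ne hb]
  · intro hc; exact absurd (Finset.mem_univ _) hc

section
variable (h : Ctx D) (hlab : Lab D x lab) (h5 : ∀ x ∈ D, ∀ u ∈ Dn D x, (Ln D x u).ncard = 5) (hx : x ∈ D)
include h hlab h5 hx

theorem exists_An : ∃ y, y ∈ An D x := by
  obtain ⟨u, hu⟩ := h.exists_dn hx
  obtain ⟨y, hy, hyx⟩ := h.exists_nc hu.1 (h.Dn_symm hx hu)
  exact ⟨y, hy.1, fun hc => hyx hc.symm⟩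

theorem exists_An_u {u : G} (hu : u ∈ Dn D x) : ∃ y, y ∈ An D x ∧ u ∈ C D x y := by
  obtain ⟨y, hy, hyx⟩ := h.exists_nc hu.1 (h.Dn_symm hx hu)
  exact ⟨y, ⟨hy.1, fun hc => hyx hc.symm⟩, hu.1, hu.2.2, hy.2.2.symm⟩

theorem cj_An {y : G} (hy : y ∈ An D x) : cj x y ∈ An D x :=
  ⟨cj_mem h.grp x hy.1, fun hc => hy.2 (cj_comm_of_third (Commute.refl x) hc)⟩

/-- `V1` on functions -/
theorem fn_shift {y : G} (hy : y ∈ An D x) : phi0 D lab x (cj x y) = phi0 D lab x y + phi0 D lab x x := by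
  rw [phi0_y (cj_An h hlab h5 hx hy), phi0_y hy, phi0_x]
  funext z
  exact h.shift hlab h5 hx hy z.2

/-- `V2` on functions -/
theorem fn_line {y y' u : G} (hy : y ∈ An D x) (hu : u ∈ C D x y) (hy' : y' ∈ Ln D y u) (hy'u : y' ≠ u) (hy'y : y' ≠ y) :
    phi0 D lab x y' = phi0 D lab x y + (lab (cj (y * y') x) + lab u)⁻¹ • phi0 D lab x u := by
  rw [phi0_y (h.An_line hx hy hu hy' hy'u).1, phi0_y hy, phi0_u (h.C_left hy hu)]
  funext z
  exact h.addT hlab h5 hx hy z.2 hu hy' hy'u hy'y

/-- `V3` on functions -/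
theorem fn_x {u u' : G} (hu : u ∈ Dn D x) (hu' : u' ∈ Sx D x u) :
    phi0 D lab x u' = phi0 D lab x u + (lab u + lab u') • phi0 D lab x x := by
  have hu'D := h.S_Dn hx hu hu'
  rw [phi0_u hu'D, phi0_u hu, phi0_x]
  funext z
  show lam D lab x u' z = lam D lab x u z + (lab u + lab u') * 1
  have e : pr D x u' z = pr D x u z := by
    have s := h.pr_spec hx hu z.2.1 z.2.2
    symm
    apply h.pr_unique hx hu'D z.2.1 z.2.2 _ s.2.2
    rw [h.Ln_left hx hu hu'.1 hu'.2]; exact s.1
  unfold lam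
  rw [e]
  have := K4.add_self (lab u)
  linear_combination -this

theorem coef_ne {y y' u : G} (hy : y ∈ An D x) (hu : u ∈ C D x y) (hy' : y' ∈ Ln D y u) (hy'u : y' ≠ u) (hy'y : y' ≠ y) :
    lab (cj (y * y') x) + lab u ≠ 0 := by
  have huD := h.C_left hy hu
  have hyD : y ∈ Dn D u := h.Dn_symm hy.1 (h.C_right hy hu)
  have h1 := h.P_mem hx huD hyD hy.2 (by rw [Ln_symm]; exact hy') hy'u hy'y
  exact K4.sum_ne (fun hc => h1.2 (hlab.inj u huD h1.1 (mem_S huD) hc))

theorem phi0_mem {d : G} (hd : d ∈ D) : phi0 D lab x d ∈ LinearMap.range (Phi D lab x) := by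
  by_cases hdx : d = x
  · obtain ⟨y, hy⟩ := exists_An h hlab h5 hx
    have h1 := fn_shift h hlab h5 hx hy
    have h2 : phi0 D lab x x = phi0 D lab x (cj x y) + phi0 D lab x y := by
      rw [h1]; funext z
      show _ = phi0 D lab x y z + phi0 D lab x x z + phi0 D lab x y z
      have := K4.add_self (phi0 D lab x y z)
      linear_combination -this
    rw [hdx, h2]
    exact Submodule.add_mem _ (phi0_y_mem (cj_An h hlab h5 hx hy)) (phi0_y_mem hy)
  · by_cases hxd : Commute x d
    · have hdD : d ∈ Dn D x := ⟨hd, hdx, hxd⟩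
      obtain ⟨y, hy, hu⟩ := exists_An_u h hlab h5 hx hdD
      obtain ⟨y', hy', hy'y, hy'u⟩ := h.exists_third hy.1 (h.C_right hy hu)
      have h1 := fn_line h hlab h5 hx hy hu hy' hy'u hy'y
      have hc := coef_ne h hlab h5 hx hy hu hy' hy'u hy'y
      have h2 : phi0 D lab x d = (lab (cj (y * y') x) + lab d) • (phi0 D lab x y' + phi0 D lab x y) := by
        rw [h1]; funext z
        show phi0 D lab x d z = (lab (cj (y * y') x) + lab d) * (phi0 D lab x y z + (lab (cj (y * y') x) + lab d)⁻¹ * phi0 D lab x d z + phi0 D lab x y z)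
        have := K4.add_self (phi0 D lab x y z)
        have e : phi0 D lab x y z + (lab (cj (y * y') x) + lab d)⁻¹ * phi0 D lab x d z + phi0 D lab x y z =
          (lab (cj (y * y') x) + lab d)⁻¹ * phi0 D lab x d z := by linear_combination this
        rw [e, ← mul_assoc, mul_inv_cancel₀ hc, one_mul]
      rw [h2]
      exact Submodule.smul_mem _ _ (Submodule.add_mem _ (phi0_y_mem (h.An_line hx hy hu hy' hy'u).1) (phi0_y_mem hy))
    · exact phi0_y_mem ⟨hd, hxd⟩

theorem phi_coe {d : G} (hd : d ∈ D) : (phi D lab x d : Ix D x → K) = phi0 D lab x d := by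
  unfold phi; rw [dif_pos (phi0_mem h hlab h5 hx hd)]

theorem v_shift {y : G} (hy : y ∈ An D x) : phi D lab x (cj x y) = phi D lab x y + phi D lab x x := by
  apply Subtype.ext
  rw [Submodule.coe_add, phi_coe h hlab h5 hx (cj_An h hlab h5 hx hy).1, phi_coe h hlab h5 hx hy.1, phi_coe h hlab h5 hx hx]
  exact fn_shift h hlab h5 hx hy

theorem v_line {y y' u : G} (hy : y ∈ An D x) (hu : u ∈ C D x y) (hy' : y' ∈ Ln D y u) (hy'u : y' ≠ u) (hy'y : y' ≠ y) :
    phi D lab x y' = phi D lab x y + (lab (cj (y * y') x) + lab u)⁻¹ • phi D lab x u := by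
  apply Subtype.ext
  rw [Submodule.coe_add, Submodule.coe_smul, phi_coe h hlab h5 hx hy'.1, phi_coe h hlab h5 hx hy.1, phi_coe h hlab h5 hx hu.1]
  exact fn_line h hlab h5 hx hy hu hy' hy'u hy'y

theorem v_x {u u' : G} (hu : u ∈ Dn D x) (hu' : u' ∈ Sx D x u) :
    phi D lab x u' = phi D lab x u + (lab u + lab u') • phi D lab x x := by
  apply Subtype.ext
  rw [Submodule.coe_add, Submodule.coe_smul, phi_coe h hlab h5 hx hu'.1.1, phi_coe h hlab h5 hx hu.1, phi_coe h hlab h5 hx hx]
  exact fn_x h hlab h5 hx hu hu'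

theorem hh_An (f : VV D lab x) {z : G} (hz : z ∈ An D x) : hh D lab x f (phi D lab x z) = (f : Ix D x → K) ⟨z, hz⟩ := by
  classical
  rw [hh_eq h hlab h5 hx f _ (Pi.single ⟨z, hz⟩ 1)]
  · rw [Finset.sum_eq_single (⟨z, hz⟩ : Ix D x)]
    · simp
    · intro b _ hb; simp [Pi.single_eq_of_ne hb]
    · intro hc; exact absurd (Finset.mem_univ _) hc
  · rw [phi_coe h hlab h5 hx hz.1, phi0_y hz]
    funext w
    rw [Phi_apply, Finset.sum_eq_single (⟨z, hz⟩ : Ix D x)]
    · simp
    · intro b _ hb; simp [Pi.single_eq_of_ne hb]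
    · intro hc; exact absurd (Finset.mem_univ _) hc

theorem hh_nd (f : VV D lab x) (hf : ∀ v, hh D lab x f v = 0) : f = 0 := by
  apply Subtype.ext
  funext z
  have := hf (phi D lab x z)
  rw [hh_An h hlab h5 hx f z.2] at this
  exact this

theorem lam_zero_iff {u z : G} (hu : u ∈ Dn D x) (hz : z ∈ An D x) : lam D lab x u z = 0 ↔ Commute u z := by
  have s := h.pr_spec hx hu hz.1 hz.2
  constructor
  · intro hc
    unfold lam at hc
    have h1 : lab (pr D x u z) = lab u := by
      have := K4.add_self (lab u)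
      linear_combination hc - this
    have h2 := hlab.inj u hu ⟨s.1, s.2.1⟩ (mem_S hu) h1
    rw [h2] at s
    exact s.2.2.symm
  · intro hc
    have : u = pr D x u z := h.pr_unique hx hu hz.1 hz.2 (right_mem_Ln hu) hc.symm
    unfold lam; rw [← this, K4.add_self]

/-- perpendicular iff commuting, second argument noncommuting with `x` -/
theorem perp_An {a z : G} (ha : a ∈ D) (hz : z ∈ An D x) : hh D lab x (phi D lab x a) (phi D lab x z) = 0 ↔ Commute a z := by
  rw [hh_An h hlab h5 hx _ hz, phi_coe h hlab h5 hx ha]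
  by_cases hax : a = x
  · rw [hax, phi0_x]
    simp only [one_ne_zero, false_iff]
    exact hz.2
  · by_cases hxa : Commute x a
    · have haD : a ∈ Dn D x := ⟨ha, hax, hxa⟩
      rw [phi0_u haD]
      exact lam_zero_iff h hlab h5 hx haD hz
    · have haA : a ∈ An D x := ⟨ha, hxa⟩
      rw [phi0_y haA]
      constructor
      · intro hc
        by_contra hn
        exact h.TT_ne_zero hlab h5 hx haA hz hn hc
      · intro hc; exact TT_comm hc

theorem hh_zero_symm (f g : VV D lab x) : hh D lab x f g = 0 ↔ hh D lab x g f = 0 := by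
  rw [hh_herm h hlab h5 hx f g]
  constructor
  · intro hc; rw [hc]; norm_num
  · intro hc; exact pow_eq_zero_iff (by norm_num) |>.1 hc

/-- **perpendicular iff commuting** -/
theorem perp {a b : G} (ha : a ∈ D) (hb : b ∈ D) : hh D lab x (phi D lab x a) (phi D lab x b) = 0 ↔ Commute a b := by
  by_cases hxb : Commute x b
  swap
  · exact perp_An h hlab h5 hx ha ⟨hb, hxb⟩
  by_cases hxa : Commute x a
  swap
  · rw [hh_zero_symm h hlab h5 hx, perp_An h hlab h5 hx hb ⟨ha, hxa⟩]
    exact ⟨fun hc => hc.symm, fun hc => hc.symm⟩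
  -- both commute with `x`
  have key : ∀ a b : G, a ∈ D → Commute x a → b = x → hh D lab x (phi D lab x a) (phi D lab x b) = 0 := by
    intro a b ha hxa hbx
    obtain ⟨y, hy⟩ := exists_An h hlab h5 hx
    have hy2 := cj_An h hlab h5 hx hy
    have h1 := v_shift h hlab h5 hx hy
    have h2 : phi D lab x x = phi D lab x (cj x y) + phi D lab x y := by
      rw [h1, add_comm (phi D lab x y) (phi D lab x x), add_assoc]
      have : phi D lab x y + phi D lab x y = 0 := by
        apply Subtype.ext; funext z; exact K4.add_self _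
      rw [this, add_zero]
    rw [hbx, h2, hh_add2 h hlab h5 hx, hh_An h hlab h5 hx _ hy2, hh_An h hlab h5 hx _ hy, phi_coe h hlab h5 hx ha]
    by_cases hax : a = x
    · rw [hax, phi0_x]; exact K4.add_self 1
    · have haD : a ∈ Dn D x := ⟨ha, hax, hxa⟩
      rw [phi0_u haD]
      show lam D lab x a (cj x y) + lam D lab x a y = 0
      have e : pr D x a y = pr D x a (cj x y) := by
        have s := h.pr_spec hx haD hy.1 hy.2
        apply h.pr_unique hx haD hy2.1 hy2.2 s.1
        exact (cj_comm_of (Ln_comm_left hx haD s.1).symm s.2.2.symm).symm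
      unfold lam
      rw [← e]; exact K4.add_self _
  by_cases hbx : b = x
  · constructor
    · intro _; rw [hbx]; exact hxa.symm
    · intro _; exact key a b ha hxa hbx
  by_cases hax : a = x
  · constructor
    · intro _; rw [hax]; exact hxb
    · intro _; rw [hh_zero_symm h hlab h5 hx]; exact key b a hb hxb hax
  have haD : a ∈ Dn D x := ⟨ha, hax, hxa⟩
  have hbD : b ∈ Dn D x := ⟨hb, hbx, hxb⟩
  obtain ⟨y, hy, hu⟩ := exists_An_u h hlab h5 hx hbD
  have hbDy := h.C_right hy hu
  obtain ⟨y', hy', hy'y, hy'u⟩ := h.exists_third hy.1 hbDy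
  have h1 := v_line h hlab h5 hx hy hu hy' hy'u hy'y
  have hc := coef_ne h hlab h5 hx hy hu hy' hy'u hy'y
  have hy'A := (h.An_line hx hy hu hy' hy'u).1
  have h2 : hh D lab x (phi D lab x a) (phi D lab x y') = hh D lab x (phi D lab x a) (phi D lab x y) +
      ((lab (cj (y * y') x) + lab b)⁻¹) ^ 2 * hh D lab x (phi D lab x a) (phi D lab x b) := by
    rw [h1, hh_add2 h hlab h5 hx, hh_smul2 h hlab h5 hx]
  rw [hh_An h hlab h5 hx _ hy'A, hh_An h hlab h5 hx _ hy, phi_coe h hlab h5 hx ha, phi0_u haD] at h2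
  have h3 : lam D lab x a y' = lam D lab x a y + ((lab (cj (y * y') x) + lab b)⁻¹) ^ 2 * hh D lab x (phi D lab x a) (phi D lab x b) := h2
  have hcne : ((lab (cj (y * y') x) + lab b)⁻¹) ^ 2 ≠ 0 := pow_ne_zero _ (inv_ne_zero hc)
  have h4 : hh D lab x (phi D lab x a) (phi D lab x b) = 0 ↔ lam D lab x a y' = lam D lab x a y := by
    constructor
    · intro h0; rw [h3, h0, mul_zero, add_zero]
    · intro h0
      rw [h0] at h3
      have h5' : ((lab (cj (y * y') x) + lab b)⁻¹) ^ 2 * hh D lab x (phi D lab x a) (phi D lab x b) = 0 := by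
        have := h3; exact (add_eq_left.1 h3.symm)
      exact (mul_eq_zero.1 h5').resolve_left hcne
  rw [h4]
  have s := h.pr_spec hx haD hy.1 hy.2
  have s' := h.pr_spec hx haD hy'A.1 hy'A.2
  constructor
  · intro he
    unfold lam at he
    have e1 : pr D x a y' = pr D x a y := hlab.inj a haD ⟨s'.1, s'.2.1⟩ ⟨s.1, s.2.1⟩ (K4.sum_cancel he)
    rw [e1] at s'
    have h6 : Commute (pr D x a y) b :=
      h.two_all hy.1 hbDy s.1.1 (left_mem_Ln hy.1 hbDy) hy' hy'y.symm s.2.2.symm s'.2.2.symm b (right_mem_Ln hbDy)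
    exact ((h.comm_class hx hbD haD s.1 s.2.1 hbD.1 hbD.2.2).2 h6)
  · intro hab
    have h6 : Commute b (pr D x a y) := Ln_C ⟨hb, hxb, hab⟩ s.1
    have h7 : Commute y' (pr D x a y) := (Ln_C ⟨s.1.1, s.2.2, h6⟩ hy').symm
    have e := h.pr_unique hx haD hy'A.1 hy'A.2 s.1 h7
    unfold lam
    rw [e]

end

end H33.Pol
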