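import Mathlib
import Cfsg.Agent.Lib.H33.Quart2
import Cfsg.Agent.Lib.H33.DQuart
set_option autoImplicit false
open Cfsg

/-! Orbits of the stabiliser of a quartet on the quartets. -/

namespace H33.Quart3
open H8.GolayCode H8.GolayCount H8.GolayBasic H8.M24Mem H8.M24Chain H8.M24Trans H33.M24Tab H33.M24Cls H33.M24Pts H33.M12 H33.M12b H33.Quart H33.Quart2 H33.DQuart
open scoped Pointwise

/-- the intersection invariant -/
def nv (Q X : Finset (Finset GolayPt)) : ℕ := ∑ t ∈ Q, ∑ u ∈ X, ((t ∩ u).card ^ 2 + (t ∩ u).card ^ 3)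

theorem nv_im (g : Equiv.Perm GolayPt) (Q X : Finset (Finset GolayPt)) : nv (im g Q) (im g X) = nv Q X := by
  unfold nv im
  rw [Finset.sum_image (Finset.image_injective g.injective).injOn]
  apply Finset.sum_congr rfl
  intro t _
  rw [Finset.sum_image (Finset.image_injective g.injective).injOn]
  apply Finset.sum_congr rfl
  intro u _
  rw [← Finset.image_inter _ _ g.injective, Finset.card_image_of_injective _ g.injective]

def nvL (a b : List ℕ) : ℕ := (a.map fun x => (b.map fun y => pop (Nat.land x y) ^ 2 + pop (Nat.land x y) ^ 3).sum).sum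

theorem sum_qF {l : List ℕ} (hn : l.Nodup) (hlt : ∀ a ∈ l, a < 2 ^ 24) (f : Finset GolayPt → ℕ) :
    ∑ t ∈ qF l, f t = (l.map fun a => f (D a)).sum := by
  unfold qF
  rw [List.sum_toFinset _ (hn.map_on fun a ha b hb h => D_inj (hlt a ha) (hlt b hb) h), List.map_map]
  rfl

theorem nv_qF {a b : List ℕ} (ha : a.Nodup) (hla : ∀ x ∈ a, x < 2 ^ 24) (hb : b.Nodup) (hlb : ∀ x ∈ b, x < 2 ^ 24) :
    nv (qF a) (qF b) = nvL a b := by
  unfold nv nvL
  rw [sum_qF ha hla]
  congr 1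
  apply List.map_congr_left
  intro x hx
  rw [sum_qF hb hlb]
  congr 1
  apply List.map_congr_left
  intro y _
  rw [card_inter (hla x hx)]

/-- validity of a list of masks -/
def vL (a : List ℕ) : Bool := decide a.Nodup && a.all (fun x => Nat.blt x 16777216) && Nat.beq a.length 4

theorem vL_spec {a : List ℕ} (h : vL a = true) : a.Nodup ∧ (∀ x ∈ a, x < 2 ^ 24) ∧ a.length = 4 := by
  unfold vL at h
  rw [Bool.and_eq_true, Bool.and_eq_true, decide_eq_true_eq, List.all_eq_true, Nat.beq_eq] at h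
  refine ⟨h.1.1, fun x hx => ?_, h.2⟩
  have := h.1.2 x hx
  rw [Nat.blt_eq] at this
  exact this

/-- the table moves the quartet `a` to `b` -/
def mv (a b : List ℕ) (c : ℕ) : Bool := a.all fun x => H33.BitSet.memB b (actT c x)

theorem mv_spec {a b : List ℕ} {c : ℕ} (ha : vL a = true) (hb : vL b = true) (hc : okT c = true) (h : mv a b c = true) :
    im (elt c) (qF a) = qF b := by
  obtain ⟨na, la, ca⟩ := vL_spec ha
  obtain ⟨nb, lb, cb⟩ := vL_spec hb
  unfold mv at h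
  rw [List.all_eq_true] at h
  apply Finset.eq_of_subset_of_card_le
  · intro t ht
    obtain ⟨t', ht', rfl⟩ := Finset.mem_image.1 ht
    obtain ⟨x, hx, rfl⟩ := mem_qF.1 ht'
    rw [elt_image hc]
    exact mem_qF.2 ⟨_, (H33.BitSet.memB_iff _ _).1 (h x hx), rfl⟩
  · have h5 : (im (elt c) (qF a)).card = (qF a).card :=
      Finset.card_image_of_injective _ (Finset.image_injective (elt c).injective)
    rw [h5, card_qF na la, card_qF nb lb, ca, cb]

def hash (a : List ℕ) : ℕ := (a.map fun x => x * x).sum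

theorem hash_eq {a b : List ℕ} (ha : vL a = true) (hb : vL b = true) (h : qF a = qF b) : hash a = hash b := by
  obtain ⟨na, la, ca⟩ := vL_spec ha
  obtain ⟨nb, lb, cb⟩ := vL_spec hb
  have hp : a.Perm b := by
    apply (List.perm_ext_iff_of_nodup na nb).2
    intro x
    constructor
    · intro hx
      have h1 : D x ∈ qF b := by rw [← h]; exact mem_qF.2 ⟨x, hx, rfl⟩
      obtain ⟨y, hy, hxy⟩ := mem_qF.1 h1
      rwa [← D_inj (lb y hy) (la x hx) hxy]
    · intro hx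
      have h1 : D x ∈ qF a := by rw [h]; exact mem_qF.2 ⟨x, hx, rfl⟩
      obtain ⟨y, hy, hxy⟩ := mem_qF.1 h1
      rwa [← D_inj (la y hy) (lb x hx) hxy]
  exact (hp.map _).sum_eq

/-- the whole check for an orbit -/
def okOrb (X : List ℕ) (O : List (List ℕ × ℕ)) : Bool :=
  vL X && O.all fun p => vL p.1 && okS [] [m0] p.2 && mv q0.1 q0.1 p.2 && mv X p.1 p.2

theorem q0_vL : vL q0.1 = true := by decide +kernel

theorem O1_ok : okOrb X1 O1 = true := by decide +kernel
theorem O2_ok : okOrb X2 O2 = true := by decide +kernel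
theorem O3_ok : okOrb X3 O3 = true := by decide +kernel
theorem O4_ok : okOrb X4 O4 = true := by decide +kernel
theorem G1_ok : (okS [] [m0] G1 && mv q0.1 X1 G1) = true := by decide +kernel
theorem G2_ok : (okS [] [m0] G2 && mv q0.1 X2 G2) = true := by decide +kernel
theorem G3_ok : (okS [] [m0] G3 && mv q0.1 X3 G3) = true := by decide +kernel
theorem G4_ok : (okS [] [m0] G4 && mv q0.1 X4 G4) = true := by decide +kernel
theorem O1_h : (O1.map fun p => hash p.1).Nodup ∧ O1.length = 12 := by decide +kernel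
theorem O2_h : (O2.map fun p => hash p.1).Nodup ∧ O2.length = 27 := by decide +kernel
theorem O3_h : (O3.map fun p => hash p.1).Nodup ∧ O3.length = 72 := by decide +kernel
theorem O4_h : (O4.map fun p => hash p.1).Nodup ∧ O4.length = 108 := by decide +kernel
theorem nv0 : nvL q0.1 q0.1 = 144 := by decide +kernel
theorem nv1 : nvL q0.1 X1 = 54 := by decide +kernel
theorem nv2 : nvL q0.1 X2 = 56 := by decide +kernel
theorem nv3 : nvL q0.1 X3 = 48 := by decide +kernel
theorem nv4 : nvL q0.1 X4 = 32 := by decide +kernel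

section
variable {d : Finset GolayPt} {Q : Finset (Finset GolayPt)}

/-- one orbit -/
theorem orb {g : Equiv.Perm GolayPt} (hg : g ∈ M24) (hgd : d.image g = d0) (hgQ : im g Q = qF q0.1)
    {X : List ℕ} {O : List (List ℕ × ℕ)} {c v n : ℕ} (hO : okOrb X O = true)
    (hc : (okS [] [m0] c && mv q0.1 X c) = true) (hh : (O.map fun p => hash p.1).Nodup ∧ O.length = n)
    (hv : nvL q0.1 X = v) :
    ∃ Y ∈ quartets d, n ≤ (MulAction.orbit ↥(MulAction.stabilizer M24 d ⊓ MulAction.stabilizer M24 Q) Y).ncard ∧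
      MulAction.orbit ↥(MulAction.stabilizer M24 d ⊓ MulAction.stabilizer M24 Q) Y ⊆ quartets d ∧
      ∀ Z ∈ MulAction.orbit ↥(MulAction.stabilizer M24 d ⊓ MulAction.stabilizer M24 Q) Y, nv Q Z = v := by
  classical
  unfold okOrb at hO
  rw [Bool.and_eq_true, List.all_eq_true] at hO
  obtain ⟨hX, hO⟩ := hO
  rw [Bool.and_eq_true] at hc
  have hXv := vL_spec hX
  have hcm : im (elt c) (qF q0.1) = qF X := mv_spec q0_vL hX (okS_spec hc.1).1 hc.2
  have hXq : qF X ∈ quartets d0 := by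
    rw [← hcm]
    have h1 := quartets_image (elt_mem c) (qF_quartet q0_mem)
    rwa [show d0.image (elt c) = d0 from (okS_spec hc.1).2.2.2 m0 (by simp)] at h1
  have hgi : d0.image ⇑g⁻¹ = d := inv_image hgd
  have hgiQ : im g⁻¹ (qF q0.1) = Q := im_inv hgQ
  have hY : im g⁻¹ (qF X) ∈ quartets d := by
    have h1 := quartets_image (M24.inv_mem hg) hXq
    rwa [hgi] at h1
  refine ⟨im g⁻¹ (qF X), hY, ?_, ?_, ?_⟩
  · -- lower bound
    rw [← hh.2]
    have hinj : Function.Injective (im g⁻¹) := by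
      intro A B h
      have h1 := congrArg (im g) h
      rwa [← im_mul, ← im_mul, mul_inv_cancel, im_one, im_one] at h1
    have hnd : (O.map fun p => im g⁻¹ (qF p.1)).Nodup := by
      have h1 := hh.1
      rw [List.Nodup, List.pairwise_map] at h1 ⊢
      refine h1.imp_of_mem ?_
      intro a b ha hb hab h
      apply hab
      have h2 := hO a ha
      have h3 := hO b hb
      simp only [Bool.and_eq_true] at h2 h3
      exact hash_eq h2.1.1.1 h3.1.1.1 (hinj h)
    have hcard : (O.map fun p => im g⁻¹ (qF p.1)).toFinset.card = O.length := by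
      rw [List.toFinset_card_of_nodup hnd, List.length_map]
    rw [← hcard, ← Set.ncard_coe_finset]
    apply Set.ncard_le_ncard _ (Set.toFinite _)
    intro Z hZ
    rw [Finset.mem_coe, List.mem_toFinset, List.mem_map] at hZ
    obtain ⟨p, hp, rfl⟩ := hZ
    have h2 := hO p hp
    simp only [Bool.and_eq_true] at h2
    obtain ⟨⟨⟨k1, k2⟩, k3⟩, k4⟩ := h2
    obtain ⟨k5, k6⟩ := okS_spec k2
    have e1 : im (elt p.2) (qF q0.1) = qF q0.1 := mv_spec q0_vL q0_vL k5 k3
    have e2 : im (elt p.2) (qF X) = qF p.1 := mv_spec hX k1 k5 k4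
    have hmem : g⁻¹ * elt p.2 * g ∈ M24 := M24.mul_mem (M24.mul_mem (M24.inv_mem hg) (elt_mem _)) hg
    refine ⟨⟨⟨g⁻¹ * elt p.2 * g, hmem⟩, ?_, ?_⟩, ?_⟩
    · show d.image (g⁻¹ * elt p.2 * g) = d
      rw [image_mul, image_mul, hgd, show d0.image (elt p.2) = d0 from k6.2.2 m0 (by simp), hgi]
    · show im (g⁻¹ * elt p.2 * g) Q = Q
      rw [im_mul, im_mul, hgQ, e1, hgiQ]
    · show im (g⁻¹ * elt p.2 * g) (im g⁻¹ (qF X)) = _
      rw [← im_mul, mul_assoc, mul_inv_cancel, mul_one, im_mul, e2]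
  · rintro _ ⟨h, rfl⟩
    have h1 := quartets_image h.1.2 hY
    rwa [show d.image (h.1.1 : Equiv.Perm GolayPt) = d from h.2.1] at h1
  · rintro _ ⟨h, rfl⟩
    have h1 : im h.1.1 Q = Q := h.2.2
    show nv Q (im h.1.1 (im g⁻¹ (qF X))) = v
    have h2 : ∀ k : Equiv.Perm GolayPt, im k Q = Q → nv Q (im k (im g⁻¹ (qF X))) = v := by
      intro k hk
      have h3 : nv Q (im k (im g⁻¹ (qF X))) = nv (im k Q) (im k (im g⁻¹ (qF X))) := by rw [hk]
      rw [h3, nv_im]
      have h4 : nv Q (im g⁻¹ (qF X)) = nv (im g⁻¹ (qF q0.1)) (im g⁻¹ (qF X)) := by rw [hgiQ]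
      rw [h4, nv_im, nv_qF (vL_spec q0_vL).1 (vL_spec q0_vL).2.1 hXv.1 hXv.2.1, hv]
    exact h2 _ h1

end

theorem five {α : Type*} [Finite α] (T A0 A1 A2 A3 A4 : Set α) (f : α → ℕ) (hT : T.ncard = 220)
    (h0 : A0 ⊆ T) (h1 : A1 ⊆ T) (h2 : A2 ⊆ T) (h3 : A3 ⊆ T) (h4 : A4 ⊆ T)
    (f0 : ∀ x ∈ A0, f x = 144) (f1 : ∀ x ∈ A1, f x = 54) (f2 : ∀ x ∈ A2, f x = 56) (f3 : ∀ x ∈ A3, f x = 48)
    (f4 : ∀ x ∈ A4, f x = 32) (c0 : 1 ≤ A0.ncard) (c1 : 12 ≤ A1.ncard) (c2 : 27 ≤ A2.ncard) (c3 : 72 ≤ A3.ncard)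
    (c4 : 108 ≤ A4.ncard) :
    A1.ncard = 12 ∧ A2.ncard = 27 ∧ A3.ncard = 72 ∧ A4.ncard = 108 ∧ T = A0 ∪ A1 ∪ A2 ∪ A3 ∪ A4 := by
  have d1 : Disjoint A0 A1 := Set.disjoint_left.2 fun x hx hy => by
    have := f0 x hx; have := f1 x hy; omega
  have d2 : Disjoint (A0 ∪ A1) A2 := Set.disjoint_left.2 fun x hx hy => by
    have := f2 x hy
    rcases hx with hx | hx
    · have := f0 x hx; omega
    · have := f1 x hx; omega
  have d3 : Disjoint (A0 ∪ A1 ∪ A2) A3 := Set.disjoint_left.2 fun x hx hy => by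
    have := f3 x hy
    rcases hx with (hx | hx) | hx
    · have := f0 x hx; omega
    · have := f1 x hx; omega
    · have := f2 x hx; omega
  have d4 : Disjoint (A0 ∪ A1 ∪ A2 ∪ A3) A4 := Set.disjoint_left.2 fun x hx hy => by
    have := f4 x hy
    rcases hx with ((hx | hx) | hx) | hx
    · have := f0 x hx; omega
    · have := f1 x hx; omega
    · have := f2 x hx; omega
    · have := f3 x hx; omega
  have e1 := Set.ncard_union_eq d1 (Set.toFinite _) (Set.toFinite _)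
  have e2 := Set.ncard_union_eq d2 (Set.toFinite _) (Set.toFinite _)
  have e3 := Set.ncard_union_eq d3 (Set.toFinite _) (Set.toFinite _)
  have e4 := Set.ncard_union_eq d4 (Set.toFinite _) (Set.toFinite _)
  have hsub : A0 ∪ A1 ∪ A2 ∪ A3 ∪ A4 ⊆ T :=
    Set.union_subset (Set.union_subset (Set.union_subset (Set.union_subset h0 h1) h2) h3) h4
  have hle := Set.ncard_le_ncard hsub (Set.toFinite _)
  refine ⟨by omega, by omega, by omega, by omega, ?_⟩
  symm
  apply Set.eq_of_subset_of_ncard_le hsub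
  omega

theorem main {d : Finset GolayPt} (hd : d ∈ dodecads) {Q : Finset (Finset GolayPt)} (hQ : Q ∈ quartets d) :
    ∃ X₁ ∈ quartets d, ∃ X₂ ∈ quartets d, ∃ X₃ ∈ quartets d, ∃ X₄ ∈ quartets d,
      (MulAction.orbit ↥(MulAction.stabilizer M24 d ⊓ MulAction.stabilizer M24 Q) X₁).ncard = 12 ∧
      (MulAction.orbit ↥(MulAction.stabilizer M24 d ⊓ MulAction.stabilizer M24 Q) X₂).ncard = 27 ∧
      (MulAction.orbit ↥(MulAction.stabilizer M24 d ⊓ MulAction.stabilizer M24 Q) X₃).ncard = 72 ∧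
      (MulAction.orbit ↥(MulAction.stabilizer M24 d ⊓ MulAction.stabilizer M24 Q) X₄).ncard = 108 ∧
      quartets d = {Q} ∪ MulAction.orbit ↥(MulAction.stabilizer M24 d ⊓ MulAction.stabilizer M24 Q) X₁ ∪
        MulAction.orbit ↥(MulAction.stabilizer M24 d ⊓ MulAction.stabilizer M24 Q) X₂ ∪
        MulAction.orbit ↥(MulAction.stabilizer M24 d ⊓ MulAction.stabilizer M24 Q) X₃ ∪
        MulAction.orbit ↥(MulAction.stabilizer M24 d ⊓ MulAction.stabilizer M24 Q) X₄ := by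
  obtain ⟨g, hg, hgd, hgQ⟩ := to_std hd hQ
  obtain ⟨Y1, hY1, l1, s1, v1⟩ := orb hg hgd hgQ O1_ok G1_ok O1_h nv1
  obtain ⟨Y2, hY2, l2, s2, v2⟩ := orb hg hgd hgQ O2_ok G2_ok O2_h nv2
  obtain ⟨Y3, hY3, l3, s3, v3⟩ := orb hg hgd hgQ O3_ok G3_ok O3_h nv3
  obtain ⟨Y4, hY4, l4, s4, v4⟩ := orb hg hgd hgQ O4_ok G4_ok O4_h nv4
  refine ⟨Y1, hY1, Y2, hY2, Y3, hY3, Y4, hY4, ?_⟩
  refine five (quartets d) {Q} _ _ _ _ (nv Q) (card_quartets hd) (Set.singleton_subset_iff.2 hQ) s1 s2 s3 s4 ?_ v1 v2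
    v3 v4 (by rw [Set.ncard_singleton]) l1 l2 l3 l4
  rintro _ rfl
  rw [← im_inv hgQ, nv_im, nv_qF (vL_spec q0_vL).1 (vL_spec q0_vL).2.1 (vL_spec q0_vL).1 (vL_spec q0_vL).2.1, nv0]

end H33.Quart3
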