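import Mathlib
import Cfsg.Prelude.Def_SporadicCombinatorics
import Cfsg.Agent.Lib.H33.BitSet2
set_option autoImplicit false
open Cfsg

namespace H33.Ternary

theorem mem_tetracode (t : Fin 4 → ZMod 3) : t ∈ tetracode ↔ ∃ a b : ZMod 3, t = ![b, a, a + b, a + 2 * b] := by
  unfold tetracode
  rw [Submodule.mem_span_pair]
  constructor
  · rintro ⟨a, b, rfl⟩
    refine ⟨a, b, ?_⟩
    funext i; fin_cases i <;> (simp; try ring)
  · rintro ⟨a, b, rfl⟩
    refine ⟨a, b, ?_⟩
    funext i; fin_cases i <;> (simp; try ring)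

/-- the word with information coordinates `c` at the positions 5,7,8,9,10,11 -/
def enc (c : Fin 6 → ZMod 3) : ArrayPt → ZMod 3 := fun p =>
  (![![ -(c 0) - c 2 - c 3 - c 4 + c 5, -(c 0) + c 1 + c 2 + c 3 + c 5, -(c 0) - c 1 + c 3 - c 4 - c 5],
     ![ c 0 + c 1 - c 2 + c 3 - c 4, c 0 - c 1 + c 2 - c 4 + c 5, c 0],
     ![ - c 1 - c 2 + c 3 + c 4 + c 5, c 1, c 2],
     ![ c 3, c 4, c 5]] : Fin 4 → Fin 3 → ZMod 3) p.1 p.2

theorem e00 (c) : enc c (0, 0) = -(c 0) - c 2 - c 3 - c 4 + c 5 := rfl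
theorem e01 (c) : enc c (0, 1) = -(c 0) + c 1 + c 2 + c 3 + c 5 := rfl
theorem e02 (c) : enc c (0, 2) = -(c 0) - c 1 + c 3 - c 4 - c 5 := rfl
theorem e10 (c) : enc c (1, 0) = c 0 + c 1 - c 2 + c 3 - c 4 := rfl
theorem e11 (c) : enc c (1, 1) = c 0 - c 1 + c 2 - c 4 + c 5 := rfl
theorem e12 (c) : enc c (1, 2) = c 0 := rfl
theorem e20 (c) : enc c (2, 0) = - c 1 - c 2 + c 3 + c 4 + c 5 := rfl
theorem e21 (c) : enc c (2, 1) = c 1 := rfl
theorem e22 (c) : enc c (2, 2) = c 2 := rfl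
theorem e30 (c) : enc c (3, 0) = c 3 := rfl
theorem e31 (c) : enc c (3, 1) = c 4 := rfl
theorem e32 (c) : enc c (3, 2) = c 5 := rfl

/-- case split over the twelve positions -/
theorem forall_pt {P : ArrayPt → Prop} (h00 : P (0, 0)) (h01 : P (0, 1)) (h02 : P (0, 2))
    (h10 : P (1, 0)) (h11 : P (1, 1)) (h12 : P (1, 2)) (h20 : P (2, 0)) (h21 : P (2, 1)) (h22 : P (2, 2))
    (h30 : P (3, 0)) (h31 : P (3, 1)) (h32 : P (3, 2)) (p : ArrayPt) : P p := by
  obtain ⟨i, r⟩ := p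
  fin_cases i <;> fin_cases r <;> assumption

theorem sum_zmod3 {M : Type*} [AddCommMonoid M] (f : ZMod 3 → M) : ∑ r : ZMod 3, f r = f 0 + f 1 + f 2 :=
  Fin.sum_univ_three f

theorem isWord_iff (x : ArrayPt → ZMod 3) : IsTernaryGolayWord x ↔
    ∃ s : ZMod 3, (∀ i : Fin 4, ∑ r : ZMod 3, x (i, r) = -s) ∧
      ∀ a b : ZMod 3, ∑ i : Fin 4, x (i, (![b, a, a + b, a + 2 * b] : Fin 4 → ZMod 3) i) = s := by
  unfold IsTernaryGolayWord
  simp only [mem_tetracode]
  constructor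
  · rintro ⟨s, h1, h2⟩
    exact ⟨s, h1, fun a b => h2 _ ⟨a, b, rfl⟩⟩
  · rintro ⟨s, h1, h2⟩
    refine ⟨s, h1, ?_⟩
    rintro t ⟨a, b, rfl⟩
    exact h2 a b

theorem eq_enc_of_isWord (x : ArrayPt → ZMod 3) (hx : IsTernaryGolayWord x) :
    x = enc ![x (1, 2), x (2, 1), x (2, 2), x (3, 0), x (3, 1), x (3, 2)] := by
  rw [isWord_iff] at hx
  obtain ⟨s, h1, h2⟩ := hx
  have e0 := h1 0
  have e1 := h1 1
  have e2 := h1 2
  have e3 := h1 3
  simp only [sum_zmod3] at e0 e1 e2 e3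
  have t0 : x (0, 0) + x (1, 0) + x (2, 0) + x (3, 0) = s := by
    have := h2 0 0; rw [Fin.sum_univ_four] at this; exact this
  have t1 : x (0, 0) + x (1, 1) + x (2, 1) + x (3, 1) = s := by
    have := h2 1 0; rw [Fin.sum_univ_four] at this; exact this
  have t3 : x (0, 1) + x (1, 0) + x (2, 1) + x (3, 2) = s := by
    have := h2 0 1; rw [Fin.sum_univ_four] at this; exact this
  have h3 : (3 : ZMod 3) = 0 := by decide
  funext p
  revert p
  apply forall_pt
  · rw [e00]; show _ = -(x (1,2)) - x (2,2) - x (3,0) - x (3,1) + x (3,2)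
    linear_combination (1) * e1 + (1) * e2 + (-1) * e3 + (-1) * t0 + (-1) * t1 + ((1) * x (0, 0) + (1) * x (3, 0) + (1) * x (3, 1) + (-1) * s) * h3
  · rw [e01]; show _ = -(x (1,2)) + x (2,1) + x (2,2) + x (3,0) + x (3,2)
    linear_combination (1) * e1 + (-1) * e2 + (1) * e3 + (1) * t0 + (-1) * t1 + (1) * t3 + ((-1) * x (1, 0) + (-1) * x (3, 0) + (-1) * x (3, 2)) * h3
  · rw [e02]; show _ = -(x (1,2)) - x (2,1) + x (3,0) - x (3,1) - x (3,2)
    linear_combination (1) * e0 + (1) * e1 + (-1) * e3 + (-1) * t1 + (-1) * t3 + ((1) * x (2, 1) + (1) * x (3, 1) + (1) * x (3, 2) + (-1) * s) * h3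
  · rw [e10]; show _ = x (1,2) + x (2,1) - x (2,2) + x (3,0) - x (3,1)
    linear_combination (-1) * e1 + (1) * e2 + (-1) * t0 + (1) * t1 + ((1) * x (1, 0) + (-1) * x (2, 1)) * h3
  · rw [e11]; show _ = x (1,2) - x (2,1) + x (2,2) - x (3,1) + x (3,2)
    linear_combination (-1) * e1 + (-1) * e2 + (-1) * e3 + (1) * t0 + (-1) * t1 + ((1) * x (1, 1) + (1) * x (2, 1) + (1) * x (3, 1) + (1) * s) * h3
  · rfl
  · rw [e20]; show _ = - x (2,1) - x (2,2) + x (3,0) + x (3,1) + x (3,2)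
    linear_combination (1) * e2 + (-1) * e3
  · rfl
  · rfl
  · rfl
  · rfl
  · rfl

theorem isWord_enc (c : Fin 6 → ZMod 3) : IsTernaryGolayWord (enc c) := by
  rw [isWord_iff]
  have h3 : (3 : ZMod 3) = 0 := by decide
  refine ⟨-(c 3 + c 4 + c 5), ?_, ?_⟩
  · intro i
    rw [sum_zmod3, neg_neg]
    fin_cases i
    · show enc c (0, 0) + enc c (0, 1) + enc c (0, 2) = _
      rw [e00, e01, e02]; linear_combination ((-1) * c 0 + (-1) * c 4) * h3
    · show enc c (1, 0) + enc c (1, 1) + enc c (1, 2) = _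
      rw [e10, e11, e12]; linear_combination ((1) * c 0 + (-1) * c 4) * h3
    · show enc c (2, 0) + enc c (2, 1) + enc c (2, 2) = _
      rw [e20, e21, e22]; ring
    · show enc c (3, 0) + enc c (3, 1) + enc c (3, 2) = _
      rw [e30, e31, e32]
  · intro a b
    rw [Fin.sum_univ_four]
    fin_cases a <;> fin_cases b
    · show enc c (0, 0) + enc c (1, 0) + enc c (2, 0) + enc c (3, 0) = _
      rw [e00, e10, e20, e30]; linear_combination ((-1) * c 2 + (1) * c 3 + (1) * c 5) * h3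
    · show enc c (0, 1) + enc c (1, 0) + enc c (2, 1) + enc c (3, 2) = _
      rw [e01, e10, e21, e32]; linear_combination ((1) * c 1 + (1) * c 3 + (1) * c 5) * h3
    · show enc c (0, 2) + enc c (1, 0) + enc c (2, 2) + enc c (3, 1) = _
      rw [e02, e10, e22, e31]; linear_combination ((1) * c 3) * h3
    · show enc c (0, 0) + enc c (1, 1) + enc c (2, 1) + enc c (3, 1) = _
      rw [e00, e11, e21, e31]; linear_combination ((1) * c 5) * h3
    · show enc c (0, 1) + enc c (1, 1) + enc c (2, 2) + enc c (3, 0) = _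
      rw [e01, e11, e22, e30]; linear_combination ((1) * c 2 + (1) * c 3 + (1) * c 5) * h3
    · show enc c (0, 2) + enc c (1, 1) + enc c (2, 0) + enc c (3, 2) = _
      rw [e02, e11, e20, e32]; linear_combination ((-1) * c 1 + (1) * c 3 + (1) * c 5) * h3
    · show enc c (0, 0) + enc c (1, 2) + enc c (2, 2) + enc c (3, 2) = _
      rw [e00, e12, e22, e32]; linear_combination ((1) * c 5) * h3
    · show enc c (0, 1) + enc c (1, 2) + enc c (2, 0) + enc c (3, 1) = _
      rw [e01, e12, e20, e31]; linear_combination ((1) * c 3 + (1) * c 4 + (1) * c 5) * h3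
    · show enc c (0, 2) + enc c (1, 2) + enc c (2, 1) + enc c (3, 0) = _
      rw [e02, e12, e21, e30]; linear_combination ((1) * c 3) * h3

theorem mem_code_iff (x : ArrayPt → ZMod 3) : x ∈ ternaryGolayCode ↔ ∃ c, enc c = x := by
  constructor
  · intro hx
    exact ⟨_, (eq_enc_of_isWord x hx).symm⟩
  · rintro ⟨c, rfl⟩
    exact isWord_enc c

theorem enc_injective : Function.Injective enc := by
  intro c d h
  have h0 := congrFun h (1, 2)
  have h1 := congrFun h (2, 1)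
  have h2 := congrFun h (2, 2)
  have h3 := congrFun h (3, 0)
  have h4 := congrFun h (3, 1)
  have h5 := congrFun h (3, 2)
  funext i
  fin_cases i
  · exact h0
  · exact h1
  · exact h2
  · exact h3
  · exact h4
  · exact h5

/-- the code words correspond to their information coordinates -/
noncomputable def encEquiv : (Fin 6 → ZMod 3) ≃ ternaryGolayCode :=
  Equiv.ofBijective (fun c => ⟨enc c, isWord_enc c⟩)
    ⟨fun c d h => enc_injective (congrArg Subtype.val h), fun x => by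
      obtain ⟨c, hc⟩ := (mem_code_iff x.1).1 x.2
      exact ⟨c, Subtype.ext hc⟩⟩

end H33.Ternary
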