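import Mathlib
import Cfsg.Agent.Lib.H33.Ternary
set_option autoImplicit false
open Cfsg

/-! Kernel-friendly enumeration of the 729 words of the ternary code. -/

namespace H33.Ternary
open H33.BitSet

/-- position of a point of the array in `{0,..,11}` -/
def idx (p : ArrayPt) : ℕ := 3 * p.1.val + p.2.val

theorem idx_inj : Function.Injective idx := by
  intro a b h
  revert a b
  decide

theorem idx_lt (p : ArrayPt) : idx p < 12 := by revert p; decide

theorem idx_surj : ∀ k < 12, ∃ p, idx p = k := by decide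

/-- value at position `k` of the `n`-th word, as a natural number modulo 3 -/
def valN (n k : ℕ) : ℕ :=
  match k with
  | 0 => 2 * n + 2 * (n / 9) + 2 * (n / 27) + 2 * (n / 81) + n / 243
  | 1 => 2 * n + n / 3 + n / 9 + n / 27 + n / 243
  | 2 => 2 * n + 2 * (n / 3) + n / 27 + 2 * (n / 81) + 2 * (n / 243)
  | 3 => n + n / 3 + 2 * (n / 9) + n / 27 + 2 * (n / 81)
  | 4 => n + 2 * (n / 3) + n / 9 + 2 * (n / 81) + n / 243
  | 5 => n
  | 6 => 2 * (n / 3) + 2 * (n / 9) + n / 27 + n / 81 + n / 243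
  | 7 => n / 3
  | 8 => n / 9
  | 9 => n / 27
  | 10 => n / 81
  | 11 => n / 243
  | _ => 0

/-- the information coordinates of the `n`-th word -/
def dig (n : ℕ) : Fin 6 → ZMod 3 := fun i => ((n / 3 ^ (i : ℕ) : ℕ) : ZMod 3)

theorem enc_dig (n : ℕ) (p : ArrayPt) : enc (dig n) p = (valN n (idx p) : ZMod 3) := by
  have h3 : (3 : ZMod 3) = 0 := by decide
  have d0 : dig n 0 = (n : ZMod 3) := by show ((n / 1 : ℕ) : ZMod 3) = n; rw [Nat.div_one]
  have d1 : dig n 1 = ((n / 3 : ℕ) : ZMod 3) := rfl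
  have d2 : dig n 2 = ((n / 9 : ℕ) : ZMod 3) := rfl
  have d3 : dig n 3 = ((n / 27 : ℕ) : ZMod 3) := rfl
  have d4 : dig n 4 = ((n / 81 : ℕ) : ZMod 3) := rfl
  have d5 : dig n 5 = ((n / 243 : ℕ) : ZMod 3) := rfl
  revert p
  apply forall_pt
  · rw [e00, d0, d2, d3, d4, d5]
    show _ = ((2 * n + 2 * (n / 9) + 2 * (n / 27) + 2 * (n / 81) + n / 243 : ℕ) : ZMod 3)
    simp only [Nat.cast_add, Nat.cast_mul, Nat.cast_ofNat]
    linear_combination (-(n : ZMod 3) - ((n/9 : ℕ) : ZMod 3) - ((n/27 : ℕ) : ZMod 3) - ((n/81 : ℕ) : ZMod 3)) * h3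
  · rw [e01, d0, d1, d2, d3, d5]
    show _ = ((2 * n + n / 3 + n / 9 + n / 27 + n / 243 : ℕ) : ZMod 3)
    simp only [Nat.cast_add, Nat.cast_mul, Nat.cast_ofNat]
    linear_combination (-(n : ZMod 3)) * h3
  · rw [e02, d0, d1, d3, d4, d5]
    show _ = ((2 * n + 2 * (n / 3) + n / 27 + 2 * (n / 81) + 2 * (n / 243) : ℕ) : ZMod 3)
    simp only [Nat.cast_add, Nat.cast_mul, Nat.cast_ofNat]
    linear_combination (-(n : ZMod 3) - ((n/3 : ℕ) : ZMod 3) - ((n/81 : ℕ) : ZMod 3) - ((n/243 : ℕ) : ZMod 3)) * h3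
  · rw [e10, d0, d1, d2, d3, d4]
    show _ = ((n + n / 3 + 2 * (n / 9) + n / 27 + 2 * (n / 81) : ℕ) : ZMod 3)
    simp only [Nat.cast_add, Nat.cast_mul, Nat.cast_ofNat]
    linear_combination (- ((n/9 : ℕ) : ZMod 3) - ((n/81 : ℕ) : ZMod 3)) * h3
  · rw [e11, d0, d1, d2, d4, d5]
    show _ = ((n + 2 * (n / 3) + n / 9 + 2 * (n / 81) + n / 243 : ℕ) : ZMod 3)
    simp only [Nat.cast_add, Nat.cast_mul, Nat.cast_ofNat]
    linear_combination (- ((n/3 : ℕ) : ZMod 3) - ((n/81 : ℕ) : ZMod 3)) * h3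
  · rw [e12, d0]; rfl
  · rw [e20, d1, d2, d3, d4, d5]
    show _ = ((2 * (n / 3) + 2 * (n / 9) + n / 27 + n / 81 + n / 243 : ℕ) : ZMod 3)
    simp only [Nat.cast_add, Nat.cast_mul, Nat.cast_ofNat]
    linear_combination (- ((n/3 : ℕ) : ZMod 3) - ((n/9 : ℕ) : ZMod 3)) * h3
  · rw [e21, d1]; rfl
  · rw [e22, d2]; rfl
  · rw [e30, d3]; rfl
  · rw [e31, d4]; rfl
  · rw [e32, d5]; rfl

/-- support mask of the `n`-th word -/
def smask (n : ℕ) : ℕ := maskOf 12 (fun k => !Nat.beq (valN n k % 3) 0)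

theorem dec_smask (n : ℕ) : dec idx (smask n) = ternarySupport (enc (dig n)) := by
  rw [smask, dec_maskOf idx idx_lt, ternarySupport]
  ext p
  simp only [Finset.mem_filter, Finset.mem_univ, true_and, enc_dig, ne_eq, ZMod.natCast_eq_zero_iff]
  rw [Bool.not_eq_true', ← Bool.not_eq_true, Nat.beq_eq, Nat.dvd_iff_mod_eq_zero]

theorem card_support (n : ℕ) : (ternarySupport (enc (dig n))).card = pop 12 (smask n) := by
  rw [← dec_smask, card_dec idx_inj idx_lt idx_surj]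

/-- the digits give a bijection of `{0,..,728}` with the information words -/
noncomputable def digEquiv : Fin 729 ≃ (Fin 6 → ZMod 3) :=
  (finFunctionFinEquiv (m := 3) (n := 6)).symm

theorem digEquiv_apply (n : Fin 729) : digEquiv n = dig n := by
  funext i
  have h1 : ZMod.val (digEquiv n i) = (n : ℕ) / 3 ^ (i : ℕ) % 3 :=
    finFunctionFinEquiv_symm_apply_val (m := 3) (n := 6) n i
  apply ZMod.val_injective
  rw [h1]
  show _ = (((n : ℕ) / 3 ^ (i : ℕ) : ℕ) : ZMod 3).val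
  rw [ZMod.val_natCast]

theorem exists_dig (c : Fin 6 → ZMod 3) : ∃ n < 729, dig n = c :=
  ⟨digEquiv.symm c, (digEquiv.symm c).2, by rw [← digEquiv_apply, Equiv.apply_symm_apply]⟩

theorem mem_code_iff' (x : ArrayPt → ZMod 3) : x ∈ ternaryGolayCode ↔ ∃ n < 729, enc (dig n) = x := by
  rw [mem_code_iff]
  constructor
  · rintro ⟨c, rfl⟩
    obtain ⟨n, hn, rfl⟩ := exists_dig c
    exact ⟨n, hn, rfl⟩
  · rintro ⟨n, _, rfl⟩; exact ⟨_, rfl⟩

theorem dig_injOn {n m : ℕ} (hn : n < 729) (hm : m < 729) (h : dig n = dig m) : n = m := by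
  have : (digEquiv ⟨n, hn⟩) = digEquiv ⟨m, hm⟩ := by
    rw [digEquiv_apply, digEquiv_apply]; exact h
  have := digEquiv.injective this
  exact congrArg Fin.val this

/-- counting words by a property of the support -/
theorem ncard_words (P : ℕ → Bool) (Q : (ArrayPt → ZMod 3) → Prop)
    (hPQ : ∀ n < 729, P n = true ↔ Q (enc (dig n))) :
    {x : ArrayPt → ZMod 3 | x ∈ ternaryGolayCode ∧ Q x}.ncard = countB 729 P := by
  rw [countB_eq]
  have : {x : ArrayPt → ZMod 3 | x ∈ ternaryGolayCode ∧ Q x} =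
      (fun n => enc (dig n)) '' (((Finset.range 729).filter fun k => P k = true : Finset ℕ) : Set ℕ) := by
    ext x
    rw [Set.mem_ofPred_eq, mem_code_iff']
    simp only [Finset.coe_filter, Finset.mem_range, Set.mem_image]
    constructor
    · rintro ⟨⟨n, hn, rfl⟩, hq⟩
      exact ⟨n, ⟨hn, (hPQ n hn).2 hq⟩, rfl⟩
    · rintro ⟨n, ⟨hn, hp⟩, rfl⟩
      exact ⟨⟨n, hn, rfl⟩, (hPQ n hn).1 hp⟩
  rw [this, Set.InjOn.ncard_image, Set.ncard_coe_finset]
  intro n hn m hm h
  simp only [Finset.coe_filter, Finset.mem_range] at hn hm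
  exact dig_injOn hn.1 hm.1 (enc_injective h)

theorem card_code : Nat.card ternaryGolayCode = 729 := by
  rw [← Nat.card_congr encEquiv, ← Nat.card_congr digEquiv, Nat.card_fin]

theorem weights : allB 729 (fun n => Nat.beq n 0 || Nat.beq (pop 12 (smask n)) 6 || Nat.beq (pop 12 (smask n)) 9
    || Nat.beq (pop 12 (smask n)) 12) = true := by
  decide +kernel

theorem count6 : countB 729 (fun n => Nat.beq (pop 12 (smask n)) 6) = 264 := by decide +kernel
theorem count9 : countB 729 (fun n => Nat.beq (pop 12 (smask n)) 9) = 440 := by decide +kernel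
theorem count12 : countB 729 (fun n => Nat.beq (pop 12 (smask n)) 12) = 24 := by decide +kernel

end H33.Ternary
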