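import Mathlib
import Cfsg.Agent.Lib.H33.Ternary2
set_option autoImplicit false
open Cfsg

/-! The hexads of the ternary code. -/

namespace H33.Ternary
open H33.BitSet

/-- masks of the 132 hexads, with the index of a word having that support -/
def hexP : List (ℕ × ℕ) :=
  [(63, 1), (222, 3), (237, 4), (243, 5), (347, 9), (366, 11), (373, 10), (413, 15), (427, 16), (438, 
17), (455, 12), (504, 14), (591, 27), (630, 29), (633, 28), (667, 30), (679, 31), (700, 32), (725, 
33), (746, 35), (791, 36), (813, 38), (826, 37), (860, 45), (867, 46), (910, 51), (945, 53), (969, 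
39), (978, 48), (996, 43), (1117, 81), (1127, 82), (1146, 83), (1175, 84), (1198, 86), (1209, 85), 
(1227, 87), (1268, 89), (1295, 90), (1331, 92), (1340, 91), (1366, 99), (1385, 101), (1434, 105), 
(1445, 106), (1484, 102), (1489, 96), (1506, 94), (1566, 135), (1579, 136), (1589, 137), (1619, 
108), (1644, 109), (1677, 114), (1714, 115), (1734, 141), (1752, 138), (1761, 113), (1817, 126), 
(1830, 128), (1861, 144), (1866, 117), (1904, 154), (1923, 156), (1940, 120), (1960, 152), (2135, 
243), (2155, 245), (2172, 244), (2191, 246), (2229, 248), (2234, 247), (2265, 249), (2278, 250), 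
(2334, 252), (2343, 253), (2361, 254), (2381, 261), (2418, 263), (2451, 267), (2476, 269), (2506, 
258), (2516, 255), (2529, 265), (2589, 297), (2606, 299), (2611, 298), (2650, 270), (2661, 272), 
(2710, 276), (2729, 277), (2755, 300), (2764, 273), (2800, 305), (2827, 288), (2868, 289), (2886, 
315), (2897, 279), (2920, 307), (2949, 312), (2968, 318), (2978, 284), (3099, 405), (3117, 406), 
(3126, 407), (3150, 324), (3185, 325), (3228, 330), (3235, 332), (3269, 411), (3282, 327), (3304, 
410), (3349, 342), (3370, 343), (3395, 414), (3416, 423), (3428, 335), (3462, 426), (3465, 336), 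
(3504, 421), (3591, 351), (3640, 353), (3657, 378), (3668, 459), (3682, 433), (3722, 465), (3729, 
435), (3748, 382), (3852, 441), (3858, 387), (3873, 479), (4032, 375)]

/-- masks of the hexads -/
def hexL : List ℕ := hexP.map Prod.fst

theorem hexP_ok : allL hexP (fun q => Nat.blt q.1 4096 && Nat.blt q.2 729 && Nat.beq (smask q.2) q.1 && Nat.beq (pop 12 q.1) 6) = true := by
  decide +kernel

theorem hexP_complete : allB 729 (fun n => !Nat.beq (pop 12 (smask n)) 6 || memB hexL (smask n)) = true := by
  decide +kernel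

theorem hexL_nodup : hexL.Nodup := by decide +kernel

theorem hexL_length : hexL.length = 132 := by decide +kernel

theorem hexL_steiner : allB 4096 (fun m => !Nat.beq (pop 12 m) 5 || Nat.beq (countL hexL (fun h => Nat.beq (Nat.land h m) m)) 1) = true := by
  decide +kernel

/-- the hexads -/
abbrev HS : Set (Finset ArrayPt) := {h : Finset ArrayPt | ∃ x ∈ ternaryGolayCode, ternarySupport x = h ∧ h.card = 6}

theorem mem_hexL {m : ℕ} (hm : m ∈ hexL) : m < 4096 ∧ pop 12 m = 6 ∧ ∃ n < 729, smask n = m := by
  rw [hexL, List.mem_map] at hm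
  obtain ⟨q, hq, rfl⟩ := hm
  have := (allL_iff _ _).1 hexP_ok q hq
  simp only [Bool.and_eq_true, Nat.beq_eq, Nat.blt_eq] at this
  exact ⟨this.1.1.1, this.2, q.2, this.1.1.2, this.1.2⟩

theorem mem_HS (h : Finset ArrayPt) : h ∈ HS ↔ ∃ m ∈ hexL, dec idx m = h := by
  constructor
  · rintro ⟨x, hx, rfl, hc⟩
    obtain ⟨n, hn, rfl⟩ := (mem_code_iff' x).1 hx
    rw [card_support] at hc
    have := (allB_iff _ _).1 hexP_complete n hn
    rw [Bool.or_eq_true, Bool.not_eq_true', hc] at this
    rcases this with h | h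
    · exact absurd h (by decide)
    · exact ⟨smask n, (memB_iff _ _).1 h, dec_smask n⟩
  · rintro ⟨m, hm, rfl⟩
    obtain ⟨h1, h2, n, hn, rfl⟩ := mem_hexL hm
    refine ⟨enc (dig n), (mem_code_iff' _).2 ⟨n, hn, rfl⟩, (dec_smask n).symm, ?_⟩
    rw [card_dec idx_inj idx_lt idx_surj, h2]

theorem exists_mask12 (s : Finset ArrayPt) : ∃ m < 4096, dec idx m = s :=
  exists_mask idx_inj idx_lt s

theorem steiner : IsSteinerSystem 5 6 HS := by
  refine ⟨fun b hb => ?_, fun s hs => ?_⟩
  · obtain ⟨x, _, _, h⟩ := hb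
    exact h
  · obtain ⟨m, hm, rfl⟩ := exists_mask12 s
    rw [card_dec idx_inj idx_lt idx_surj] at hs
    have := (allB_iff _ _).1 hexL_steiner m hm
    rw [Bool.or_eq_true, Bool.not_eq_true', hs, Nat.beq_eq, countL_eq] at this
    rcases this with h | h
    · exact absurd h (by decide)
    · obtain ⟨a, ha⟩ := List.length_eq_one_iff.1 h
      have hmem : ∀ b, b ∈ hexL ∧ Nat.land b m = m ↔ b = a := by
        intro b
        have : b = a ↔ b ∈ [a] := List.mem_singleton.symm
        rw [this, ← ha, List.mem_filter, Nat.beq_eq]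
      have h1 := (hmem a).2 rfl
      refine ⟨dec idx a, ⟨(mem_HS _).2 ⟨a, h1.1, rfl⟩, ?_⟩, ?_⟩
      · rw [dec_subset_iff idx_lt idx_surj hm, Nat.land_comm]; exact h1.2
      · rintro b ⟨hb, hsub⟩
        obtain ⟨b', hb', rfl⟩ := (mem_HS _).1 hb
        rw [dec_subset_iff idx_lt idx_surj hm, Nat.land_comm] at hsub
        rw [(hmem b').1 ⟨hb', hsub⟩]

theorem ncard_HS : HS.ncard = 132 := by
  classical
  have : HS = (dec idx) '' ((hexL.toFinset : Finset ℕ) : Set ℕ) := by
    ext h
    rw [mem_HS, Set.mem_image]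
    simp
  rw [this, Set.InjOn.ncard_image, Set.ncard_coe_finset, List.toFinset_card_of_nodup hexL_nodup, hexL_length]
  intro a ha b hb h
  simp only [List.coe_toFinset] at ha hb
  exact dec_injOn idx_surj (mem_hexL ha).1 (mem_hexL hb).1 h

end H33.Ternary
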