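import Mathlib
import Cfsg.Agent.Lib.H33.Ternary3
import Cfsg.Agent.S1590
set_option autoImplicit false
open Cfsg

/-! Diagonal automorphisms of the ternary code. -/

namespace H33.Ternary
open H33.BitSet

theorem weight_ge_six {x : ArrayPt → ZMod 3} (hx : x ∈ ternaryGolayCode) (h0 : x ≠ 0) :
    6 ≤ (ternarySupport x).card := by
  rcases Cfsg.Agent.S1590.result.2.1 x hx h0 with h | h | h <;> omega

theorem unit_cases (u : (ZMod 3)ˣ) : u = 1 ∨ u = -1 := by
  revert u; decide

theorem exists_hexad (p q : ArrayPt) : ∃ h ∈ HS, p ∈ h ∧ q ∈ h := by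
  have h1 : ({p, q} : Finset ArrayPt).card ≤ 5 := (Finset.card_le_two).trans (by norm_num)
  obtain ⟨s, hs, hs5⟩ := Finset.exists_superset_card_eq h1 (by simp)
  obtain ⟨b, ⟨hb, hsb⟩, _⟩ := steiner.2 s hs5
  exact ⟨b, hb, hsb (hs (by simp)), hsb (hs (by simp))⟩

/-- sign changes preserving the code are constant -/
theorem diag_const (c : ArrayPt → (ZMod 3)ˣ)
    (h : ∀ x ∈ ternaryGolayCode, monomialMap 1 c x ∈ ternaryGolayCode) :
    (∀ p, c p = 1) ∨ (∀ p, c p = -1) := by
  have key : ∀ b ∈ HS, ∀ p ∈ b, ∀ q ∈ b, c p = 1 → c q = 1 := by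
    rintro b ⟨x, hx, rfl, hc⟩ p hp q hq hcp
    have hmem : x + monomialMap 1 c x ∈ ternaryGolayCode := Submodule.add_mem _ hx (h x hx)
    have hval : ∀ r, (x + monomialMap 1 c x) r = if c r = 1 then 2 * x r else 0 := by
      intro r
      have : (x + monomialMap 1 c x) r = x r + (c r : ZMod 3) * x r := rfl
      rw [this]
      rcases unit_cases (c r) with h1 | h1
      · rw [h1, if_pos rfl]; push_cast; ring
      · rw [h1, if_neg (by decide)]; push_cast; ring
    have hp' : x p ≠ 0 := by simpa [ternarySupport] using hp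
    have h2 : ∀ a : ZMod 3, a ≠ 0 → 2 * a ≠ 0 := by decide
    have hne : x + monomialMap 1 c x ≠ 0 := by
      intro h0
      have := congrFun h0 p
      rw [hval, if_pos hcp] at this
      exact h2 _ hp' this
    have hw := weight_ge_six hmem hne
    have hsub : ternarySupport (x + monomialMap 1 c x) ⊆ ternarySupport x := by
      intro r hr
      simp only [ternarySupport, Finset.mem_filter, Finset.mem_univ, true_and, hval] at hr ⊢
      intro h0
      rw [h0] at hr
      simp at hr
    have heq := Finset.eq_of_subset_of_card_le hsub (by rw [hc]; exact hw)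
    rw [← heq] at hq
    simp only [ternarySupport, Finset.mem_filter, Finset.mem_univ, true_and, hval] at hq
    by_contra hcq
    rw [if_neg hcq] at hq
    exact hq rfl
  by_cases hall : ∀ p, c p = 1
  · exact Or.inl hall
  · right
    push Not at hall
    obtain ⟨p, hp⟩ := hall
    intro q
    rcases unit_cases (c q) with h1 | h1
    · exfalso
      obtain ⟨b, hb, hpb, hqb⟩ := exists_hexad p q
      exact hp (key b hb q hqb p hpb h1)
    · exact h1

end H33.Ternary
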