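import Mathlib
import Cfsg.Agent.Lib.H33.Ternary5
set_option autoImplicit false
open Cfsg

/-! The monomial group of the ternary code: structure. -/

namespace H33.Ternary
open H33.BitSet
open scoped Pointwise

/-- position to point -/
def pt (k : ℕ) : ArrayPt := (Fin.ofNat 4 (k / 3), ((k % 3 : ℕ) : ZMod 3))

theorem pt_idx (p : ArrayPt) : pt (idx p) = p := by revert p; decide
theorem idx_pt : ∀ k < 12, idx (pt k) = k := by decide

section mono

/-- the pair `(σ, c)` preserves the code -/
def Pres (σ : Equiv.Perm ArrayPt) (c : ArrayPt → (ZMod 3)ˣ) : Prop :=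
  ∀ x ∈ ternaryGolayCode, monomialMap σ c x ∈ ternaryGolayCode

theorem mono_mul (σ τ : Equiv.Perm ArrayPt) (c d : ArrayPt → (ZMod 3)ˣ) (x : ArrayPt → ZMod 3) :
    monomialMap σ c (monomialMap τ d x) = monomialMap (σ * τ) (fun i => c i * d (σ.symm i)) x := by
  funext i
  simp only [monomialMap, Units.val_mul, mul_assoc]
  rfl

theorem Pres.mul {σ τ : Equiv.Perm ArrayPt} {c d : ArrayPt → (ZMod 3)ˣ} (h1 : Pres σ c) (h2 : Pres τ d) :
    Pres (σ * τ) (fun i => c i * d (σ.symm i)) := by
  intro x hx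
  rw [← mono_mul]
  exact h1 _ (h2 _ hx)

theorem Pres.one : Pres 1 (fun _ => 1) := by
  intro x hx
  have : monomialMap (1 : Equiv.Perm ArrayPt) (fun _ => (1 : (ZMod 3)ˣ)) x = x := by
    funext i; simp only [monomialMap, Units.val_one, one_mul]; rfl
  rwa [this]

theorem Pres.neg {σ : Equiv.Perm ArrayPt} {c : ArrayPt → (ZMod 3)ˣ} (h1 : Pres σ c) :
    Pres σ (fun i => -c i) := by
  intro x hx
  have : monomialMap σ (fun i => -c i) x = -monomialMap σ c x := by
    funext i; simp [monomialMap]
  rw [this]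
  exact Submodule.neg_mem _ (h1 x hx)

/-- the permutation parts form a group -/
def PG : Subgroup (Equiv.Perm ArrayPt) where
  carrier := {σ | ∃ c, Pres σ c}
  one_mem' := ⟨_, Pres.one⟩
  mul_mem' := by
    rintro σ τ ⟨c, hc⟩ ⟨d, hd⟩
    exact ⟨_, hc.mul hd⟩
  inv_mem' := by
    rintro σ ⟨c, hc⟩
    have hpow : ∀ n : ℕ, ∃ d, Pres (σ ^ n) d := by
      intro n
      induction n with
      | zero => exact ⟨_, by rw [pow_zero]; exact Pres.one⟩
      | succ n ih =>
        obtain ⟨d, hd⟩ := ih
        exact ⟨_, by rw [pow_succ]; exact hd.mul hc⟩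
    have : σ⁻¹ = σ ^ (orderOf σ - 1) := by
      rw [inv_eq_iff_mul_eq_one]
      have h1 : 0 < orderOf σ := orderOf_pos σ
      calc σ * σ ^ (orderOf σ - 1) = σ ^ (orderOf σ - 1 + 1) := by rw [pow_succ']
        _ = 1 := by rw [Nat.sub_add_cancel h1, pow_orderOf_eq_one]
    show ∃ d, Pres σ⁻¹ d
    rw [this]
    exact hpow _

theorem mem_PG (σ : Equiv.Perm ArrayPt) : σ ∈ PG ↔ ∃ c, Pres σ c := Iff.rfl

theorem support_mono (σ : Equiv.Perm ArrayPt) (c : ArrayPt → (ZMod 3)ˣ) (x : ArrayPt → ZMod 3) :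
    ternarySupport (monomialMap σ c x) = σ • ternarySupport x := by
  ext p
  rw [← Finset.inv_smul_mem_iff]
  simp only [ternarySupport, Finset.mem_filter, Finset.mem_univ, true_and]
  have h1 : (c p : ZMod 3) ≠ 0 := (c p).ne_zero
  show ¬ ((c p : ZMod 3) * x (σ⁻¹ • p) = 0) ↔ _
  rw [mul_eq_zero, not_or]
  exact ⟨fun h => h.2, fun h => ⟨h1, h⟩⟩

/-- the automorphism group of the hexads -/
abbrev HA : Subgroup (Equiv.Perm ArrayPt) := setSystemAut HS

theorem finite_smul_eq {α : Type*} [DecidableEq α] [Finite α] (σ : Equiv.Perm α) (B : Set (Finset α))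
    (h : ∀ b ∈ B, σ • b ∈ B) : σ • B = B := by
  have hfin : B.Finite := Set.toFinite B
  have hsub : σ • B ⊆ B := by
    rintro _ ⟨b, hb, rfl⟩
    exact h b hb
  apply Set.eq_of_subset_of_ncard_le hsub _ hfin
  have : (σ • B).ncard = B.ncard := by
    exact Set.ncard_image_of_injective B (MulAction.injective σ)
  rw [this]

theorem PG_le_HA : PG ≤ HA := by
  rintro σ ⟨c, hc⟩
  show σ • HS = HS
  apply finite_smul_eq
  rintro b ⟨x, hx, rfl, h6⟩
  refine ⟨monomialMap σ c x, hc x hx, support_mono σ c x, ?_⟩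
  rw [Finset.card_smul_finset, h6]

end mono

section lin

theorem enc_add (c d : Fin 6 → ZMod 3) : enc (c + d) = enc c + enc d := by
  funext p
  revert p
  apply forall_pt <;>
  simp only [Pi.add_apply, e00, e01, e02, e10, e11, e12, e20, e21, e22, e30, e31, e32] <;> ring

theorem enc_smul (a : ZMod 3) (c : Fin 6 → ZMod 3) : enc (a • c) = a • enc c := by
  funext p
  revert p
  apply forall_pt <;>
  simp only [Pi.smul_apply, smul_eq_mul, e00, e01, e02, e10, e11, e12, e20, e21, e22, e30, e31, e32] <;> ring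

theorem mono_add (σ : Equiv.Perm ArrayPt) (c : ArrayPt → (ZMod 3)ˣ) (x y : ArrayPt → ZMod 3) :
    monomialMap σ c (x + y) = monomialMap σ c x + monomialMap σ c y := by
  funext i; simp only [monomialMap, Pi.add_apply]; ring

theorem mono_smul (σ : Equiv.Perm ArrayPt) (c : ArrayPt → (ZMod 3)ˣ) (a : ZMod 3) (x : ArrayPt → ZMod 3) :
    monomialMap σ c (a • x) = a • monomialMap σ c x := by
  funext i; simp only [monomialMap, Pi.smul_apply, smul_eq_mul]; ring

/-- it suffices to check the six basis words -/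
theorem pres_of_basis (σ : Equiv.Perm ArrayPt) (c : ArrayPt → (ZMod 3)ˣ)
    (h : ∀ j < 6, monomialMap σ c (enc (dig (3 ^ j))) ∈ ternaryGolayCode) : Pres σ c := by
  let V : Submodule (ZMod 3) (Fin 6 → ZMod 3) :=
    { carrier := {d | monomialMap σ c (enc d) ∈ ternaryGolayCode}
      zero_mem' := by
        show monomialMap σ c (enc 0) ∈ ternaryGolayCode
        have : enc (0 : Fin 6 → ZMod 3) = 0 := by
          have := enc_smul 0 0; rwa [zero_smul, zero_smul] at this
        rw [this]
        have : monomialMap σ c (0 : ArrayPt → ZMod 3) = 0 := by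
          have := mono_smul σ c 0 0; rwa [zero_smul, zero_smul] at this
        rw [this]; exact Submodule.zero_mem _
      add_mem' := by
        intro a b ha hb
        show monomialMap σ c (enc (a + b)) ∈ ternaryGolayCode
        rw [enc_add, mono_add]; exact Submodule.add_mem _ ha hb
      smul_mem' := by
        intro r a ha
        show monomialMap σ c (enc (r • a)) ∈ ternaryGolayCode
        rw [enc_smul, mono_smul]; exact Submodule.smul_mem _ _ ha }
  have hV : V = ⊤ := by
    rw [eq_top_iff, ← (Pi.basisFun (ZMod 3) (Fin 6)).span_eq, Submodule.span_le]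
    rintro _ ⟨j, rfl⟩
    have : (Pi.basisFun (ZMod 3) (Fin 6)) j = dig (3 ^ (j : ℕ)) := by
      rw [Pi.basisFun_apply]
      revert j; decide
    rw [this]
    exact h j j.2
  intro x hx
  obtain ⟨d, rfl⟩ := (mem_code_iff x).1 hx
  have : d ∈ V := by rw [hV]; trivial
  exact this

end lin

end H33.Ternary
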