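import Mathlib
import Cfsg.Agent.Lib.H33.Ternary6
set_option autoImplicit false
open Cfsg

/-! The monomial group of the ternary code: order. -/

namespace H33.Ternary
open H33.BitSet
open scoped Pointwise

theorem exists_elt (e : ℕ × ℕ × ℕ) (he : okE e = true) :
    ∃ σ ∈ PG, ∀ p, σ p = pt (imgN e.1 (idx p)) := by
  unfold okE at he
  rw [Bool.and_eq_true, Bool.and_eq_true] at he
  obtain ⟨⟨h1, h2⟩, h3⟩ := he
  rw [allB_iff] at h1 h2 h3
  have h1' : ∀ k < 12, imgN e.1 k < 12 := fun k hk => by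
    have := h1 k hk; rwa [Nat.blt_eq] at this
  have hsurj : Function.Surjective (fun p => pt (imgN e.1 (idx p))) := by
    intro q
    have := h2 (idx q) (idx_lt q)
    rw [anyB_iff] at this
    obtain ⟨k, hk, h⟩ := this
    rw [Nat.beq_eq] at h
    refine ⟨pt k, ?_⟩
    show pt (imgN e.1 (idx (pt k))) = q
    rw [idx_pt k hk, h, pt_idx]
  let σ : Equiv.Perm ArrayPt := Equiv.ofBijective _ ⟨Finite.injective_iff_surjective.2 hsurj, hsurj⟩
  have hσ : ∀ p, σ p = pt (imgN e.1 (idx p)) := fun p => rfl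
  refine ⟨σ, ⟨fun q => if Nat.testBit e.2.1 (idx q) then -1 else 1, ?_⟩, hσ⟩
  apply pres_of_basis
  intro j hj
  rw [mem_code_iff]
  refine ⟨dig (Nat.land (Nat.shiftRight e.2.2 (10 * j)) 1023), ?_⟩
  funext q
  obtain ⟨p, rfl⟩ := σ.surjective q
  have h4 := h3 j hj
  rw [allB_iff] at h4
  have h5 := h4 (idx p) (idx_lt p)
  rw [Nat.beq_eq] at h5
  rw [enc_dig]
  have hi : idx (σ p) = imgN e.1 (idx p) := by rw [hσ, idx_pt _ (h1' _ (idx_lt p))]
  rw [hi]
  have h6 : ((valN (Nat.land (Nat.shiftRight e.2.2 (10 * j)) 1023) (imgN e.1 (idx p)) : ℕ) : ZMod 3) =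
      ((sgnN e.2.1 (imgN e.1 (idx p)) * valN (3 ^ j) (idx p) : ℕ) : ZMod 3) := by
    rw [ZMod.natCast_eq_natCast_iff']
    exact h5
  rw [h6, Nat.cast_mul]
  unfold monomialMap
  rw [Equiv.symm_apply_apply, enc_dig]
  show _ = ((if e.2.1.testBit (idx (σ p)) = true then (-1 : (ZMod 3)ˣ) else 1 : (ZMod 3)ˣ) : ZMod 3) * _
  rw [hi]
  congr 1
  unfold sgnN
  have h7 : (Nat.shiftRight e.2.1 (imgN e.1 (idx p)) % 2) = (Nat.testBit e.2.1 (imgN e.1 (idx p))).toNat := by
    have := Nat.toNat_testBit e.2.1 (imgN e.1 (idx p))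
    rw [this]
    congr 1
    exact Nat.shiftRight_eq_div_pow _ _
  rw [h7]
  cases Nat.testBit e.2.1 (imgN e.1 (idx p))
  · simp
  · simp; decide

/-- base points -/
def bp (i : ℕ) : ArrayPt := pt i

theorem level (i : ℕ) (hi : i < 5) (q : ArrayPt) (hq : i ≤ idx q) :
    ∃ σ ∈ PG, (∀ j < i, σ (pt j) = pt j) ∧ σ (pt i) = q := by
  have h := (allB_iff _ _).1 trans_cover i hi
  have h := (allB_iff _ _).1 h (idx q) (idx_lt q)
  rw [Bool.or_eq_true, anyL_iff] at h
  rcases h with h | ⟨e, he, h⟩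
  · rw [Nat.blt_eq] at h; omega
  · rw [Bool.and_eq_true, Nat.beq_eq, allB_iff] at h
    obtain ⟨σ, hσ, hσ'⟩ := exists_elt e ((allL_iff _ _).1 trans_ok e he)
    refine ⟨σ, hσ, fun j hj => ?_, ?_⟩
    · have := h.2 j hj
      rw [Nat.beq_eq] at this
      rw [hσ', idx_pt j (by omega), this]
    · rw [hσ', idx_pt i (by omega), h.1, pt_idx]

theorem trans5 (f : Fin 5 → ArrayPt) (hf : Function.Injective f) :
    ∃ σ ∈ PG, ∀ i : Fin 5, σ (pt i) = f i := by
  have key : ∀ m ≤ 5, ∃ σ ∈ PG, ∀ i : Fin 5, (i : ℕ) < m → σ (pt i) = f i := by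
    intro m
    induction m with
    | zero => intro _; exact ⟨1, PG.one_mem, fun i hi => absurd hi (Nat.not_lt_zero _)⟩
    | succ m ih =>
      intro hm
      obtain ⟨σ, hσ, h⟩ := ih (by omega)
      let q := σ⁻¹ (f ⟨m, by omega⟩)
      have hq : m ≤ idx q := by
        by_contra hlt
        push Not at hlt
        have h1 := h ⟨idx q, by omega⟩ hlt
        simp only [pt_idx] at h1
        have h2 : σ q = f ⟨m, by omega⟩ := by simp [q]
        rw [h2] at h1
        have := hf h1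
        rw [Fin.mk.injEq] at this
        omega
      obtain ⟨τ, hτ, h3, h4⟩ := level m (by omega) q hq
      refine ⟨σ * τ, PG.mul_mem hσ hτ, fun i hi => ?_⟩
      rcases Nat.lt_succ_iff_lt_or_eq.1 hi with h5 | h5
      · rw [Equiv.Perm.mul_apply, h3 i h5, h i h5]
      · have h6 : f ⟨m, by omega⟩ = f i := congrArg f (Fin.ext h5.symm)
        rw [Equiv.Perm.mul_apply, h5, h4, ← h6]; simp [q]
  obtain ⟨σ, hσ, h⟩ := key 5 le_rfl
  exact ⟨σ, hσ, fun i => h i i.2⟩

theorem HA_smul {σ : Equiv.Perm ArrayPt} (hσ : σ ∈ HA) {b : Finset ArrayPt} (hb : b ∈ HS) : σ • b ∈ HS := by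
  have h : σ • HS = HS := hσ
  rw [← h]
  exact Set.smul_mem_smul_set hb

theorem unique_hexad {b c : Finset ArrayPt} (hb : b ∈ HS) (hc : c ∈ HS) {s : Finset ArrayPt}
    (hs : s.card = 5) (hsb : s ⊆ b) (hsc : s ⊆ c) : b = c := by
  obtain ⟨d, _, hd⟩ := steiner.2 s hs
  rw [hd b ⟨hb, hsb⟩, hd c ⟨hc, hsc⟩]

theorem d31 : ∀ p, p ∈ dec idx 31 → idx p < 5 := by decide
theorem d31' : ∀ p, p ∈ dec idx 31 → p ∈ dec idx 63 := by decide
theorem d63 : ∀ q, q ∈ dec idx 63 → idx q < 6 := by decide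
theorem d5 : ∀ i < 5, pt 5 ≠ pt i := by decide

theorem rigid {σ : Equiv.Perm ArrayPt} (hσ : σ ∈ HA) (hfix : ∀ i < 5, σ (pt i) = pt i) : σ = 1 := by
  -- the sixth point
  have h63 : dec idx 63 ∈ HS := (mem_HS _).2 ⟨63, (memB_iff _ _).1 mem63, rfl⟩
  have hfix6 : ∀ p, idx p < 6 → σ p = p := by
    have hs : σ • dec idx 63 = dec idx 63 := by
      apply unique_hexad (HA_smul hσ h63) h63 (s := dec idx 31) (by decide)
      · intro p hp
        rw [← Finset.inv_smul_mem_iff]
        have h1 : idx p < 5 := d31 p hp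
        have : σ⁻¹ • p = p := by
          rw [inv_smul_eq_iff]; exact ((pt_idx p) ▸ (hfix _ h1)).symm
        rw [this]
        exact d31' p hp
      · decide
    intro p hp
    rcases Nat.lt_succ_iff_lt_or_eq.1 hp with h | h
    · exact (pt_idx p) ▸ (hfix _ h)
    · have hp5 : p = pt 5 := by rw [← pt_idx p, h]
      subst hp5
      have h1 : σ (pt 5) ∈ dec idx 63 := by
        rw [← hs]
        exact Finset.smul_mem_smul_finset (by decide)
      have h2 : ∀ i < 5, σ (pt 5) ≠ pt i := by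
        intro i hi h3
        rw [← hfix i hi] at h3
        exact d5 i hi (σ.injective h3)
      have h3 : ∀ q, q ∈ dec idx 63 → (∀ i < 5, q ≠ pt i) → q = pt 5 := by decide
      exact h3 _ h1 h2
  ext1 p
  by_contra hne
  have hne : σ p ≠ p := hne
  have hx : 6 ≤ idx p := by
    by_contra h; push Not at h; exact hne (hfix6 p h)
  have hy : 6 ≤ idx (σ p) := by
    by_contra h; push Not at h
    exact hne (σ.injective (hfix6 _ h))
  have h := (allB_iff _ _).1 cert_cover (idx p) (idx_lt p)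
  rw [Bool.or_eq_true, Nat.blt_eq, allB_iff] at h
  rcases h with h | h
  · omega
  have h := h (idx (σ p)) (idx_lt _)
  rw [Bool.or_eq_true, Bool.or_eq_true, Nat.blt_eq, Nat.beq_eq, anyL_iff] at h
  rcases h with (h | h) | ⟨⟨x, y, a, a', c, c'⟩, hq, h⟩
  · omega
  · exact hne (idx_inj h).symm
  simp only [Bool.and_eq_true, Nat.beq_eq] at h
  obtain ⟨rfl, rfl⟩ := h
  have h := (allL_iff _ _).1 cert_ok _ hq
  simp only [Bool.and_eq_true, Nat.beq_eq, memB_iff] at h
  obtain ⟨⟨⟨⟨⟨⟨⟨⟨⟨⟨⟨⟨ma, ma'⟩, mc⟩, mc'⟩, tax⟩, ta'x⟩, tcy⟩, tc'y⟩, e1⟩, e2⟩, e3⟩, e4⟩, e5⟩ := h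
  have key : ∀ a c : ℕ, a ∈ hexL → c ∈ hexL → a.testBit (idx p) = true → c.testBit (idx (σ p)) = true →
      a.land 63 = c.land 63 → pop 12 (a.land 63) = 4 → σ • dec idx a = dec idx c := by
    intro a c ha hc tax tcy hac h4
    have hac' : dec idx a ∩ dec idx 63 = dec idx c ∩ dec idx 63 := by
      have := congrArg (dec idx) hac
      rwa [← dec_and, ← dec_and]
    have hcard : (dec idx a ∩ dec idx 63).card = 4 := by
      rw [← dec_and, card_dec idx_inj idx_lt idx_surj]; exact h4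
    have hσS : ∀ q ∈ dec idx a ∩ dec idx 63, σ q = q := by
      intro q hq
      apply hfix6
      exact d63 q (Finset.mem_inter.1 hq).2
    have hnot : σ p ∉ dec idx a ∩ dec idx 63 := by
      intro h
      have := d63 _ (Finset.mem_inter.1 h).2
      omega
    apply unique_hexad (HA_smul hσ ((mem_HS _).2 ⟨a, ha, rfl⟩)) ((mem_HS _).2 ⟨c, hc, rfl⟩)
      (s := insert (σ p) (dec idx a ∩ dec idx 63))
    · rw [Finset.card_insert_of_notMem hnot, hcard]
    · intro q hq
      rcases Finset.mem_insert.1 hq with h | h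
      · subst h
        exact Finset.smul_mem_smul_finset (by rw [mem_dec]; exact tax)
      · rw [← hσS q h]
        exact Finset.smul_mem_smul_finset (Finset.mem_inter.1 h).1
    · intro q hq
      rcases Finset.mem_insert.1 hq with h | h
      · subst h
        rw [mem_dec]; exact tcy
      · rw [hac'] at h; exact (Finset.mem_inter.1 h).1
  have k1 := key a c ma mc tax tcy e1 e3
  have k2 := key a' c' ma' mc' ta'x tc'y e2 e4
  have k3 : (dec idx c ∩ dec idx c').card = (dec idx a ∩ dec idx a').card := by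
    rw [← k1, ← k2, ← Finset.smul_finset_inter, Finset.card_smul_finset]
  rw [← dec_and, ← dec_and, card_dec idx_inj idx_lt idx_surj, card_dec idx_inj idx_lt idx_surj] at k3
  rw [Bool.not_eq_true', ← Bool.not_eq_true, Nat.beq_eq] at e5
  exact e5 k3.symm

theorem pt_inj5 : Function.Injective (fun i : Fin 5 => pt (i : ℕ)) := by decide

/-- restriction to the five base points -/
def toEmb (σ : Equiv.Perm ArrayPt) : Fin 5 ↪ ArrayPt :=
  ⟨fun i => σ (pt i), fun _ _ h => pt_inj5 (σ.injective h)⟩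

theorem toEmb_inj_HA : Function.Injective (fun σ : HA => toEmb σ.1) := by
  intro σ τ h
  have h1 : ∀ i < 5, σ.1 (pt i) = τ.1 (pt i) := by
    intro i hi
    exact congrArg (fun f : Fin 5 ↪ ArrayPt => f ⟨i, hi⟩) h
  have h2 : τ.1⁻¹ * σ.1 = 1 := by
    apply rigid (HA.mul_mem (HA.inv_mem τ.2) σ.2)
    intro i hi
    rw [Equiv.Perm.mul_apply, h1 i hi]; simp
  exact Subtype.ext (inv_mul_eq_one.1 h2).symm

theorem card_emb : Nat.card (Fin 5 ↪ ArrayPt) = 95040 := by
  rw [Nat.card_eq_fintype_card, Fintype.card_embedding_eq]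
  simp [ZMod.card, Nat.descFactorial]

theorem PG_eq_HA : PG = HA ∧ Nat.card PG = 95040 := by
  have h1 : Nat.card HA ≤ 95040 := by
    rw [← card_emb]; exact Nat.card_le_card_of_injective _ toEmb_inj_HA
  have h2 : 95040 ≤ Nat.card PG := by
    rw [← card_emb]
    apply Nat.card_le_card_of_surjective (fun σ : PG => toEmb σ.1)
    intro f
    obtain ⟨σ, hσ, h⟩ := trans5 f f.injective
    exact ⟨⟨σ, hσ⟩, DFunLike.ext _ _ h⟩
  have h3 : Nat.card PG ≤ Nat.card HA := Nat.card_le_card_of_injective _ (Subgroup.inclusion_injective PG_le_HA)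
  exact ⟨Subgroup.eq_of_le_of_card_ge PG_le_HA (by omega), by omega⟩

theorem card_HA : Nat.card HA = 95040 := by rw [← PG_eq_HA.1, PG_eq_HA.2]

/-- two sign vectors for the same permutation differ by a sign -/
theorem pres_unique {σ : Equiv.Perm ArrayPt} {c d : ArrayPt → (ZMod 3)ˣ} (hc : Pres σ c) (hd : Pres σ d) :
    c = d ∨ c = fun i => - d i := by
  obtain ⟨e, he⟩ : ∃ e, Pres σ⁻¹ e := PG.inv_mem ⟨d, hd⟩
  have h1 := hd.mul he
  have h2 := hc.mul he
  rw [mul_inv_cancel] at h1 h2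
  have hu := unit_cases
  rcases diag_const _ h1 with k1 | k1 <;> rcases diag_const _ h2 with k2 | k2
  · left; funext i
    have a1 := k1 i; have a2 := k2 i
    exact mul_right_cancel (a2.trans a1.symm)
  · right; funext i
    have a1 := k1 i; have a2 := k2 i
    have : c i * e (σ.symm i) = (- d i) * e (σ.symm i) := by rw [neg_mul, a1, a2]
    exact mul_right_cancel this
  · right; funext i
    have a1 := k1 i; have a2 := k2 i
    have : c i * e (σ.symm i) = (- d i) * e (σ.symm i) := by rw [neg_mul, a1, a2, neg_neg]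
    exact mul_right_cancel this
  · left; funext i
    have a1 := k1 i; have a2 := k2 i
    exact mul_right_cancel (a2.trans a1.symm)

theorem card_A : Nat.card {f : Equiv.Perm ArrayPt × (ArrayPt → (ZMod 3)ˣ) // (∀ x ∈ ternaryGolayCode, monomialMap f.1 f.2 x ∈ ternaryGolayCode)} = 190080 := by
  classical
  choose c hc using fun σ : PG => σ.2
  have hdiff : ∀ d : ArrayPt → (ZMod 3)ˣ, d ≠ fun i => - d i := by
    intro d h
    have := congrFun h (0, 0)
    have h2 : ∀ u : (ZMod 3)ˣ, u ≠ -u := by decide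
    exact h2 _ this
  let F : PG × Bool → {f : Equiv.Perm ArrayPt × (ArrayPt → (ZMod 3)ˣ) // (∀ x ∈ ternaryGolayCode, monomialMap f.1 f.2 x ∈ ternaryGolayCode)} :=
    fun q => ⟨(q.1.1, if q.2 then c q.1 else fun i => - c q.1 i), by
      cases q.2
      · exact (hc q.1).neg
      · exact hc q.1⟩
  have hF : Function.Bijective F := by
    constructor
    · rintro ⟨σ, b⟩ ⟨τ, b'⟩ h
      have h1 := congrArg (fun z => z.1.1) h
      have h2 := congrArg (fun z => z.1.2) h
      have h3 : σ = τ := Subtype.ext h1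
      subst h3
      simp only [F] at h2
      cases b <;> cases b' <;> simp at h2 ⊢
      · exact hdiff _ h2.symm
      · exact hdiff _ h2
    · rintro ⟨⟨σ, d⟩, hd⟩
      have hσ : σ ∈ PG := ⟨d, hd⟩
      rcases pres_unique hd (hc ⟨σ, hσ⟩) with h | h
      · exact ⟨(⟨σ, hσ⟩, true), Subtype.ext (Prod.ext rfl h.symm)⟩
      · exact ⟨(⟨σ, hσ⟩, false), Subtype.ext (Prod.ext rfl h.symm)⟩
  rw [← Nat.card_congr (Equiv.ofBijective F hF), Nat.card_prod, PG_eq_HA.2]
  simp

end H33.Ternary
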