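import Mathlib
import Cfsg.Agent.Lib.H7.LowRank6s
import Cfsg.Agent.Lib.H7.OmegaOrd
import Cfsg.Agent.Lib.H86.U43SevenC
import Cfsg.Agent.Lib.H6.SUGenC

set_option autoImplicit false

/-! The orthogonal group of the form `x₁² + … + x₆²` over the field with three elements. -/

namespace H33.U43

open Cfsg
open H7.Hyp H7.HypStd H7.HypOrd H7.Omega H7.OmegaIso QuadraticMap H48.QuadStd

/-- the sum of squares -/
def q6 : QuadraticForm (ZMod 3) (Fin 6 → ZMod 3) := QuadraticMap.weightedSumSquares (ZMod 3) (fun _ : Fin 6 => (1 : ZMod 3))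

def Q0 (v : Fin 6 → ZMod 3) : ZMod 3 := ∑ i, v i * v i

theorem coe_q6 : ⇑q6 = Q0 := by
  funext v
  rw [q6, QuadraticMap.weightedSumSquares_apply, Q0]
  simp

abbrev OO := isometryGroup (ZMod 3) Q0

theorem aniso : ∀ z₁ z₂ : ZMod 3, z₁ ^ 2 + 0 * z₁ * z₂ + 1 * z₂ ^ 2 = 0 → z₁ = 0 ∧ z₂ = 0 := by decide

def gmap : ((Fin 2 ⊕ Fin 2) ⊕ Fin 2 → ZMod 3) →ₗ[ZMod 3] (Fin 6 → ZMod 3) where
  toFun v := ![v (.inl (.inl 0)) + v (.inl (.inl 1)) + v (.inl (.inr 1)),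
    v (.inl (.inl 0)) - v (.inl (.inl 1)) + v (.inl (.inr 0)),
    v (.inl (.inl 0)) + v (.inl (.inr 0)) - v (.inl (.inr 1)),
    v (.inl (.inl 1)) + v (.inl (.inr 0)) + v (.inl (.inr 1)), v (.inr 0), v (.inr 1)]
  map_add' u v := by
    funext i
    fin_cases i <;> simp <;> ring
  map_smul' c v := by
    funext i
    fin_cases i <;> simp <;> ring

theorem gkey (x1 x2 y1 y2 z1 z2 : ZMod 3) : (x1 + x2 + y2) * (x1 + x2 + y2) + (x1 - x2 + y1) * (x1 - x2 + y1) +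
    (x1 + y1 - y2) * (x1 + y1 - y2) + (x2 + y1 + y2) * (x2 + y1 + y2) + z1 * z1 + z2 * z2 =
    (x1 * y1 + x2 * y2) + (z1 ^ 2 + 0 * z1 * z2 + 1 * z2 ^ 2) := by
  have h3 : (3 : ZMod 3) = 0 := by decide
  linear_combination (x1 ^ 2 + x2 ^ 2 + y1 ^ 2 + y2 ^ 2 + x1 * y1 + x2 * y2) * h3

theorem gmap_form (v : (Fin 2 ⊕ Fin 2) ⊕ Fin 2 → ZMod 3) : q6 (gmap v) = qMinus 2 (ZMod 3) 0 1 v := by
  rw [coe_q6, qMinus_apply, Q0, Fin.sum_univ_six, Fin.sum_univ_two]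
  exact gkey _ _ _ _ _ _

theorem equiv_q6 : (qMinus 2 (ZMod 3) 0 1).Equivalent q6 :=
  equivalent_of_map (nd_qMinus 2 (disc_ne_zero aniso)) (by simp) gmap gmap_form

open H7.LowRank in
theorem exists_f : ∃ f : (Fin 6 → ZMod 3) ≃ₗ[ZMod 3] (ZMod 3 × ZMod 3 × (ZMod 3 × ZMod 3 × H7.AnisoPlane.K (0 : ZMod 3) 1)),
    ∀ v, hyp (hyp (qN 0 1)) (f v) = Q0 v := by
  obtain ⟨e⟩ := equiv_q6.symm.trans (((H7.HypStd.minus_succ (F := ZMod 3) 1 0 1).trans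
    (H7.OmegaIso.hyp_congr (H7.HypStd.minus_succ (F := ZMod 3) 0 0 1))).trans
    (H7.OmegaIso.hyp_congr (H7.OmegaIso.hyp_congr (H7.LowRank.equivalent_qN (0 : ZMod 3) 1))))
  refine ⟨e.toLinearEquiv, ?_⟩
  intro v
  rw [← coe_q6]
  exact e.map_app v

theorem ndN : ND (H7.LowRank.qN (0 : ZMod 3) 1) := H7.LowRank.nd_qN aniso

theorem simple_PO : IsSimpleGroup (POmega (ZMod 3) Q0) := by
  obtain ⟨f, hf⟩ := exists_f
  exact simple_POmega ndN (H7.OmegaOrd.tr f hf)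

theorem center_iff (g : Omega (ZMod 3) Q0) : g ∈ Subgroup.center (Omega (ZMod 3) Q0) ↔
    ((g.1 : Matrix.GeneralLinearGroup (Fin 6) (ZMod 3)) : Matrix (Fin 6) (Fin 6) (ZMod 3)) = 1 ∨
      ((g.1 : Matrix.GeneralLinearGroup (Fin 6) (ZMod 3)) : Matrix (Fin 6) (Fin 6) (ZMod 3)) = -1 := by
  obtain ⟨f, hf⟩ := exists_f
  exact H7.OmegaOrd.mem_center_iff' ndN.hyp f hf (H7.OmegaIso.commutator_eq_two ndN) g

theorem psu {K : Type*} [Field K] [Fintype K] (hK : Fintype.card K = 3 ^ 2) : Nonempty (POmega (ZMod 3) Q0 ≃* PSU 4 K 3) := by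
  obtain ⟨f, hf⟩ := exists_f
  have hfact : Fact (∀ r : ZMod 3, r ^ 2 ≠ -1 + 0 * r) := H7.AnisoPlane.Aniso.fact aniso
  obtain ⟨e1⟩ := H7.LowRank.iso6m aniso (H7.OmegaOrd.tr f hf) (H7.OmegaIso.commutator_eq_two ndN)
  obtain ⟨e2⟩ := H7.LowRank.G0_equiv (K := K) (ZMod.card 3) hK aniso
  exact ⟨e1.trans (H7.OmegaIso.quotCenterCongr e2)⟩

end H33.U43
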