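import Mathlib
import Cfsg.Agent.Lib.H33.U43a

set_option autoImplicit false

/-! The orthogonal group of the form `x₁² + … + x₆²` over the field with three elements: reflections. -/

namespace H33.U43

open Cfsg Matrix
open scoped commutatorElement

abbrev M6 := Matrix (Fin 6) (Fin 6) (ZMod 3)
abbrev Om6 : Subgroup OO := Omega (ZMod 3) Q0

/-- the matrix of an isometry -/
def mt (g : OO) : M6 := ((g : GeneralLinearGroup (Fin 6) (ZMod 3)) : M6)

theorem mt_inj {g h : OO} (e : mt g = mt h) : g = h := Subtype.ext (Units.ext e)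
theorem mt_mul (g h : OO) : mt (g * h) = mt g * mt h := rfl
theorem mt_one : mt 1 = 1 := rfl

theorem Q0_dot (v : Fin 6 → ZMod 3) : Q0 v = v ⬝ᵥ v := rfl

theorem h3 : (3 : ZMod 3) = 0 := by decide

theorem mt_Q (g : OO) (v : Fin 6 → ZMod 3) : Q0 (mt g *ᵥ v) = Q0 v := (H17.OrthDet.mem_isometryGroup_iff _ _).1 g.2 v

def mkO (M : M6) (h : Mᵀ * M = 1) : OO := ⟨⟨M, Mᵀ, mul_eq_one_comm.1 h, h⟩, (H17.OrthDet.mem_isometryGroup_iff _ _).2 (by
  intro v
  show Q0 (M *ᵥ v) = Q0 v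
  rw [Q0_dot, Q0_dot, dotProduct_mulVec, ← vecMul_transpose M v, vecMul_vecMul, h, vecMul_one])⟩

theorem mt_mkO (M : M6) (h : Mᵀ * M = 1) : mt (mkO M h) = M := rfl

theorem dot_eq (a b : Fin 6 → ZMod 3) : a ⬝ᵥ b = 2 * (Q0 (a + b) - Q0 a - Q0 b) := by
  simp only [Q0_dot, add_dotProduct, dotProduct_add, dotProduct_comm b a]
  linear_combination (-(a ⬝ᵥ b)) * h3

theorem dot_pres (g : OO) (u v : Fin 6 → ZMod 3) : (mt g *ᵥ u) ⬝ᵥ (mt g *ᵥ v) = u ⬝ᵥ v := by
  rw [dot_eq, dot_eq u, ← mulVec_add, mt_Q, mt_Q, mt_Q]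

theorem mt_tr (g : OO) : (mt g)ᵀ * mt g = 1 := by
  ext i j
  have h := dot_pres g (Pi.single i 1) (Pi.single j 1)
  rw [mulVec_single_one, mulVec_single_one] at h
  have h1 : ((mt g)ᵀ * mt g) i j = (mt g).col i ⬝ᵥ (mt g).col j := rfl
  rw [h1, h, single_one_dotProduct, Pi.single_apply, one_apply]

/-- reflections -/
theorem rf_aux {v : Fin 6 → ZMod 3} (hv : Q0 v = 1) : (1 + vecMulVec v v : M6)ᵀ * (1 + vecMulVec v v) = 1 := by
  have hV : vecMulVec v v * vecMulVec v v = (vecMulVec v v : M6) := by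
    ext i j
    simp only [mul_apply, vecMulVec_apply]
    have : ∀ k, v i * v k * (v k * v j) = v i * v j * (v k * v k) := fun k => by ring
    simp only [this]
    rw [← Finset.mul_sum]
    have h2 : ∑ k, v k * v k = 1 := hv
    rw [h2, mul_one]
  have hT : (1 + vecMulVec v v : M6)ᵀ = 1 + vecMulVec v v := by
    ext i j
    rw [transpose_apply, Matrix.add_apply, Matrix.add_apply, vecMulVec_apply, vecMulVec_apply, one_apply, one_apply, mul_comm (v j)]
    simp only [eq_comm]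
  rw [hT, mul_add, add_mul, add_mul, hV, one_mul, mul_one, one_mul]
  ext i j
  simp only [Matrix.add_apply]
  linear_combination (vecMulVec v v i j) * h3

def rf (v : Fin 6 → ZMod 3) (hv : Q0 v = 1) : OO := mkO (1 + vecMulVec v v) (rf_aux hv)

theorem mt_rf (v : Fin 6 → ZMod 3) (hv : Q0 v = 1) : mt (rf v hv) = 1 + vecMulVec v v := rfl

theorem rf_conj (g : OO) (v : Fin 6 → ZMod 3) (hv : Q0 v = 1) : g * rf v hv * g⁻¹ = rf (mt g *ᵥ v) (by rw [mt_Q, hv]) := by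
  rw [mul_inv_eq_iff_eq_mul]
  apply mt_inj
  rw [mt_mul, mt_mul, mt_rf, mt_rf, mul_add, add_mul, mul_one, one_mul, mul_vecMulVec, vecMulVec_mul, ← vecMul_transpose (mt g) v,
    vecMul_vecMul, mt_tr, vecMul_one]

def negO : OO := mkO (-1) (by rw [transpose_neg, transpose_one, neg_mul_neg, mul_one])

theorem mt_neg : mt negO = -1 := rfl
theorem neg_comm (g : OO) : negO * g = g * negO := by
  apply mt_inj
  rw [mt_mul, mt_mul, mt_neg, neg_one_mul, mul_neg_one]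
theorem neg_sq : negO * negO = 1 := by
  apply mt_inj
  rw [mt_mul, mt_neg, mt_one, neg_mul_neg, mul_one]

/-- explicit matrices -/
def swm (i j : Fin 6) : M6 := Matrix.of fun a b => if (if a = i then j else if a = j then i else a) = b then 1 else 0
def rfm (i : Fin 6) : M6 := Matrix.of fun a b => if a = b then (if a = i then 2 else 1) else 0
def dm (i j : Fin 6) : M6 := Matrix.diagonal fun k => if k = i ∨ k = j then 2 else 1

theorem swm_o : ∀ i j : Fin 6, i ≠ j → (swm i j)ᵀ * swm i j = 1 := by decide +kernel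
theorem rfm_o : ∀ i : Fin 6, (rfm i)ᵀ * rfm i = 1 := by decide +kernel
theorem dm_o : ∀ i j : Fin 6, (dm i j)ᵀ * dm i j = 1 := by decide +kernel

theorem comm_mem {A B C : M6} (hA : Aᵀ * A = 1) (hB : Bᵀ * B = 1) (hC : Cᵀ * C = 1) (h : A * B * Aᵀ * Bᵀ = C) : mkO C hC ∈ Om6 := by
  have h1 : mkO C hC = ⁅mkO A hA, mkO B hB⁆ := by
    apply mt_inj
    rw [mt_mkO, ← h]; rfl
  rw [h1]
  exact Subgroup.commutator_mem_commutator (Subgroup.mem_top _) (Subgroup.mem_top _)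

theorem dm_eq : ∀ i j : Fin 6, i ≠ j → swm i j * rfm i * (swm i j)ᵀ * (rfm i)ᵀ = dm i j := by decide +kernel

theorem dm_mem {i j : Fin 6} (h : i ≠ j) : mkO (dm i j) (dm_o i j) ∈ Om6 :=
  comm_mem (swm_o i j h) (rfm_o i) _ (dm_eq i j h)

theorem neg_eq : (-1 : M6) = dm 0 1 * dm 2 3 * dm 4 5 := by decide +kernel

theorem neg_mem : negO ∈ Om6 := by
  have h : negO = mkO (dm 0 1) (dm_o 0 1) * mkO (dm 2 3) (dm_o 2 3) * mkO (dm 4 5) (dm_o 4 5) := mt_inj neg_eq
  rw [h]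
  exact Om6.mul_mem (Om6.mul_mem (dm_mem (by decide)) (dm_mem (by decide))) (dm_mem (by decide))

/-- three-cycles -/
def cy (i j k : Fin 6) : M6 := swm i j * swm j k * (swm i j)ᵀ * (swm j k)ᵀ

def W1 : M6 := cy 0 1 2 * dm 3 4
def W2 : M6 := cy 2 3 4 * dm 0 1
def W3 : M6 := cy 3 4 5 * dm 0 1

theorem cy_o1 : (cy 0 1 2)ᵀ * cy 0 1 2 = 1 := by decide +kernel
theorem cy_o2 : (cy 2 3 4)ᵀ * cy 2 3 4 = 1 := by decide +kernel
theorem cy_o3 : (cy 3 4 5)ᵀ * cy 3 4 5 = 1 := by decide +kernel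

theorem W1_mem : ∃ w ∈ Om6, mt w = W1 := ⟨mkO _ cy_o1 * mkO _ (dm_o 3 4),
  Om6.mul_mem (comm_mem (swm_o 0 1 (by decide)) (swm_o 1 2 (by decide)) _ rfl) (dm_mem (by decide)), rfl⟩
theorem W2_mem : ∃ w ∈ Om6, mt w = W2 := ⟨mkO _ cy_o2 * mkO _ (dm_o 0 1),
  Om6.mul_mem (comm_mem (swm_o 2 3 (by decide)) (swm_o 3 4 (by decide)) _ rfl) (dm_mem (by decide)), rfl⟩
theorem W3_mem : ∃ w ∈ Om6, mt w = W3 := ⟨mkO _ cy_o3 * mkO _ (dm_o 0 1),
  Om6.mul_mem (comm_mem (swm_o 3 4 (by decide)) (swm_o 4 5 (by decide)) _ rfl) (dm_mem (by decide)), rfl⟩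

theorem trW : (W1.trace ≠ 0 ∧ W2.trace ≠ 0 ∧ W3.trace ≠ 0) ∧ ∀ i j : Fin 6, i ≠ j → (dm i j).trace ≠ 0 := by decide +kernel

theorem nzW : (W1 0 1 ≠ 0 ∨ W1 1 0 ≠ 0) ∧ (W1 1 2 ≠ 0 ∨ W1 2 1 ≠ 0) ∧ (W2 2 3 ≠ 0 ∨ W2 3 2 ≠ 0) ∧ (W2 3 4 ≠ 0 ∨ W2 4 3 ≠ 0) ∧
    (W3 4 5 ≠ 0 ∨ W3 5 4 ≠ 0) := by decide +kernel

/-- Schur's lemma -/
theorem schur (x : OO) (h : ∀ w ∈ Om6, mt (x * w * x⁻¹) = mt w ∨ mt (x * w * x⁻¹) = -mt w) : x = 1 ∨ x = negO := by
  have step1 : ∀ w ∈ Om6, (mt w).trace ≠ 0 → mt x * mt w = mt w * mt x := by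
    intro w hw ht
    rcases h w hw with h1 | h1
    · have h2 := mt_inj h1
      rw [mul_inv_eq_iff_eq_mul] at h2
      rw [← mt_mul, h2, mt_mul]
    · exfalso
      apply ht
      have h2 : (mt (x * w * x⁻¹)).trace = (mt w).trace := by
        rw [mt_mul, Matrix.trace_mul_comm, ← mt_mul, ← mul_assoc, inv_mul_cancel, one_mul]
      rw [h1, trace_neg] at h2
      have h4 : ∀ t : ZMod 3, -t = t → t = 0 := by decide
      exact h4 _ h2
  have hD : ∀ i j : Fin 6, i ≠ j → mt x * dm i j = dm i j * mt x := fun i j hij =>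
    step1 _ (dm_mem hij) (by rw [mt_mkO]; exact trW.2 i j hij)
  have hdiag : ∀ k l : Fin 6, k ≠ l → mt x k l = 0 := by
    intro k l hkl
    obtain ⟨i, j, hij, hd⟩ : ∃ i j : Fin 6, i ≠ j ∧ (if k = i ∨ k = j then (2 : ZMod 3) else 1) ≠ (if l = i ∨ l = j then 2 else 1) := by
      revert k l; decide +kernel
    have h1 := congrFun (congrFun (hD i j hij) k) l
    unfold dm at h1
    rw [Matrix.mul_diagonal, Matrix.diagonal_mul] at h1
    have h2 : ((if k = i ∨ k = j then (2 : ZMod 3) else 1) - (if l = i ∨ l = j then 2 else 1)) * mt x k l = 0 := by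
      linear_combination -h1
    rcases mul_eq_zero.1 h2 with h5 | h5
    · exact absurd (sub_eq_zero.1 h5) hd
    · exact h5
  have hx : mt x = Matrix.diagonal fun k => mt x k k := by
    ext k l
    by_cases hkl : k = l
    · rw [hkl, Matrix.diagonal_apply_eq]
    · rw [hdiag k l hkl, Matrix.diagonal_apply_ne _ hkl]
  have hW : ∀ W : M6, (∃ w ∈ Om6, mt w = W) → W.trace ≠ 0 → ∀ k l, (W k l ≠ 0 ∨ W l k ≠ 0) → mt x k k = mt x l l := by
    rintro _ ⟨w, hw, rfl⟩ ht k l hkl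
    have h1 := step1 w hw ht
    rw [hx] at h1
    have h2 : ∀ a b, mt w a b ≠ 0 → mt x a a = mt x b b := by
      intro a b hab
      have h5 := congrFun (congrFun h1 a) b
      rw [Matrix.mul_diagonal, Matrix.diagonal_mul] at h5
      have h6 : (mt x a a - mt x b b) * mt w a b = 0 := by linear_combination h5
      rcases mul_eq_zero.1 h6 with h7 | h7
      · exact sub_eq_zero.1 h7
      · exact absurd h7 hab
    rcases hkl with h5 | h5
    · exact h2 _ _ h5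
    · exact (h2 _ _ h5).symm
  obtain ⟨n1, n2, n3, n4, n5⟩ := nzW
  have e1 := hW W1 W1_mem trW.1.1 0 1 n1
  have e2 := hW W1 W1_mem trW.1.1 1 2 n2
  have e3 := hW W2 W2_mem trW.1.2.1 2 3 n3
  have e4 := hW W2 W2_mem trW.1.2.1 3 4 n4
  have e5 := hW W3 W3_mem trW.1.2.2 4 5 n5
  have hall : ∀ k, mt x k k = mt x 0 0 := by
    intro k
    fin_cases k
    · rfl
    · exact e1.symm
    · exact (e1.trans e2).symm
    · exact (e1.trans (e2.trans e3)).symm
    · exact (e1.trans (e2.trans (e3.trans e4))).symm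
    · exact (e1.trans (e2.trans (e3.trans (e4.trans e5)))).symm
  have hsc : mt x = Matrix.diagonal fun _ => mt x 0 0 := by
    conv_lhs => rw [hx]
    simp only [hall]
  have hne : mt x 0 0 ≠ 0 := by
    intro h0
    have h1 := mt_tr x
    rw [hsc, h0] at h1
    have h2 := congrFun (congrFun h1 0) 0
    rw [Matrix.mul_diagonal, one_apply_eq, mul_zero] at h2
    exact absurd h2 (by decide)
  have hcase : ∀ t : ZMod 3, t ≠ 0 → t = 1 ∨ t = -1 := by decide
  rcases hcase _ hne with h1 | h1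
  · left
    apply mt_inj
    rw [hsc, h1, mt_one, Matrix.diagonal_one]
  · right
    apply mt_inj
    rw [hsc, h1, mt_neg]
    ext i j
    by_cases hij : i = j
    · rw [hij, Matrix.diagonal_apply_eq, Matrix.neg_apply, Matrix.one_apply_eq]
    · rw [Matrix.diagonal_apply_ne _ hij, Matrix.neg_apply, Matrix.one_apply_ne hij, neg_zero]

end H33.U43
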