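import Mathlib
import Cfsg.Agent.Lib.H33.U43b

set_option autoImplicit false

/-! The orthogonal group of the form `x₁² + … + x₆²` over the field with three elements: normal subgroups. -/

namespace H33.U43

open Cfsg Matrix
open scoped commutatorElement

theorem center_iff' (g : Om6) : g ∈ Subgroup.center Om6 ↔ g.1 = 1 ∨ g.1 = negO := by
  rw [center_iff]
  constructor
  · rintro (h | h)
    · exact Or.inl (mt_inj h)
    · exact Or.inr (mt_inj h)
  · rintro (h | h)
    · left; rw [h]; rfl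
    · right; rw [h]; rfl

theorem neg_ne_one : negO ≠ 1 := by
  intro h
  have h1 : mt negO = mt 1 := by rw [h]
  rw [mt_neg, mt_one] at h1
  exact absurd h1 (by decide +kernel)

theorem card_center : Nat.card (Subgroup.center Om6) = 2 := by
  obtain ⟨f, hf⟩ := exists_f
  exact H7.OmegaOrd.card_center_two ndN.hyp f hf (H7.OmegaIso.commutator_eq_two ndN) (by decide) ⟨negO, neg_mem, rfl⟩

theorem card_PO : Nat.card (POmega (ZMod 3) Q0) = 3265920 := by
  haveI : Fact (Nat.Prime 3) := ⟨Nat.prime_three⟩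
  haveI : Fintype (GaloisField 3 2) := Fintype.ofFinite _
  have hK : Fintype.card (GaloisField 3 2) = 3 ^ 2 := by
    rw [← Nat.card_eq_fintype_card, GaloisField.card 3 2 (by norm_num)]
  obtain ⟨e⟩ := psu hK
  rw [Nat.card_congr e.toEquiv]
  exact H86.U43SevenC.card_PSU4 hK

theorem card_Om : Nat.card Om6 = 6531840 := by
  have h := Subgroup.card_eq_card_quotient_mul_card_subgroup (Subgroup.center Om6)
  have h1 : Nat.card (Om6 ⧸ Subgroup.center Om6) = 3265920 := card_PO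
  rw [h, h1, card_center]

/-- a proper dichotomy for normal subgroups of `Omega` -/
theorem dich (N : Subgroup Om6) [hN : N.Normal] : N ≤ Subgroup.center Om6 ∨ ∀ w : Om6, ∃ n ∈ N, w = n ∨ w.1 = negO * n.1 := by
  have := simple_PO
  have hM : (N.map (QuotientGroup.mk' (Subgroup.center Om6))).Normal := hN.map _ (QuotientGroup.mk'_surjective _)
  rcases hM.eq_bot_or_eq_top with h | h
  · left
    rw [Subgroup.map_eq_bot_iff, QuotientGroup.ker_mk'] at h
    exact h
  · right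
    intro w
    have hw : QuotientGroup.mk' (Subgroup.center Om6) w ∈ N.map (QuotientGroup.mk' (Subgroup.center Om6)) := by
      rw [h]; exact Subgroup.mem_top _
    obtain ⟨n, hn, hnw⟩ := hw
    refine ⟨n, hn, ?_⟩
    have h1 : n⁻¹ * w ∈ Subgroup.center Om6 := QuotientGroup.eq.1 hnw
    rcases (center_iff' _).1 h1 with h2 | h2
    · left
      have h4 : n⁻¹ * w = 1 := Subtype.ext h2
      rw [inv_mul_eq_one] at h4
      exact h4.symm
    · right
      have h4 : n.1⁻¹ * w.1 = negO := h2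
      rw [inv_mul_eq_iff_eq_mul] at h4
      rw [h4, neg_comm]

theorem neg_prod : (-1 : M6) = rfm 0 * rfm 1 * rfm 2 * rfm 3 * rfm 4 * rfm 5 := by decide +kernel

theorem rfm_eq : ∀ i : Fin 6, Q0 (Pi.single i 1) = 1 ∧ (1 + vecMulVec (Pi.single i 1) (Pi.single i 1) : M6) = rfm i := by decide +kernel

theorem dm_rf : dm 0 1 = rfm 0 * rfm 1 := by decide +kernel
theorem dm_ne : dm 0 1 ≠ 1 ∧ dm 0 1 ≠ -1 := by decide +kernel

/-- a subgroup containing all reflections of norm one contains `Omega` -/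
theorem omega_le (R : Subgroup OO) (h : ∀ v (hv : Q0 v = 1), rf v hv ∈ R) : Om6 ≤ R := by
  let R1 : Subgroup OO := Subgroup.closure {g | ∃ v, ∃ hv : Q0 v = 1, g = rf v hv}
  have hR1 : R1 ≤ R := by
    rw [Subgroup.closure_le]
    rintro _ ⟨v, hv, rfl⟩
    exact h v hv
  have hmem : ∀ v (hv : Q0 v = 1), rf v hv ∈ R1 := fun v hv => Subgroup.subset_closure ⟨v, hv, rfl⟩
  haveI hN : R1.Normal := by
    constructor
    intro n hn g
    induction hn using Subgroup.closure_induction with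
    | mem x hx =>
      obtain ⟨v, hv, rfl⟩ := hx
      rw [rf_conj]
      exact hmem _ _
    | one => rw [mul_one, mul_inv_cancel]; exact R1.one_mem
    | mul x y _ _ hx hy =>
      have : g * (x * y) * g⁻¹ = (g * x * g⁻¹) * (g * y * g⁻¹) := by group
      rw [this]; exact R1.mul_mem hx hy
    | inv x _ hx =>
      have : g * x⁻¹ * g⁻¹ = (g * x * g⁻¹)⁻¹ := by group
      rw [this]; exact R1.inv_mem hx
  have hrf : ∀ i : Fin 6, mkO (rfm i) (rfm_o i) ∈ R1 := by
    intro i
    have : mkO (rfm i) (rfm_o i) = rf (Pi.single i 1) (rfm_eq i).1 := mt_inj (rfm_eq i).2.symm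
    rw [this]; exact hmem _ _
  have hneg : negO ∈ R1 := by
    have : negO = mkO (rfm 0) (rfm_o 0) * mkO (rfm 1) (rfm_o 1) * mkO (rfm 2) (rfm_o 2) * mkO (rfm 3) (rfm_o 3) *
        mkO (rfm 4) (rfm_o 4) * mkO (rfm 5) (rfm_o 5) := mt_inj neg_prod
    rw [this]
    exact R1.mul_mem (R1.mul_mem (R1.mul_mem (R1.mul_mem (R1.mul_mem (hrf 0) (hrf 1)) (hrf 2)) (hrf 3)) (hrf 4)) (hrf 5)
  have hd : mkO (dm 0 1) (dm_o 0 1) ∈ R1 := by
    have : mkO (dm 0 1) (dm_o 0 1) = mkO (rfm 0) (rfm_o 0) * mkO (rfm 1) (rfm_o 1) := mt_inj dm_rf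
    rw [this]
    exact R1.mul_mem (hrf 0) (hrf 1)
  rcases dich (R1.subgroupOf Om6) with h1 | h1
  · exfalso
    have h2 : (⟨mkO (dm 0 1) (dm_o 0 1), dm_mem (by decide)⟩ : Om6) ∈ R1.subgroupOf Om6 := Subgroup.mem_subgroupOf.2 hd
    rcases (center_iff' _).1 (h1 h2) with h5 | h5
    · exact dm_ne.1 (congrArg mt h5)
    · exact dm_ne.2 (congrArg mt h5)
  · intro w hw
    apply hR1
    obtain ⟨n, hn, h2⟩ := h1 ⟨w, hw⟩
    rw [Subgroup.mem_subgroupOf] at hn
    rcases h2 with h2 | h2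
    · have : w = n.1 := congrArg Subtype.val h2
      rw [this]; exact hn
    · have : w = negO * n.1 := h2
      rw [this]; exact R1.mul_mem hneg hn

/-- normal subgroups of groups above `Omega` -/
theorem AS {H : Type*} [Group H] (Θ : H →* OO) (hΩ : Om6 ≤ Θ.range) (N : Subgroup H) [hN : N.Normal] :
    (∀ w ∈ Om6, ∃ n ∈ N, Θ n = w ∨ Θ n = negO * w) ∨ (∀ n ∈ N, Θ n = 1 ∨ Θ n = negO) := by
  let X : Subgroup OO :=
    { carrier := {x | ∃ n ∈ N, Θ n = x ∨ Θ n = negO * x}
      one_mem' := ⟨1, N.one_mem, Or.inl (map_one _)⟩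
      mul_mem' := by
        rintro a b ⟨n, hn, h1⟩ ⟨m, hm, h2⟩
        refine ⟨n * m, N.mul_mem hn hm, ?_⟩
        rw [map_mul]
        rcases h1 with h1 | h1 <;> rcases h2 with h2 | h2 <;> rw [h1, h2]
        · left; rfl
        · right; rw [← mul_assoc, ← neg_comm, mul_assoc]
        · right; rw [mul_assoc]
        · left; rw [mul_assoc, ← mul_assoc a, ← neg_comm, mul_assoc, ← mul_assoc, neg_sq, one_mul]
      inv_mem' := by
        rintro a ⟨n, hn, h1⟩
        refine ⟨n⁻¹, N.inv_mem hn, ?_⟩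
        rw [map_inv]
        rcases h1 with h1 | h1 <;> rw [h1]
        · left; rfl
        · right
          have h5 : negO⁻¹ = negO := inv_eq_of_mul_eq_one_left neg_sq
          rw [_root_.mul_inv_rev, h5, neg_comm] }
  have hXn : ∀ x ∈ X, ∀ g ∈ Θ.range, g * x * g⁻¹ ∈ X := by
    rintro x ⟨n, hn, h1⟩ _ ⟨h, rfl⟩
    refine ⟨h * n * h⁻¹, hN.conj_mem n hn h, ?_⟩
    rw [map_mul, map_mul, map_inv]
    rcases h1 with h1 | h1 <;> rw [h1]
    · left; rfl
    · right
      rw [← mul_assoc, ← neg_comm, mul_assoc, mul_assoc, mul_assoc]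
  haveI hM : (X.subgroupOf Om6).Normal := by
    constructor
    intro n hn g
    rw [Subgroup.mem_subgroupOf] at hn ⊢
    exact hXn _ hn _ (hΩ g.2)
  rcases dich (X.subgroupOf Om6) with h1 | h1
  · right
    intro n hn
    apply schur
    intro w hw
    obtain ⟨k, hk⟩ := hΩ hw
    have hnX : Θ n * w * (Θ n)⁻¹ * w⁻¹ ∈ X := by
      refine ⟨n * (k * n⁻¹ * k⁻¹), N.mul_mem hn (hN.conj_mem _ (N.inv_mem hn) _), Or.inl ?_⟩
      rw [map_mul, map_mul, map_mul, map_inv, map_inv, hk]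
      group
    have hwO : Θ n * w * (Θ n)⁻¹ ∈ Om6 := (inferInstance : Om6.Normal).conj_mem w hw _
    have hnO : Θ n * w * (Θ n)⁻¹ * w⁻¹ ∈ Om6 := Om6.mul_mem hwO (Om6.inv_mem hw)
    have h2 : (⟨_, hnO⟩ : Om6) ∈ X.subgroupOf Om6 := Subgroup.mem_subgroupOf.2 hnX
    rcases (center_iff' _).1 (h1 h2) with h5 | h5
    · left
      have h6 : Θ n * w * (Θ n)⁻¹ = w := mul_inv_eq_one.1 h5
      rw [h6]
    · right
      have h6 : Θ n * w * (Θ n)⁻¹ = negO * w := mul_inv_eq_iff_eq_mul.1 h5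
      rw [h6, mt_mul, mt_neg, neg_one_mul]
  · left
    intro w hw
    obtain ⟨n, hn, h2⟩ := h1 ⟨w, hw⟩
    have hn' : n.1 ∈ X := hn
    rcases h2 with h2 | h2
    · have h6 : w = n.1 := congrArg Subtype.val h2
      rw [h6]
      exact hn'
    · have h6 : w = negO * n.1 := h2
      obtain ⟨m, hm, h7⟩ := hn'
      refine ⟨m, hm, ?_⟩
      rw [h6]
      rcases h7 with h7 | h7 <;> rw [h7]
      · right; rw [← mul_assoc, neg_sq, one_mul]
      · left; rfl

end H33.U43
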